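import Mathlib
import Cfsg.Agent.Helper15.HypPair

set_option autoImplicit false

namespace Cfsg.Agent.Helper15

theorem artin_schreier_add {F : Type*} [Field F] [Finite F] (h2 : (2 : F) = 0) (u v : F)
    (hu : ∀ t : F, t ^ 2 + t ≠ u) (hv : ∀ t : F, t ^ 2 + t ≠ v) :
    ∃ t : F, t ^ 2 + t = u + v := by
  classical
  obtain ⟨P, hP⟩ : ∃ P : F →+ F, ∀ t, P t = t ^ 2 + t :=
    ⟨AddMonoidHom.mk' (fun t => t ^ 2 + t) (by
      intro s t
      linear_combination (s * t) * h2), fun t => rfl⟩
  have hker : Nat.card P.ker = 2 := by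
    rw [Nat.card_eq_two_iff]
    refine ⟨⟨0, by rw [AddMonoidHom.mem_ker, hP]; ring⟩,
      ⟨1, by rw [AddMonoidHom.mem_ker, hP]; linear_combination h2⟩, ?_, ?_⟩
    · intro h
      have h3 := congrArg Subtype.val h
      exact zero_ne_one h3
    · ext ⟨t, ht⟩
      simp only [Set.mem_insert_iff, Set.mem_singleton_iff, Set.mem_univ, iff_true]
      rw [AddMonoidHom.mem_ker, hP] at ht
      have h3 : t * (t + 1) = 0 := by linear_combination ht
      rcases mul_eq_zero.1 h3 with h | h
      · left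
        exact Subtype.ext h
      · right
        apply Subtype.ext
        show t = 1
        linear_combination h - h2
  have h3 := AddSubgroup.card_mul_index P.ker
  have h4 := AddSubgroup.index_ker P
  have h5 := AddSubgroup.card_mul_index P.range
  have hpos : 0 < Nat.card P.range := Nat.card_pos
  have hidx : P.range.index = 2 := by
    rw [hker, h4] at h3
    have h6 : Nat.card P.range * P.range.index = Nat.card P.range * 2 := by
      rw [h5, ← h3, mul_comm]
    exact Nat.eq_of_mul_eq_mul_left hpos h6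
  have h6 := AddSubgroup.add_mem_iff_of_index_two hidx (a := u) (b := v)
  have hu' : u ∉ P.range := by
    rintro ⟨t, ht⟩
    exact hu t (by rw [← hP]; exact ht)
  have hv' : v ∉ P.range := by
    rintro ⟨t, ht⟩
    exact hv t (by rw [← hP]; exact ht)
  have h7 : u + v ∈ P.range := h6.2 ⟨fun h => absurd h hu', fun h => absurd h hv'⟩
  obtain ⟨t, ht⟩ := h7
  exact ⟨t, by rw [← hP]; exact ht⟩

theorem aniso_param {F : Type*} [Field F] [Finite F] (ζ : F) (hζ : ∀ t : F, t ^ 2 + t + ζ ≠ 0)
    (a b : F)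
    (hab : ∀ z₁ z₂ : F, z₁ ^ 2 + a * z₁ * z₂ + b * z₂ ^ 2 = 0 → z₁ = 0 ∧ z₂ = 0) :
    ∃ α β : F, 2 * α + β = a ∧ α ^ 2 + α * β + ζ * β ^ 2 = b := by
  classical
  cases nonempty_fintype F
  by_cases h2 : (2 : F) = 0
  · have hch : CharP F 2 := CharTwo.of_one_ne_zero_of_two_eq_zero one_ne_zero h2
    have ha : a ≠ 0 := by
      rintro rfl
      obtain ⟨r, hr⟩ := FiniteField.isSquare_of_char_two (ringChar.eq F 2) b
      have h3 := hab r 1 (by
        rw [hr]
        linear_combination (r * r) * h2)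
      exact one_ne_zero h3.2
    have hu : ∀ t : F, t ^ 2 + t ≠ ζ := by
      intro t ht
      apply hζ t
      rw [ht]
      linear_combination ζ * h2
    have hv : ∀ t : F, t ^ 2 + t ≠ b / a ^ 2 := by
      intro t ht
      have h4 : a ^ 2 * (t ^ 2 + t) = b := by
        rw [ht]
        field_simp
      have h3 := hab (a * t) 1 (by
        linear_combination h4 + b * h2)
      exact one_ne_zero h3.2
    obtain ⟨τ, hτ⟩ := artin_schreier_add h2 ζ (b / a ^ 2) hu hv
    have h5 : a ^ 2 * (τ ^ 2 + τ) = a ^ 2 * ζ + b := by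
      rw [hτ]
      field_simp
    refine ⟨a * τ, a, by linear_combination (a * τ) * h2, ?_⟩
    linear_combination h5 + (ζ * a ^ 2) * h2
  · have h4 : (4 : F) ≠ 0 := by
      have h5 : (4 : F) = 2 * 2 := by norm_num
      rw [h5]
      exact mul_ne_zero h2 h2
    obtain ⟨D, hD⟩ : ∃ D : F, D = 1 - 4 * ζ := ⟨_, rfl⟩
    obtain ⟨Δ, hΔ⟩ : ∃ Δ : F, Δ = a ^ 2 - 4 * b := ⟨_, rfl⟩
    have hDns : ¬ IsSquare D := by
      rintro ⟨r, hr⟩
      apply hζ ((-1 + r) / 2)
      field_simp
      linear_combination hD - hr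
    have hΔns : ¬ IsSquare Δ := by
      rintro ⟨r, hr⟩
      have h3 := hab ((-a + r) / 2) 1 (by
        field_simp
        linear_combination hΔ - hr)
      exact one_ne_zero h3.2
    have hD0 : D ≠ 0 := fun h => hDns (h ▸ ⟨0, by ring⟩)
    have hΔ0 : Δ ≠ 0 := fun h => hΔns (h ▸ ⟨0, by ring⟩)
    have hsq : IsSquare (Δ * D) := by
      rw [← quadraticChar_one_iff_isSquare (mul_ne_zero hΔ0 hD0), map_mul,
        quadraticChar_neg_one_iff_not_isSquare.2 hΔns,
        quadraticChar_neg_one_iff_not_isSquare.2 hDns]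
      norm_num
    obtain ⟨r, hr⟩ := hsq
    have hζ' : ζ = (1 - D) / 4 := by
      rw [hD]
      field_simp
      ring
    have hb' : b = (a ^ 2 - Δ) / 4 := by
      rw [hΔ]
      field_simp
      ring
    refine ⟨(a - r / D) / 2, r / D, by field_simp; ring, ?_⟩
    rw [hζ', hb']
    field_simp
    linear_combination (4 * D) * hr

end Cfsg.Agent.Helper15
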