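import Mathlib
import Cfsg.Prelude.Def_Classical

set_option autoImplicit false

namespace Cfsg.Agent.Helper15

open Matrix

/-- Block-diagonal embedding of a product of general linear groups. -/
def blockGL (ι κ : Type) [Fintype ι] [DecidableEq ι] [Fintype κ] [DecidableEq κ] (F : Type*) [Field F] :
    GL ι F × GL κ F →* GL (ι ⊕ κ) F where
  toFun p :=
    ⟨Matrix.fromBlocks (p.1 : Matrix ι ι F) 0 0 (p.2 : Matrix κ κ F),
     Matrix.fromBlocks ((p.1⁻¹ : GL ι F) : Matrix ι ι F) 0 0 ((p.2⁻¹ : GL κ F) : Matrix κ κ F),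
     by
       rw [Matrix.fromBlocks_multiply]
       simp [← Matrix.fromBlocks_one],
     by
       rw [Matrix.fromBlocks_multiply]
       simp [← Matrix.fromBlocks_one]⟩
  map_one' := by
    apply Units.ext
    simp [Matrix.fromBlocks_one]
  map_mul' p q := by
    apply Units.ext
    simp [Matrix.fromBlocks_multiply]

theorem blockGL_coe (ι κ : Type) [Fintype ι] [DecidableEq ι] [Fintype κ] [DecidableEq κ]
    (F : Type*) [Field F] (p : GL ι F × GL κ F) :
    ((blockGL ι κ F p : GL (ι ⊕ κ) F) : Matrix (ι ⊕ κ) (ι ⊕ κ) F) =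
      Matrix.fromBlocks (p.1 : Matrix ι ι F) 0 0 (p.2 : Matrix κ κ F) := rfl

theorem mem_isometryGroup_iff {ι : Type} [Fintype ι] [DecidableEq ι] (F : Type*) [Field F]
    (Q : (ι → F) → F) (g : GL ι F) :
    g ∈ Cfsg.isometryGroup F Q ↔ ∀ u : ι → F, Q ((g : Matrix ι ι F) *ᵥ u) = Q u := by
  constructor
  · intro h u
    exact h u u
  · intro h u _
    exact h u

/-- Block-diagonal embedding of a product of isometry groups into the isometry group of the
orthogonal sum. -/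
def blockIso {ι κ : Type} [Fintype ι] [DecidableEq ι] [Fintype κ] [DecidableEq κ] (F : Type*) [Field F]
    (Q₁ : (ι → F) → F) (Q₂ : (κ → F) → F) :
    ↥(Cfsg.isometryGroup F Q₁) × ↥(Cfsg.isometryGroup F Q₂) →*
      ↥(Cfsg.isometryGroup F (fun v : ι ⊕ κ → F => Q₁ (v ∘ Sum.inl) + Q₂ (v ∘ Sum.inr))) :=
  ((blockGL ι κ F).comp (MonoidHom.prodMap (Cfsg.isometryGroup F Q₁).subtype
    (Cfsg.isometryGroup F Q₂).subtype)).codRestrict _ (by
      rintro ⟨⟨a, ha⟩, ⟨b, hb⟩⟩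
      rw [mem_isometryGroup_iff] at ha hb ⊢
      intro u
      simp only [MonoidHom.coe_comp, Function.comp_apply,
        blockGL_coe, Matrix.fromBlocks_mulVec, Matrix.zero_mulVec,
        add_zero, zero_add]
      change Q₁ ((Sum.elim ((a : Matrix ι ι F) *ᵥ (u ∘ Sum.inl)) ((b : Matrix κ κ F) *ᵥ (u ∘ Sum.inr)))
          ∘ Sum.inl) + Q₂ ((Sum.elim ((a : Matrix ι ι F) *ᵥ (u ∘ Sum.inl))
            ((b : Matrix κ κ F) *ᵥ (u ∘ Sum.inr))) ∘ Sum.inr) = _
      have h1 : (Sum.elim ((a : Matrix ι ι F) *ᵥ (u ∘ Sum.inl)) ((b : Matrix κ κ F) *ᵥ (u ∘ Sum.inr)))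
          ∘ Sum.inl = (a : Matrix ι ι F) *ᵥ (u ∘ Sum.inl) := by
        ext i; simp
      have h2 : (Sum.elim ((a : Matrix ι ι F) *ᵥ (u ∘ Sum.inl)) ((b : Matrix κ κ F) *ᵥ (u ∘ Sum.inr)))
          ∘ Sum.inr = (b : Matrix κ κ F) *ᵥ (u ∘ Sum.inr) := by
        ext i; simp
      rw [h1, h2, ha, hb])

theorem blockIso_coe {ι κ : Type} [Fintype ι] [DecidableEq ι] [Fintype κ] [DecidableEq κ]
    (F : Type*) [Field F] (Q₁ : (ι → F) → F) (Q₂ : (κ → F) → F)
    (p : ↥(Cfsg.isometryGroup F Q₁) × ↥(Cfsg.isometryGroup F Q₂)) :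
    (((blockIso F Q₁ Q₂ p : ↥(Cfsg.isometryGroup F _)) : GL (ι ⊕ κ) F) : Matrix (ι ⊕ κ) (ι ⊕ κ) F) =
      Matrix.fromBlocks ((p.1 : GL ι F) : Matrix ι ι F) 0 0 ((p.2 : GL κ F) : Matrix κ κ F) := rfl

theorem map_mem_commutator {G H : Type*} [Group G] [Group H] (f : G →* H) {x : G}
    (hx : x ∈ commutator G) : f x ∈ commutator H := by
  have h1 : f x ∈ (commutator G).map f := Subgroup.mem_map_of_mem f hx
  rw [map_commutator_eq] at h1
  rw [commutator_def]
  exact Subgroup.commutator_mono le_top le_top h1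

end Cfsg.Agent.Helper15
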