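import Mathlib

set_option autoImplicit false

namespace Cfsg.Agent.Helper15
open Polynomial DirectSum

theorem chain_ring_aux {R : Type*} [CommRing R] [IsDomain R] [IsPrincipalIdealRing R] {p : R}
    (hp : Irreducible p) : ∀ (e : ℕ) (g : R), ¬ p ^ (e + 1) ∣ g → ∃ h, p ^ (e + 1) ∣ g * h - p ^ e := by
  intro e
  induction e with
  | zero =>
    intro g hg
    rw [zero_add, pow_one] at hg
    obtain ⟨u, v, huv⟩ := (Irreducible.coprime_iff_not_dvd hp).2 hg
    refine ⟨v, ⟨-u, ?_⟩⟩
    rw [zero_add, pow_one, pow_zero]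
    linear_combination huv
  | succ e ih =>
    intro g hg
    by_cases hpg : p ∣ g
    · obtain ⟨g', rfl⟩ := hpg
      have hg' : ¬ p ^ (e + 1) ∣ g' := by
        intro hd
        apply hg
        rw [pow_succ' p (e + 1)]
        exact mul_dvd_mul_left p hd
      obtain ⟨h, c, hc⟩ := ih g' hg'
      refine ⟨h, ⟨c, ?_⟩⟩
      rw [pow_succ' p (e + 1), pow_succ' p e]
      linear_combination p * hc
    · obtain ⟨u, v, huv⟩ := (Irreducible.coprime_iff_not_dvd hp).2 hpg
      refine ⟨v * p ^ (e + 1), ⟨-u, ?_⟩⟩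
      rw [pow_succ' p (e + 1)]
      linear_combination p ^ (e + 1) * huv

/-- In `F[X]/(p^(e+1))` every nonzero element divides the class of `p^e`. -/
theorem chain_ring_socle {F : Type*} [Field F] {p : F[X]} (hp : Irreducible p) (e : ℕ)
    (a : F[X] ⧸ Submodule.span F[X] {p ^ (e + 1)}) (ha : a ≠ 0) :
    ∃ b, a * b = Ideal.Quotient.mk (Submodule.span F[X] {p ^ (e + 1)}) (p ^ e) := by
  obtain ⟨g, rfl⟩ := Ideal.Quotient.mk_surjective a
  have hg : ¬ p ^ (e + 1) ∣ g := by
    intro hd
    apply ha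
    rw [Ideal.Quotient.eq_zero_iff_mem]
    exact Ideal.mem_span_singleton.2 hd
  obtain ⟨h, hh⟩ := chain_ring_aux hp e g hg
  refine ⟨Ideal.Quotient.mk _ h, ?_⟩
  rw [← map_mul, ← sub_eq_zero, ← map_sub, Ideal.Quotient.eq_zero_iff_mem]
  exact Ideal.mem_span_singleton.2 hh

theorem chain_ring_socle_ne {F : Type*} [Field F] {p : F[X]} (hp : Irreducible p) (e : ℕ) :
    Ideal.Quotient.mk (Submodule.span F[X] {p ^ (e + 1)}) (p ^ e) ≠ 0 := by
  intro h0
  rw [Ideal.Quotient.eq_zero_iff_mem] at h0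
  have hd : p ^ (e + 1) ∣ p ^ e := Ideal.mem_span_singleton.1 h0
  have := (pow_dvd_pow_iff hp.ne_zero hp.not_isUnit).1 hd
  omega

theorem exists_selfadjoint_form {F : Type*} [Field F] {V : Type*} [AddCommGroup V] [Module F V]
    [FiniteDimensional F V] (φ : V →ₗ[F] V) :
    ∃ B : V →ₗ[F] V →ₗ[F] F, (∀ x, (∀ y, B x y = 0) → x = 0) ∧ (∀ x y, B x y = B y x) ∧
      ∀ x y, B (φ x) y = B x (φ y) := by
  classical
  have htors : Module.IsTorsion F[X] (Module.AEval' φ) :=
    Module.AEval.isTorsion_of_finiteDimensional F V φ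
  obtain ⟨ι, _, p, hp, e, ⟨ψ⟩⟩ := Module.equiv_directSum_of_isTorsion htors
  have hlam : ∀ i, ∃ lam : (F[X] ⧸ Submodule.span F[X] {p i ^ e i}) →ₗ[F] F,
      ∀ a, a ≠ 0 → ∃ b, lam (a * b) ≠ 0 := by
    intro i
    rcases Nat.eq_zero_or_pos (e i) with he | he
    · refine ⟨0, fun a ha => absurd ?_ ha⟩
      obtain ⟨g, rfl⟩ := Ideal.Quotient.mk_surjective a
      rw [Ideal.Quotient.eq_zero_iff_mem, he, pow_zero]
      exact Ideal.mem_span_singleton.2 (one_dvd _)
    · obtain ⟨k, hk⟩ : ∃ k, e i = k + 1 := ⟨e i - 1, by omega⟩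
      rw [hk]
      have hne := chain_ring_socle_ne (hp i) k
      have : ∃ lam : Module.Dual F (F[X] ⧸ Submodule.span F[X] {p i ^ (k + 1)}),
          lam (Ideal.Quotient.mk (Submodule.span F[X] {p i ^ (k + 1)}) (p i ^ k)) ≠ 0 := by
        by_contra hcon
        push Not at hcon
        exact hne ((Module.forall_dual_apply_eq_zero_iff F _).1 hcon)
      obtain ⟨lam, hl⟩ := this
      refine ⟨lam, fun a ha => ?_⟩
      obtain ⟨b, hb⟩ := chain_ring_socle (hp i) k a ha
      exact ⟨b, by rw [hb]; exact hl⟩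
  choose lam hlam using hlam
  let Ψ : V → ∀ i, F[X] ⧸ Submodule.span F[X] {p i ^ e i} :=
    fun x i => (ψ (Module.AEval'.of φ x)) i
  have hΨadd : ∀ x y i, Ψ (x + y) i = Ψ x i + Ψ y i := by
    intro x y i
    simp only [Ψ, map_add, DirectSum.add_apply]
  have hΨsmul : ∀ (c : F) x i, Ψ (c • x) i = c • Ψ x i := by
    intro c x i
    have h1 : Module.AEval'.of φ (c • x) = (C c : F[X]) • Module.AEval'.of φ x := by
      rw [Module.AEval.C_smul, map_smul]
    simp only [Ψ]
    rw [h1, map_smul, DirectSum.smul_apply, ← algebraMap_eq, algebraMap_smul]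
  have hΨφ : ∀ x i, Ψ (φ x) i = (X : F[X]) • Ψ x i := by
    intro x i
    simp only [Ψ]
    rw [← Module.AEval'.X_smul_of, map_smul, DirectSum.smul_apply]
  have hXsmul : ∀ i (a : F[X] ⧸ Submodule.span F[X] {p i ^ e i}),
      (X : F[X]) • a = Ideal.Quotient.mk (Submodule.span F[X] {p i ^ e i}) X * a := by
    intro i a
    obtain ⟨a, rfl⟩ := Ideal.Quotient.mk_surjective a
    rfl
  let B : V →ₗ[F] V →ₗ[F] F := LinearMap.mk₂ F (fun x y => ∑ i, lam i (Ψ x i * Ψ y i))
    (by
      intro x x' y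
      rw [← Finset.sum_add_distrib]
      refine Finset.sum_congr rfl fun i _ => ?_
      rw [hΨadd, add_mul, map_add])
    (by
      intro c x y
      rw [Finset.smul_sum]
      refine Finset.sum_congr rfl fun i _ => ?_
      rw [hΨsmul, smul_mul_assoc, map_smul])
    (by
      intro x y y'
      rw [← Finset.sum_add_distrib]
      refine Finset.sum_congr rfl fun i _ => ?_
      rw [hΨadd, mul_add, map_add])
    (by
      intro c x y
      rw [Finset.smul_sum]
      refine Finset.sum_congr rfl fun i _ => ?_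
      rw [hΨsmul, mul_smul_comm, map_smul])
  have hB : ∀ x y, B x y = ∑ i, lam i (Ψ x i * Ψ y i) := fun x y => rfl
  refine ⟨B, ?_, ?_, ?_⟩
  · intro x hx
    by_contra hx0
    have hz : ψ (Module.AEval'.of φ x) ≠ 0 := by
      intro h0
      apply hx0
      have := ψ.injective (h0.trans (map_zero ψ).symm)
      exact (Module.AEval'.of φ).injective (this.trans (map_zero _).symm)
    have : ∃ i, Ψ x i ≠ 0 := by
      by_contra hcon
      push Not at hcon
      apply hz
      ext i
      exact hcon i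
    obtain ⟨i, hi⟩ := this
    obtain ⟨b, hb⟩ := hlam i _ hi
    let y : V := (Module.AEval'.of φ).symm (ψ.symm (DirectSum.of _ i b))
    have hy : ∀ j, Ψ y j = (DirectSum.of (fun i => F[X] ⧸ Submodule.span F[X] {p i ^ e i}) i b) j := by
      intro j
      simp only [Ψ, y]
      rw [LinearEquiv.apply_symm_apply, LinearEquiv.apply_symm_apply]
    have hxy := hx y
    rw [hB, Finset.sum_eq_single i] at hxy
    · rw [hy, DirectSum.of_eq_same] at hxy
      exact hb hxy
    · intro j _ hji
      rw [hy, DirectSum.of_eq_of_ne _ _ _ hji, mul_zero, map_zero]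
    · intro h
      exact absurd (Finset.mem_univ i) h
  · intro x y
    rw [hB, hB]
    refine Finset.sum_congr rfl fun i _ => ?_
    rw [mul_comm]
  · intro x y
    rw [hB, hB]
    refine Finset.sum_congr rfl fun i _ => ?_
    rw [hΨφ, hΨφ, hXsmul, hXsmul]
    congr 1
    ring

theorem matrix_conj_transpose {F : Type*} [Field F] {ι : Type*} [Fintype ι] [DecidableEq ι]
    (A : Matrix ι ι F) : IsConj A A.transpose := by
  obtain ⟨B, hnd, hsymm, hadj⟩ := exists_selfadjoint_form (Matrix.toLin' A)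
  let S : Matrix ι ι F := Matrix.of fun j k => B (Pi.single j 1) (Pi.single k 1)
  have hS : ∀ j k, S j k = B (Pi.single j 1) (Pi.single k 1) := fun j k => rfl
  have hexp : ∀ v : ι → F, v = ∑ l, v l • (Pi.single l (1 : F) : ι → F) := fun v => pi_eq_sum_univ' v
  have hdet : S.det ≠ 0 := by
    intro h0
    obtain ⟨v, hv0, hv⟩ := Matrix.exists_vecMul_eq_zero_iff.2 h0
    apply hv0
    apply hnd
    intro y
    have hk : ∀ k, B v (Pi.single k 1) = 0 := by
      intro k
      have h1 := congrFun hv k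
      rw [Matrix.vecMul, dotProduct] at h1
      conv_lhs => rw [hexp v]
      rw [map_sum, LinearMap.sum_apply]
      rw [Pi.zero_apply] at h1
      rw [← h1]
      refine Finset.sum_congr rfl fun j _ => ?_
      rw [map_smul, LinearMap.smul_apply, smul_eq_mul, hS]
    conv_lhs => rw [hexp y]
    rw [map_sum]
    refine Finset.sum_eq_zero fun k _ => ?_
    rw [map_smul, hk, smul_zero]
  have hcomm : S * A = A.transpose * S := by
    ext j k
    rw [Matrix.mul_apply, Matrix.mul_apply]
    have h1 : ∑ l, S j l * A l k = B (Pi.single j 1) (Matrix.toLin' A (Pi.single k 1)) := by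
      conv_rhs => rw [hexp (Matrix.toLin' A (Pi.single k 1))]
      rw [map_sum]
      refine Finset.sum_congr rfl fun l _ => ?_
      rw [map_smul, smul_eq_mul, hS, Matrix.toLin'_apply, Matrix.mulVec_single_one, Matrix.col_apply,
        mul_comm]
    have h2 : ∑ l, A.transpose j l * S l k = B (Matrix.toLin' A (Pi.single j 1)) (Pi.single k 1) := by
      conv_rhs => rw [hexp (Matrix.toLin' A (Pi.single j 1))]
      rw [map_sum, LinearMap.sum_apply]
      refine Finset.sum_congr rfl fun l _ => ?_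
      rw [map_smul, LinearMap.smul_apply, smul_eq_mul, hS, Matrix.toLin'_apply,
        Matrix.mulVec_single_one, Matrix.col_apply, Matrix.transpose_apply]
    rw [h1, h2, hadj]
  exact ⟨((Matrix.isUnit_iff_isUnit_det S).2 (isUnit_iff_ne_zero.2 hdet)).unit, hcomm⟩

theorem symplectic_conj_inverse {F : Type*} [Field F] {l : Type*} [Fintype l] [DecidableEq l]
    (A : Matrix.symplecticGroup l F) :
    IsConj (A : Matrix (l ⊕ l) (l ⊕ l) F) ((A⁻¹ : Matrix.symplecticGroup l F) : Matrix (l ⊕ l) (l ⊕ l) F) := by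
  refine (matrix_conj_transpose (A : Matrix (l ⊕ l) (l ⊕ l) F)).trans ?_
  have hJ : IsUnit (Matrix.J l F) := (Matrix.isUnit_iff_isUnit_det _).2 (Matrix.isUnit_det_J l F)
  refine ⟨hJ.unit, ?_⟩
  show Matrix.J l F * (A : Matrix (l ⊕ l) (l ⊕ l) F).transpose = _ * Matrix.J l F
  rw [SymplecticGroup.coe_inv, Matrix.mul_assoc, Matrix.J_squared]
  simp

end Cfsg.Agent.Helper15
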