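import Mathlib
import Cfsg.Agent.Helper15.GUCard
import Cfsg.Agent.Helper15.SpCard
import Cfsg.Agent.Helper15.HermFrames

set_option autoImplicit false

namespace Cfsg.Agent.Helper15

open Matrix Polynomial
open scoped IsMulCommutative

universe u

theorem no_cubic_root {F : Type*} [Field F] [Fintype F] {q : ℕ} (hF : Fintype.card F = q)
    (hq : q % 3 = 2) (a : F) : a ^ 2 + a + 1 ≠ 0 := by
  intro h
  have h3 : a ^ 3 = 1 := by linear_combination (a - 1) * h
  have ha0 : a ≠ 0 := by
    rintro rfl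
    simp at h
  have h1 : a ^ (q - 1) = 1 := by
    rw [← hF]
    exact FiniteField.pow_card_sub_one_eq_one a ha0
  obtain ⟨k, hk⟩ : ∃ k, q - 1 = 3 * k + 1 := ⟨q / 3, by omega⟩
  rw [hk, pow_succ, pow_mul, h3, one_pow, one_mul] at h1
  rw [h1] at h
  have h30 : (3 : F) = 0 := by linear_combination h
  have hq0 : ((q : ℕ) : F) = 0 := by
    rw [← hF]
    exact FiniteField.cast_card_eq_zero F
  obtain ⟨j, hj⟩ : ∃ j, q = 3 * j + 2 := ⟨q / 3, by omega⟩
  rw [hj] at hq0
  push_cast at hq0
  have h10 : (1 : F) = 0 := by linear_combination (1 + (j : F)) * h30 - hq0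
  exact one_ne_zero h10

/-- The third cyclotomic polynomial. -/
noncomputable def cubPoly (F : Type*) [Field F] : F[X] := C 1 * X ^ 2 + C 1 * X + C 1

theorem cubPoly_natDegree (F : Type*) [Field F] : (cubPoly F).natDegree = 2 :=
  natDegree_quadratic one_ne_zero

theorem cubPoly_irreducible {F : Type*} [Field F] [Fintype F] {q : ℕ} (hF : Fintype.card F = q)
    (hq : q % 3 = 2) : Irreducible (cubPoly F) := by
  apply irreducible_of_degree_le_three_of_not_isRoot
  · rw [cubPoly_natDegree]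
    decide
  · intro a ha
    apply no_cubic_root hF hq a
    unfold cubPoly at ha
    rw [IsRoot.def, eval_add, eval_add, eval_mul, eval_mul, eval_C, eval_pow, eval_X, one_mul,
      one_mul] at ha
    exact ha

/-- A quadratic extension acting on the space through a matrix of order three without fixed
points. -/
theorem exists_cub_ext {F : Type u} [Field F] [Fintype F] {q : ℕ} (hF : Fintype.card F = q)
    (hq : q % 3 = 2) {m : ℕ} (X : Matrix (Fin m ⊕ Fin m) (Fin m ⊕ Fin m) F)
    (hX : X ^ 2 + X + 1 = 0) :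
    ∃ (K : Type u) (_ : Field K) (_ : Fintype K) (_ : Algebra F K)
      (_ : Module K (Fin m ⊕ Fin m → F)) (_ : IsScalarTower F K (Fin m ⊕ Fin m → F)) (ω : K),
      Fintype.card K = q ^ 2 ∧ ω ^ 2 + ω + 1 = 0 ∧
        ∀ v : Fin m ⊕ Fin m → F, ω • v = X *ᵥ v := by
  classical
  have hirr := cubPoly_irreducible hF hq
  haveI : Fact (Irreducible (cubPoly F)) := ⟨hirr⟩
  have hf0 : cubPoly F ≠ 0 := hirr.ne_zero
  haveI : Module.Finite F (AdjoinRoot (cubPoly F)) := (AdjoinRoot.powerBasis hf0).finite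
  haveI : Finite (AdjoinRoot (cubPoly F)) := Module.finite_of_finite F
  letI : Fintype (AdjoinRoot (cubPoly F)) := Fintype.ofFinite _
  have hfr : Module.finrank F (AdjoinRoot (cubPoly F)) = 2 := by
    rw [(AdjoinRoot.powerBasis hf0).finrank, AdjoinRoot.powerBasis_dim, cubPoly_natDegree]
  have hcard : Fintype.card (AdjoinRoot (cubPoly F)) = q ^ 2 := by
    rw [Module.card_eq_pow_finrank (K := F), hfr, hF]
  let R : Subalgebra F (Matrix (Fin m ⊕ Fin m) (Fin m ⊕ Fin m) F) := Algebra.adjoin F {X}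
  let xR : R := ⟨X, Algebra.subset_adjoin (Set.mem_singleton X)⟩
  have hxR : (cubPoly F).eval₂ (algebraMap F R) xR = 0 := by
    unfold cubPoly
    rw [eval₂_add, eval₂_add, eval₂_mul, eval₂_mul, eval₂_C, eval₂_pow, eval₂_X, map_one,
      one_mul, one_mul]
    exact Subtype.ext hX
  let ψ : AdjoinRoot (cubPoly F) →+* R := AdjoinRoot.lift (algebraMap F R) xR hxR
  have hψroot : ψ (AdjoinRoot.root (cubPoly F)) = xR := AdjoinRoot.lift_root hxR
  have hψof : ∀ a : F, ψ (algebraMap F (AdjoinRoot (cubPoly F)) a) = algebraMap F R a := by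
    intro a
    rw [AdjoinRoot.algebraMap_eq]
    exact AdjoinRoot.lift_of hxR
  letI : Module (AdjoinRoot (cubPoly F)) (Fin m ⊕ Fin m → F) :=
    { smul := fun c v => (ψ c).1 *ᵥ v
      one_smul := fun v => by
        show (ψ 1).1 *ᵥ v = v
        rw [map_one]
        exact Matrix.one_mulVec v
      mul_smul := fun c d v => by
        show (ψ (c * d)).1 *ᵥ v = (ψ c).1 *ᵥ ((ψ d).1 *ᵥ v)
        rw [map_mul, Matrix.mulVec_mulVec]
        rfl
      smul_zero := fun c => Matrix.mulVec_zero _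
      smul_add := fun c u v => Matrix.mulVec_add _ u v
      add_smul := fun c d v => by
        show (ψ (c + d)).1 *ᵥ v = (ψ c).1 *ᵥ v + (ψ d).1 *ᵥ v
        rw [map_add]
        exact Matrix.add_mulVec _ _ v
      zero_smul := fun v => by
        show (ψ 0).1 *ᵥ v = 0
        rw [map_zero]
        exact Matrix.zero_mulVec v }
  have hsm : ∀ (c : AdjoinRoot (cubPoly F)) (v : Fin m ⊕ Fin m → F), c • v = (ψ c).1 *ᵥ v :=
    fun c v => rfl
  haveI : IsScalarTower F (AdjoinRoot (cubPoly F)) (Fin m ⊕ Fin m → F) := by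
    apply IsScalarTower.of_algebraMap_smul
    intro r v
    rw [hsm, hψof]
    show (algebraMap F (Matrix (Fin m ⊕ Fin m) (Fin m ⊕ Fin m) F) r) *ᵥ v = r • v
    rw [Algebra.algebraMap_eq_smul_one, Matrix.smul_mulVec, Matrix.one_mulVec]
  refine ⟨AdjoinRoot (cubPoly F), inferInstance, inferInstance, inferInstance, inferInstance,
    inferInstance, AdjoinRoot.root (cubPoly F), hcard, ?_, ?_⟩
  · have h : eval₂ (AdjoinRoot.of (cubPoly F)) (AdjoinRoot.root (cubPoly F))
        (C 1 * Polynomial.X ^ 2 + C 1 * Polynomial.X + C 1 : F[X]) = 0 :=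
      AdjoinRoot.eval₂_root (cubPoly F)
    rw [eval₂_add, eval₂_add, eval₂_mul, eval₂_mul, eval₂_C, eval₂_pow, eval₂_X, map_one,
      one_mul, one_mul] at h
    exact h
  · intro v
    rw [hsm, hψroot]

end Cfsg.Agent.Helper15
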