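import Mathlib
import Cfsg.Agent.Helper15.Cub1

set_option autoImplicit false

namespace Cfsg.Agent.Helper15

section

variable {F K : Type*} [Field F] [Fintype F] [Field K] [Fintype K] [Algebra F K]
  {V : Type*} [AddCommGroup V] [Module F V] [Module K V] [IsScalarTower F K V]

theorem cub_indep (hnr : ∀ a : F, a ^ 2 + a + 1 ≠ 0) (ω : K) (hω : ω ^ 2 + ω + 1 = 0) (a b : F)
    (h : algebraMap F K a + algebraMap F K b * ω = 0) : a = 0 ∧ b = 0 := by
  have hinj : Function.Injective (algebraMap F K) := (algebraMap F K).injective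
  have hb : b = 0 := by
    by_contra hb
    apply hnr (-a / b)
    apply hinj
    have hb' : algebraMap F K b ≠ 0 := fun h0 => hb (hinj (by rw [h0, map_zero]))
    have hω' : ω = algebraMap F K (-a / b) := by
      rw [map_div₀, map_neg]
      field_simp
      linear_combination h
    rw [map_add, map_add, map_pow, map_one, map_zero, ← hω']
    exact hω
  refine ⟨?_, hb⟩
  rw [hb, map_zero, zero_mul, add_zero] at h
  exact hinj (by rw [h, map_zero])

theorem cub_decomp {q : ℕ} (hF : Fintype.card F = q) (hK : Fintype.card K = q ^ 2)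
    (hnr : ∀ a : F, a ^ 2 + a + 1 ≠ 0) (ω : K) (hω : ω ^ 2 + ω + 1 = 0) (c : K) :
    ∃ a b : F, c = algebraMap F K a + algebraMap F K b * ω := by
  classical
  have hinj : Function.Injective
      (fun p : F × F => algebraMap F K p.1 + algebraMap F K p.2 * ω) := by
    rintro ⟨a, b⟩ ⟨a', b'⟩ h
    have h0 : algebraMap F K a + algebraMap F K b * ω
        = algebraMap F K a' + algebraMap F K b' * ω := h
    have h1 : algebraMap F K (a - a') + algebraMap F K (b - b') * ω = 0 := by
      rw [map_sub, map_sub]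
      linear_combination h0
    obtain ⟨h2, h3⟩ := cub_indep hnr ω hω _ _ h1
    rw [sub_eq_zero.1 h2, sub_eq_zero.1 h3]
  have hbij : Function.Bijective
      (fun p : F × F => algebraMap F K p.1 + algebraMap F K p.2 * ω) := by
    rw [Fintype.bijective_iff_injective_and_card]
    exact ⟨hinj, by rw [Fintype.card_prod, hF, hK, pow_two]⟩
  obtain ⟨⟨a, b⟩, h⟩ := hbij.2 c
  exact ⟨a, b, h.symm⟩

theorem cub_pow_q {q : ℕ} (hq : q % 3 = 2) (ω : K) (hω : ω ^ 2 + ω + 1 = 0) :
    ω ^ q = ω ^ 2 := by
  have h3 : ω ^ 3 = 1 := by linear_combination (ω - 1) * hω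
  obtain ⟨k, hk⟩ : ∃ k, q = 3 * k + 2 := ⟨q / 3, by omega⟩
  rw [hk, pow_add, pow_mul, h3, one_pow, one_mul]

/-- The hermitian form attached to an invariant alternating form. -/
def cubH (ω : K) (B : V → V → F) (u v : V) : K :=
  ω ^ 2 * algebraMap F K (B u v) - algebraMap F K (B (ω • u) v)

theorem cubH_inj (hnr : ∀ a : F, a ^ 2 + a + 1 ≠ 0) (ω : K) (hω : ω ^ 2 + ω + 1 = 0)
    (B : V → V → F) (u v u' v' : V) (h : cubH ω B u v = cubH ω B u' v') : B u v = B u' v' := by
  unfold cubH at h
  have h1 : algebraMap F K (-(B u v - B u' v') - (B (ω • u) v - B (ω • u') v'))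
      + algebraMap F K (-(B u v - B u' v')) * ω = 0 := by
    simp only [map_sub, map_neg]
    linear_combination h - (algebraMap F K (B u v) - algebraMap F K (B u' v')) * hω
  have h2 := (cub_indep hnr ω hω _ _ h1).2
  exact sub_eq_zero.1 (neg_eq_zero.1 h2)

theorem cubH_isHerm {q : ℕ} (hF : Fintype.card F = q) (hK : Fintype.card K = q ^ 2)
    (hq : q % 3 = 2) (ω : K) (hω : ω ^ 2 + ω + 1 = 0) (B : V → V → F)
    (hBadd : ∀ u u' v, B (u + u') v = B u v + B u' v)
    (hBsmul : ∀ (a : F) u v, B (a • u) v = a * B u v)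
    (hBskew : ∀ u v, B v u = -B u v)
    (hBinv : ∀ u v, B (ω • u) (ω • v) = B u v)
    (hBnd : ∀ u, (∀ v, B u v = 0) → u = 0) : IsHerm q (cubH ω B) := by
  have hnr := no_cubic_root hF hq
  have hω2 : ∀ u : V, ω • ω • u = -(ω • u) - u := by
    intro u
    have h1 : (ω ^ 2 + ω + 1) • u = 0 := by rw [hω, zero_smul]
    rw [add_smul, add_smul, one_smul, pow_two, mul_smul] at h1
    calc ω • ω • u = (ω • ω • u + ω • u + u) - ω • u - u := by abel
      _ = -(ω • u) - u := by rw [h1]; abel
  have hBω2 : ∀ u v, B (ω • ω • u) v = -B (ω • u) v - B u v := by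
    intro u v
    rw [hω2, sub_eq_add_neg, hBadd, ← neg_one_smul F (ω • u), hBsmul, ← neg_one_smul F u, hBsmul]
    ring
  refine ⟨?_, ?_, ?_, ?_⟩
  · intro u u' v
    unfold cubH
    rw [smul_add, hBadd, hBadd, map_add, map_add]
    ring
  · intro c u v
    obtain ⟨a, b, rfl⟩ := cub_decomp hF hK hnr ω hω c
    have e1 : (algebraMap F K a + algebraMap F K b * ω) • u = a • u + b • (ω • u) := by
      rw [add_smul, mul_smul, algebraMap_smul, algebraMap_smul]
    have e2 : ω • (a • u + b • (ω • u)) = a • (ω • u) + b • (ω • ω • u) := by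
      rw [smul_add, smul_comm ω a, smul_comm ω b]
    unfold cubH
    rw [e1, e2, hBadd, hBadd, hBsmul, hBsmul, hBsmul, hBsmul, hBω2]
    simp only [map_add, map_mul, map_sub, map_neg]
    linear_combination (algebraMap F K b * algebraMap F K (B (ω • u) v)
      - algebraMap F K b * algebraMap F K (B u v) * (ω - 1)) * hω
  · intro u v
    obtain ⟨φ, hφ⟩ := exists_frob hK
    have hfix : ∀ a : F, (algebraMap F K a) ^ q = algebraMap F K a := by
      intro a
      rw [← map_pow, ← hF, FiniteField.pow_card]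
    have hωq := cub_pow_q hq ω hω
    have h1 : B (ω • v) u = B (ω • u) v + B u v := by
      have h2 : u = ω • (ω • ω • u) := by
        rw [← mul_smul, ← mul_smul]
        have h3 : ω * ω * ω = 1 := by linear_combination (ω - 1) * hω
        rw [h3, one_smul]
      calc B (ω • v) u = -B u (ω • v) := hBskew _ _
        _ = -B (ω • (ω • ω • u)) (ω • v) := by rw [← h2]
        _ = -B (ω • ω • u) v := by rw [hBinv]
        _ = B (ω • u) v + B u v := by rw [hBω2]; ring
    unfold cubH
    rw [← hφ, map_sub, map_mul, map_pow, hφ, hφ, hφ, hfix, hfix, hωq, h1, hBskew u v, map_add,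
      map_neg]
    linear_combination (-(algebraMap F K (B u v)) * (ω ^ 2 - ω + 1)) * hω
  · intro u hu
    apply hBnd
    intro v
    have h0 := hu v
    unfold cubH at h0
    have h1 : algebraMap F K (-(B u v) - B (ω • u) v) + algebraMap F K (-(B u v)) * ω = 0 := by
      rw [map_sub, map_neg]
      linear_combination h0 - algebraMap F K (B u v) * hω
    exact neg_eq_zero.1 (cub_indep hnr ω hω _ _ h1).2

end

end Cfsg.Agent.Helper15
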