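import Mathlib
import Cfsg.Agent.Helper15.Cub2

set_option autoImplicit false

namespace Cfsg.Agent.Helper15

open Matrix

set_option maxHeartbeats 1600000 in
theorem sp_cubic_centralizer_card {F : Type*} [Field F] [Fintype F] {q : ℕ}
    (hF : Fintype.card F = q) (hq : q % 3 = 2) {m : ℕ}
    (x : Matrix.symplecticGroup (Fin m) F) (hx3 : x ^ 3 = 1)
    (hfpf : IsUnit ((x : Matrix (Fin m ⊕ Fin m) (Fin m ⊕ Fin m) F) - 1)) :
    (Nat.card ↥(Subgroup.centralizer ({x} : Set ↥(Matrix.symplecticGroup (Fin m) F))) : ℤ)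
      = (q : ℤ) ^ (m * (m - 1) / 2)
        * ∏ i : Fin m, ((q : ℤ) ^ ((i : ℕ) + 1) - (-1) ^ ((i : ℕ) + 1)) := by
  classical
  obtain ⟨X, hXdef⟩ : ∃ X : Matrix (Fin m ⊕ Fin m) (Fin m ⊕ Fin m) F, X = x.1 := ⟨_, rfl⟩
  have hX3 : X ^ 3 = 1 := by
    rw [hXdef]
    exact congrArg Subtype.val hx3
  have hX : X ^ 2 + X + 1 = 0 := by
    have h3' : X * X ^ 2 = X ^ 3 := by rw [← pow_succ']
    have h1 : (X - 1) * (X ^ 2 + X + 1) = 0 := by
      have h2 : (X - 1) * (X ^ 2 + X + 1) = X ^ 3 - 1 := by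
        rw [sub_mul, mul_add, mul_add, one_mul, mul_one, h3', ← pow_two]
        abel
      rw [h2, hX3, sub_self]
    rw [hXdef] at h1 ⊢
    exact (hfpf.mul_right_eq_zero).1 h1
  obtain ⟨K, _, _, _, _, _, ω, hK, hω, hωv⟩ := exists_cub_ext hF hq X hX
  have hnr := no_cubic_root hF hq
  have hq2 : 2 ≤ q := by omega
  obtain ⟨B, hB⟩ : ∃ B : (Fin m ⊕ Fin m → F) → (Fin m ⊕ Fin m → F) → F,
      ∀ u v, B u v = spForm m F u v := ⟨fun u v => spForm m F u v, fun _ _ => rfl⟩
  have hBadd : ∀ u u' v, B (u + u') v = B u v + B u' v := by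
    intro u u' v
    rw [hB, hB, hB, map_add, LinearMap.add_apply]
  have hBsmul : ∀ (a : F) u v, B (a • u) v = a * B u v := by
    intro a u v
    rw [hB, hB, map_smul, LinearMap.smul_apply, smul_eq_mul]
  have hBskew : ∀ u v, B v u = -B u v := by
    intro u v
    rw [hB, hB]
    exact spForm_skew m u v
  have hBinv : ∀ u v, B (ω • u) (ω • v) = B u v := by
    intro u v
    rw [hB, hB, hωv, hωv, hXdef]
    exact sp_form_inv m x u v
  have hBnd : ∀ u, (∀ v, B u v = 0) → u = 0 := by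
    intro u h
    apply (spForm_nondeg m).1 u
    intro v
    rw [← hB]
    exact h v
  have hH := cubH_isHerm hF hK hq ω hω B hBadd hBsmul hBskew hBinv hBnd
  have hfinF : Module.finrank F (Fin m ⊕ Fin m → F) = 2 * m := spForm_finrank m
  have hfrK : Module.finrank F K = 2 := by
    have h1 := Module.card_eq_pow_finrank (K := F) (V := K)
    rw [hK, hF] at h1
    exact (Nat.pow_right_injective hq2 h1).symm
  haveI : Module.Finite K (Fin m ⊕ Fin m → F) := Module.Finite.of_restrictScalars_finite F K _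
  have hfin : Module.finrank K (Fin m ⊕ Fin m → F) = m := by
    have h2 := Module.finrank_mul_finrank F K (Fin m ⊕ Fin m → F)
    rw [hfrK, hfinF] at h2
    omega
  obtain ⟨e₀⟩ := herm_exists_frame hK m (cubH ω B) hH hfin
  obtain ⟨ρ₀, hρ₀, hρ₀H⟩ := herm_frame_equiv hK hH hfin e₀
  have hcomm : ∀ g : ↥(Subgroup.centralizer ({x} : Set ↥(Matrix.symplecticGroup (Fin m) F))),
      (g.1.1 : Matrix (Fin m ⊕ Fin m) (Fin m ⊕ Fin m) F) * X = X * g.1.1 := by
    intro g
    have h1 := Subgroup.mem_centralizer_iff.1 g.2 x (Set.mem_singleton x)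
    rw [hXdef]
    exact (congrArg Subtype.val h1).symm
  have hKlin : ∀ M : Matrix (Fin m ⊕ Fin m) (Fin m ⊕ Fin m) F, M * X = X * M →
      ∀ (c : K) (v : Fin m ⊕ Fin m → F), M *ᵥ (c • v) = c • (M *ᵥ v) := by
    intro M hM c v
    obtain ⟨a, b, rfl⟩ := cub_decomp hF hK hnr ω hω c
    have e1 : ∀ w : Fin m ⊕ Fin m → F,
        (algebraMap F K a + algebraMap F K b * ω) • w = a • w + b • (X *ᵥ w) := by
      intro w
      rw [add_smul, mul_smul, algebraMap_smul, algebraMap_smul, hωv]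
    rw [e1, e1, Matrix.mulVec_add, Matrix.mulVec_smul, Matrix.mulVec_smul, Matrix.mulVec_mulVec,
      Matrix.mulVec_mulVec, hM]
  have hHinv : ∀ M : Matrix (Fin m ⊕ Fin m) (Fin m ⊕ Fin m) F, M * X = X * M →
      (∀ u v, B (M *ᵥ u) (M *ᵥ v) = B u v) →
      ∀ u v, cubH ω B (M *ᵥ u) (M *ᵥ v) = cubH ω B u v := by
    intro M hM hMB u v
    unfold cubH
    rw [← hKlin M hM, hMB, hMB]
  have hsingle : ∀ (ρ : (Fin m → K) ≃ₗ[K] (Fin m ⊕ Fin m → F)) (e : Fin m → (Fin m ⊕ Fin m → F)),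
      (∀ c, ρ c = ∑ i, c i • e i) → ∀ i, ρ (Pi.single i 1) = e i := by
    intro ρ e hρ i
    rw [hρ, Finset.sum_eq_single i]
    · rw [Pi.single_eq_same, one_smul]
    · intro j _ hj
      rw [Pi.single_eq_of_ne hj, zero_smul]
    · intro hi
      exact absurd (Finset.mem_univ i) hi
  have hcard : Nat.card ↥(Subgroup.centralizer ({x} : Set ↥(Matrix.symplecticGroup (Fin m) F)))
      = Nat.card (OFrame (cubH ω B) m) := by
    apply Nat.card_congr
    refine Equiv.ofBijective (fun g => ⟨fun i => (g.1.1 : Matrix (Fin m ⊕ Fin m) (Fin m ⊕ Fin m) F)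
      *ᵥ e₀.1 i, ?_⟩) ⟨?_, ?_⟩
    · intro i j
      rw [hHinv _ (hcomm g) (fun u v => by rw [hB, hB]; exact sp_form_inv m g.1 u v)]
      exact e₀.2 i j
    · intro g g' hgg
      have h1 : ∀ i, (g.1.1 : Matrix (Fin m ⊕ Fin m) (Fin m ⊕ Fin m) F) *ᵥ e₀.1 i
          = (g'.1.1 : Matrix (Fin m ⊕ Fin m) (Fin m ⊕ Fin m) F) *ᵥ e₀.1 i :=
        fun i => congrFun (congrArg Subtype.val hgg) i
      apply Subtype.ext
      apply Subtype.ext
      apply Matrix.toLin'.injective
      apply LinearMap.ext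
      intro v
      rw [Matrix.toLin'_apply, Matrix.toLin'_apply]
      obtain ⟨c, rfl⟩ := ρ₀.surjective v
      rw [hρ₀, Matrix.mulVec_sum, Matrix.mulVec_sum]
      apply Finset.sum_congr rfl
      intro i _
      rw [hKlin _ (hcomm g), hKlin _ (hcomm g'), h1]
    · intro e
      obtain ⟨ρ, hρ, hρH⟩ := herm_frame_equiv hK hH hfin e
      obtain ⟨M, hMdef⟩ : ∃ M : Matrix (Fin m ⊕ Fin m) (Fin m ⊕ Fin m) F,
          ∀ v, M *ᵥ v = ρ (ρ₀.symm v) := by
        refine ⟨LinearMap.toMatrix' ((((ρ₀.symm.trans ρ :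
          (Fin m ⊕ Fin m → F) ≃ₗ[K] (Fin m ⊕ Fin m → F)) :
          (Fin m ⊕ Fin m → F) →ₗ[K] (Fin m ⊕ Fin m → F))).restrictScalars F), fun v => ?_⟩
        rw [LinearMap.toMatrix'_mulVec]
        rfl
      have hMX : M * X = X * M := by
        apply Matrix.toLin'.injective
        apply LinearMap.ext
        intro v
        rw [Matrix.toLin'_apply, Matrix.toLin'_apply, ← Matrix.mulVec_mulVec,
          ← Matrix.mulVec_mulVec, ← hωv, ← hωv, hMdef, hMdef, map_smul, map_smul]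
      have hMH : ∀ u v, cubH ω B (M *ᵥ u) (M *ᵥ v) = cubH ω B u v := by
        intro u v
        rw [hMdef, hMdef, hρH, ← hρ₀H, LinearEquiv.apply_symm_apply,
          LinearEquiv.apply_symm_apply]
      have hMB : ∀ u v, B (M *ᵥ u) (M *ᵥ v) = B u v := fun u v =>
        cubH_inj hnr ω hω B _ _ _ _ (hMH u v)
      have hMsp : M ∈ Matrix.symplecticGroup (Fin m) F := by
        rw [mem_sp_iff_cols]
        intro k l
        have h5 : ∀ k : Fin m ⊕ Fin m, (fun i => M i k) = M *ᵥ Pi.single k 1 := by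
          intro k
          rw [Matrix.mulVec_single_one]
          rfl
        rw [h5, h5, ← hB, hMB, hB]
        exact Matrix.toBilin'_single _ k l
      have hcent : (⟨M, hMsp⟩ : ↥(Matrix.symplecticGroup (Fin m) F))
          ∈ Subgroup.centralizer ({x} : Set ↥(Matrix.symplecticGroup (Fin m) F)) := by
        rw [Subgroup.mem_centralizer_iff]
        intro h hh
        rw [Set.mem_singleton_iff.1 hh]
        apply Subtype.ext
        show x.1 * M = M * x.1
        rw [← hXdef]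
        exact hMX.symm
      refine ⟨⟨⟨M, hMsp⟩, hcent⟩, ?_⟩
      apply Subtype.ext
      funext i
      show M *ᵥ e₀.1 i = e.1 i
      rw [hMdef, ← hsingle ρ₀ e₀.1 hρ₀ i, LinearEquiv.symm_apply_apply, hsingle ρ e.1 hρ i]
  rw [hcard, herm_frame_card hK m (cubH ω B) hH hfin, ← card_GU_prod hK m, card_GU hK m,
    Nat.cast_mul, Nat.cast_pow, Nat.cast_prod]
  congr 1
  rw [Finset.prod_range (fun i => (((if Even i then q ^ (i + 1) + 1 else q ^ (i + 1) - 1 : ℕ)) : ℤ))]
  apply Finset.prod_congr rfl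
  intro i _
  by_cases h : Even (i : ℕ)
  · rw [if_pos h, Nat.cast_add, Nat.cast_pow, Nat.cast_one, Odd.neg_one_pow (Even.add_one h)]
    ring
  · rw [if_neg h, Nat.cast_sub (Nat.one_le_pow _ _ (by omega)), Nat.cast_pow, Nat.cast_one,
      Even.neg_one_pow (Odd.add_one (Nat.not_even_iff_odd.1 h))]

end Cfsg.Agent.Helper15
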