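import Mathlib

set_option autoImplicit false

namespace Cfsg.Agent.Helper15

/-- For a finite cyclic group of order `N`, the quotient by `n`-th powers is cyclic of order
`gcd n N`. -/
theorem cyc_quot {G : Type*} [CommGroup G] [Finite G] [IsCyclic G] (n N : ℕ)
    (hN : Nat.card G = N) :
    ∃ ψ : G →* Multiplicative (ZMod (Nat.gcd n N)), Function.Surjective ψ ∧
      ∀ g : G, ψ g = 1 ↔ ∃ h : G, g = h ^ n := by
  subst hN
  have hNpos : 0 < Nat.card G := Nat.card_pos
  haveI : NeZero (Nat.card G) := ⟨hNpos.ne'⟩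
  obtain ⟨e⟩ : Nonempty (Multiplicative (ZMod (Nat.card G)) ≃* G) :=
    ⟨zmodCyclicMulEquiv inferInstance⟩
  obtain ⟨c, hc⟩ : ∃ c : ZMod (Nat.card G) →+* ZMod (Nat.gcd n (Nat.card G)),
      c = ZMod.castHom (Nat.gcd_dvd_right n (Nat.card G)) (ZMod (Nat.gcd n (Nat.card G))) :=
    ⟨_, rfl⟩
  have hcsurj : Function.Surjective c := ZMod.ringHom_surjective c
  have hker : ∀ x : ZMod (Nat.card G), c x = 0 ↔
      ∃ y : ZMod (Nat.card G), x = (n : ZMod (Nat.card G)) * y := by
    intro x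
    constructor
    · intro hx
      have h1 : x = ((x.val : ℕ) : ZMod (Nat.card G)) := (ZMod.natCast_zmod_val x).symm
      rw [h1, map_natCast, ZMod.natCast_eq_zero_iff] at hx
      obtain ⟨k, hk⟩ := hx
      have h2 : ((Nat.gcd n (Nat.card G) : ℕ) : ZMod (Nat.card G))
          = (n : ZMod (Nat.card G)) * ((Nat.gcdA n (Nat.card G) : ℤ) : ZMod (Nat.card G)) := by
        have h3 := Nat.gcd_eq_gcd_ab n (Nat.card G)
        have h4 := congrArg (Int.cast : ℤ → ZMod (Nat.card G)) h3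
        push_cast at h4
        rw [h4, ZMod.natCast_self, zero_mul, add_zero]
      refine ⟨((Nat.gcdA n (Nat.card G) : ℤ) : ZMod (Nat.card G)) * (k : ZMod (Nat.card G)), ?_⟩
      rw [h1, hk, Nat.cast_mul, h2]
      ring
    · rintro ⟨y, rfl⟩
      rw [map_mul, map_natCast]
      have : ((n : ℕ) : ZMod (Nat.gcd n (Nat.card G))) = 0 := by
        rw [ZMod.natCast_eq_zero_iff]
        exact Nat.gcd_dvd_left _ _
      rw [this, zero_mul]
  refine ⟨(AddMonoidHom.toMultiplicative c.toAddMonoidHom).comp e.symm.toMonoidHom, ?_, ?_⟩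
  · intro z
    obtain ⟨x, hx⟩ := hcsurj (Multiplicative.toAdd z)
    refine ⟨e (Multiplicative.ofAdd x), ?_⟩
    show Multiplicative.ofAdd (c (Multiplicative.toAdd (e.symm (e (Multiplicative.ofAdd x))))) = z
    rw [MulEquiv.symm_apply_apply, toAdd_ofAdd, hx, ofAdd_toAdd]
  · intro g
    have h0 : (AddMonoidHom.toMultiplicative c.toAddMonoidHom).comp e.symm.toMonoidHom g = 1
        ↔ c (Multiplicative.toAdd (e.symm g)) = 0 := by
      show Multiplicative.ofAdd (c (Multiplicative.toAdd (e.symm g))) = 1 ↔ _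
      exact ofAdd_eq_one
    rw [h0, hker]
    constructor
    · rintro ⟨y, hy⟩
      refine ⟨e (Multiplicative.ofAdd y), ?_⟩
      rw [← map_pow, ← ofAdd_nsmul, nsmul_eq_mul, ← hy, ofAdd_toAdd, MulEquiv.apply_symm_apply]
    · rintro ⟨h, rfl⟩
      refine ⟨Multiplicative.toAdd (e.symm h), ?_⟩
      rw [map_pow, toAdd_pow, nsmul_eq_mul]

end Cfsg.Agent.Helper15
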