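import Mathlib
import Cfsg.Agent.Helper15.Gram

set_option autoImplicit false

namespace Cfsg.Agent.Helper15

/-- The sign character of `ZMod 2`. -/
def chi2 (c : ZMod 2) : ℤ := if c = 0 then 1 else -1

theorem chi2_add (a b : ZMod 2) : chi2 (a + b) = chi2 a * chi2 b := by
  revert a b
  decide

theorem chi2_zero : chi2 0 = 1 := rfl

theorem chi2_add_one (a : ZMod 2) : chi2 (a + 1) = -chi2 a := by
  revert a
  decide

theorem zmod2_cases (c : ZMod 2) : c = 0 ∨ c = 1 := by
  revert c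
  decide

theorem f2_polar_add_left (m : ℕ) (u u' v : Fin m ⊕ Fin m → ZMod 2) :
    QuadraticMap.polar (Cfsg.quadFormPlus m (ZMod 2)) (u + u') v
      = QuadraticMap.polar (Cfsg.quadFormPlus m (ZMod 2)) u v
        + QuadraticMap.polar (Cfsg.quadFormPlus m (ZMod 2)) u' v := by
  rw [polar_quadFormPlus, polar_quadFormPlus, polar_quadFormPlus, add_dotProduct]

theorem f2_polar_add_right (m : ℕ) (u v v' : Fin m ⊕ Fin m → ZMod 2) :
    QuadraticMap.polar (Cfsg.quadFormPlus m (ZMod 2)) u (v + v')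
      = QuadraticMap.polar (Cfsg.quadFormPlus m (ZMod 2)) u v
        + QuadraticMap.polar (Cfsg.quadFormPlus m (ZMod 2)) u v' := by
  rw [polar_quadFormPlus, polar_quadFormPlus, polar_quadFormPlus, Matrix.mulVec_add,
    dotProduct_add]

theorem f2_quadFormPlus_zero (m : ℕ) : Cfsg.quadFormPlus m (ZMod 2) 0 = 0 := by
  simp [Cfsg.quadFormPlus]

theorem f2_polar_self (m : ℕ) (u : Fin m ⊕ Fin m → ZMod 2) :
    QuadraticMap.polar (Cfsg.quadFormPlus m (ZMod 2)) u u = 0 := by
  unfold QuadraticMap.polar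
  have huu : u + u = 0 := by
    funext i
    exact CharTwo.add_self_eq_zero (u i)
  rw [huu, f2_quadFormPlus_zero]
  have h := CharTwo.add_self_eq_zero (Cfsg.quadFormPlus m (ZMod 2) u)
  linear_combination -h

theorem f2_polar_zero_left (m : ℕ) (v : Fin m ⊕ Fin m → ZMod 2) :
    QuadraticMap.polar (Cfsg.quadFormPlus m (ZMod 2)) 0 v = 0 := by
  unfold QuadraticMap.polar
  rw [zero_add, f2_quadFormPlus_zero]
  ring

theorem f2_polar_zero_right (m : ℕ) (v : Fin m ⊕ Fin m → ZMod 2) :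
    QuadraticMap.polar (Cfsg.quadFormPlus m (ZMod 2)) v 0 = 0 := by
  unfold QuadraticMap.polar
  rw [add_zero, f2_quadFormPlus_zero]
  ring

theorem f2_polar_sep (m : ℕ) (t : Fin m ⊕ Fin m → ZMod 2) (ht : t ≠ 0) :
    ∃ u₀, QuadraticMap.polar (Cfsg.quadFormPlus m (ZMod 2)) u₀ t = 1 := by
  classical
  have h1 : ∃ j, t j ≠ 0 := by
    by_contra hcon
    apply ht
    funext j
    by_contra hj
    exact hcon ⟨j, hj⟩
  obtain ⟨j, hj⟩ := h1
  have hj1 : t j = 1 := (zmod2_cases (t j)).resolve_left hj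
  have hM : ∀ i, (Matrix.fromBlocks 0 1 1 0 :
      Matrix (Fin m ⊕ Fin m) (Fin m ⊕ Fin m) (ZMod 2)).mulVec t (Sum.swap i) = t i := by
    intro i
    rw [Matrix.fromBlocks_mulVec]
    rcases i with i | i
    · simp
    · simp
  refine ⟨Pi.single (Sum.swap j) 1, ?_⟩
  rw [polar_quadFormPlus, single_one_dotProduct, hM, hj1]

theorem f2_char_orth (m : ℕ) (t : Fin m ⊕ Fin m → ZMod 2) :
    ∑ u : Fin m ⊕ Fin m → ZMod 2, chi2 (QuadraticMap.polar (Cfsg.quadFormPlus m (ZMod 2)) u t)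
      = if t = 0 then (Fintype.card (Fin m ⊕ Fin m → ZMod 2) : ℤ) else 0 := by
  classical
  by_cases ht : t = 0
  · rw [if_pos ht, ht]
    simp only [f2_polar_zero_right, chi2_zero, Finset.sum_const, Finset.card_univ, nsmul_eq_mul,
      mul_one]
  · rw [if_neg ht]
    obtain ⟨u₀, hu₀⟩ := f2_polar_sep m t ht
    have h1 : ∑ u : Fin m ⊕ Fin m → ZMod 2,
        chi2 (QuadraticMap.polar (Cfsg.quadFormPlus m (ZMod 2)) u t)
        = ∑ u : Fin m ⊕ Fin m → ZMod 2,
          chi2 (QuadraticMap.polar (Cfsg.quadFormPlus m (ZMod 2)) (u + u₀) t) :=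
      (Equiv.sum_comp (Equiv.addRight u₀)
        (fun u => chi2 (QuadraticMap.polar (Cfsg.quadFormPlus m (ZMod 2)) u t))).symm
    have h2 : ∑ u : Fin m ⊕ Fin m → ZMod 2,
          chi2 (QuadraticMap.polar (Cfsg.quadFormPlus m (ZMod 2)) (u + u₀) t)
        = -∑ u : Fin m ⊕ Fin m → ZMod 2,
          chi2 (QuadraticMap.polar (Cfsg.quadFormPlus m (ZMod 2)) u t) := by
      rw [← Finset.sum_neg_distrib]
      refine Finset.sum_congr rfl fun u _ => ?_
      rw [f2_polar_add_left, hu₀, chi2_add_one]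
    rw [h2] at h1
    omega

theorem f2_char_sum_sq (m : ℕ) (q : (Fin m ⊕ Fin m → ZMod 2) → ZMod 2)
    (hq : ∀ u v, q (u + v) = q u + q v
      + QuadraticMap.polar (Cfsg.quadFormPlus m (ZMod 2)) u v) :
    (∑ v, chi2 (q v)) * (∑ v, chi2 (q v))
      = (Fintype.card (Fin m ⊕ Fin m → ZMod 2) : ℤ) := by
  classical
  have hq0 : q 0 = 0 := by
    have h := hq 0 0
    rw [f2_polar_zero_left, add_zero, add_zero] at h
    have h2 : q 0 + q 0 = q 0 + 0 := by rw [add_zero]; exact h.symm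
    exact add_left_cancel h2
  rw [Finset.sum_mul_sum]
  have step1 : ∀ u, ∑ v, chi2 (q u) * chi2 (q v)
      = ∑ t, chi2 (q t)
        * chi2 (QuadraticMap.polar (Cfsg.quadFormPlus m (ZMod 2)) u t) := by
    intro u
    rw [← Equiv.sum_comp (Equiv.addLeft u) (fun v => chi2 (q u) * chi2 (q v))]
    refine Finset.sum_congr rfl fun t _ => ?_
    show chi2 (q u) * chi2 (q (u + t)) = _
    rw [← chi2_add, ← chi2_add, hq u t]
    congr 1
    have h := CharTwo.add_self_eq_zero (q u)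
    linear_combination h
  simp only [step1]
  rw [Finset.sum_comm]
  simp only [← Finset.mul_sum, f2_char_orth]
  simp [hq0, chi2_zero]

end Cfsg.Agent.Helper15
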