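import Mathlib

set_option autoImplicit false

namespace Cfsg.Agent.Helper15

theorem exists_ringHom_of_card_sq {F K : Type*} [Field F] [Fintype F] [Field K] [Fintype K]
    (h : Fintype.card K = Fintype.card F ^ 2) : Nonempty (F →+* K) := by
  obtain ⟨p, hp⟩ := CharP.exists F
  obtain ⟨n, hprime, hn⟩ := FiniteField.card F p
  have : Fact p.Prime := ⟨hprime⟩
  have hKp : CharP K p := by
    rw [CharP.charP_iff_prime_eq_zero hprime]
    have h1 := FiniteField.cast_card_eq_zero K
    rw [h, hn] at h1
    push_cast at h1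
    exact pow_eq_zero_iff (n.pos.ne') |>.1 (pow_eq_zero_iff (two_ne_zero) |>.1 h1)
  let _ : Algebra (ZMod p) F := ZMod.algebra F p
  let _ : Algebra (ZMod p) K := ZMod.algebra K p
  have hdvd : Module.finrank (ZMod p) F ∣ Module.finrank (ZMod p) K := by
    have c1 : Fintype.card F = p ^ Module.finrank (ZMod p) F := by
      rw [Module.card_eq_pow_finrank (K := ZMod p) (V := F), ZMod.card]
    have c2 : Fintype.card K = p ^ Module.finrank (ZMod p) K := by
      rw [Module.card_eq_pow_finrank (K := ZMod p) (V := K), ZMod.card]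
    rw [c1, c2, ← pow_mul] at h
    have h3 := Nat.pow_right_injective hprime.two_le h
    exact ⟨2, h3⟩
  obtain ⟨f⟩ := FiniteField.nonempty_algHom_of_finrank_dvd hdvd
  exact ⟨f.toRingHom⟩

theorem finrank_eq_two_of_card_sq {F K : Type*} [Field F] [Fintype F] [Field K] [Fintype K]
    [Algebra F K] (h : Fintype.card K = Fintype.card F ^ 2) : Module.finrank F K = 2 := by
  have c := Module.card_eq_pow_finrank (K := F) (V := K)
  rw [h] at c
  exact (Nat.pow_right_injective Fintype.one_lt_card c).symm

theorem trace_form_sep {F K : Type*} [Field F] [Field K] [Algebra F K] (lam : K →ₗ[F] F)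
    (hlam : lam ≠ 0) {V : Type*} (β : V → V → K)
    (hsurj : ∀ (v w : V) (d : K), β v w ≠ 0 → ∃ w', β v w' = d)
    (v : V) (h : ∀ w, lam (β v w) = 0) : ∀ w, β v w = 0 := by
  intro w
  by_contra hne
  apply hlam
  ext d
  obtain ⟨w', hw'⟩ := hsurj v w d hne
  rw [← hw', h]
  rfl

end Cfsg.Agent.Helper15
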