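import Mathlib
import Cfsg.Agent.Helper15.QuadStd
import Cfsg.Agent.Helper15.FieldEmb

set_option autoImplicit false

namespace Cfsg.Agent.Helper15

theorem nondeg_of_polar_matrix {F κ : Type*} [Field F] [Fintype κ] [DecidableEq κ]
    (Q : QuadraticForm F (κ → F)) (M : Matrix κ κ F)
    (hM : ∀ u v, QuadraticMap.polar ⇑Q u v = u ⬝ᵥ M.mulVec v) (hdet : M.det ≠ 0) :
    (QuadraticMap.polarBilin Q).Nondegenerate := by
  have h1 : QuadraticMap.polarBilin Q = Matrix.toBilin' M := by
    apply LinearMap.ext₂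
    intro u v
    rw [Matrix.toBilin'_apply']
    exact hM u v
  rw [h1]
  exact LinearMap.BilinForm.nondegenerate_toBilin'_of_det_ne_zero' M hdet

theorem quad_eq_of_rational {F K : Type*} [Field F] [Field K] (φ : F →+* K) {ι : Type*}
    [Fintype ι] [DecidableEq ι] (Q₁ Q₂ : QuadraticForm K (ι → K))
    (h : ∀ u : ι → F, Q₁ (⇑φ ∘ u) = Q₂ (⇑φ ∘ u)) : ∀ w, Q₁ w = Q₂ w := by
  have hb : ∀ i, (Pi.basisFun K ι) i = ⇑φ ∘ (Pi.single i 1 : ι → F) := by
    intro i
    funext j
    simp [Pi.single_apply, apply_ite φ]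
  apply quad_eq_of_basis (Pi.basisFun K ι) Q₁ Q₂
  · intro i
    rw [hb, h]
  · intro i j
    unfold QuadraticMap.polar
    have hadd : (Pi.basisFun K ι) i + (Pi.basisFun K ι) j
        = ⇑φ ∘ ((Pi.single i 1 : ι → F) + Pi.single j 1) := by
      rw [hb, hb]
      funext l
      simp
    rw [hadd, h, hb, hb, h, h]

theorem exists_root_in_quadratic_ext {F K : Type*} [Field F] [Fintype F] [Field K] [Fintype K]
    [Algebra F K] (hK : Fintype.card K = Fintype.card F ^ 2) (a c : F) :
    ∃ θ : K, θ ^ 2 + algebraMap F K a * θ + algebraMap F K c = 0 := by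
  classical
  by_cases hroot : ∃ t : F, t ^ 2 + a * t + c = 0
  · obtain ⟨t, ht⟩ := hroot
    refine ⟨algebraMap F K t, ?_⟩
    rw [← map_pow, ← map_mul, ← map_add, ← map_add, ht, map_zero]
  · obtain ⟨f, hfdef⟩ : ∃ f : Polynomial F,
        f = Polynomial.C 1 * Polynomial.X ^ 2 + Polynomial.C a * Polynomial.X + Polynomial.C c :=
      ⟨_, rfl⟩
    have hdeg : f.natDegree = 2 := by
      rw [hfdef]
      exact Polynomial.natDegree_quadratic one_ne_zero
    have hf0 : f ≠ 0 := by
      intro h
      rw [h] at hdeg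
      simp at hdeg
    have hirr : Irreducible f := by
      apply Polynomial.irreducible_of_degree_le_three_of_not_isRoot
      · rw [hdeg]
        simp
      · intro t ht
        apply hroot
        refine ⟨t, ?_⟩
        rw [Polynomial.IsRoot.def, hfdef] at ht
        simpa using ht
    have : Fact (Irreducible f) := ⟨hirr⟩
    have hfinL : Module.finrank F (AdjoinRoot f) = 2 := by
      rw [(AdjoinRoot.powerBasis hf0).finrank, AdjoinRoot.powerBasis_dim, hdeg]
    have h2 : Module.finrank F K = 2 := finrank_eq_two_of_card_sq hK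
    obtain ⟨ψ⟩ := FiniteField.nonempty_algHom_of_finrank_dvd (F := F) (K := AdjoinRoot f)
      (L := K) (by rw [hfinL, h2])
    refine ⟨ψ (AdjoinRoot.root f), ?_⟩
    have h3 : Polynomial.aeval (ψ (AdjoinRoot.root f)) f = 0 := by
      rw [Polynomial.aeval_algHom_apply, AdjoinRoot.aeval_eq, AdjoinRoot.mk_self, map_zero]
    have hev : ∀ θ : K, Polynomial.aeval θ f
        = θ ^ 2 + algebraMap F K a * θ + algebraMap F K c := by
      intro θ
      rw [hfdef]
      simp
    rw [hev] at h3
    exact h3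

end Cfsg.Agent.Helper15
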