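import Mathlib
import Cfsg.Agent.Helper15.F2Quad
import Cfsg.Agent.Helper15.QuadExt

set_option autoImplicit false

namespace Cfsg.Agent.Helper15

theorem chi2_sum {ι : Type*} (s : Finset ι) (a : ι → ZMod 2) :
    chi2 (∑ i ∈ s, a i) = ∏ i ∈ s, chi2 (a i) := by
  classical
  induction s using Finset.induction_on with
  | empty => simp [chi2_zero]
  | insert i s hi ih => rw [Finset.sum_insert hi, Finset.prod_insert hi, chi2_add, ih]

theorem f2_plus_char_sum (m : ℕ) :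
    ∑ w : Fin m ⊕ Fin m → ZMod 2, chi2 (Cfsg.quadFormPlus m (ZMod 2) w) = 2 ^ m := by
  classical
  let E : (Fin m → ZMod 2 × ZMod 2) ≃ (Fin m ⊕ Fin m → ZMod 2) :=
    { toFun := fun h => Sum.elim (fun i => (h i).1) (fun i => (h i).2)
      invFun := fun w i => (w (Sum.inl i), w (Sum.inr i))
      left_inv := fun h => rfl
      right_inv := fun w => by
        funext i
        rcases i with i | i <;> rfl }
  rw [← Equiv.sum_comp E]
  have h1 : ∀ h : Fin m → ZMod 2 × ZMod 2, chi2 (Cfsg.quadFormPlus m (ZMod 2) (E h))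
      = ∏ i, chi2 ((h i).1 * (h i).2) := by
    intro h
    unfold Cfsg.quadFormPlus
    rw [chi2_sum]
    rfl
  simp only [h1]
  have h2 := Finset.prod_univ_sum
    (fun _ : Fin m => (Finset.univ : Finset (ZMod 2 × ZMod 2))) (fun _ p => chi2 (p.1 * p.2))
  rw [Fintype.piFinset_univ] at h2
  rw [← h2]
  have h3 : ∑ p : ZMod 2 × ZMod 2, chi2 (p.1 * p.2) = 2 := by decide
  simp [h3]

theorem f2_plus_zero_count (m : ℕ) :
    2 * (Finset.univ.filter
      (fun w : Fin m ⊕ Fin m → ZMod 2 => Cfsg.quadFormPlus m (ZMod 2) w = 0)).card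
      = 2 ^ (2 * m) + 2 ^ m := by
  classical
  have h1 := f2_plus_char_sum m
  unfold chi2 at h1
  rw [Finset.sum_ite] at h1
  simp only [Finset.sum_const, nsmul_eq_mul, mul_one, mul_neg] at h1
  have h2 := Finset.card_filter_add_card_filter_not
    (s := (Finset.univ : Finset (Fin m ⊕ Fin m → ZMod 2)))
    (fun w => Cfsg.quadFormPlus m (ZMod 2) w = 0)
  have h3 : (Finset.univ : Finset (Fin m ⊕ Fin m → ZMod 2)).card = 2 ^ (2 * m) := by
    rw [Finset.card_univ]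
    simp
    ring
  rw [h3] at h2
  have h4 : (2 : ℤ) * ((Finset.univ.filter
      (fun w : Fin m ⊕ Fin m → ZMod 2 => Cfsg.quadFormPlus m (ZMod 2) w = 0)).card : ℤ)
      = 2 ^ (2 * m) + 2 ^ m := by
    have h5 : (((Finset.univ.filter
      (fun w : Fin m ⊕ Fin m → ZMod 2 => Cfsg.quadFormPlus m (ZMod 2) w = 0)).card
      + (Finset.univ.filter
      (fun w : Fin m ⊕ Fin m → ZMod 2 => ¬ Cfsg.quadFormPlus m (ZMod 2) w = 0)).card : ℕ) : ℤ)
      = ((2 ^ (2 * m) : ℕ) : ℤ) := by rw [h2]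
    push_cast at h5
    linarith
  exact_mod_cast h4

theorem f2_swap_mulVec (m : ℕ) (t : Fin m ⊕ Fin m → ZMod 2) (i : Fin m ⊕ Fin m) :
    (Matrix.fromBlocks 0 1 1 0 :
      Matrix (Fin m ⊕ Fin m) (Fin m ⊕ Fin m) (ZMod 2)).mulVec t i = t (Sum.swap i) := by
  rw [Matrix.fromBlocks_mulVec]
  rcases i with i | i
  · simp
  · simp

theorem f2_plus_add (m : ℕ) (u v : Fin m ⊕ Fin m → ZMod 2) :
    Cfsg.quadFormPlus m (ZMod 2) (u + v) = Cfsg.quadFormPlus m (ZMod 2) u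
      + Cfsg.quadFormPlus m (ZMod 2) v
      + QuadraticMap.polar (Cfsg.quadFormPlus m (ZMod 2)) u v := by
  unfold QuadraticMap.polar
  ring

theorem f2_theta_hq (m : ℕ) (w u v : Fin m ⊕ Fin m → ZMod 2) :
    Cfsg.quadFormPlus m (ZMod 2) (u + v)
        + QuadraticMap.polar (Cfsg.quadFormPlus m (ZMod 2)) (u + v) w
      = (Cfsg.quadFormPlus m (ZMod 2) u
          + QuadraticMap.polar (Cfsg.quadFormPlus m (ZMod 2)) u w)
        + (Cfsg.quadFormPlus m (ZMod 2) v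
          + QuadraticMap.polar (Cfsg.quadFormPlus m (ZMod 2)) v w)
        + QuadraticMap.polar (Cfsg.quadFormPlus m (ZMod 2)) u v := by
  rw [f2_polar_add_left, f2_plus_add]
  ring

theorem f2_theta_injective (m : ℕ) (w w' : Fin m ⊕ Fin m → ZMod 2)
    (h : ∀ v, QuadraticMap.polar (Cfsg.quadFormPlus m (ZMod 2)) v w
      = QuadraticMap.polar (Cfsg.quadFormPlus m (ZMod 2)) v w') : w = w' := by
  by_contra hne
  have ht : w + w' ≠ 0 := by
    intro h0
    apply hne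
    funext i
    have h1 := congrFun h0 i
    exact CharTwo.add_eq_zero.1 h1
  obtain ⟨u₀, hu₀⟩ := f2_polar_sep m (w + w') ht
  rw [f2_polar_add_right, h u₀, CharTwo.add_self_eq_zero] at hu₀
  exact zero_ne_one hu₀

theorem f2_theta_surjective (m : ℕ) (q : (Fin m ⊕ Fin m → ZMod 2) → ZMod 2)
    (hq : ∀ u v, q (u + v) = q u + q v
      + QuadraticMap.polar (Cfsg.quadFormPlus m (ZMod 2)) u v) :
    ∃ w, ∀ v, q v = Cfsg.quadFormPlus m (ZMod 2) v
      + QuadraticMap.polar (Cfsg.quadFormPlus m (ZMod 2)) v w := by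
  classical
  obtain ⟨ℓ, hℓ⟩ : ∃ ℓ : (Fin m ⊕ Fin m → ZMod 2) →+ ZMod 2,
      ∀ v, ℓ v = q v - Cfsg.quadFormPlus m (ZMod 2) v :=
    ⟨AddMonoidHom.mk' (fun v => q v - Cfsg.quadFormPlus m (ZMod 2) v) (by
      intro u v
      rw [hq, f2_plus_add]
      ring), fun v => rfl⟩
  obtain ⟨L, hL⟩ : ∃ L : (Fin m ⊕ Fin m → ZMod 2) →ₗ[ZMod 2] ZMod 2, ∀ v, L v = ℓ v :=
    ⟨AddMonoidHom.toZModLinearMap 2 ℓ, fun v => rfl⟩
  refine ⟨fun j => L (fun j' => if Sum.swap j = j' then 1 else 0), fun v => ?_⟩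
  have h1 : QuadraticMap.polar (Cfsg.quadFormPlus m (ZMod 2)) v
      (fun j => L (fun j' => if Sum.swap j = j' then 1 else 0)) = L v := by
    rw [polar_quadFormPlus, LinearMap.pi_apply_eq_sum_univ L v]
    unfold dotProduct
    refine Finset.sum_congr rfl fun i _ => ?_
    rw [f2_swap_mulVec, Sum.swap_swap, smul_eq_mul]
  rw [h1, hL, hℓ]
  ring

theorem f2_quadForm_of_hq (m : ℕ) (q : (Fin m ⊕ Fin m → ZMod 2) → ZMod 2)
    (hq : ∀ u v, q (u + v) = q u + q v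
      + QuadraticMap.polar (Cfsg.quadFormPlus m (ZMod 2)) u v) :
    ∃ Q : QuadraticForm (ZMod 2) (Fin m ⊕ Fin m → ZMod 2), (∀ v, Q v = q v) ∧
      (QuadraticMap.polarBilin Q).Nondegenerate := by
  classical
  have hpol : ∀ x y, QuadraticMap.polar q x y
      = QuadraticMap.polar (Cfsg.quadFormPlus m (ZMod 2)) x y := by
    intro x y
    show q (x + y) - q x - q y = _
    rw [hq x y]
    ring
  have hq0 : q 0 = 0 := by
    have h := hq 0 0
    rw [f2_polar_zero_left, add_zero, add_zero] at h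
    have h2 : q 0 + q 0 = q 0 + 0 := by rw [add_zero]; exact h.symm
    exact add_left_cancel h2
  obtain ⟨Q, hQ⟩ : ∃ Q : QuadraticForm (ZMod 2) (Fin m ⊕ Fin m → ZMod 2), ∀ v, Q v = q v :=
    ⟨QuadraticMap.ofPolar q (by
      intro a x
      rcases zmod2_cases a with h | h
      · rw [h, zero_smul, hq0]
        simp
      · rw [h, one_smul]
        simp) (by
      intro x x' y
      rw [hpol, hpol, hpol, f2_polar_add_left]) (by
      intro a x y
      rw [hpol, hpol, polar_quadFormPlus, polar_quadFormPlus, smul_dotProduct]),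
      fun v => rfl⟩
  refine ⟨Q, hQ, ?_⟩
  apply nondeg_of_polar_matrix Q (Matrix.fromBlocks 0 1 1 0)
  · intro u v
    have h5 : (⇑Q : (Fin m ⊕ Fin m → ZMod 2) → ZMod 2) = q := funext hQ
    rw [h5, hpol, polar_quadFormPlus]
  · rw [det_swapBlocks]
    exact pow_ne_zero _ (neg_ne_zero.2 one_ne_zero)

theorem f2_plus_or_minus (k : ℕ) (q : (Fin (k + 1) ⊕ Fin (k + 1) → ZMod 2) → ZMod 2)
    (hq : ∀ u v, q (u + v) = q u + q v
      + QuadraticMap.polar (Cfsg.quadFormPlus (k + 1) (ZMod 2)) u v) :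
    (∃ g : (Fin (k + 1) ⊕ Fin (k + 1) → ZMod 2) ≃ₗ[ZMod 2] (Fin (k + 1) ⊕ Fin (k + 1) → ZMod 2),
      ∀ v, q v = Cfsg.quadFormPlus (k + 1) (ZMod 2) (g v)) ∨
    (∃ g : (Fin (k + 1) ⊕ Fin (k + 1) → ZMod 2) ≃ₗ[ZMod 2] ((Fin k ⊕ Fin k) ⊕ Fin 2 → ZMod 2),
      ∀ v, q v = Cfsg.quadFormMinus k (ZMod 2) 1 1 (g v)) := by
  classical
  obtain ⟨Q, hQ, hnd⟩ := f2_quadForm_of_hq (k + 1) q hq
  have hfin : Module.finrank (ZMod 2) (Fin (k + 1) ⊕ Fin (k + 1) → ZMod 2) = 2 * k + 2 := by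
    simp
    ring
  rcases exists_hyp_family k Q hnd hfin with
    ⟨e, f, h1, h2, h3⟩ | ⟨e, f, x, y, ζ, hζ, h1, h2, h3, h4, hx, hxy, hy⟩
  · left
    obtain ⟨g, hg⟩ := plus_of_family Q (by rw [hfin]; ring) e f h1 h2 h3
    exact ⟨g, fun v => by rw [hg, hQ]⟩
  · right
    have hζ1 : ζ = 1 := by
      rcases zmod2_cases ζ with h | h
      · exfalso
        apply hζ 0
        rw [h]
        ring
      · exact h
    subst hζ1
    obtain ⟨g, hg⟩ := minus_of_family Q hfin e f x y 1 1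
      (aniso_disc 1 1 (aniso_of_irred 1 hζ)) h1 h2 h3 h4 hx hxy hy
    exact ⟨g, fun v => by rw [hg, hQ]⟩

theorem f2_plus_zero_natCard (m : ℕ) :
    2 * Nat.card {w : Fin m ⊕ Fin m → ZMod 2 // Cfsg.quadFormPlus m (ZMod 2) w = 0}
      = 2 ^ (2 * m) + 2 ^ m := by
  rw [Nat.card_eq_fintype_card, Fintype.card_subtype]
  exact f2_plus_zero_count m

end Cfsg.Agent.Helper15
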