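import Mathlib
set_option autoImplicit false

namespace Cfsg.Agent.Helper15
open Matrix

theorem fixed_field_card {F : Type*} [Field F] [Fintype F] {q₀ r : ℕ} (hr : r.Prime)
    (hF : Fintype.card F = q₀ ^ r) (σ : F ≃+* F) (hσ : orderOf σ = r) :
    ∃ F₀ : Subfield F, (∀ x : F, x ∈ F₀ ↔ σ x = x) ∧ Nat.card F₀ = q₀ := by
  classical
  let G : Subgroup (F ≃+* F) := Subgroup.zpowers σ
  refine ⟨FixedPoints.subfield G F, ?_, ?_⟩
  · intro x
    constructor
    · intro hx
      exact hx ⟨σ, Subgroup.mem_zpowers σ⟩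
    · intro hx m
      obtain ⟨m, hm⟩ := m
      show m x = x
      have hle : G ≤ MulAction.stabilizer (F ≃+* F) x := by
        rw [Subgroup.zpowers_le]
        exact hx
      exact hle hm
  · have hfin : Finite (F ≃+* F) := Finite.of_injective (fun e : F ≃+* F => (e : F → F)) DFunLike.coe_injective
    letI : Fintype G := Fintype.ofFinite _
    letI : Fintype (FixedPoints.subfield G F) := Fintype.ofFinite _
    have h1 : Module.finrank (FixedPoints.subfield G F) F = r := by
      rw [FixedPoints.finrank_eq_card G F, ← Nat.card_eq_fintype_card, Nat.card_zpowers, hσ]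
    have h2 := Module.card_eq_pow_finrank (K := FixedPoints.subfield G F) (V := F)
    rw [h1, hF] at h2
    rw [Nat.card_eq_fintype_card]
    exact (Nat.pow_left_injective hr.ne_zero h2).symm

end Cfsg.Agent.Helper15

namespace Cfsg.Agent.Helper15
open Matrix


theorem gl_subfield_scalar_count {F : Type*} [Field F] [Fintype F] (F₀ : Subfield F) (σ : F ≃+* F)
    (hmem : ∀ x : F, x ∈ F₀ ↔ σ x = x) {n : ℕ} (hn : 1 ≤ n) :
    Nat.card {g : GL (Fin n) F // ∃ c : F, c ≠ 0 ∧
      (g : Matrix (Fin n) (Fin n) F).map σ = c • (g : Matrix (Fin n) (Fin n) F)} * (Nat.card F₀ - 1)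
      = (Fintype.card F - 1) * Nat.card (GL (Fin n) F₀) := by
  classical
  let Φ : Fˣ × GL (Fin n) F₀ →* GL (Fin n) F :=
    MonoidHom.noncommCoprod (Matrix.GeneralLinearGroup.scalar (Fin n))
      (Matrix.GeneralLinearGroup.map F₀.subtype)
      (fun d h => Matrix.GeneralLinearGroup.scalar_commute d _)
  have hΦ : ∀ (d : Fˣ) (h : GL (Fin n) F₀) k l,
      ((Φ (d, h) : GL (Fin n) F) : Matrix (Fin n) (Fin n) F) k l
        = (d : F) * ((h : Matrix (Fin n) (Fin n) F₀) k l : F) := by
    intro d h k l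
    show ((Matrix.GeneralLinearGroup.scalar (Fin n) d * Matrix.GeneralLinearGroup.map F₀.subtype h :
      GL (Fin n) F) : Matrix (Fin n) (Fin n) F) k l = _
    rw [Units.val_mul, Matrix.GeneralLinearGroup.coe_scalar, Matrix.scalar_apply, Matrix.diagonal_mul]
    rfl
  have h0 : (⟨0, hn⟩ : Fin n) = ⟨0, hn⟩ := rfl
  have hrange : ∀ g : GL (Fin n) F, g ∈ Φ.range ↔ ∃ c : F, c ≠ 0 ∧
      (g : Matrix (Fin n) (Fin n) F).map σ = c • (g : Matrix (Fin n) (Fin n) F) := by
    intro g
    constructor
    · rintro ⟨⟨d, h⟩, rfl⟩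
      refine ⟨σ d / d, div_ne_zero ((map_ne_zero σ).2 d.ne_zero) d.ne_zero, ?_⟩
      ext k l
      rw [Matrix.map_apply, Matrix.smul_apply, hΦ, map_mul, smul_eq_mul,
        (hmem _).1 ((h : Matrix (Fin n) (Fin n) F₀) k l).2]
      field_simp [d.ne_zero]
    · rintro ⟨c, hc, hg⟩
      have hex : ∃ i j, (g : Matrix (Fin n) (Fin n) F) i j ≠ 0 := by
        by_contra hcon
        push Not at hcon
        have hz : (g : Matrix (Fin n) (Fin n) F) = 0 := by
          ext i j
          exact hcon i j
        have h1 : (g : Matrix (Fin n) (Fin n) F) * ((g⁻¹ : GL (Fin n) F) : Matrix (Fin n) (Fin n) F) = 1 := by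
          rw [← Units.val_mul, mul_inv_cancel, Units.val_one]
        rw [hz, zero_mul] at h1
        have := congrFun (congrFun h1 ⟨0, hn⟩) ⟨0, hn⟩
        rw [Matrix.zero_apply, Matrix.one_apply_eq] at this
        exact zero_ne_one this
      obtain ⟨i, j, hij⟩ := hex
      set d : F := (g : Matrix (Fin n) (Fin n) F) i j with hd
      have hσd : σ d = c * d := by
        have := congrFun (congrFun hg i) j
        rw [Matrix.map_apply, Matrix.smul_apply, smul_eq_mul] at this
        exact this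
      have hfix : ∀ k l, d⁻¹ * (g : Matrix (Fin n) (Fin n) F) k l ∈ F₀ := by
        intro k l
        rw [hmem, map_mul, map_inv₀, hσd]
        have := congrFun (congrFun hg k) l
        rw [Matrix.map_apply, Matrix.smul_apply, smul_eq_mul] at this
        rw [this]
        field_simp
      let M₀ : Matrix (Fin n) (Fin n) F₀ := Matrix.of fun k l => ⟨d⁻¹ * (g : Matrix (Fin n) (Fin n) F) k l, hfix k l⟩
      have hM₀ : (F₀.subtype.mapMatrix M₀) = d⁻¹ • (g : Matrix (Fin n) (Fin n) F) := by
        ext k l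
        rfl
      have hdet : M₀.det ≠ 0 := by
        intro hz
        have h1 := RingHom.map_det F₀.subtype M₀
        rw [hz, map_zero, hM₀, Matrix.det_smul] at h1
        have h2 : (g : Matrix (Fin n) (Fin n) F).det ≠ 0 := by
          have := (Matrix.isUnit_iff_isUnit_det _).1 g.isUnit
          exact this.ne_zero
        exact mul_ne_zero (pow_ne_zero _ (inv_ne_zero hij)) h2 h1.symm
      refine ⟨(Units.mk0 d hij, Matrix.GeneralLinearGroup.mkOfDetNeZero M₀ hdet), ?_⟩
      apply Units.ext
      ext k l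
      rw [hΦ]
      show d * (d⁻¹ * (g : Matrix (Fin n) (Fin n) F) k l) = _
      field_simp
  let ι : F₀ˣ → Fˣ × GL (Fin n) F₀ := fun u =>
    (Units.map F₀.subtype.toMonoidHom u, Matrix.GeneralLinearGroup.scalar (Fin n) u⁻¹)
  have hι : Function.Injective ι := by
    intro u v huv
    have h1 := congrArg Prod.fst huv
    apply Units.ext
    apply Subtype.ext
    exact congrArg Units.val h1
  have hker : (Φ.ker : Set (Fˣ × GL (Fin n) F₀)) = Set.range ι := by
    ext ⟨d, h⟩
    constructor
    · intro hx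
      have hx1 : Φ (d, h) = 1 := hx
      have hent : ∀ k l, (d : F) * ((h : Matrix (Fin n) (Fin n) F₀) k l : F) = (1 : Matrix (Fin n) (Fin n) F) k l := by
        intro k l
        rw [← hΦ, hx1]
        rfl
      have h00 := hent ⟨0, hn⟩ ⟨0, hn⟩
      rw [Matrix.one_apply_eq] at h00
      have hdF : (d : F) ∈ F₀ := by
        have : (d : F) = (((h : Matrix (Fin n) (Fin n) F₀) ⟨0, hn⟩ ⟨0, hn⟩ : F₀) : F)⁻¹ :=
          eq_inv_of_mul_eq_one_left h00
        rw [this]
        exact F₀.inv_mem (Subtype.prop _)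
      have hd0 : (⟨(d : F), hdF⟩ : F₀) ≠ 0 := by
        intro hz
        exact d.ne_zero (congrArg Subtype.val hz)
      refine ⟨Units.mk0 ⟨(d : F), hdF⟩ hd0, ?_⟩
      apply Prod.ext
      · apply Units.ext
        rfl
      · apply Units.ext
        ext k l
        show (((Matrix.GeneralLinearGroup.scalar (Fin n) (Units.mk0 (⟨(d : F), hdF⟩ : F₀) hd0)⁻¹ :
          GL (Fin n) F₀) : Matrix (Fin n) (Fin n) F₀) k l : F) = _
        rw [Matrix.GeneralLinearGroup.coe_scalar, Matrix.scalar_apply, Matrix.diagonal_apply]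
        have hkl := hent k l
        by_cases hkl' : k = l
        · subst hkl'
          rw [if_pos rfl]
          rw [Matrix.one_apply_eq] at hkl
          rw [Units.val_inv_eq_inv_val, Units.val_mk0]
          show (d : F)⁻¹ = _
          exact (eq_inv_of_mul_eq_one_right hkl).symm
        · rw [if_neg hkl']
          rw [Matrix.one_apply_ne hkl'] at hkl
          rcases mul_eq_zero.1 hkl with h | h
          · exact absurd h d.ne_zero
          · exact h.symm
    · rintro ⟨u, hu⟩
      show Φ (d, h) = 1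
      rw [← hu]
      apply Units.ext
      ext k l
      rw [hΦ]
      show ((u : F₀) : F) * (((Matrix.GeneralLinearGroup.scalar (Fin n) u⁻¹ :
          GL (Fin n) F₀) : Matrix (Fin n) (Fin n) F₀) k l : F) = (1 : Matrix (Fin n) (Fin n) F) k l
      rw [Matrix.GeneralLinearGroup.coe_scalar, Matrix.scalar_apply, Matrix.diagonal_apply]
      by_cases hkl' : k = l
      · subst hkl'
        rw [if_pos rfl, Matrix.one_apply_eq, ← Subfield.coe_mul, Units.mul_inv]
        rfl
      · rw [if_neg hkl', Matrix.one_apply_ne hkl']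
        show ((u : F₀) : F) * 0 = 0
        rw [mul_zero]
  have hkercard : Nat.card Φ.ker = Nat.card F₀ - 1 := by
    have : Nat.card Φ.ker = Nat.card (Set.range ι) := by
      rw [← hker]
      rfl
    rw [this, Nat.card_range_of_injective hι, Nat.card_units]
  have h1 := Subgroup.card_mul_index Φ.ker
  rw [Subgroup.index_ker, hkercard] at h1
  have h2 : Nat.card {g : GL (Fin n) F // ∃ c : F, c ≠ 0 ∧
      (g : Matrix (Fin n) (Fin n) F).map σ = c • (g : Matrix (Fin n) (Fin n) F)} = Nat.card Φ.range :=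
    Nat.card_congr (Equiv.subtypeEquivRight (fun g => (hrange g).symm))
  rw [h2, mul_comm, h1, Nat.card_prod, Nat.card_units, Nat.card_eq_fintype_card]

theorem gl_field_aut_count {F : Type*} [Field F] [Fintype F] {q₀ r n : ℕ} (hr : r.Prime) (hn : 1 ≤ n)
    (hF : Fintype.card F = q₀ ^ r) (σ : F ≃+* F) (hσ : orderOf σ = r) :
    Nat.card {g : GL (Fin n) F // ∃ c : F, c ≠ 0 ∧
      (g : Matrix (Fin n) (Fin n) F).map σ = c • (g : Matrix (Fin n) (Fin n) F)}
      = (q₀ ^ r - 1) / (q₀ - 1) * ∏ i : Fin n, (q₀ ^ n - q₀ ^ (i : ℕ)) := by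
  classical
  obtain ⟨F₀, hmem, hcard⟩ := fixed_field_card hr hF σ hσ
  have hcount := gl_subfield_scalar_count F₀ σ hmem hn
  letI : Fintype F₀ := Fintype.ofFinite _
  have hc0 : Fintype.card F₀ = q₀ := by rw [← Nat.card_eq_fintype_card]; exact hcard
  rw [Matrix.card_GL_field, hc0, hF, hcard] at hcount
  have hq : 2 ≤ q₀ := by
    rw [← hcard]
    exact Finite.one_lt_card
  have hdvd : q₀ - 1 ∣ q₀ ^ r - 1 := Nat.sub_one_dvd_pow_sub_one q₀ r
  obtain ⟨t, ht⟩ := hdvd
  rw [ht, Nat.mul_div_cancel_left t (by omega)]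
  rw [ht, mul_assoc, mul_comm] at hcount
  have hpos : 0 < q₀ - 1 := by omega
  exact Nat.eq_of_mul_eq_mul_left hpos (by rw [hcount])

end Cfsg.Agent.Helper15
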