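import Mathlib

set_option autoImplicit false

namespace Cfsg.Agent.Helper15

theorem ringChar_ne_two_of_odd_card {F : Type*} [Field F] [Fintype F] (h : Odd (Fintype.card F)) :
    ringChar F ≠ 2 := by
  intro h2
  have := FiniteField.even_card_of_char_two h2
  rw [Nat.odd_iff] at h
  omega

theorem v2_decomp (n : ℕ) (hn : n ≠ 0) :
    ∃ k m : ℕ, Odd m ∧ n = 2 ^ k * m ∧ padicValNat 2 n = k := by
  obtain ⟨k, m, hm, rfl⟩ := Nat.exists_eq_two_pow_mul_odd hn
  refine ⟨k, m, hm, rfl, ?_⟩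
  have hm0 : m ≠ 0 := by
    rintro rfl
    simp at hm
  rw [padicValNat.mul (pow_ne_zero _ (by norm_num)) hm0, padicValNat.prime_pow,
    padicValNat.eq_zero_of_not_dvd (by
      intro h
      rw [Nat.odd_iff] at hm
      omega)]
  simp

theorem pow_two_pow_eq_neg_one {F : Type*} [Field F] (μ : F) (k : ℕ)
    (hμ : orderOf μ = 2 ^ (k + 1)) : μ ^ (2 ^ k) = -1 := by
  have h1 : μ ^ (2 ^ k) * μ ^ (2 ^ k) = 1 := by
    rw [← pow_add, ← two_mul, ← pow_succ', ← hμ]
    exact pow_orderOf_eq_one μ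
  have h2 : μ ^ (2 ^ k) ≠ 1 := by
    apply pow_ne_one_of_lt_orderOf (pow_ne_zero _ (by norm_num))
    rw [hμ]
    exact Nat.pow_lt_pow_right (by norm_num) (by omega)
  rcases mul_self_eq_one_iff.1 h1 with h | h
  · exact absurd h h2
  · exact h

theorem exists_pow_two_pow_eq_neg_one {F : Type*} [Field F] [Fintype F] (b : ℕ)
    (hb : 2 ^ (b + 1) ∣ Fintype.card F - 1) : ∃ η : F, η ≠ 0 ∧ η ^ (2 ^ b) = -1 := by
  classical
  obtain ⟨ζ, hζ⟩ := IsCyclic.exists_generator (α := Fˣ)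
  have hord : orderOf ζ = Fintype.card F - 1 := by
    rw [orderOf_eq_card_of_forall_mem_zpowers hζ, Nat.card_eq_fintype_card, Fintype.card_units]
  have hN : Fintype.card F - 1 ≠ 0 := by
    have := Fintype.one_lt_card (α := F)
    omega
  obtain ⟨t, ht⟩ := hb
  have ht0 : t ≠ 0 := by
    rintro rfl
    simp at ht
    exact hN ht
  have hord2 : orderOf (ζ ^ t) = 2 ^ (b + 1) := by
    rw [orderOf_pow_of_dvd ht0 (by rw [hord, ht]; exact dvd_mul_left _ _), hord, ht]
    exact Nat.mul_div_cancel _ (Nat.pos_of_ne_zero ht0)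
  refine ⟨((ζ ^ t : Fˣ) : F), Units.ne_zero _, ?_⟩
  apply pow_two_pow_eq_neg_one
  rw [orderOf_units, hord2]

theorem isSquare_neg_one_pow_iff {F : Type*} [Field F] [Fintype F] {q : ℕ}
    (hF : Fintype.card F = q) (hq : Odd q) (m : ℕ) :
    IsSquare ((-1 : F) ^ m) ↔ Even (m * (q - 1) / 2) := by
  obtain ⟨t, ht⟩ := hq
  have h1 : m * (q - 1) / 2 = m * t := by
    have : m * (q - 1) = 2 * (m * t) := by
      rw [ht]; simp; ring
    rw [this, Nat.mul_div_cancel_left _ (by norm_num : 0 < 2)]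
  rw [h1]
  rcases Nat.even_or_odd m with hm | hm
  · rw [hm.neg_one_pow]
    simp only [IsSquare.one, true_iff]
    exact hm.mul_right t
  · rw [hm.neg_one_pow, FiniteField.isSquare_neg_one_iff, hF, Nat.even_mul]
    rw [Nat.odd_iff] at hm
    rw [Nat.even_iff, Nat.even_iff]
    omega

end Cfsg.Agent.Helper15
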