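import Mathlib
import Cfsg.Prelude.Def_ClassicalGeometry

set_option autoImplicit false

namespace Cfsg.Agent.Helper15

/-- Membership in the stabiliser of the coordinate subspace: the lower-left block vanishes. -/
theorem gl_stab_coord_iff {F : Type*} [Field F] [Finite F] (n k : ℕ)
    (g : Matrix.GeneralLinearGroup (Fin n) F) :
    g ∈ Cfsg.stabilizing (Cfsg.glToMat (Fin n) F) {v : Fin n → F | ∀ i : Fin n, k ≤ (i : ℕ) → v i = 0}
      ↔ ∀ i j : Fin n, k ≤ (i : ℕ) → (j : ℕ) < k → (g : Matrix (Fin n) (Fin n) F) i j = 0 := by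
  classical
  constructor
  · intro hg i j hi hj
    have h1 := (hg (Pi.single j 1)).1 (by
      intro i' hi'
      have hne : i' ≠ j := by
        rintro rfl
        omega
      rw [Pi.single_eq_of_ne hne])
    have h2 := h1 i hi
    have h3 : (Cfsg.glToMat (Fin n) F g).mulVec (Pi.single j 1) i
        = (g : Matrix (Fin n) (Fin n) F) i j := by
      rw [Matrix.mulVec_single_one]
      rfl
    rw [← h3]
    exact h2
  · intro hC
    have hfwd : ∀ v : Fin n → F, v ∈ {v : Fin n → F | ∀ i : Fin n, k ≤ (i : ℕ) → v i = 0} →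
        (g : Matrix (Fin n) (Fin n) F).mulVec v
          ∈ {v : Fin n → F | ∀ i : Fin n, k ≤ (i : ℕ) → v i = 0} := by
      intro v hv i hi
      show ∑ j, (g : Matrix (Fin n) (Fin n) F) i j * v j = 0
      apply Finset.sum_eq_zero
      intro j _
      by_cases hj : (j : ℕ) < k
      · rw [hC i j hi hj, zero_mul]
      · rw [hv j (by omega), mul_zero]
    have hinj : Function.Injective (fun v : Fin n → F => (g : Matrix (Fin n) (Fin n) F).mulVec v) := by
      intro v w hvw
      have h1 : ((g⁻¹ : Matrix.GeneralLinearGroup (Fin n) F) : Matrix (Fin n) (Fin n) F).mulVec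
          ((g : Matrix (Fin n) (Fin n) F).mulVec v)
          = ((g⁻¹ : Matrix.GeneralLinearGroup (Fin n) F) : Matrix (Fin n) (Fin n) F).mulVec
          ((g : Matrix (Fin n) (Fin n) F).mulVec w) := congrArg _ hvw
      rw [Matrix.mulVec_mulVec, Matrix.mulVec_mulVec, ← Matrix.GeneralLinearGroup.coe_mul,
        inv_mul_cancel, Matrix.GeneralLinearGroup.coe_one, Matrix.one_mulVec,
        Matrix.one_mulVec] at h1
      exact h1
    let f : {v : Fin n → F | ∀ i : Fin n, k ≤ (i : ℕ) → v i = 0} →
        {v : Fin n → F | ∀ i : Fin n, k ≤ (i : ℕ) → v i = 0} :=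
      fun v => ⟨(g : Matrix (Fin n) (Fin n) F).mulVec v.1, hfwd v.1 v.2⟩
    have hfinj : Function.Injective f := by
      intro v w hvw
      apply Subtype.ext
      exact hinj (congrArg Subtype.val hvw)
    have hfsurj : Function.Surjective f := Finite.injective_iff_surjective.1 hfinj
    intro v
    constructor
    · intro hv
      exact hfwd v hv
    · intro hv
      obtain ⟨s, hs⟩ := hfsurj ⟨_, hv⟩
      have h1 : (g : Matrix (Fin n) (Fin n) F).mulVec s.1
          = (g : Matrix (Fin n) (Fin n) F).mulVec v := congrArg Subtype.val hs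
      rw [← hinj h1]
      exact s.2

/-- The order of the stabiliser of a coordinate subspace in `GL_n(q)`. -/
theorem card_gl_stab_coord {F : Type*} [Field F] [Fintype F] {q : ℕ}
    (hF : Fintype.card F = q) (n k : ℕ) (hk : k ≤ n) :
    Nat.card ↥(Cfsg.stabilizing (Cfsg.glToMat (Fin n) F)
      {v : Fin n → F | ∀ i : Fin n, k ≤ (i : ℕ) → v i = 0})
    = q ^ (k * (n - k)) * (∏ i : Fin k, (q ^ k - q ^ (i : ℕ)))
      * ∏ i : Fin (n - k), (q ^ (n - k) - q ^ (i : ℕ)) := by
  classical
  have hkn : k + (n - k) = n := by omega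
  let e : Fin k ⊕ Fin (n - k) ≃ Fin n := finSumFinEquiv.trans (finCongr hkn)
  have hel : ∀ a : Fin k, ((e (Sum.inl a) : Fin n) : ℕ) = a := by
    intro a
    simp [e]
  have her : ∀ b : Fin (n - k), ((e (Sum.inr b) : Fin n) : ℕ) = k + b := by
    intro b
    simp [e]
  have hsl : ∀ j : Fin n, (j : ℕ) < k → ∃ a, e.symm j = Sum.inl a := by
    intro j hj
    rcases h : e.symm j with a | b
    · exact ⟨a, rfl⟩
    · exfalso
      have h1 := her b
      rw [← h, Equiv.apply_symm_apply] at h1
      omega
  have hsr : ∀ i : Fin n, k ≤ (i : ℕ) → ∃ b, e.symm i = Sum.inr b := by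
    intro i hi
    rcases h : e.symm i with a | b
    · exfalso
      have h1 := hel a
      rw [← h, Equiv.apply_symm_apply] at h1
      have := a.2
      omega
    · exact ⟨b, rfl⟩
  -- the equivalence with block data
  have hblock : ∀ g : {g : Matrix.GeneralLinearGroup (Fin n) F //
      ∀ i j : Fin n, k ≤ (i : ℕ) → (j : ℕ) < k → (g : Matrix (Fin n) (Fin n) F) i j = 0},
      ((g.1 : Matrix (Fin n) (Fin n) F).submatrix e e).toBlocks₂₁ = 0 := by
    intro g
    ext b a
    show (g.1 : Matrix (Fin n) (Fin n) F) (e (Sum.inr b)) (e (Sum.inl a)) = 0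
    apply g.2
    · rw [her]
      omega
    · rw [hel]
      exact a.2
  have hdet : ∀ g : {g : Matrix.GeneralLinearGroup (Fin n) F //
      ∀ i j : Fin n, k ≤ (i : ℕ) → (j : ℕ) < k → (g : Matrix (Fin n) (Fin n) F) i j = 0},
      ((g.1 : Matrix (Fin n) (Fin n) F).submatrix e e).toBlocks₁₁.det
        * ((g.1 : Matrix (Fin n) (Fin n) F).submatrix e e).toBlocks₂₂.det
      = (g.1 : Matrix (Fin n) (Fin n) F).det := by
    intro g
    rw [← Matrix.det_fromBlocks_zero₂₁ _ ((g.1 : Matrix (Fin n) (Fin n) F).submatrix e e).toBlocks₁₂,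
      ← hblock g, Matrix.fromBlocks_toBlocks, Matrix.det_submatrix_equiv_self]
  have hdet0 : ∀ g : {g : Matrix.GeneralLinearGroup (Fin n) F //
      ∀ i j : Fin n, k ≤ (i : ℕ) → (j : ℕ) < k → (g : Matrix (Fin n) (Fin n) F) i j = 0},
      (g.1 : Matrix (Fin n) (Fin n) F).det ≠ 0 := by
    intro g
    have h1 : IsUnit (g.1 : Matrix (Fin n) (Fin n) F).det :=
      (Matrix.isUnit_iff_isUnit_det _).1 (Units.isUnit g.1)
    exact h1.ne_zero
  let Φ : {g : Matrix.GeneralLinearGroup (Fin n) F //
      ∀ i j : Fin n, k ≤ (i : ℕ) → (j : ℕ) < k → (g : Matrix (Fin n) (Fin n) F) i j = 0}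
      ≃ Matrix.GeneralLinearGroup (Fin k) F × Matrix (Fin k) (Fin (n - k)) F
        × Matrix.GeneralLinearGroup (Fin (n - k)) F :=
    { toFun := fun g =>
        (Matrix.GeneralLinearGroup.mkOfDetNeZero
          ((g.1 : Matrix (Fin n) (Fin n) F).submatrix e e).toBlocks₁₁
          (fun h0 => hdet0 g (by rw [← hdet g, h0, zero_mul])),
         ((g.1 : Matrix (Fin n) (Fin n) F).submatrix e e).toBlocks₁₂,
         Matrix.GeneralLinearGroup.mkOfDetNeZero
          ((g.1 : Matrix (Fin n) (Fin n) F).submatrix e e).toBlocks₂₂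
          (fun h0 => hdet0 g (by rw [← hdet g, h0, mul_zero])))
      invFun := fun p =>
        ⟨Matrix.GeneralLinearGroup.mkOfDetNeZero
          ((Matrix.fromBlocks (p.1 : Matrix (Fin k) (Fin k) F) p.2.1 0
            (p.2.2 : Matrix (Fin (n - k)) (Fin (n - k)) F)).submatrix e.symm e.symm)
          (by
            rw [Matrix.det_submatrix_equiv_self, Matrix.det_fromBlocks_zero₂₁]
            have h1 : IsUnit (p.1 : Matrix (Fin k) (Fin k) F).det :=
              (Matrix.isUnit_iff_isUnit_det _).1 (Units.isUnit p.1)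
            have h2 : IsUnit (p.2.2 : Matrix (Fin (n - k)) (Fin (n - k)) F).det :=
              (Matrix.isUnit_iff_isUnit_det _).1 (Units.isUnit p.2.2)
            exact mul_ne_zero h1.ne_zero h2.ne_zero),
          by
            intro i j hi hj
            obtain ⟨a, ha⟩ := hsl j hj
            obtain ⟨b, hb⟩ := hsr i hi
            show (Matrix.fromBlocks (p.1 : Matrix (Fin k) (Fin k) F) p.2.1 0
              (p.2.2 : Matrix (Fin (n - k)) (Fin (n - k)) F)) (e.symm i) (e.symm j) = 0
            rw [ha, hb]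
            rfl⟩
      left_inv := by
        intro g
        apply Subtype.ext
        apply Units.ext
        show (Matrix.fromBlocks ((g.1 : Matrix (Fin n) (Fin n) F).submatrix e e).toBlocks₁₁
            ((g.1 : Matrix (Fin n) (Fin n) F).submatrix e e).toBlocks₁₂ 0
            ((g.1 : Matrix (Fin n) (Fin n) F).submatrix e e).toBlocks₂₂).submatrix e.symm e.symm
          = (g.1 : Matrix (Fin n) (Fin n) F)
        rw [← hblock g, Matrix.fromBlocks_toBlocks, Matrix.submatrix_submatrix]
        simp
      right_inv := by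
        rintro ⟨a, B, d⟩
        have h1 : ((Matrix.fromBlocks (a : Matrix (Fin k) (Fin k) F) B 0
            (d : Matrix (Fin (n - k)) (Fin (n - k)) F)).submatrix e.symm e.symm).submatrix e e
            = Matrix.fromBlocks (a : Matrix (Fin k) (Fin k) F) B 0
              (d : Matrix (Fin (n - k)) (Fin (n - k)) F) := by
          rw [Matrix.submatrix_submatrix]
          simp
        refine Prod.ext ?_ (Prod.ext ?_ ?_)
        · apply Units.ext
          show (((Matrix.fromBlocks (a : Matrix (Fin k) (Fin k) F) B 0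
            (d : Matrix (Fin (n - k)) (Fin (n - k)) F)).submatrix e.symm e.symm).submatrix
              e e).toBlocks₁₁ = (a : Matrix (Fin k) (Fin k) F)
          rw [h1, Matrix.toBlocks_fromBlocks₁₁]
        · show (((Matrix.fromBlocks (a : Matrix (Fin k) (Fin k) F) B 0
            (d : Matrix (Fin (n - k)) (Fin (n - k)) F)).submatrix e.symm e.symm).submatrix
              e e).toBlocks₁₂ = B
          rw [h1, Matrix.toBlocks_fromBlocks₁₂]
        · apply Units.ext
          show (((Matrix.fromBlocks (a : Matrix (Fin k) (Fin k) F) B 0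
            (d : Matrix (Fin (n - k)) (Fin (n - k)) F)).submatrix e.symm e.symm).submatrix
              e e).toBlocks₂₂ = (d : Matrix (Fin (n - k)) (Fin (n - k)) F)
          rw [h1, Matrix.toBlocks_fromBlocks₂₂] }
  have hcard1 : Nat.card ↥(Cfsg.stabilizing (Cfsg.glToMat (Fin n) F)
      {v : Fin n → F | ∀ i : Fin n, k ≤ (i : ℕ) → v i = 0})
      = Nat.card {g : Matrix.GeneralLinearGroup (Fin n) F //
        ∀ i j : Fin n, k ≤ (i : ℕ) → (j : ℕ) < k → (g : Matrix (Fin n) (Fin n) F) i j = 0} :=
    Nat.card_congr (Equiv.subtypeEquivRight (fun g => gl_stab_coord_iff n k g))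
  rw [hcard1, Nat.card_congr Φ, Nat.card_prod, Nat.card_prod, Matrix.card_GL_field,
    Matrix.card_GL_field, hF]
  have hmat : Nat.card (Matrix (Fin k) (Fin (n - k)) F) = q ^ (k * (n - k)) := by
    have h1 : Nat.card (Matrix (Fin k) (Fin (n - k)) F)
        = Nat.card (Fin k × Fin (n - k) → F) :=
      Nat.card_congr (Equiv.curry (Fin k) (Fin (n - k)) F).symm
    rw [h1, Nat.card_eq_fintype_card, Fintype.card_fun, Fintype.card_prod, Fintype.card_fin,
      Fintype.card_fin, hF]
  rw [hmat]
  ring

end Cfsg.Agent.Helper15
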