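import Mathlib
import Cfsg.Agent.Helper15.GLParab

set_option autoImplicit false

namespace Cfsg.Agent.Helper15

/-- The rank one perturbation `1 + x yᵀ` of the identity as an element of `GL`. -/
noncomputable def glRk1 {F : Type*} [Field F] {n : ℕ} (x y : Fin n → F) (h : 1 + y ⬝ᵥ x ≠ 0) :
    Matrix.GeneralLinearGroup (Fin n) F :=
  Matrix.GeneralLinearGroup.mkOfDetNeZero (1 + Matrix.vecMulVec x y) (by
    rw [Matrix.vecMulVec_eq (Fin 1), Matrix.det_one_add_replicateCol_mul_replicateRow]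
    exact h)

theorem glRk1_val {F : Type*} [Field F] {n : ℕ} (x y : Fin n → F) (h : 1 + y ⬝ᵥ x ≠ 0) :
    ((glRk1 x y h : Matrix.GeneralLinearGroup (Fin n) F) : Matrix (Fin n) (Fin n) F)
      = 1 + Matrix.vecMulVec x y := rfl

theorem glRk1_mulVec {F : Type*} [Field F] {n : ℕ} (x y : Fin n → F) (h : 1 + y ⬝ᵥ x ≠ 0)
    (v : Fin n → F) :
    ((glRk1 x y h : Matrix.GeneralLinearGroup (Fin n) F) : Matrix (Fin n) (Fin n) F).mulVec v
      = v + (y ⬝ᵥ v) • x := by
  rw [glRk1_val, Matrix.add_mulVec, Matrix.one_mulVec, Matrix.vecMulVec_mulVec, op_smul_eq_smul]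

theorem glRk1_mem_left {F : Type*} [Field F] [Finite F] {n : ℕ} (k : ℕ) (x y : Fin n → F)
    (h : 1 + y ⬝ᵥ x ≠ 0) (hx : ∀ i : Fin n, k ≤ (i : ℕ) → x i = 0) :
    glRk1 x y h ∈ Cfsg.stabilizing (Cfsg.glToMat (Fin n) F)
      {v : Fin n → F | ∀ i : Fin n, k ≤ (i : ℕ) → v i = 0} := by
  rw [gl_stab_coord_iff]
  intro i j hi hj
  have hij : i ≠ j := by
    rintro rfl
    omega
  rw [glRk1_val, Matrix.add_apply, Matrix.one_apply_ne hij, Matrix.vecMulVec_apply, hx i hi]
  ring

theorem glRk1_mem_right {F : Type*} [Field F] [Finite F] {n : ℕ} (k : ℕ) (x y : Fin n → F)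
    (h : 1 + y ⬝ᵥ x ≠ 0) (hy : ∀ j : Fin n, (j : ℕ) < k → y j = 0) :
    glRk1 x y h ∈ Cfsg.stabilizing (Cfsg.glToMat (Fin n) F)
      {v : Fin n → F | ∀ i : Fin n, k ≤ (i : ℕ) → v i = 0} := by
  rw [gl_stab_coord_iff]
  intro i j hi hj
  have hij : i ≠ j := by
    rintro rfl
    omega
  rw [glRk1_val, Matrix.add_apply, Matrix.one_apply_ne hij, Matrix.vecMulVec_apply, hy j hj]
  ring

theorem glRk1_conj {F : Type*} [Field F] {n : ℕ} (g : Matrix.GeneralLinearGroup (Fin n) F)
    (x y : Fin n → F) (h : 1 + y ⬝ᵥ (g : Matrix (Fin n) (Fin n) F).mulVec x ≠ 0)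
    (h' : 1 + Matrix.vecMul y (g : Matrix (Fin n) (Fin n) F) ⬝ᵥ x ≠ 0) :
    glRk1 ((g : Matrix (Fin n) (Fin n) F).mulVec x) y h
      = g * glRk1 x (Matrix.vecMul y (g : Matrix (Fin n) (Fin n) F)) h' * g⁻¹ := by
  rw [eq_mul_inv_iff_mul_eq]
  apply Units.ext
  show (1 + Matrix.vecMulVec ((g : Matrix (Fin n) (Fin n) F).mulVec x) y)
      * (g : Matrix (Fin n) (Fin n) F)
    = (g : Matrix (Fin n) (Fin n) F)
      * (1 + Matrix.vecMulVec x (Matrix.vecMul y (g : Matrix (Fin n) (Fin n) F)))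
  rw [add_mul, one_mul, mul_add, mul_one, Matrix.vecMulVec_mul, Matrix.mul_vecMulVec]

/-- A coordinate vector is in a subspace as soon as a vector with that coordinate nonzero is,
together with the other coordinate vectors of its support. -/
theorem single_mem_of_support {F : Type*} [Field F] {n : ℕ} (U : Submodule F (Fin n → F))
    (u : Fin n → F) (hu : u ∈ U) (b : Fin n) (hb : u b ≠ 0)
    (h : ∀ a, a ≠ b → u a ≠ 0 → (Pi.single a 1 : Fin n → F) ∈ U) :
    (Pi.single b 1 : Fin n → F) ∈ U := by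
  classical
  have hsum : u = ∑ a, u a • (Pi.single a 1 : Fin n → F) := pi_eq_sum_univ' u
  rw [← Finset.add_sum_erase Finset.univ _ (Finset.mem_univ b)] at hsum
  have h1 : u b • (Pi.single b 1 : Fin n → F)
      = u - ∑ a ∈ Finset.univ.erase b, u a • (Pi.single a 1 : Fin n → F) := by
    nth_rewrite 2 [hsum]
    abel
  have h2 : u b • (Pi.single b 1 : Fin n → F) ∈ U := by
    rw [h1]
    apply U.sub_mem hu
    apply U.sum_mem
    intro a ha
    by_cases h0 : u a = 0
    · rw [h0, zero_smul]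
      exact U.zero_mem
    · exact U.smul_mem _ (h a (Finset.ne_of_mem_erase ha) h0)
  have h3 := U.smul_mem (u b)⁻¹ h2
  rw [smul_smul, inv_mul_cancel₀ hb, one_smul] at h3
  exact h3

theorem mem_of_singles {F : Type*} [Field F] {n : ℕ} (U : Submodule F (Fin n → F))
    (w : Fin n → F) (h : ∀ a, w a ≠ 0 → (Pi.single a 1 : Fin n → F) ∈ U) : w ∈ U := by
  classical
  rw [pi_eq_sum_univ' w]
  apply U.sum_mem
  intro a _
  by_cases h0 : w a = 0
  · rw [h0, zero_smul]
    exact U.zero_mem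
  · exact U.smul_mem _ (h a h0)

/-- Invariant subspaces of the parabolic: one containing a vector outside `W_k` is everything. -/
theorem parab_inv_top {F : Type*} [Field F] [Finite F] {n : ℕ} (k : ℕ)
    (U : Submodule F (Fin n → F))
    (hU : ∀ p ∈ Cfsg.stabilizing (Cfsg.glToMat (Fin n) F)
      {v : Fin n → F | ∀ i : Fin n, k ≤ (i : ℕ) → v i = 0}, ∀ u ∈ U,
        (p : Matrix (Fin n) (Fin n) F).mulVec u ∈ U)
    (u : Fin n → F) (hu : u ∈ U) (b : Fin n) (hbk : k ≤ (b : ℕ)) (hb : u b ≠ 0) : U = ⊤ := by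
  classical
  have h1 : ∀ a, a ≠ b → (Pi.single a 1 : Fin n → F) ∈ U := by
    intro a hab
    have hne : 1 + (Pi.single b 1 : Fin n → F) ⬝ᵥ (Pi.single a 1 : Fin n → F) ≠ 0 := by
      rw [single_dotProduct, one_mul, Pi.single_eq_of_ne hab.symm, add_zero]
      exact one_ne_zero
    have h2 := hU _ (glRk1_mem_right k (Pi.single a 1) (Pi.single b 1) hne (by
      intro j hj
      have hjb : j ≠ b := by
        rintro rfl
        omega
      rw [Pi.single_eq_of_ne hjb])) u hu
    rw [glRk1_mulVec, single_dotProduct, one_mul] at h2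
    have h3 := U.sub_mem h2 hu
    rw [add_sub_cancel_left] at h3
    have h4 := U.smul_mem (u b)⁻¹ h3
    rw [smul_smul, inv_mul_cancel₀ hb, one_smul] at h4
    exact h4
  have h2 : (Pi.single b 1 : Fin n → F) ∈ U :=
    single_mem_of_support U u hu b hb (fun a hab _ => h1 a hab)
  rw [eq_top_iff]
  intro w _
  apply mem_of_singles U w
  intro a _
  by_cases hab : a = b
  · rw [hab]
    exact h2
  · exact h1 a hab

/-- Invariant subspaces of the parabolic: a nonzero one contains `W_k`. -/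
theorem parab_inv_ge {F : Type*} [Field F] [Finite F] {n : ℕ} (k : ℕ)
    (U : Submodule F (Fin n → F))
    (hU : ∀ p ∈ Cfsg.stabilizing (Cfsg.glToMat (Fin n) F)
      {v : Fin n → F | ∀ i : Fin n, k ≤ (i : ℕ) → v i = 0}, ∀ u ∈ U,
        (p : Matrix (Fin n) (Fin n) F).mulVec u ∈ U)
    (u : Fin n → F) (hu : u ∈ U) (hu0 : u ≠ 0) (w : Fin n → F)
    (hw : ∀ i : Fin n, k ≤ (i : ℕ) → w i = 0) : w ∈ U := by
  classical
  by_cases hex : ∃ b : Fin n, k ≤ (b : ℕ) ∧ u b ≠ 0
  · obtain ⟨b, hbk, hb⟩ := hex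
    rw [parab_inv_top k U hU u hu b hbk hb]
    exact Submodule.mem_top
  push Not at hex
  obtain ⟨b, hb⟩ : ∃ b, u b ≠ 0 := by
    by_contra hcon
    push Not at hcon
    exact hu0 (funext hcon)
  have hbk : (b : ℕ) < k := by
    by_contra hcon
    exact hb (hex b (by omega))
  have h1 : ∀ a : Fin n, (a : ℕ) < k → a ≠ b → (Pi.single a 1 : Fin n → F) ∈ U := by
    intro a hak hab
    have hne : 1 + (Pi.single b 1 : Fin n → F) ⬝ᵥ (Pi.single a 1 : Fin n → F) ≠ 0 := by
      rw [single_dotProduct, one_mul, Pi.single_eq_of_ne hab.symm, add_zero]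
      exact one_ne_zero
    have h2 := hU _ (glRk1_mem_left k (Pi.single a 1) (Pi.single b 1) hne (by
      intro i hi
      have hia : i ≠ a := by
        rintro rfl
        omega
      rw [Pi.single_eq_of_ne hia])) u hu
    rw [glRk1_mulVec, single_dotProduct, one_mul] at h2
    have h3 := U.sub_mem h2 hu
    rw [add_sub_cancel_left] at h3
    have h4 := U.smul_mem (u b)⁻¹ h3
    rw [smul_smul, inv_mul_cancel₀ hb, one_smul] at h4
    exact h4
  have h2 : (Pi.single b 1 : Fin n → F) ∈ U := by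
    apply single_mem_of_support U u hu b hb
    intro a hab ha0
    apply h1 a _ hab
    by_contra hcon
    exact ha0 (hex a (by omega))
  apply mem_of_singles U w
  intro a ha0
  have hak : (a : ℕ) < k := by
    by_contra hcon
    exact ha0 (hw a (by omega))
  by_cases hab : a = b
  · rw [hab]
    exact h2
  · exact h1 a hak hab

/-- The number of vectors in a coordinate subspace. -/
theorem card_coord_subspace {F : Type*} [Field F] [Finite F] (n j : ℕ) (hj : j ≤ n) :
    Nat.card {v : Fin n → F // ∀ i : Fin n, j ≤ (i : ℕ) → v i = 0} = Nat.card F ^ j := by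
  classical
  have e : {v : Fin n → F // ∀ i : Fin n, j ≤ (i : ℕ) → v i = 0} ≃ (Fin j → F) :=
    { toFun := fun v a => v.1 (Fin.castLE hj a)
      invFun := fun w => ⟨fun i => if h : (i : ℕ) < j then w ⟨i, h⟩ else 0, by
        intro i hi
        show (if h : (i : ℕ) < j then w ⟨i, h⟩ else 0) = 0
        rw [dif_neg (by omega)]⟩
      left_inv := by
        intro v
        apply Subtype.ext
        funext i
        by_cases h : (i : ℕ) < j
        · show (if h : (i : ℕ) < j then v.1 (Fin.castLE hj ⟨i, h⟩) else 0) = v.1 i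
          rw [dif_pos h]
          congr 1
        · show (if h : (i : ℕ) < j then v.1 (Fin.castLE hj ⟨i, h⟩) else 0) = v.1 i
          rw [dif_neg h, v.2 i (by omega)]
      right_inv := by
        intro w
        funext a
        show (if h : ((Fin.castLE hj a : Fin n) : ℕ) < j then w ⟨(Fin.castLE hj a : Fin n), h⟩
          else 0) = w a
        rw [dif_pos (by simp)]
        congr 1 }
  rw [Nat.card_congr e, Nat.card_fun, Nat.card_fin]

end Cfsg.Agent.Helper15
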