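import Mathlib
import Cfsg.Agent.Helper15.GLParab2

set_option autoImplicit false

namespace Cfsg.Agent.Helper15

/-- Transpose and reverse the indices. -/
def revT {F : Type*} {n : ℕ} (M : Matrix (Fin n) (Fin n) F) : Matrix (Fin n) (Fin n) F :=
  M.transpose.submatrix Fin.revPerm Fin.revPerm

theorem revT_apply {F : Type*} {n : ℕ} (M : Matrix (Fin n) (Fin n) F) (i j : Fin n) :
    revT M i j = M (Fin.rev j) (Fin.rev i) := rfl

theorem revT_mul {F : Type*} [Field F] {n : ℕ} (M N : Matrix (Fin n) (Fin n) F) :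
    revT (M * N) = revT N * revT M := by
  unfold revT
  rw [Matrix.transpose_mul, Matrix.submatrix_mul_equiv]

theorem revT_one {F : Type*} [Field F] {n : ℕ} :
    revT (1 : Matrix (Fin n) (Fin n) F) = 1 := by
  unfold revT
  rw [Matrix.transpose_one, Matrix.submatrix_one_equiv]

theorem revT_revT {F : Type*} {n : ℕ} (M : Matrix (Fin n) (Fin n) F) : revT (revT M) = M := by
  ext i j
  rw [revT_apply, revT_apply, Fin.rev_rev, Fin.rev_rev]

/-- The inverse-transpose-reverse map on `GL_n`. -/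
def glDualFun {F : Type*} [Field F] {n : ℕ} (g : Matrix.GeneralLinearGroup (Fin n) F) :
    Matrix.GeneralLinearGroup (Fin n) F :=
  ⟨revT ((g⁻¹ : Matrix.GeneralLinearGroup (Fin n) F) : Matrix (Fin n) (Fin n) F),
    revT (g : Matrix (Fin n) (Fin n) F),
    by rw [← revT_mul, ← Matrix.GeneralLinearGroup.coe_mul, mul_inv_cancel,
      Matrix.GeneralLinearGroup.coe_one, revT_one],
    by rw [← revT_mul, ← Matrix.GeneralLinearGroup.coe_mul, inv_mul_cancel,
      Matrix.GeneralLinearGroup.coe_one, revT_one]⟩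

theorem glDualFun_val {F : Type*} [Field F] {n : ℕ} (g : Matrix.GeneralLinearGroup (Fin n) F) :
    ((glDualFun g : Matrix.GeneralLinearGroup (Fin n) F) : Matrix (Fin n) (Fin n) F)
      = revT ((g⁻¹ : Matrix.GeneralLinearGroup (Fin n) F) : Matrix (Fin n) (Fin n) F) := rfl

theorem glDualFun_inv_val {F : Type*} [Field F] {n : ℕ}
    (g : Matrix.GeneralLinearGroup (Fin n) F) :
    (((glDualFun g)⁻¹ : Matrix.GeneralLinearGroup (Fin n) F) : Matrix (Fin n) (Fin n) F)
      = revT (g : Matrix (Fin n) (Fin n) F) := rfl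

theorem glDualFun_mul {F : Type*} [Field F] {n : ℕ} (g h : Matrix.GeneralLinearGroup (Fin n) F) :
    glDualFun (g * h) = glDualFun g * glDualFun h := by
  apply Units.ext
  rw [Matrix.GeneralLinearGroup.coe_mul, glDualFun_val, glDualFun_val, glDualFun_val, mul_inv_rev,
    Matrix.GeneralLinearGroup.coe_mul, revT_mul]

theorem glDualFun_invol {F : Type*} [Field F] {n : ℕ} (g : Matrix.GeneralLinearGroup (Fin n) F) :
    glDualFun (glDualFun g) = g := by
  apply Units.ext
  rw [glDualFun_val, glDualFun_inv_val, revT_revT]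

theorem glDualFun_mem {F : Type*} [Field F] [Finite F] {n : ℕ} (k : ℕ) (hk : k ≤ n)
    (g : Matrix.GeneralLinearGroup (Fin n) F)
    (hg : g ∈ Cfsg.stabilizing (Cfsg.glToMat (Fin n) F)
      {v : Fin n → F | ∀ i : Fin n, k ≤ (i : ℕ) → v i = 0}) :
    glDualFun g ∈ Cfsg.stabilizing (Cfsg.glToMat (Fin n) F)
      {v : Fin n → F | ∀ i : Fin n, n - k ≤ (i : ℕ) → v i = 0} := by
  have hg' := (gl_stab_coord_iff n k g⁻¹).1 (Subgroup.inv_mem _ hg)
  rw [gl_stab_coord_iff]
  intro i j hi hj
  rw [glDualFun_val, revT_apply]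
  apply hg'
  · rw [Fin.val_rev]
    omega
  · rw [Fin.val_rev]
    have := i.2
    omega

/-- The stabilisers of coordinate subspaces of complementary dimensions are isomorphic. -/
theorem parab_dual_equiv {F : Type*} [Field F] [Finite F] (n k : ℕ) (hk : k ≤ n) :
    Nonempty (↥(Cfsg.stabilizing (Cfsg.glToMat (Fin n) F)
        {v : Fin n → F | ∀ i : Fin n, k ≤ (i : ℕ) → v i = 0})
      ≃* ↥(Cfsg.stabilizing (Cfsg.glToMat (Fin n) F)
        {v : Fin n → F | ∀ i : Fin n, n - k ≤ (i : ℕ) → v i = 0})) := by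
  have hnk : n - (n - k) = k := by omega
  refine ⟨{ toFun := fun p => ⟨glDualFun p.1, glDualFun_mem k hk p.1 p.2⟩
            invFun := fun p => ⟨glDualFun p.1, by
              have h1 := glDualFun_mem (n - k) (by omega) p.1 p.2
              rw [hnk] at h1
              exact h1⟩
            left_inv := fun p => Subtype.ext (glDualFun_invol p.1)
            right_inv := fun p => Subtype.ext (glDualFun_invol p.1)
            map_mul' := fun p p' => Subtype.ext (glDualFun_mul p.1 p'.1) }⟩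

/-- The stabilisers of coordinate subspaces of different complementary dimensions are not
conjugate. -/
theorem parab_not_conj {F : Type*} [Field F] [Finite F] (n k : ℕ) (hk0 : 0 < k) (hkn : k < n)
    (h2 : 2 * k ≠ n) (g : Matrix.GeneralLinearGroup (Fin n) F) :
    (Cfsg.stabilizing (Cfsg.glToMat (Fin n) F)
      {v : Fin n → F | ∀ i : Fin n, k ≤ (i : ℕ) → v i = 0}).map (MulAut.conj g).toMonoidHom
    ≠ Cfsg.stabilizing (Cfsg.glToMat (Fin n) F)
      {v : Fin n → F | ∀ i : Fin n, n - k ≤ (i : ℕ) → v i = 0} := by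
  classical
  intro heq
  have hconj : ∀ p ∈ Cfsg.stabilizing (Cfsg.glToMat (Fin n) F)
      {v : Fin n → F | ∀ i : Fin n, k ≤ (i : ℕ) → v i = 0},
      g * p * g⁻¹ ∈ Cfsg.stabilizing (Cfsg.glToMat (Fin n) F)
      {v : Fin n → F | ∀ i : Fin n, n - k ≤ (i : ℕ) → v i = 0} := by
    intro p hp
    rw [← heq]
    exact Subgroup.mem_map_of_mem _ hp
  have hginv : ∀ v : Fin n → F, (g : Matrix (Fin n) (Fin n) F).mulVec
      (((g⁻¹ : Matrix.GeneralLinearGroup (Fin n) F) : Matrix (Fin n) (Fin n) F).mulVec v) = v := by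
    intro v
    rw [Matrix.mulVec_mulVec, ← Matrix.GeneralLinearGroup.coe_mul, mul_inv_cancel,
      Matrix.GeneralLinearGroup.coe_one, Matrix.one_mulVec]
  have hginv' : ∀ v : Fin n → F, ((g⁻¹ : Matrix.GeneralLinearGroup (Fin n) F) :
      Matrix (Fin n) (Fin n) F).mulVec ((g : Matrix (Fin n) (Fin n) F).mulVec v) = v := by
    intro v
    rw [Matrix.mulVec_mulVec, ← Matrix.GeneralLinearGroup.coe_mul, inv_mul_cancel,
      Matrix.GeneralLinearGroup.coe_one, Matrix.one_mulVec]
  let U : Submodule F (Fin n → F) :=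
    { carrier := {u | ∀ i : Fin n, n - k ≤ (i : ℕ) →
        (g : Matrix (Fin n) (Fin n) F).mulVec u i = 0}
      add_mem' := by
        intro a b ha hb i hi
        rw [Matrix.mulVec_add, Pi.add_apply, ha i hi, hb i hi, add_zero]
      zero_mem' := by
        intro i _
        rw [Matrix.mulVec_zero]
        rfl
      smul_mem' := by
        intro c a ha i hi
        rw [Matrix.mulVec_smul, Pi.smul_apply, ha i hi, smul_zero] }
  have hUmem : ∀ u, u ∈ U ↔ ∀ i : Fin n, n - k ≤ (i : ℕ) →
      (g : Matrix (Fin n) (Fin n) F).mulVec u i = 0 := fun u => Iff.rfl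
  have hU : ∀ p ∈ Cfsg.stabilizing (Cfsg.glToMat (Fin n) F)
      {v : Fin n → F | ∀ i : Fin n, k ≤ (i : ℕ) → v i = 0}, ∀ u ∈ U,
        (p : Matrix (Fin n) (Fin n) F).mulVec u ∈ U := by
    intro p hp u hu
    have h1 := (hconj p hp ((g : Matrix (Fin n) (Fin n) F).mulVec u)).1 ((hUmem u).1 hu)
    have h3 : (Cfsg.glToMat (Fin n) F (g * p * g⁻¹)).mulVec
        ((g : Matrix (Fin n) (Fin n) F).mulVec u)
        = (g : Matrix (Fin n) (Fin n) F).mulVec ((p : Matrix (Fin n) (Fin n) F).mulVec u) := by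
      show ((g * p * g⁻¹ : Matrix.GeneralLinearGroup (Fin n) F) :
        Matrix (Fin n) (Fin n) F).mulVec ((g : Matrix (Fin n) (Fin n) F).mulVec u) = _
      rw [Matrix.GeneralLinearGroup.coe_mul, Matrix.GeneralLinearGroup.coe_mul,
        ← Matrix.mulVec_mulVec, ← Matrix.mulVec_mulVec, hginv']
    rw [h3] at h1
    exact (hUmem _).2 h1
  have hn0 : 0 < n := by omega
  -- a nonzero vector of `U`
  have hu1 : ((g⁻¹ : Matrix.GeneralLinearGroup (Fin n) F) : Matrix (Fin n) (Fin n) F).mulVec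
      (Pi.single ⟨0, hn0⟩ 1) ∈ U := by
    rw [hUmem]
    intro i hi
    rw [hginv]
    have hne : i ≠ ⟨0, hn0⟩ := by
      intro h0
      have := congrArg Fin.val h0
      simp at this
      omega
    rw [Pi.single_eq_of_ne hne]
  have hu1' : ((g⁻¹ : Matrix.GeneralLinearGroup (Fin n) F) : Matrix (Fin n) (Fin n) F).mulVec
      (Pi.single ⟨0, hn0⟩ 1) ≠ 0 := by
    intro h0
    have h1 := hginv (Pi.single ⟨0, hn0⟩ 1)
    rw [h0, Matrix.mulVec_zero] at h1
    have h3 := congrFun h1 ⟨0, hn0⟩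
    rw [Pi.single_eq_same] at h3
    exact zero_ne_one h3
  have hge : ∀ w : Fin n → F, (∀ i : Fin n, k ≤ (i : ℕ) → w i = 0) → w ∈ U :=
    fun w hw => parab_inv_ge k U hU _ hu1 hu1' w hw
  -- `U` is not everything
  have hu2 : ((g⁻¹ : Matrix.GeneralLinearGroup (Fin n) F) : Matrix (Fin n) (Fin n) F).mulVec
      (Pi.single ⟨n - 1, by omega⟩ 1) ∉ U := by
    rw [hUmem]
    intro hcon
    have h1 := hcon ⟨n - 1, by omega⟩ (by show n - k ≤ n - 1; omega)
    rw [hginv, Pi.single_eq_same] at h1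
    exact one_ne_zero h1
  have hle : ∀ u ∈ U, ∀ i : Fin n, k ≤ (i : ℕ) → u i = 0 := by
    intro u hu i hi
    by_contra hcon
    have h1 := parab_inv_top k U hU u hu i hi hcon
    apply hu2
    rw [h1]
    exact Submodule.mem_top
  -- the bijection
  have e : {v : Fin n → F // ∀ i : Fin n, k ≤ (i : ℕ) → v i = 0}
      ≃ {v : Fin n → F // ∀ i : Fin n, n - k ≤ (i : ℕ) → v i = 0} :=
    { toFun := fun v => ⟨(g : Matrix (Fin n) (Fin n) F).mulVec v.1, (hUmem _).1 (hge v.1 v.2)⟩
      invFun := fun w => ⟨((g⁻¹ : Matrix.GeneralLinearGroup (Fin n) F) :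
          Matrix (Fin n) (Fin n) F).mulVec w.1, by
        apply hle
        rw [hUmem, hginv]
        exact w.2⟩
      left_inv := fun v => Subtype.ext (hginv' v.1)
      right_inv := fun w => Subtype.ext (hginv w.1) }
  have hcard := Nat.card_congr e
  rw [card_coord_subspace n k (by omega), card_coord_subspace n (n - k) (by omega)] at hcard
  have hq : 2 ≤ Nat.card F := by
    have : Nontrivial F := inferInstance
    exact Finite.one_lt_card
  have := Nat.pow_right_injective hq hcard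
  omega

end Cfsg.Agent.Helper15
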