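import Mathlib
import Cfsg.Agent.Helper15.GLParab2

set_option autoImplicit false

namespace Cfsg.Agent.Helper15

/-- The stabiliser of a proper nonzero coordinate subspace is a maximal subgroup of `GL_n`. -/
theorem parab_coatom {F : Type*} [Field F] [Finite F] (n k : ℕ) (hk0 : 0 < k) (hkn : k < n) :
    IsCoatom (Cfsg.stabilizing (Cfsg.glToMat (Fin n) F)
      {v : Fin n → F | ∀ i : Fin n, k ≤ (i : ℕ) → v i = 0}) := by
  classical
  have hn0 : 0 < n := by omega
  constructor
  · intro htop
    have h01 : (⟨0, hn0⟩ : Fin n) ≠ ⟨n - 1, by omega⟩ := by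
      intro h0
      have := congrArg Fin.val h0
      simp at this
      omega
    have hne : 1 + (Pi.single ⟨0, hn0⟩ 1 : Fin n → F) ⬝ᵥ
        (Pi.single ⟨n - 1, by omega⟩ 1 : Fin n → F) ≠ 0 := by
      rw [single_dotProduct, one_mul, Pi.single_eq_of_ne h01, add_zero]
      exact one_ne_zero
    have hE : glRk1 (Pi.single ⟨n - 1, by omega⟩ 1) (Pi.single ⟨0, hn0⟩ 1) hne
        ∈ Cfsg.stabilizing (Cfsg.glToMat (Fin n) F)
          {v : Fin n → F | ∀ i : Fin n, k ≤ (i : ℕ) → v i = 0} := by
      rw [htop]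
      exact Subgroup.mem_top _
    have h1 := (gl_stab_coord_iff n k _).1 hE ⟨n - 1, by omega⟩ ⟨0, hn0⟩
      (by show k ≤ n - 1; omega) (by show 0 < k; exact hk0)
    rw [glRk1_val, Matrix.add_apply, Matrix.one_apply_ne h01.symm, Matrix.vecMulVec_apply,
      Pi.single_eq_same, Pi.single_eq_same, zero_add, mul_one] at h1
    exact one_ne_zero h1
  · intro H hPH
    obtain ⟨hle, h, hhH, hhP⟩ := SetLike.lt_iff_le_and_exists.1 hPH
    rw [gl_stab_coord_iff] at hhP
    push Not at hhP
    obtain ⟨a, b, hak, hbk, hab⟩ := hhP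
    have hW : ∀ (x y : Fin n → F) (hne : 1 + y ⬝ᵥ x ≠ 0),
        (∀ i : Fin n, k ≤ (i : ℕ) → x i = 0) → glRk1 x y hne ∈ H :=
      fun x y hne hx => hle (glRk1_mem_left k x y hne hx)
    have hinv : ∀ g ∈ H, ∀ x : Fin n → F,
        (∀ (y : Fin n → F) (hne : 1 + y ⬝ᵥ x ≠ 0), y ⬝ᵥ x = 0 → glRk1 x y hne ∈ H) →
        (∀ (y : Fin n → F) (hne : 1 + y ⬝ᵥ (g : Matrix (Fin n) (Fin n) F).mulVec x ≠ 0),
          y ⬝ᵥ (g : Matrix (Fin n) (Fin n) F).mulVec x = 0 →
          glRk1 ((g : Matrix (Fin n) (Fin n) F).mulVec x) y hne ∈ H) := by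
      intro g hg x hx y hne hy
      have h' : 1 + Matrix.vecMul y (g : Matrix (Fin n) (Fin n) F) ⬝ᵥ x ≠ 0 := by
        rw [← Matrix.dotProduct_mulVec]
        exact hne
      rw [glRk1_conj g x y hne h']
      exact H.mul_mem (H.mul_mem hg (hx _ h' (by rw [← Matrix.dotProduct_mulVec]; exact hy)))
        (H.inv_mem hg)
    have hX0 : ∀ (y : Fin n → F)
        (hne : 1 + y ⬝ᵥ (h : Matrix (Fin n) (Fin n) F).mulVec (Pi.single b 1) ≠ 0),
        y ⬝ᵥ (h : Matrix (Fin n) (Fin n) F).mulVec (Pi.single b 1) = 0 →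
        glRk1 ((h : Matrix (Fin n) (Fin n) F).mulVec (Pi.single b 1)) y hne ∈ H := by
      apply hinv h hhH
      intro y hne _
      apply hW
      intro i hi
      have hib : i ≠ b := by
        rintro rfl
        omega
      rw [Pi.single_eq_of_ne hib]
    have hx0a : (h : Matrix (Fin n) (Fin n) F).mulVec (Pi.single b 1) a ≠ 0 := by
      rw [Matrix.mulVec_single_one]
      exact hab
    have htrans : ∀ (x x' : Fin n → F) (i : Fin n), k ≤ (i : ℕ) → x i ≠ 0 → x' i ≠ 0 →
        (∀ (y : Fin n → F) (hne : 1 + y ⬝ᵥ x ≠ 0), y ⬝ᵥ x = 0 → glRk1 x y hne ∈ H) →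
        (∀ (y : Fin n → F) (hne : 1 + y ⬝ᵥ x' ≠ 0), y ⬝ᵥ x' = 0 → glRk1 x' y hne ∈ H) := by
      intro x x' i hi hxi hx'i hx
      have hdot : ∀ v : Fin n → F, ((x i)⁻¹ • (Pi.single i 1 : Fin n → F)) ⬝ᵥ v
          = (x i)⁻¹ * v i := by
        intro v
        rw [smul_dotProduct, single_dotProduct, one_mul, smul_eq_mul]
      have hne : 1 + ((x i)⁻¹ • (Pi.single i 1 : Fin n → F)) ⬝ᵥ (x' - x) ≠ 0 := by
        rw [hdot, Pi.sub_apply]
        have h1 : 1 + (x i)⁻¹ * (x' i - x i) = (x i)⁻¹ * x' i := by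
          field_simp
          ring
        rw [h1]
        exact mul_ne_zero (inv_ne_zero hxi) hx'i
      have hgP := glRk1_mem_right k (x' - x) ((x i)⁻¹ • (Pi.single i 1 : Fin n → F)) hne (by
        intro j hj
        have hji : j ≠ i := by
          rintro rfl
          omega
        rw [Pi.smul_apply, Pi.single_eq_of_ne hji, smul_zero])
      have h2 := hinv _ (hle hgP) x hx
      have h3 : ((glRk1 (x' - x) ((x i)⁻¹ • (Pi.single i 1 : Fin n → F)) hne :
          Matrix.GeneralLinearGroup (Fin n) F) : Matrix (Fin n) (Fin n) F).mulVec x = x' := by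
        rw [glRk1_mulVec, hdot, inv_mul_cancel₀ hxi, one_smul, add_sub_cancel]
      rw [h3] at h2
      exact h2
    have hall : ∀ (x y : Fin n → F) (hne : 1 + y ⬝ᵥ x ≠ 0), y ⬝ᵥ x = 0 → glRk1 x y hne ∈ H := by
      intro x
      by_cases hex : ∃ i : Fin n, k ≤ (i : ℕ) ∧ x i ≠ 0
      · obtain ⟨i, hi, hxi⟩ := hex
        have h1 := htrans _ (fun j => if j = a ∨ j = i then (1 : F) else 0) a hak hx0a
          (by simp) hX0
        exact htrans (fun j => if j = a ∨ j = i then (1 : F) else 0) x i hi (by simp) hxi h1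
      · push Not at hex
        intro y hne _
        exact hW x y hne hex
    rw [eq_top_iff]
    intro g _
    have key : ∀ (M : Matrix (Fin n) (Fin n) F) (hM : M.det ≠ 0),
        Matrix.GeneralLinearGroup.mkOfDetNeZero M hM ∈ H := by
      intro M hM
      refine Matrix.diagonal_transvection_induction_of_det_ne_zero
        (fun M => ∀ hM : M.det ≠ 0, Matrix.GeneralLinearGroup.mkOfDetNeZero M hM ∈ H) M hM
        ?_ ?_ ?_ hM
      · intro D _ hD'
        apply hle
        rw [gl_stab_coord_iff]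
        intro i j hi hj
        show Matrix.diagonal D i j = 0
        exact Matrix.diagonal_apply_ne _ (by
          rintro rfl
          omega)
      · intro t ht
        have hne : 1 + (Pi.single t.j 1 : Fin n → F) ⬝ᵥ (Pi.single t.i t.c : Fin n → F) ≠ 0 := by
          rw [single_dotProduct, one_mul, Pi.single_eq_of_ne t.hij.symm, add_zero]
          exact one_ne_zero
        have h1 := hall (Pi.single t.i t.c) (Pi.single t.j 1) hne (by
          rw [single_dotProduct, one_mul, Pi.single_eq_of_ne t.hij.symm])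
        have h2 : Matrix.GeneralLinearGroup.mkOfDetNeZero t.toMatrix ht
            = glRk1 (Pi.single t.i t.c) (Pi.single t.j 1) hne := by
          apply Units.ext
          show t.toMatrix = 1 + Matrix.vecMulVec (Pi.single t.i t.c) (Pi.single t.j 1)
          rw [Matrix.TransvectionStruct.toMatrix, Matrix.transvection]
          congr 1
          ext i j
          rw [Matrix.vecMulVec_apply, Matrix.single_apply, Pi.single_apply, Pi.single_apply]
          by_cases hi : i = t.i
          · by_cases hj : j = t.j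
            · rw [if_pos ⟨hi.symm, hj.symm⟩, if_pos hi, if_pos hj, mul_one]
            · rw [if_neg (fun hh => hj hh.2.symm), if_neg hj, mul_zero]
          · rw [if_neg (fun hh => hi hh.1.symm), if_neg hi, zero_mul]
        rw [h2]
        exact h1
      · intro A B hA hB hPA hPB hAB
        have h2 : Matrix.GeneralLinearGroup.mkOfDetNeZero (A * B) hAB
            = Matrix.GeneralLinearGroup.mkOfDetNeZero A hA
              * Matrix.GeneralLinearGroup.mkOfDetNeZero B hB := Units.ext rfl
        rw [h2]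
        exact H.mul_mem (hPA hA) (hPB hB)
    have hdet : (g : Matrix (Fin n) (Fin n) F).det ≠ 0 := by
      have h1 : IsUnit (g : Matrix (Fin n) (Fin n) F).det :=
        (Matrix.isUnit_iff_isUnit_det _).1 (Units.isUnit g)
      exact h1.ne_zero
    have hg : g = Matrix.GeneralLinearGroup.mkOfDetNeZero (g : Matrix (Fin n) (Fin n) F) hdet :=
      Units.ext rfl
    rw [hg]
    exact key _ _

end Cfsg.Agent.Helper15
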