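import Mathlib
import Cfsg.Prelude.Def_LinearParabolics
import Cfsg.Agent.Helper15.GLParab2
import Cfsg.Agent.Helper15.TILinesSp

set_option autoImplicit false

namespace Cfsg.Agent.Helper15

open scoped MatrixGroups

/-- A lower set of `Fin n` is an initial segment. -/
theorem lower_set_fin {n : ℕ} (s : Finset (Fin n))
    (hs : ∀ i ∈ s, ∀ i' : Fin n, i' ≤ i → i' ∈ s) (i : Fin n) : i ∈ s ↔ (i : ℕ) < s.card := by
  constructor
  · intro hi
    have h1 : Finset.Iic i ⊆ s := by
      intro i' hi'
      exact hs i hi i' (Finset.mem_Iic.1 hi')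
    have h2 := Finset.card_le_card h1
    rw [Fin.card_Iic] at h2
    omega
  · intro hi
    by_contra hni
    have h1 : s ⊆ Finset.Iio i := by
      intro i' hi'
      rw [Finset.mem_Iio]
      by_contra hle
      exact hni (hs i' hi' i (not_lt.1 hle))
    have h2 := Finset.card_le_card h1
    rw [Fin.card_Iio] at h2
    omega

/-- Counting linearly independent tuples along a chain of coordinate subspaces. -/
theorem chain_count {F : Type*} [Field F] [Fintype F] (n : ℕ) (d : ℕ → ℕ) (hd : Monotone d)
    (hdn : ∀ j, d j ≤ n) (k : ℕ) :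
    Nat.card {s : Fin k → Fin n → F // LinearIndependent F s ∧
        ∀ j : Fin k, ∀ i : Fin n, d j ≤ (i : ℕ) → s j i = 0}
      = ∏ j : Fin k, (Fintype.card F ^ d j - Fintype.card F ^ (j : ℕ)) := by
  classical
  induction k with
  | zero =>
    rw [Finset.univ_eq_empty, Finset.prod_empty]
    haveI : Unique {s : Fin 0 → Fin n → F // LinearIndependent F s ∧
        ∀ j : Fin 0, ∀ i : Fin n, d j ≤ (i : ℕ) → s j i = 0} :=
      { default := ⟨fun i => i.elim0, linearIndependent_empty_type, fun i => i.elim0⟩
        uniq := fun b => Subtype.ext (funext fun i => i.elim0) }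
    exact Nat.card_unique
  | succ k ih =>
    haveI : Fintype {s : Fin k → Fin n → F // LinearIndependent F s ∧
        ∀ j : Fin k, ∀ i : Fin n, d j ≤ (i : ℕ) → s j i = 0} := Fintype.ofFinite _
    let f : {s : Fin (k + 1) → Fin n → F // LinearIndependent F s ∧
        ∀ j : Fin (k + 1), ∀ i : Fin n, d j ≤ (i : ℕ) → s j i = 0} →
        {s : Fin k → Fin n → F // LinearIndependent F s ∧
        ∀ j : Fin k, ∀ i : Fin n, d j ≤ (i : ℕ) → s j i = 0} :=
      fun b => ⟨Fin.init b.1, (linearIndependent_finSucc'.1 b.2.1).1,
        fun j i hi => b.2.2 (Fin.castSucc j) i hi⟩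
    have hfiber : ∀ b : {s : Fin k → Fin n → F // LinearIndependent F s ∧
        ∀ j : Fin k, ∀ i : Fin n, d j ≤ (i : ℕ) → s j i = 0},
        Nat.card {b' : {s : Fin (k + 1) → Fin n → F // LinearIndependent F s ∧
          ∀ j : Fin (k + 1), ∀ i : Fin n, d j ≤ (i : ℕ) → s j i = 0} // f b' = b}
          = Fintype.card F ^ d k - Fintype.card F ^ k := by
      intro b
      let E : {b' : {s : Fin (k + 1) → Fin n → F // LinearIndependent F s ∧
          ∀ j : Fin (k + 1), ∀ i : Fin n, d j ≤ (i : ℕ) → s j i = 0} // f b' = b}
          ≃ {v : Fin n → F // (∀ i : Fin n, d k ≤ (i : ℕ) → v i = 0)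
              ∧ v ∉ Submodule.span F (Set.range b.1)} :=
        { toFun := fun b' => ⟨b'.1.1 (Fin.last k), by
            have h1 : Fin.init b'.1.1 = b.1 := congrArg Subtype.val b'.2
            constructor
            · intro i hi
              exact b'.1.2.2 (Fin.last k) i hi
            · rw [← h1]
              exact (linearIndependent_finSucc'.1 b'.1.2.1).2⟩
          invFun := fun v => ⟨⟨Fin.snoc b.1 v.1, linearIndependent_finSnoc.2 ⟨b.2.1, v.2.2⟩, by
            intro j
            induction j using Fin.lastCases with
            | last =>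
              intro i hi
              rw [Fin.snoc_last]
              exact v.2.1 i hi
            | cast j =>
              intro i hi
              rw [Fin.snoc_castSucc]
              exact b.2.2 j i hi⟩, Subtype.ext (by
                  show Fin.init (Fin.snoc b.1 v.1 : Fin (k + 1) → Fin n → F) = b.1
                  exact Fin.init_snoc _ _)⟩
          left_inv := by
            intro b'
            apply Subtype.ext
            apply Subtype.ext
            have h1 : Fin.init b'.1.1 = b.1 := congrArg Subtype.val b'.2
            show Fin.snoc b.1 (b'.1.1 (Fin.last k)) = b'.1.1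
            rw [← h1, Fin.snoc_init_self]
          right_inv := by
            intro v
            apply Subtype.ext
            show (Fin.snoc b.1 v.1 : Fin (k + 1) → Fin n → F) (Fin.last k) = v.1
            rw [Fin.snoc_last] }
      rw [Nat.card_congr E]
      have hsub : ∀ v ∈ Submodule.span F (Set.range b.1),
          ∀ i : Fin n, d k ≤ (i : ℕ) → v i = 0 := by
        intro v hv
        refine Submodule.span_induction ?_ ?_ ?_ ?_ hv
        · rintro _ ⟨j, rfl⟩ i hi
          exact b.2.2 j i (le_trans (hd (Nat.le_of_lt j.2)) hi)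
        · intro i _
          rfl
        · intro x y _ _ hx hy i hi
          rw [Pi.add_apply, hx i hi, hy i hi, add_zero]
        · intro c x _ hx i hi
          rw [Pi.smul_apply, hx i hi, smul_zero]
      have h1 : Nat.card {v : Fin n → F // (∀ i : Fin n, d k ≤ (i : ℕ) → v i = 0)
              ∧ v ∉ Submodule.span F (Set.range b.1)}
          = Nat.card {p : {v : Fin n → F // ∀ i : Fin n, d k ≤ (i : ℕ) → v i = 0}
              // ¬ (p.1 ∈ Submodule.span F (Set.range b.1))} :=
        Nat.card_congr
          { toFun := fun v => ⟨⟨v.1, v.2.1⟩, v.2.2⟩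
            invFun := fun p => ⟨p.1.1, p.1.2, p.2⟩
            left_inv := fun v => rfl
            right_inv := fun p => rfl }
      have h2 : Nat.card {p : {v : Fin n → F // ∀ i : Fin n, d k ≤ (i : ℕ) → v i = 0}
          // p.1 ∈ Submodule.span F (Set.range b.1)} = Fintype.card F ^ k := by
        have h3 : Nat.card {p : {v : Fin n → F // ∀ i : Fin n, d k ≤ (i : ℕ) → v i = 0}
            // p.1 ∈ Submodule.span F (Set.range b.1)}
            = Nat.card ↥(Submodule.span F (Set.range b.1)) :=
          Nat.card_congr
            { toFun := fun p => ⟨p.1.1, p.2⟩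
              invFun := fun s => ⟨⟨s.1, hsub s.1 s.2⟩, s.2⟩
              left_inv := fun p => rfl
              right_inv := fun s => rfl }
        have h4 : Nat.card ↥(Submodule.span F (Set.range b.1))
            = Nat.card F ^ Module.finrank F ↥(Submodule.span F (Set.range b.1)) :=
          Module.natCard_eq_pow_finrank
        rw [h3, h4, finrank_span_eq_card b.2.1, Fintype.card_fin, Nat.card_eq_fintype_card]
      rw [h1, card_compl_sub, card_coord_subspace n (d k) (hdn k), h2, Nat.card_eq_fintype_card]
    rw [← Nat.card_congr (Equiv.sigmaFiberEquiv f), Nat.card_sigma,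
      Finset.sum_congr rfl (fun b _ => hfiber b), Finset.sum_const, Finset.card_univ,
      smul_eq_mul, ← Nat.card_eq_fintype_card, ih, Fin.prod_univ_castSucc]
    simp only [Fin.val_castSucc, Fin.val_last]

end Cfsg.Agent.Helper15
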