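import Mathlib
import Cfsg.Prelude.Def_LinearParabolics
import Cfsg.Agent.Helper15.GLParabIdx

set_option autoImplicit false

namespace Cfsg.Agent.Helper15

open scoped MatrixGroups

theorem geom_pow_sub (q : ℕ) (hq : 1 ≤ q) (j m : ℕ) (hjm : j ≤ m) :
    q ^ m - q ^ j = q ^ j * ((q - 1) * ∑ l ∈ Finset.range (m - j), q ^ l) := by
  obtain ⟨x, rfl⟩ : ∃ x, q = x + 1 := ⟨q - 1, by omega⟩
  obtain ⟨t, rfl⟩ : ∃ t, m = j + t := ⟨m - j, by omega⟩
  have h1 := geom_sum_mul_add x t
  rw [Nat.add_sub_cancel_left, Nat.add_sub_cancel, pow_add, ← h1, mul_add, mul_one,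
    Nat.add_sub_cancel, mul_comm x]

theorem card_parabolicGL_index {F : Type*} [Field F] [Fintype F] {n : ℕ} (μ : Fin n → ℕ)
    (hμ : ∑ i, μ i = n) :
    Nat.card (GL (Fin n) F ⧸ Cfsg.parabolicGL n F μ) *
        ∏ i : Fin n, ∏ j ∈ Finset.range (μ i), ∑ l ∈ Finset.range (j + 1), Fintype.card F ^ l =
      ∏ j ∈ Finset.range n, ∑ l ∈ Finset.range (j + 1), Fintype.card F ^ l := by
  classical
  obtain ⟨q, hq⟩ : ∃ q, q = Fintype.card F := ⟨_, rfl⟩
  rw [← hq]
  have hq2 : 2 ≤ q := by
    rw [hq]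
    exact Fintype.one_lt_card
  obtain ⟨μ', hμ'⟩ : ∃ μ' : ℕ → ℕ, (∀ a : Fin n, μ' a = μ a) :=
    ⟨fun a => if h : a < n then μ ⟨a, h⟩ else 0, fun a => by simp⟩
  obtain ⟨S, hSdef⟩ : ∃ S : ℕ → ℕ, ∀ a, S a = ∑ k ∈ Finset.range a, μ' k := ⟨_, fun _ => rfl⟩
  have hS0 : S 0 = 0 := by rw [hSdef, Finset.range_zero, Finset.sum_empty]
  have hSs : ∀ a, S (a + 1) = S a + μ' a := by
    intro a
    rw [hSdef, hSdef, Finset.sum_range_succ]
  have hSmono : Monotone S := monotone_nat_of_le_succ (fun a => by rw [hSs]; omega)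
  have hSn : S n = n := by
    calc S n = ∑ k : Fin n, μ' k := by rw [hSdef, Fin.sum_univ_eq_sum_range]
      _ = ∑ k : Fin n, μ k := Finset.sum_congr rfl (fun a _ => hμ' a)
      _ = n := hμ
  have hSle : ∀ a, a ≤ n → S a ≤ n := by
    intro a ha
    have := hSmono ha
    rw [hSn] at this
    exact this
  have hpart : ∀ j : Fin n,
      (∑ k ∈ Finset.univ.filter (fun k : Fin n => k ≤ j), μ k) = S (j + 1) := by
    intro j
    rw [hSdef, Finset.sum_filter]
    have h1 : (∑ k : Fin n, if k ≤ j then μ k else 0)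
        = ∑ k ∈ Finset.range n, if k ≤ (j : ℕ) then μ' k else 0 := by
      rw [← Fin.sum_univ_eq_sum_range (fun k => if k ≤ (j : ℕ) then μ' k else 0)]
      refine Finset.sum_congr rfl (fun k _ => ?_)
      rw [hμ' k]
      simp only [Fin.le_def]
    rw [h1, ← Finset.sum_filter]
    congr 1
    ext k
    simp only [Finset.mem_filter, Finset.mem_range]
    have := j.2
    omega
  have hlab : ∀ i : Fin n, ∀ a, a ≤ n → (a ≤ Cfsg.compLabel μ i ↔ S a ≤ (i : ℕ)) := by
    intro i a ha
    have hlow := lower_set_fin (Finset.univ.filter fun j : Fin n =>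
        (∑ k ∈ Finset.univ.filter (fun k : Fin n => k ≤ j), μ k) ≤ i.val) (by
      intro j hj j' hjj'
      rw [Finset.mem_filter] at hj ⊢
      refine ⟨Finset.mem_univ _, le_trans ?_ hj.2⟩
      rw [hpart, hpart]
      exact hSmono (by have : (j' : ℕ) ≤ j := hjj'; omega))
    rcases Nat.eq_zero_or_pos a with rfl | hpos
    · rw [hS0]
      simp
    · have h1 := hlow ⟨a - 1, by omega⟩
      rw [Finset.mem_filter, hpart] at h1
      simp only [Finset.mem_univ, true_and] at h1
      have h2 : a - 1 + 1 = a := by omega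
      rw [h2] at h1
      show a ≤ (Finset.univ.filter fun j : Fin n =>
        (∑ k ∈ Finset.univ.filter (fun k : Fin n => k ≤ j), μ k) ≤ i.val).card ↔ _
      rw [h1]
      omega
  have hblt : ∀ i : Fin n, Cfsg.compLabel μ i < n := by
    intro i
    by_contra h
    have := (hlab i n le_rfl).1 (not_lt.1 h)
    rw [hSn] at this
    exact absurd i.2 (not_lt.2 this)
  have hble : ∀ i j : Fin n, Cfsg.compLabel μ i ≤ Cfsg.compLabel μ j
      ↔ (i : ℕ) < S (Cfsg.compLabel μ j + 1) := by
    intro i j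
    have h1 := hlab i (Cfsg.compLabel μ j + 1) (hblt j)
    omega
  have hbmono : ∀ i j : Fin n, (i : ℕ) ≤ j → Cfsg.compLabel μ i ≤ Cfsg.compLabel μ j := by
    intro i j hij
    have h1 := (hlab i (Cfsg.compLabel μ i) (le_of_lt (hblt i))).1 le_rfl
    exact (hlab j (Cfsg.compLabel μ i) (le_of_lt (hblt i))).2 (le_trans h1 hij)
  obtain ⟨d, hd⟩ : ∃ d : ℕ → ℕ, (∀ j : Fin n, d j = S (Cfsg.compLabel μ j + 1))
      ∧ (∀ j, n ≤ j → d j = n) :=
    ⟨fun j => if h : j < n then S (Cfsg.compLabel μ ⟨j, h⟩ + 1) else n, fun j => by simp,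
      fun j hj => by simp [not_lt.2 hj]⟩
  have hdn : ∀ j, d j ≤ n := by
    intro j
    by_cases hj : j < n
    · have := hd.1 ⟨j, hj⟩
      simp only at this
      rw [this]
      exact hSle _ (hblt _)
    · rw [hd.2 j (not_lt.1 hj)]
  have hdmono : Monotone d := by
    intro j j' hjj'
    by_cases hj' : j' < n
    · have hj : j < n := lt_of_le_of_lt hjj' hj'
      have h1 := hd.1 ⟨j, hj⟩
      have h2 := hd.1 ⟨j', hj'⟩
      simp only at h1 h2
      rw [h1, h2]
      exact hSmono (Nat.succ_le_succ (hbmono ⟨j, hj⟩ ⟨j', hj'⟩ hjj'))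
    · rw [hd.2 j' (not_lt.1 hj')]
      exact hdn j
  have hmem : ∀ g : GL (Fin n) F, g ∈ Cfsg.parabolicGL n F μ
      ↔ ∀ j i : Fin n, d j ≤ (i : ℕ) → (g : Matrix (Fin n) (Fin n) F) i j = 0 := by
    intro g
    show (g : Matrix (Fin n) (Fin n) F).BlockTriangular (Cfsg.compLabel μ) ↔ _
    constructor
    · intro h j i hi
      apply h
      rw [hd.1 j] at hi
      have := hble i j
      omega
    · intro h i j hij
      apply h j i
      rw [hd.1 j]
      have := hble i j
      omega
  have hcardP : Nat.card ↥(Cfsg.parabolicGL n F μ) = ∏ j : Fin n, (q ^ d j - q ^ (j : ℕ)) := by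
    rw [hq, ← chain_count n d hdmono hdn n]
    refine Nat.card_congr ?_
    exact
      { toFun := fun g => ⟨(Matrix.equiv_GL_linearindependent n g.1).1,
          (Matrix.equiv_GL_linearindependent n g.1).2, fun j i hi => (hmem g.1).1 g.2 j i hi⟩
        invFun := fun s => ⟨(Matrix.equiv_GL_linearindependent n).symm ⟨s.1, s.2.1⟩, by
            rw [hmem]
            intro j i hi
            have h1 : ((Matrix.equiv_GL_linearindependent n)
                ((Matrix.equiv_GL_linearindependent n).symm ⟨s.1, s.2.1⟩)).1 = s.1 := by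
              rw [Equiv.apply_symm_apply]
            have h2 := congrFun (congrFun h1 j) i
            exact h2.trans (s.2.2 j i hi)⟩
        left_inv := fun g => Subtype.ext (Equiv.symm_apply_apply _ _)
        right_inv := by
          intro s
          apply Subtype.ext
          show ((Matrix.equiv_GL_linearindependent n)
            ((Matrix.equiv_GL_linearindependent n).symm ⟨s.1, s.2.1⟩)).1 = s.1
          rw [Equiv.apply_symm_apply] }
  have hdj : ∀ j : Fin n, (j : ℕ) < d j := by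
    intro j
    rw [hd.1 j]
    exact (hble j j).1 le_rfl
  have hidx := Subgroup.card_mul_index (Cfsg.parabolicGL n F μ)
  rw [hcardP, Matrix.card_GL_field, ← hq] at hidx
  have hP : ∏ j : Fin n, (q ^ d j - q ^ (j : ℕ))
      = (∏ j : Fin n, q ^ (j : ℕ) * (q - 1))
        * ∏ j : Fin n, ∑ l ∈ Finset.range (d j - j), q ^ l := by
    rw [← Finset.prod_mul_distrib]
    refine Finset.prod_congr rfl (fun j _ => ?_)
    rw [geom_pow_sub q (by omega) j (d j) (le_of_lt (hdj j)), mul_assoc]
  have hG : ∏ j : Fin n, (q ^ n - q ^ (j : ℕ))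
      = (∏ j : Fin n, q ^ (j : ℕ) * (q - 1))
        * ∏ j : Fin n, ∑ l ∈ Finset.range (n - j), q ^ l := by
    rw [← Finset.prod_mul_distrib]
    refine Finset.prod_congr rfl (fun j _ => ?_)
    rw [geom_pow_sub q (by omega) j n (le_of_lt j.2), mul_assoc]
  have hC : 0 < ∏ j : Fin n, q ^ (j : ℕ) * (q - 1) :=
    Finset.prod_pos (fun j _ => Nat.mul_pos (Nat.pow_pos (by omega)) (by omega))
  rw [hP, hG, mul_assoc] at hidx
  have hidx2 := Nat.eq_of_mul_eq_mul_left hC hidx
  have hblock : ∀ m, m ≤ n → ∏ j ∈ Finset.range (S m), (∑ l ∈ Finset.range (d j - j), q ^ l)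
      = ∏ a ∈ Finset.range m, ∏ t ∈ Finset.range (μ' a),
          ∑ l ∈ Finset.range (t + 1), q ^ l := by
    intro m
    induction m with
    | zero =>
      intro _
      rw [hS0, Finset.range_zero, Finset.prod_empty, Finset.prod_empty]
    | succ m ih =>
      intro hm
      rw [hSs, Finset.prod_range_add, ih (by omega), Finset.prod_range_succ]
      congr 1
      rw [← Finset.prod_range_reflect (fun t => ∑ l ∈ Finset.range (t + 1), q ^ l) (μ' m)]
      refine Finset.prod_congr rfl (fun x hx => ?_)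
      rw [Finset.mem_range] at hx
      have hlt : S m + x < n := by
        have := hSle (m + 1) hm
        rw [hSs] at this
        omega
      have hbm : Cfsg.compLabel μ ⟨S m + x, hlt⟩ = m := by
        have h1 := hlab ⟨S m + x, hlt⟩ m (by omega)
        have h2 := hlab ⟨S m + x, hlt⟩ (m + 1) hm
        rw [hSs] at h2
        simp only at h1 h2
        omega
      have h3 := hd.1 ⟨S m + x, hlt⟩
      simp only at h3
      rw [h3, hbm, hSs]
      congr 2
      omega
  have hn1 : ∏ j : Fin n, ∑ l ∈ Finset.range (d j - j), q ^ l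
      = ∏ a : Fin n, ∏ t ∈ Finset.range (μ a), ∑ l ∈ Finset.range (t + 1), q ^ l := by
    rw [Fin.prod_univ_eq_prod_range (fun j => ∑ l ∈ Finset.range (d j - j), q ^ l) n]
    have := hblock n le_rfl
    rw [hSn] at this
    rw [this, ← Fin.prod_univ_eq_prod_range
      (fun a => ∏ t ∈ Finset.range (μ' a), ∑ l ∈ Finset.range (t + 1), q ^ l) n]
    refine Finset.prod_congr rfl (fun a _ => ?_)
    rw [hμ' a]
  have hn2 : ∏ j : Fin n, ∑ l ∈ Finset.range (n - j), q ^ l
      = ∏ j ∈ Finset.range n, ∑ l ∈ Finset.range (j + 1), q ^ l := by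
    rw [Fin.prod_univ_eq_prod_range (fun j => ∑ l ∈ Finset.range (n - j), q ^ l) n,
      ← Finset.prod_range_reflect (fun j => ∑ l ∈ Finset.range (j + 1), q ^ l) n]
    refine Finset.prod_congr rfl (fun j hj => ?_)
    rw [Finset.mem_range] at hj
    congr 2
    omega
  rw [hn1, hn2] at hidx2
  rw [mul_comm]
  exact hidx2

end Cfsg.Agent.Helper15
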