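import Mathlib
import Cfsg.Agent.Helper15.SUCenter
import Cfsg.Agent.Helper15.FieldAutCount

set_option autoImplicit false

namespace Cfsg.Agent.Helper15

/-- A matrix preserves the Hermitian form iff `Mᵀ * M^(q) = 1`. -/
theorem herm_preserve_iff {K : Type*} [Field K] (q : ℕ) (φ : K →+* K) (hφ : ∀ x, φ x = x ^ q)
    (hq : 1 ≤ q) (n : ℕ) (M : Matrix (Fin n) (Fin n) K) :
    (∀ u v, Cfsg.hermForm n K q (M.mulVec u) (M.mulVec v) = Cfsg.hermForm n K q u v) ↔
      M.transpose * φ.mapMatrix M = 1 := by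
  classical
  constructor
  · intro H
    ext i j
    have h := H (Pi.single i 1) (Pi.single j 1)
    rw [hermForm_single (by omega), Matrix.mulVec_single_one, Matrix.mulVec_single_one] at h
    rw [Matrix.mul_apply, Matrix.one_apply, ← h]
    unfold Cfsg.hermForm
    apply Finset.sum_congr rfl
    intro k _
    rw [Matrix.transpose_apply, RingHom.mapMatrix_apply, Matrix.map_apply, hφ]
    rfl
  · intro H u v
    have h1 : ∀ x y : Fin n → K, Cfsg.hermForm n K q x y = x ⬝ᵥ (φ ∘ y) := by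
      intro x y
      unfold Cfsg.hermForm
      exact Finset.sum_congr rfl (fun i _ => by rw [Function.comp_apply, hφ])
    rw [h1, h1]
    have h2 : φ ∘ (M.mulVec v) = (φ.mapMatrix M).mulVec (φ ∘ v) := by
      funext i
      rw [RingHom.mapMatrix_apply, Function.comp_apply]
      exact RingHom.map_mulVec φ M v i
    rw [h2, ← Matrix.vecMul_transpose M u, Matrix.dotProduct_mulVec, Matrix.vecMul_vecMul, H,
      Matrix.vecMul_one]

theorem gu_subfield_scalar_count {K : Type*} [Field K] [Fintype K] {q q₀ : ℕ}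
    (hK : Fintype.card K = q ^ 2) (K₀ : Subfield K) (hK₀ : Nat.card K₀ = q₀ ^ 2)
    (hpow : ∀ x : K₀, (x : K) ^ q = (x : K) ^ q₀)
    (σ : K ≃+* K) (hmem : ∀ x : K, x ∈ K₀ ↔ σ x = x) {n : ℕ} (hn : 1 ≤ n) :
    Nat.card {g : ↥(Cfsg.GU n K q) // ∃ c : K, c ≠ 0 ∧
      ((g : GL (Fin n) K) : Matrix (Fin n) (Fin n) K).map σ
        = c • ((g : GL (Fin n) K) : Matrix (Fin n) (Fin n) K)} * (q₀ + 1)
      = (q + 1) * Nat.card ↥(Cfsg.GU n K₀ q₀) := by
  classical
  letI : Fintype K₀ := Fintype.ofFinite _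
  have hK₀' : Fintype.card K₀ = q₀ ^ 2 := by rw [← Nat.card_eq_fintype_card]; exact hK₀
  have hq := two_le_of_card_sq hK
  have hq₀ := two_le_of_card_sq hK₀'
  obtain ⟨φ, hφ⟩ := exists_frob hK
  obtain ⟨φ₀, hφ₀⟩ := exists_frob hK₀'
  have hφφ₀ : ∀ x : K₀, φ (x : K) = ((φ₀ x : K₀) : K) := by
    intro x
    rw [hφ, hφ₀, hpow]
    rfl
  -- matrix characterisations
  have R1 : ∀ g : GL (Fin n) K, g ∈ Cfsg.GU n K q ↔
      (g : Matrix (Fin n) (Fin n) K).transpose * φ.mapMatrix (g : Matrix (Fin n) (Fin n) K) = 1 :=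
    fun g => (mem_GU_iff n q g).trans (herm_preserve_iff q φ hφ (by omega) n _)
  have R2 : ∀ h : GL (Fin n) K₀, h ∈ Cfsg.GU n K₀ q₀ ↔
      (h : Matrix (Fin n) (Fin n) K₀).transpose * φ₀.mapMatrix (h : Matrix (Fin n) (Fin n) K₀)
        = 1 :=
    fun h => (mem_GU_iff n q₀ h).trans (herm_preserve_iff q₀ φ₀ hφ₀ (by omega) n _)
  have R3 : ∀ M₀ : Matrix (Fin n) (Fin n) K₀,
      (K₀.subtype.mapMatrix M₀).transpose * φ.mapMatrix (K₀.subtype.mapMatrix M₀)
        = K₀.subtype.mapMatrix (M₀.transpose * φ₀.mapMatrix M₀) := by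
    intro M₀
    ext i j
    rw [Matrix.mul_apply]
    have hr : K₀.subtype.mapMatrix (M₀.transpose * φ₀.mapMatrix M₀) i j
        = ∑ k, ((M₀ k i : K₀) : K) * ((φ₀ (M₀ k j) : K₀) : K) := by
      rw [RingHom.mapMatrix_apply, Matrix.map_apply, Matrix.mul_apply, map_sum]
      apply Finset.sum_congr rfl
      intro k _
      rw [map_mul]
      rfl
    rw [hr]
    apply Finset.sum_congr rfl
    intro k _
    show ((M₀ k i : K₀) : K) * φ ((M₀ k j : K₀) : K) = _
    rw [hφφ₀]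
  -- the unitary scalars
  let U₁ : Subgroup Kˣ := (powMonoidHom (q + 1) : Kˣ →* Kˣ).ker
  have hU₁ : ∀ d : Kˣ, d ∈ U₁ ↔ (d : K) ^ (q + 1) = 1 := by
    intro d
    show d ^ (q + 1) = 1 ↔ _
    rw [Units.ext_iff, Units.val_pow_eq_pow_val, Units.val_one]
  have hU₁card : Nat.card U₁ = q + 1 := by
    rw [IsCyclic.card_powMonoidHom_ker, Nat.card_units, Nat.card_eq_fintype_card, hK,
      ← nat_sq_sub_one q (by omega)]
    exact Nat.gcd_eq_right (Dvd.intro_left _ rfl)
  let Φ : U₁ × ↥(Cfsg.GU n K₀ q₀) →* GL (Fin n) K :=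
    MonoidHom.noncommCoprod ((Matrix.GeneralLinearGroup.scalar (Fin n)).comp U₁.subtype)
      ((Matrix.GeneralLinearGroup.map K₀.subtype).comp (Cfsg.GU n K₀ q₀).subtype)
      (fun d h => Matrix.GeneralLinearGroup.scalar_commute _ _)
  have hΦ : ∀ (d : U₁) (h : ↥(Cfsg.GU n K₀ q₀)) k l,
      ((Φ (d, h) : GL (Fin n) K) : Matrix (Fin n) (Fin n) K) k l
        = ((d : Kˣ) : K) * ((((h : GL (Fin n) K₀) : Matrix (Fin n) (Fin n) K₀) k l : K₀) : K) := by
    intro d h k l
    show ((Matrix.GeneralLinearGroup.scalar (Fin n) (d : Kˣ)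
      * Matrix.GeneralLinearGroup.map K₀.subtype (h : GL (Fin n) K₀) :
      GL (Fin n) K) : Matrix (Fin n) (Fin n) K) k l = _
    rw [Units.val_mul, Matrix.GeneralLinearGroup.coe_scalar, Matrix.scalar_apply,
      Matrix.diagonal_mul]
    rfl
  have hΦm : ∀ (d : U₁) (h : ↥(Cfsg.GU n K₀ q₀)),
      ((Φ (d, h) : GL (Fin n) K) : Matrix (Fin n) (Fin n) K)
        = ((d : Kˣ) : K) • K₀.subtype.mapMatrix ((h : GL (Fin n) K₀) : Matrix (Fin n) (Fin n) K₀) := by
    intro d h
    ext k l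
    rw [hΦ, Matrix.smul_apply, RingHom.mapMatrix_apply, Matrix.map_apply, smul_eq_mul]
    rfl
  have hsm : ∀ (d : K) (N : Matrix (Fin n) (Fin n) K),
      (d • N).transpose * φ.mapMatrix (d • N) = (d ^ (q + 1)) • (N.transpose * φ.mapMatrix N) := by
    intro d N
    rw [Matrix.transpose_smul, RingHom.mapMatrix_apply, RingHom.mapMatrix_apply,
      Matrix.map_smul' φ d N (fun a b => map_mul φ a b), Matrix.smul_mul, Matrix.mul_smul,
      smul_smul, hφ, pow_succ']
  have hrange : ∀ g : GL (Fin n) K, g ∈ Φ.range ↔ (g ∈ Cfsg.GU n K q ∧ ∃ c : K, c ≠ 0 ∧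
      (g : Matrix (Fin n) (Fin n) K).map σ = c • (g : Matrix (Fin n) (Fin n) K)) := by
    intro g
    constructor
    · rintro ⟨⟨d, h⟩, rfl⟩
      constructor
      · rw [R1, hΦm, hsm, (hU₁ d).1 d.2, one_smul, R3, (R2 h).1 h.2, map_one]
      · refine ⟨σ (d : Kˣ) / (d : Kˣ), div_ne_zero ((map_ne_zero σ).2 (d : Kˣ).ne_zero)
          (d : Kˣ).ne_zero, ?_⟩
        ext k l
        rw [Matrix.map_apply, Matrix.smul_apply, hΦ, map_mul, smul_eq_mul,
          (hmem _).1 (((h : GL (Fin n) K₀) : Matrix (Fin n) (Fin n) K₀) k l).2]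
        field_simp [(d : Kˣ).ne_zero]
    · rintro ⟨hgU, c, hc, hg⟩
      have hgm := (R1 g).1 hgU
      have hex : ∃ i j, (g : Matrix (Fin n) (Fin n) K) i j ≠ 0 := by
        by_contra hcon
        push Not at hcon
        have hz : (g : Matrix (Fin n) (Fin n) K) = 0 := by
          ext i j
          exact hcon i j
        have h1 : (g : Matrix (Fin n) (Fin n) K)
            * ((g⁻¹ : GL (Fin n) K) : Matrix (Fin n) (Fin n) K) = 1 := by
          rw [← Units.val_mul, mul_inv_cancel, Units.val_one]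
        rw [hz, zero_mul] at h1
        have := congrFun (congrFun h1 ⟨0, hn⟩) ⟨0, hn⟩
        rw [Matrix.zero_apply, Matrix.one_apply_eq] at this
        exact zero_ne_one this
      obtain ⟨i, j, hij⟩ := hex
      obtain ⟨d₀, hd₀⟩ : ∃ d₀ : K, d₀ = (g : Matrix (Fin n) (Fin n) K) i j := ⟨_, rfl⟩
      have hd₀0 : d₀ ≠ 0 := by rw [hd₀]; exact hij
      have hσd : σ d₀ = c * d₀ := by
        have := congrFun (congrFun hg i) j
        rw [Matrix.map_apply, Matrix.smul_apply, smul_eq_mul] at this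
        rw [hd₀]
        exact this
      have hfix : ∀ k l, d₀⁻¹ * (g : Matrix (Fin n) (Fin n) K) k l ∈ K₀ := by
        intro k l
        rw [hmem, map_mul, map_inv₀, hσd]
        have := congrFun (congrFun hg k) l
        rw [Matrix.map_apply, Matrix.smul_apply, smul_eq_mul] at this
        rw [this]
        field_simp
      -- the norm of `d₀` lies in `K₀`
      have hnorm : d₀ ^ (q + 1) * ∑ k, (d₀⁻¹ * (g : Matrix (Fin n) (Fin n) K) k j) ^ (q + 1) = 1 := by
        have h1 := congrFun (congrFun hgm j) j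
        rw [Matrix.mul_apply, Matrix.one_apply_eq] at h1
        rw [Finset.mul_sum, ← h1]
        apply Finset.sum_congr rfl
        intro k _
        rw [Matrix.transpose_apply, RingHom.mapMatrix_apply, Matrix.map_apply, hφ, mul_pow,
          inv_pow, ← mul_assoc, mul_inv_cancel₀ (pow_ne_zero _ hd₀0), one_mul, pow_succ']
      have hlam : d₀ ^ (q + 1) ∈ K₀ := by
        have h1 : d₀ ^ (q + 1) = (∑ k, (d₀⁻¹ * (g : Matrix (Fin n) (Fin n) K) k j) ^ (q + 1))⁻¹ :=
          eq_inv_of_mul_eq_one_left hnorm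
        rw [h1]
        exact K₀.inv_mem (K₀.sum_mem (fun k _ => K₀.pow_mem (hfix k j) _))
      have hlam0 : (⟨d₀ ^ (q + 1), hlam⟩ : K₀) ≠ 0 := by
        intro hz
        exact pow_ne_zero _ hd₀0 (congrArg Subtype.val hz)
      have hlamfix : (⟨d₀ ^ (q + 1), hlam⟩ : K₀) ^ q₀ = ⟨d₀ ^ (q + 1), hlam⟩ := by
        apply Subtype.ext
        show (d₀ ^ (q + 1)) ^ q₀ = d₀ ^ (q + 1)
        rw [← hpow ⟨d₀ ^ (q + 1), hlam⟩]
        exact norm_pow_fixed hK d₀
      obtain ⟨e, he0, he⟩ := norm_exists hK₀' _ hlam0 hlamfix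
      have heK : (e : K) ≠ 0 := fun hz => he0 (Subtype.ext hz)
      have heq : (e : K) ^ (q + 1) = d₀ ^ (q + 1) := by
        rw [pow_succ', hpow e, ← pow_succ']
        exact congrArg Subtype.val he
      obtain ⟨d, hd⟩ : ∃ d : K, d = d₀ / (e : K) := ⟨_, rfl⟩
      have hd0 : d ≠ 0 := by rw [hd]; exact div_ne_zero hd₀0 heK
      have hdU : d ^ (q + 1) = 1 := by
        rw [hd, div_pow, heq, div_self (pow_ne_zero _ hd₀0)]
      have hfix' : ∀ k l, d⁻¹ * (g : Matrix (Fin n) (Fin n) K) k l ∈ K₀ := by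
        intro k l
        have h1 : d⁻¹ * (g : Matrix (Fin n) (Fin n) K) k l
            = (e : K) * (d₀⁻¹ * (g : Matrix (Fin n) (Fin n) K) k l) := by
          rw [hd]
          field_simp
        rw [h1]
        exact K₀.mul_mem e.2 (hfix k l)
      obtain ⟨M₀, hM₀⟩ : ∃ M₀ : Matrix (Fin n) (Fin n) K₀, M₀ = Matrix.of
          (fun k l => (⟨d⁻¹ * (g : Matrix (Fin n) (Fin n) K) k l, hfix' k l⟩ : K₀)) := ⟨_, rfl⟩
      have hM₀m : K₀.subtype.mapMatrix M₀ = d⁻¹ • (g : Matrix (Fin n) (Fin n) K) := by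
        rw [hM₀]
        ext k l
        rfl
      have hM₀u : M₀.transpose * φ₀.mapMatrix M₀ = 1 := by
        have hinj : Function.Injective (K₀.subtype.mapMatrix :
            Matrix (Fin n) (Fin n) K₀ → Matrix (Fin n) (Fin n) K) := by
          intro A B hAB
          ext k l
          have := congrFun (congrFun hAB k) l
          exact this
        apply hinj
        rw [← R3, hM₀m, hsm, hgm, map_one, inv_pow, hdU, inv_one, one_smul]
      have hdet : M₀.det ≠ 0 := by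
        intro hz
        have h1 := congrArg Matrix.det hM₀u
        rw [Matrix.det_mul, Matrix.det_transpose, hz, zero_mul, Matrix.det_one] at h1
        exact zero_ne_one h1
      have hGU₀ : Matrix.GeneralLinearGroup.mkOfDetNeZero M₀ hdet ∈ Cfsg.GU n K₀ q₀ :=
        (R2 _).2 hM₀u
      have hdmem : Units.mk0 d hd0 ∈ U₁ := (hU₁ _).2 hdU
      refine ⟨(⟨Units.mk0 d hd0, hdmem⟩, ⟨_, hGU₀⟩), ?_⟩
      apply Units.ext
      rw [hΦm]
      show d • K₀.subtype.mapMatrix M₀ = _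
      rw [hM₀m, smul_smul, mul_inv_cancel₀ hd0, one_smul]
  -- the kernel
  have hroot : ∀ u : {u : K₀ // u ^ (q₀ + 1) = 1}, ((u : K₀) : K) ≠ 0 ∧
      ((u : K₀) : K) ^ (q + 1) = 1 := by
    intro u
    have h1 : ((u : K₀) : K) ^ (q₀ + 1) = 1 := congrArg Subtype.val u.2
    constructor
    · intro hz
      rw [hz, zero_pow (by omega)] at h1
      exact zero_ne_one h1
    · rw [pow_succ', hpow, ← pow_succ', h1]
  have hscal : ∀ c : K₀ˣ, ((c : K₀)) ^ (q₀ + 1) = 1 →
      Matrix.GeneralLinearGroup.scalar (Fin n) c ∈ Cfsg.GU n K₀ q₀ := by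
    intro c hc
    rw [R2, Matrix.GeneralLinearGroup.coe_scalar]
    have h1 : (Matrix.scalar (Fin n) (c : K₀)) = (c : K₀) • (1 : Matrix (Fin n) (Fin n) K₀) := by
      rw [Matrix.smul_one_eq_diagonal]
      rfl
    rw [h1, Matrix.transpose_smul, Matrix.transpose_one, RingHom.mapMatrix_apply,
      Matrix.map_smul' φ₀ (c : K₀) 1 (fun a b => map_mul φ₀ a b), Matrix.smul_mul, Matrix.mul_smul,
      smul_smul, hφ₀, ← pow_succ', hc, one_smul, Matrix.one_mul]
    exact Matrix.map_one φ₀ (map_zero φ₀) (map_one φ₀)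
  have hunit : ∀ u : {u : K₀ // u ^ (q₀ + 1) = 1}, (u : K₀) ≠ 0 := by
    intro u hz
    exact (hroot u).1 (congrArg Subtype.val hz)
  have hinvpow : ∀ u : {u : K₀ // u ^ (q₀ + 1) = 1},
      (((Units.mk0 (u : K₀) (hunit u))⁻¹ : K₀ˣ) : K₀) ^ (q₀ + 1) = 1 := by
    intro u
    rw [Units.val_inv_eq_inv_val, Units.val_mk0, inv_pow, u.2, inv_one]
  let ι : {u : K₀ // u ^ (q₀ + 1) = 1} → U₁ × ↥(Cfsg.GU n K₀ q₀) := fun u =>
    (⟨Units.mk0 ((u : K₀) : K) (hroot u).1, (hU₁ _).2 (hroot u).2⟩,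
      ⟨Matrix.GeneralLinearGroup.scalar (Fin n) (Units.mk0 (u : K₀) (hunit u))⁻¹,
        hscal _ (hinvpow u)⟩)
  have hι : Function.Injective ι := by
    intro u v huv
    have h1 := congrArg (fun x : U₁ × ↥(Cfsg.GU n K₀ q₀) => (((x.1 : U₁) : Kˣ) : K)) huv
    apply Subtype.ext
    apply Subtype.ext
    exact h1
  have hker : (Φ.ker : Set (U₁ × ↥(Cfsg.GU n K₀ q₀))) = Set.range ι := by
    ext ⟨d, h⟩
    constructor
    · intro hx
      have hx1 : Φ (d, h) = 1 := hx
      have hent : ∀ k l, ((d : Kˣ) : K)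
          * ((((h : GL (Fin n) K₀) : Matrix (Fin n) (Fin n) K₀) k l : K₀) : K)
          = (1 : Matrix (Fin n) (Fin n) K) k l := by
        intro k l
        rw [← hΦ, hx1]
        rfl
      have h00 := hent ⟨0, hn⟩ ⟨0, hn⟩
      rw [Matrix.one_apply_eq] at h00
      have hdF : ((d : Kˣ) : K) ∈ K₀ := by
        have : ((d : Kˣ) : K) = ((((h : GL (Fin n) K₀) : Matrix (Fin n) (Fin n) K₀)
            ⟨0, hn⟩ ⟨0, hn⟩ : K₀) : K)⁻¹ := eq_inv_of_mul_eq_one_left h00
        rw [this]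
        exact K₀.inv_mem (Subtype.prop _)
      have hdpow : (⟨((d : Kˣ) : K), hdF⟩ : K₀) ^ (q₀ + 1) = 1 := by
        apply Subtype.ext
        show ((d : Kˣ) : K) ^ (q₀ + 1) = 1
        have h1 := (hU₁ d).1 d.2
        rw [pow_succ'] at h1
        rw [pow_succ', ← hpow ⟨((d : Kˣ) : K), hdF⟩]
        exact h1
      refine ⟨⟨⟨((d : Kˣ) : K), hdF⟩, hdpow⟩, ?_⟩
      apply Prod.ext
      · apply Subtype.ext
        apply Units.ext
        rfl
      · apply Subtype.ext
        apply Units.ext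
        ext k l
        show (((Matrix.GeneralLinearGroup.scalar (Fin n)
          (Units.mk0 (⟨((d : Kˣ) : K), hdF⟩ : K₀) (hunit ⟨_, hdpow⟩))⁻¹ :
          GL (Fin n) K₀) : Matrix (Fin n) (Fin n) K₀) k l : K) = _
        rw [Matrix.GeneralLinearGroup.coe_scalar, Matrix.scalar_apply, Matrix.diagonal_apply]
        have hkl := hent k l
        by_cases hkl' : k = l
        · subst hkl'
          rw [if_pos rfl]
          rw [Matrix.one_apply_eq] at hkl
          rw [Units.val_inv_eq_inv_val, Units.val_mk0]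
          show ((d : Kˣ) : K)⁻¹ = _
          exact (eq_inv_of_mul_eq_one_right hkl).symm
        · rw [if_neg hkl']
          rw [Matrix.one_apply_ne hkl'] at hkl
          rcases mul_eq_zero.1 hkl with h | h
          · exact absurd h (d : Kˣ).ne_zero
          · exact h.symm
    · rintro ⟨u, hu⟩
      show Φ (d, h) = 1
      rw [← hu]
      apply Units.ext
      ext k l
      rw [hΦ]
      show ((u : K₀) : K) * (((Matrix.GeneralLinearGroup.scalar (Fin n)
          (Units.mk0 (u : K₀) (hunit u))⁻¹ :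
          GL (Fin n) K₀) : Matrix (Fin n) (Fin n) K₀) k l : K) = (1 : Matrix (Fin n) (Fin n) K) k l
      rw [Matrix.GeneralLinearGroup.coe_scalar, Matrix.scalar_apply, Matrix.diagonal_apply]
      by_cases hkl' : k = l
      · subst hkl'
        rw [if_pos rfl, Matrix.one_apply_eq, ← Subfield.coe_mul, Units.val_inv_eq_inv_val,
          Units.val_mk0, mul_inv_cancel₀ (hunit u)]
        rfl
      · rw [if_neg hkl', Matrix.one_apply_ne hkl']
        show ((u : K₀) : K) * 0 = 0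
        rw [mul_zero]
  have hkercard : Nat.card Φ.ker = q₀ + 1 := by
    have h1 : Nat.card Φ.ker = Nat.card (Set.range ι) := by
      rw [← hker]
      rfl
    rw [h1, Nat.card_range_of_injective hι]
    apply card_roots_of_unity_of_dvd (K := K₀) (q₀ + 1) (by omega)
    rw [hK₀', ← nat_sq_sub_one q₀ (by omega)]
    exact Dvd.intro_left _ rfl
  have h1 := Subgroup.card_mul_index Φ.ker
  rw [Subgroup.index_ker, hkercard, Nat.card_prod, hU₁card] at h1
  have h2 : Nat.card {g : ↥(Cfsg.GU n K q) // ∃ c : K, c ≠ 0 ∧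
      ((g : GL (Fin n) K) : Matrix (Fin n) (Fin n) K).map σ
        = c • ((g : GL (Fin n) K) : Matrix (Fin n) (Fin n) K)} = Nat.card Φ.range := by
    apply Nat.card_congr
    exact (Equiv.subtypeSubtypeEquivSubtypeInter (fun g : GL (Fin n) K => g ∈ Cfsg.GU n K q)
      (fun g : GL (Fin n) K => ∃ c : K, c ≠ 0 ∧
        (g : Matrix (Fin n) (Fin n) K).map σ = c • (g : Matrix (Fin n) (Fin n) K))).trans
      (Equiv.subtypeEquivRight (fun g => (hrange g).symm))
  rw [h2, mul_comm, h1]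

theorem gu_field_aut_count {K : Type*} [Field K] [Fintype K] {q₀ q r n : ℕ} (hr : r.Prime)
    (hr2 : r ≠ 2) (hn : 1 ≤ n) (hq : q = q₀ ^ r) (hK : Fintype.card K = q ^ 2) (σ : K ≃+* K)
    (hσ : orderOf σ = r) :
    (Nat.card {g : ↥(Cfsg.GU n K q) // ∃ c : K, c ≠ 0 ∧
      ((g : GL (Fin n) K) : Matrix (Fin n) (Fin n) K).map σ
        = c • ((g : GL (Fin n) K) : Matrix (Fin n) (Fin n) K)} : ℤ)
      = ((q + 1) / (q₀ + 1) : ℕ) * ((q₀ : ℤ) ^ (n * (n - 1) / 2)
        * ∏ i : Fin n, ((q₀ : ℤ) ^ ((i : ℕ) + 1) - (-1) ^ ((i : ℕ) + 1))) := by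
  classical
  have hF : Fintype.card K = (q₀ ^ 2) ^ r := by
    rw [hK, hq]
    ring
  obtain ⟨K₀, hmem, hcard⟩ := fixed_field_card hr hF σ hσ
  letI : Fintype K₀ := Fintype.ofFinite _
  have hK₀' : Fintype.card K₀ = q₀ ^ 2 := by rw [← Nat.card_eq_fintype_card]; exact hcard
  have hq₀ := two_le_of_card_sq hK₀'
  obtain ⟨k, hk⟩ := hr.eq_two_or_odd'.resolve_left hr2
  have hpow : ∀ x : K₀, (x : K) ^ q = (x : K) ^ q₀ := by
    intro x
    have hx2 : (x : K) ^ (q₀ ^ 2) = x := by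
      have h1 := FiniteField.pow_card x
      rw [hK₀'] at h1
      exact congrArg Subtype.val h1
    have hxk : ∀ j : ℕ, (x : K) ^ ((q₀ ^ 2) ^ j) = x := by
      intro j
      induction j with
      | zero => rw [pow_zero, pow_one]
      | succ j ih => rw [pow_succ, pow_mul, ih, hx2]
    have h3 : q = (q₀ ^ 2) ^ k * q₀ := by
      rw [hq, hk]
      ring
    rw [h3, pow_mul, hxk]
  have hcount := gu_subfield_scalar_count hK K₀ hcard hpow σ hmem hn
  rw [card_GU hK₀' n] at hcount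
  have hdvd : q₀ + 1 ∣ q + 1 := by
    have h1 := Odd.nat_add_dvd_pow_add_pow q₀ 1 (⟨k, hk⟩ : Odd r)
    rw [one_pow, ← hq] at h1
    exact h1
  obtain ⟨t, ht⟩ := hdvd
  rw [ht, Nat.mul_div_cancel_left t (by omega)]
  rw [ht, mul_comm, mul_assoc] at hcount
  have hcount' := Nat.eq_of_mul_eq_mul_left (by omega : 0 < q₀ + 1) hcount
  rw [hcount']
  have hprod : (∏ i : Fin n, ((q₀ : ℤ) ^ ((i : ℕ) + 1) - (-1) ^ ((i : ℕ) + 1)))
      = ((∏ i ∈ Finset.range n, (if Even i then q₀ ^ (i + 1) + 1 else q₀ ^ (i + 1) - 1) : ℕ) : ℤ) := by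
    rw [Fin.prod_univ_eq_prod_range (fun i => ((q₀ : ℤ) ^ (i + 1) - (-1) ^ (i + 1))) n,
      Nat.cast_prod]
    apply Finset.prod_congr rfl
    intro i _
    by_cases hi : Even i
    · rw [if_pos hi, Odd.neg_one_pow (Even.add_one hi)]
      push_cast
      ring
    · rw [if_neg hi, Even.neg_one_pow (by rw [Nat.even_add_one]; exact hi)]
      have h1 : 1 ≤ q₀ ^ (i + 1) := Nat.one_le_pow _ _ (by omega)
      rw [Nat.cast_sub h1]
      push_cast
      ring
  rw [hprod]
  push_cast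
  ring

end Cfsg.Agent.Helper15
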