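import Mathlib
import Cfsg.Agent.Helper15.SpSemi3

set_option autoImplicit false

namespace Cfsg.Agent.Helper15
open Polynomial

universe u

structure HPack {F : Type u} [Field F] {V : Type u} [AddCommGroup V] [Module F V]
    (σ : F →+* F) (H : V → V → F) (g : V →ₗ[F] V) (m : ℕ) : Prop where
  invol : ∀ a, σ (σ a) = a
  add_l : ∀ u u' w, H (u + u') w = H u w + H u' w
  smul_l : ∀ (a : F) u w, H (a • u) w = a * H u w
  herm : ∀ u w, H w u = σ (H u w)
  nd : ∀ u, (∀ w, H u w = 0) → u = 0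
  iso : ∀ u w, H (g u) (g w) = H u w
  pow : g ^ m = 1
  mpos : 1 ≤ m

section
variable {F : Type u} [Field F] {V : Type u} [AddCommGroup V] [Module F V]
  {σ : F →+* F} {H : V → V → F} {g : V →ₗ[F] V} {m : ℕ}

def HPack.lin (hP : HPack σ H g m) (w : V) : V →ₗ[F] F where
  toFun := fun u => H u w
  map_add' := fun u u' => hP.add_l u u' w
  map_smul' := fun a u => by
    rw [hP.smul_l]
    rfl

theorem HPack.lin_apply (hP : HPack σ H g m) (w u : V) : hP.lin w u = H u w := rfl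

theorem HPack.zero_l (hP : HPack σ H g m) (w : V) : H 0 w = 0 := by
  rw [← hP.lin_apply, map_zero]

theorem HPack.sub_l (hP : HPack σ H g m) (u u' w : V) : H (u - u') w = H u w - H u' w := by
  rw [← hP.lin_apply, map_sub, hP.lin_apply, hP.lin_apply]

theorem HPack.add_r (hP : HPack σ H g m) (u w w' : V) : H u (w + w') = H u w + H u w' := by
  rw [hP.herm (w + w') u, hP.add_l, map_add, ← hP.herm, ← hP.herm]

theorem HPack.smul_r (hP : HPack σ H g m) (a : F) (u w : V) : H u (a • w) = σ a * H u w := by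
  rw [hP.herm (a • w) u, hP.smul_l, map_mul, ← hP.herm]

theorem HPack.zero_r (hP : HPack σ H g m) (u : V) : H u 0 = 0 := by
  rw [hP.herm 0 u, hP.zero_l, map_zero]

theorem HPack.sub_r (hP : HPack σ H g m) (u w w' : V) : H u (w - w') = H u w - H u w' := by
  rw [hP.herm (w - w') u, hP.sub_l, map_sub, ← hP.herm, ← hP.herm]

theorem HPack.gk (hP : HPack σ H g m) (x : V) : g ((g ^ (m - 1)) x) = x := by
  have h1 : g * g ^ (m - 1) = 1 := by
    rw [← pow_succ', Nat.sub_add_cancel hP.mpos, hP.pow]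
  exact congrArg (fun φ : V →ₗ[F] V => φ x) h1

theorem HPack.kg (hP : HPack σ H g m) (x : V) : (g ^ (m - 1)) (g x) = x := by
  have h1 : g ^ (m - 1) * g = 1 := by
    rw [← pow_succ, Nat.sub_add_cancel hP.mpos, hP.pow]
  exact congrArg (fun φ : V →ₗ[F] V => φ x) h1

theorem HPack.adj1 (hP : HPack σ H g m) (u w : V) : H (g u) w = H u ((g ^ (m - 1)) w) := by
  have h1 := hP.iso u ((g ^ (m - 1)) w)
  rw [hP.gk] at h1
  exact h1

theorem HPack.swap (hP : HPack σ H g m) : HPack σ H (g ^ (m - 1)) m where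
  invol := hP.invol
  add_l := hP.add_l
  smul_l := hP.smul_l
  herm := hP.herm
  nd := hP.nd
  iso := fun u w => by
    have h1 := hP.iso ((g ^ (m - 1)) u) ((g ^ (m - 1)) w)
    rw [hP.gk, hP.gk] at h1
    exact h1.symm
  pow := by rw [← pow_mul, mul_comm, pow_mul, hP.pow, one_pow]
  mpos := hP.mpos

theorem HPack.kk (hP : HPack σ H g m) : (g ^ (m - 1)) ^ (m - 1) = g :=
  pow_kk g m hP.mpos hP.pow

theorem HPack.adj_pow (hP : HPack σ H g m) (n : ℕ) (u w : V) :
    H ((g ^ n) u) w = H u (((g ^ (m - 1)) ^ n) w) := by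
  induction n generalizing u w with
  | zero => simp
  | succ n ih =>
    have h1 : (g ^ (n + 1)) u = (g ^ n) (g u) := by rw [pow_succ]; rfl
    have h2 : ((g ^ (m - 1)) ^ (n + 1)) w = (g ^ (m - 1)) (((g ^ (m - 1)) ^ n) w) := by
      rw [pow_succ']; rfl
    rw [h1, h2, ih, hP.adj1]

theorem HPack.mapmap (hP : HPack σ H g m) (f : F[X]) : (f.map σ).map σ = f := by
  rw [Polynomial.map_map]
  have h : σ.comp σ = RingHom.id F := RingHom.ext hP.invol
  rw [h, Polynomial.map_id]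

theorem HPack.adj (hP : HPack σ H g m) (f : F[X]) (u w : V) :
    H (aeval g f u) w = H u (aeval (g ^ (m - 1)) (f.map σ) w) := by
  induction f using Polynomial.induction_on' with
  | add p q hp hq =>
    rw [map_add, LinearMap.add_apply, hP.add_l, hp, hq, Polynomial.map_add, map_add,
      LinearMap.add_apply, hP.add_r]
  | monomial n a =>
    rw [Polynomial.map_monomial, aeval_monomial, aeval_monomial, Module.End.mul_apply,
      Module.End.mul_apply, Module.algebraMap_end_apply, Module.algebraMap_end_apply, hP.smul_l,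
      hP.smul_r, hP.invol, hP.adj_pow]

theorem HPack.adj' (hP : HPack σ H g m) (f : F[X]) (u w : V) :
    H u (aeval g f w) = H (aeval (g ^ (m - 1)) (f.map σ) u) w := by
  rw [hP.herm (aeval g f w) u, hP.adj, ← hP.herm]

theorem HPack.adj_r (hP : HPack σ H g m) (f : F[X]) (u w : V) :
    H (aeval (g ^ (m - 1)) f u) w = H u (aeval g (f.map σ) w) := by
  have h := hP.swap.adj f u w
  rw [hP.kk] at h
  exact h

theorem HPack.restrict (hP : HPack σ H g m) (W : Submodule F V) (hW : ∀ x ∈ W, g x ∈ W)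
    (hnd : ∀ u : W, (∀ w : W, H u w = 0) → u = 0) :
    HPack σ (fun u w : W => H u w) (g.restrict hW) m where
  invol := hP.invol
  add_l := fun u u' w => hP.add_l u u' w
  smul_l := fun a u w => hP.smul_l a u w
  herm := fun u w => hP.herm u w
  nd := hnd
  iso := fun u w => hP.iso u w
  pow := restrict_pow_one g W hW m hP.pow
  mpos := hP.mpos

theorem HPack.riesz [Finite F] [FiniteDimensional F V] (hP : HPack σ H g m) (φ : V →ₗ[F] F) :
    ∃ w, ∀ x, H x w = φ x := by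
  haveI : Finite V := Module.finite_of_finite F
  haveI : Finite (V →ₗ[F] F) := Module.finite_of_finite F
  have hinj : Function.Injective (fun w => hP.lin w) := by
    intro w w' hww
    have h1 : ∀ x, H x (w - w') = 0 := by
      intro x
      rw [hP.sub_r, sub_eq_zero]
      exact LinearMap.congr_fun hww x
    have h2 : w - w' = 0 := by
      apply hP.nd
      intro x
      rw [hP.herm x (w - w'), h1, map_zero]
    exact sub_eq_zero.1 h2
  have hcard : Nat.card (V →ₗ[F] F) ≤ Nat.card V :=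
    le_of_eq (Nat.card_congr (Module.finBasis F V).toDualEquiv.toEquiv).symm
  have hbij := hinj.bijective_of_nat_card_le hcard
  obtain ⟨w, hw⟩ := hbij.2 φ
  exact ⟨w, fun x => by rw [← hw]; rfl⟩

theorem dvd_pow_sub_one' (g : V →ₗ[F] V) (hg : g ^ m = 1) (π : F[X]) (hπ : Irreducible π) (v : V)
    (hv : aeval g π v = 0) (hv0 : v ≠ 0) : π ∣ X ^ m - 1 := by
  apply (cycMap_eq_zero_iff g v hv0 π hπ hv (X ^ m - 1)).1
  rw [cycMap_apply, map_sub, map_pow, aeval_X, map_one, hg, sub_self]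
  rfl

theorem hhyp_isotropic (hP : HPack σ H g m) (π : F[X])
    (hH : IsCoprime π ((π.map σ).comp (X ^ (m - 1)))) (u : V) (hu : aeval g π u = 0)
    (f : F[X]) : H (aeval g f u) u = 0 := by
  obtain ⟨a, b, hab⟩ := hH
  have h1 : aeval g (a * π + b * (π.map σ).comp (X ^ (m - 1))) u = u := by
    rw [hab, map_one]
    rfl
  rw [map_add, LinearMap.add_apply, aeval_mul_apply g a π, hu, map_zero, zero_add, mul_comm,
    aeval_mul_apply, ← aeval_pow_comp] at h1
  have h2 : H (aeval g f u) (aeval (g ^ (m - 1)) (π.map σ) (aeval g b u)) = 0 := by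
    rw [← hP.adj, aeval_comm_apply, hu, map_zero]
    exact hP.zero_l _
  rw [h1] at h2
  exact h2

theorem coprime_swap (σ : F →+* F) (π : F[X]) (k : ℕ)
    (hH : IsCoprime π ((π.map σ).comp (X ^ k))) :
    IsCoprime (π.map σ) (((π.map σ).map σ).comp (X ^ k)) := by
  have h1 := hH.map (Polynomial.mapRingHom σ)
  rw [Polynomial.coe_mapRingHom, Polynomial.map_comp, Polynomial.map_pow, Polynomial.map_X] at h1
  exact h1

theorem irreducible_map_invol (σ : F →+* F) (hσ : ∀ a, σ (σ a) = a) (π : F[X])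
    (hπ : Irreducible π) : Irreducible (π.map σ) := by
  let E : F ≃+* F := RingEquiv.ofRingHom σ σ (RingHom.ext hσ) (RingHom.ext hσ)
  have h1 : (Polynomial.mapEquiv E) π = π.map σ := rfl
  rw [← h1]
  exact (MulEquiv.irreducible_iff (Polynomial.mapEquiv E)).2 hπ

theorem hpair_exists (hm : (m : F) ≠ 0) (hP : HPack σ H g m) (π : F[X]) (hπ : Irreducible π)
    (v₁ : V) (hv₁ : aeval g π v₁ = 0) (hv₁0 : v₁ ≠ 0) :
    ∃ v₂ : V, aeval (g ^ (m - 1)) (π.map σ) v₂ = 0 ∧ H v₁ v₂ ≠ 0 := by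
  have hw : ∃ w, H v₁ w ≠ 0 := by
    by_contra hcon
    push Not at hcon
    exact hv₁0 (hP.nd v₁ hcon)
  obtain ⟨w, hw⟩ := hw
  obtain ⟨e, a, b, hab, hπe⟩ := proj_poly hm π hπ (dvd_pow_sub_one' g hP.pow π hπ v₁ hv₁ hv₁0)
  refine ⟨aeval (g ^ (m - 1)) (e.map σ) w, ?_, ?_⟩
  · rw [← aeval_mul_apply, ← Polynomial.map_mul, hπe, Polynomial.map_mul, aeval_mul_apply]
    have h1 : aeval (g ^ (m - 1)) ((X ^ m - 1 : F[X]).map σ) w = 0 := by
      rw [Polynomial.map_sub, Polynomial.map_pow, Polynomial.map_X, Polynomial.map_one, map_sub,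
        map_pow, aeval_X, map_one, hP.swap.pow, sub_self]
      rfl
    rw [h1, map_zero]
  · rw [← hP.adj]
    have h1 : aeval g (a * π + e) v₁ = v₁ := by
      rw [hab, map_one]
      rfl
    rw [map_add, LinearMap.add_apply, aeval_mul_apply g a π, hv₁, map_zero, zero_add] at h1
    rw [h1]
    exact hw

theorem hpair_match [Finite F] {V' : Type u} [AddCommGroup V'] [Module F V']
    [FiniteDimensional F V'] {H' : V' → V' → F} {h : V' →ₗ[F] V'}
    (hm : (m : F) ≠ 0) (hP : HPack σ H g m) (hP' : HPack σ H' h m) (π : F[X])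
    (hπ : Irreducible π)
    (v₁ : V) (hv₁ : aeval g π v₁ = 0) (hv₁0 : v₁ ≠ 0) (v₂ : V)
    (v₁' : V') (hv₁' : aeval h π v₁' = 0) (hv₁0' : v₁' ≠ 0) :
    ∃ v₂' : V', aeval (h ^ (m - 1)) (π.map σ) v₂' = 0 ∧
      ∀ f : F[X], H' (aeval h f v₁') v₂' = H (aeval g f v₁) v₂ := by
  have hker : LinearMap.ker (cycMap h v₁') = LinearMap.ker (cycMap g v₁) := by
    ext f
    rw [LinearMap.mem_ker, LinearMap.mem_ker, cycMap_eq_zero_iff h v₁' hv₁0' π hπ hv₁',
      cycMap_eq_zero_iff g v₁ hv₁0 π hπ hv₁]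
  obtain ⟨Tc, hTc⟩ := range_equiv (cycMap h v₁') (cycMap g v₁) hker
  obtain ⟨φ', hφ'⟩ := LinearMap.exists_extend
    ((hP.lin v₂) ∘ₗ (Submodule.subtype _) ∘ₗ Tc.toLinearMap)
  obtain ⟨w', hw'⟩ := hP'.riesz φ'
  obtain ⟨e, a, b, hab, hπe⟩ := proj_poly hm π hπ (dvd_pow_sub_one' g hP.pow π hπ v₁ hv₁ hv₁0)
  refine ⟨aeval (h ^ (m - 1)) (e.map σ) w', ?_, ?_⟩
  · rw [← aeval_mul_apply, ← Polynomial.map_mul, hπe, Polynomial.map_mul, aeval_mul_apply]
    have h1 : aeval (h ^ (m - 1)) ((X ^ m - 1 : F[X]).map σ) w' = 0 := by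
      rw [Polynomial.map_sub, Polynomial.map_pow, Polynomial.map_X, Polynomial.map_one, map_sub,
        map_pow, aeval_X, map_one, hP'.swap.pow, sub_self]
      rfl
    rw [h1, map_zero]
  · intro f
    rw [← hP'.adj]
    have h0 : aeval h π (aeval h f v₁') = 0 := by
      rw [aeval_comm_apply, hv₁', map_zero]
    have h1 : aeval h (a * π + e) (aeval h f v₁') = aeval h f v₁' := by
      rw [hab, map_one]
      rfl
    rw [map_add, LinearMap.add_apply, aeval_mul_apply h a π, h0, map_zero, zero_add] at h1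
    rw [h1, hw']
    have h3 := LinearMap.congr_fun hφ' ⟨cycMap h v₁' f, LinearMap.mem_range_self _ f⟩
    have h4 : φ' (aeval h f v₁')
        = H (Tc ⟨cycMap h v₁' f, LinearMap.mem_range_self _ f⟩ : V) v₂ := h3
    rw [h4, hTc]
    rfl

theorem exists_trace_ne (σ : F →+* F) (hne : ∃ a, σ a ≠ a) : ∃ ε : F, ε + σ ε ≠ 0 := by
  by_cases h2 : (1 : F) + 1 = 0
  · obtain ⟨a, ha⟩ := hne
    refine ⟨a, fun h0 => ha ?_⟩
    linear_combination h0 - a * h2
  · exact ⟨1, by rw [map_one]; exact h2⟩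

theorem haniso_exists (hm : (m : F) ≠ 0) (hP : HPack σ H g m) (π : F[X]) (hπ : Irreducible π)
    (hd : π ∣ (π.map σ).comp (X ^ (m - 1))) (hne : ∃ a, σ a ≠ a)
    (v₁ : V) (hv₁ : aeval g π v₁ = 0) (hv₁0 : v₁ ≠ 0) :
    ∃ v : V, aeval g π v = 0 ∧ H v v ≠ 0 := by
  by_contra hcon
  push Not at hcon
  obtain ⟨v₂, hv₂, hB⟩ := hpair_exists hm hP π hπ v₁ hv₁ hv₁0
  have hv₂' : aeval g π v₂ = 0 := by
    obtain ⟨r, hr⟩ := hd
    have h1 : π.comp (X ^ (m - 1)) = π.map σ * r.map σ := by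
      have h2 := congrArg (Polynomial.map σ) hr
      rw [Polynomial.map_comp, hP.mapmap, Polynomial.map_pow, Polynomial.map_X,
        Polynomial.map_mul] at h2
      exact h2
    have h3 : aeval (g ^ (m - 1)) (π.comp (X ^ (m - 1))) v₂ = aeval g π v₂ := by
      rw [← aeval_pow_comp, hP.kk]
    rw [← h3, h1, mul_comm, aeval_mul_apply, hv₂, map_zero]
  obtain ⟨ε, hε⟩ := exists_trace_ne σ hne
  obtain ⟨a, ha⟩ : ∃ a : F, a = ε / H v₁ v₂ := ⟨_, rfl⟩
  have h5 : a * H v₁ v₂ = ε := by rw [ha]; exact div_mul_cancel₀ ε hB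
  have e1 := hcon (a • v₁ + v₂) (by rw [map_add, map_smul, hv₁, hv₂', smul_zero, add_zero])
  have e2 := hcon v₁ hv₁
  have e3 := hcon v₂ hv₂'
  rw [hP.add_l, hP.add_r, hP.add_r, hP.smul_l, hP.smul_l, hP.smul_r, hP.smul_r, e2, e3,
    hP.herm v₁ v₂] at e1
  apply hε
  have h6 : σ a * σ (H v₁ v₂) = σ ε := by rw [← map_mul, h5]
  linear_combination e1 - h5 - h6

theorem hnu_lift (hP : HPack σ H g m) (π : F[X]) (v : V) (hv : aeval g π v = 0) :
    ∃ ν : AdjoinRoot π →ₗ[F] F, ∀ f : F[X], ν (AdjoinRoot.mk π f) = H (aeval g f v) v := by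
  have hsurj : LinearMap.range (AdjoinRoot.mkₐ π).toLinearMap = ⊤ := by
    apply LinearMap.range_eq_top.2
    exact AdjoinRoot.mk_surjective
  obtain ⟨r, hr⟩ := LinearMap.exists_rightInverse_of_surjective _ hsurj
  refine ⟨(hP.lin v) ∘ₗ (cycMap g v) ∘ₗ r, ?_⟩
  intro f
  have h1 : AdjoinRoot.mk π (r (AdjoinRoot.mk π f)) = AdjoinRoot.mk π f :=
    LinearMap.congr_fun hr (AdjoinRoot.mk π f)
  obtain ⟨t, ht⟩ := AdjoinRoot.mk_eq_mk.1 h1
  have h2 : r (AdjoinRoot.mk π f) = f + t * π := by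
    rw [mul_comm, ← ht]
    ring
  show H (aeval g (r (AdjoinRoot.mk π f)) v) v = H (aeval g f v) v
  rw [h2, map_add, LinearMap.add_apply, aeval_mul_apply, hv, map_zero, add_zero]

end

theorem hnorm_match {F : Type u} [Field F] [Fintype F] {V V' : Type u} [AddCommGroup V]
    [Module F V] [AddCommGroup V'] [Module F V']
    {σ : F →+* F} {H : V → V → F} {g : V →ₗ[F] V} {H' : V' → V' → F}
    {h : V' →ₗ[F] V'} {m : ℕ}
    (hP : HPack σ H g m) (hP' : HPack σ H' h m) (hne : ∃ a, σ a ≠ a) (π : F[X])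
    (hπ : Irreducible π)
    (hd : π ∣ (π.map σ).comp (X ^ (m - 1))) (hμ : π ∣ X ^ m - 1)
    (v : V) (hv : aeval g π v = 0) (hf₀ : H v v ≠ 0)
    (v₀ : V') (hv₀ : aeval h π v₀ = 0) (hf₁ : H' v₀ v₀ ≠ 0) :
    ∃ v' : V', aeval h π v' = 0 ∧ ∀ f : F[X], H' (aeval h f v') v' = H (aeval g f v) v := by
  haveI : Fact (Irreducible π) := ⟨hπ⟩
  have hπ0 : π ≠ 0 := hπ.ne_zero
  haveI : FiniteDimensional F (AdjoinRoot π) :=
    Module.Finite.of_basis (AdjoinRoot.powerBasis hπ0).basis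
  haveI : Finite (AdjoinRoot π) := Finite.of_equiv (Fin π.natDegree → F)
    (AdjoinRoot.powerBasis hπ0).basis.equivFun.symm.toEquiv
  have hrm : AdjoinRoot.root π ^ m = 1 := by
    have h1 : AdjoinRoot.mk π (X ^ m - 1) = 0 := AdjoinRoot.mk_eq_zero.2 hμ
    rw [map_sub, map_pow, AdjoinRoot.mk_X, map_one, sub_eq_zero] at h1
    exact h1
  have hrkk : (AdjoinRoot.root π ^ (m - 1)) ^ (m - 1) = AdjoinRoot.root π :=
    pow_kk _ m hP.mpos hrm
  have hlift : π.eval₂ ((AdjoinRoot.of π).comp σ) (AdjoinRoot.root π ^ (m - 1)) = 0 := by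
    rw [← Polynomial.eval₂_map, ← mk_comp_pow]
    exact AdjoinRoot.mk_eq_zero.2 hd
  obtain ⟨τ, hτdef⟩ : ∃ τ : AdjoinRoot π →+* AdjoinRoot π,
      τ = AdjoinRoot.lift ((AdjoinRoot.of π).comp σ) (AdjoinRoot.root π ^ (m - 1)) hlift :=
    ⟨_, rfl⟩
  have hτmk : ∀ f : F[X],
      τ (AdjoinRoot.mk π f) = AdjoinRoot.mk π ((f.map σ).comp (X ^ (m - 1))) := by
    intro f
    rw [hτdef, AdjoinRoot.lift_mk, mk_comp_pow, Polynomial.eval₂_map]
  have hmk1 : ∀ f : F[X], f.eval₂ (AdjoinRoot.of π) (AdjoinRoot.root π) = AdjoinRoot.mk π f := by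
    intro f
    have h1 := mk_comp_pow π f 1
    rw [pow_one, pow_one, comp_X] at h1
    exact h1.symm
  have hττ : ∀ x, τ (τ x) = x := by
    intro x
    obtain ⟨f, rfl⟩ := AdjoinRoot.mk_surjective x
    rw [hτmk, hτmk, Polynomial.map_comp, hP.mapmap, Polynomial.map_pow, Polynomial.map_X,
      Polynomial.comp_assoc, Polynomial.X_pow_comp, ← pow_mul, mk_comp_pow, pow_mul, hrkk, hmk1]
  have hτne : ∃ x, τ x ≠ x := by
    obtain ⟨b, hb⟩ := hne
    refine ⟨AdjoinRoot.of π b, ?_⟩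
    rw [hτdef, AdjoinRoot.lift_of]
    intro h0
    rw [RingHom.comp_apply] at h0
    exact hb ((AdjoinRoot.of π).injective h0)
  obtain ⟨ν, hν⟩ := hnu_lift hP π v hv
  obtain ⟨ν₀, hν₀⟩ := hnu_lift hP' π v₀ hv₀
  have hν₀ne : ν₀ ≠ 0 := by
    intro h0
    apply hf₁
    have h1 := hν₀ 1
    rw [h0] at h1
    simp only [LinearMap.zero_apply, map_one, Module.End.one_apply] at h1
    exact h1.symm
  obtain ⟨a, ha⟩ := func_L ν₀ ν hν₀ne
  have hsk : ∀ x, ν (τ x) = σ (ν x) := by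
    intro x
    obtain ⟨f, rfl⟩ := AdjoinRoot.mk_surjective x
    rw [hτmk, hν, hν, ← aeval_pow_comp, hP.adj_r, hP.mapmap, ← hP.herm]
  have hsk₀ : ∀ x, ν₀ (τ x) = σ (ν₀ x) := by
    intro x
    obtain ⟨f, rfl⟩ := AdjoinRoot.mk_surjective x
    rw [hτmk, hν₀, hν₀, ← aeval_pow_comp, hP'.adj_r, hP'.mapmap, ← hP'.herm]
  have hasym : τ a = a := by
    by_contra hne'
    have hne'' : a - τ a ≠ 0 := sub_ne_zero.2 (Ne.symm hne')
    apply hν₀ne
    apply LinearMap.ext
    intro z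
    have key : ∀ y, ν₀ ((a - τ a) * y) = 0 := by
      intro y
      have e2 : ν₀ (a * y) = ν₀ (τ a * y) := by
        calc ν₀ (a * y) = ν y := (ha y).symm
          _ = ν (τ (τ y)) := by rw [hττ]
          _ = σ (ν (τ y)) := hsk _
          _ = σ (ν₀ (a * τ y)) := by rw [ha]
          _ = ν₀ (τ (a * τ y)) := by rw [hsk₀]
          _ = ν₀ (τ a * y) := by rw [map_mul, hττ]
      rw [sub_mul, map_sub, e2, sub_self]
    have h1 := key ((a - τ a)⁻¹ * z)
    rw [← mul_assoc, mul_inv_cancel₀ hne'', one_mul] at h1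
    exact h1
  have ha0 : a ≠ 0 := by
    rintro rfl
    apply hf₀
    have h1 := hν 1
    rw [ha, zero_mul, map_zero, map_one] at h1
    exact h1.symm
  obtain ⟨c, hc⟩ := invol_norm_surj τ hττ hτne a ha0 hasym
  obtain ⟨c₀, rfl⟩ := AdjoinRoot.mk_surjective c
  refine ⟨aeval h c₀ v₀, by rw [aeval_comm_apply, hv₀, map_zero], ?_⟩
  intro f
  have e1 : AdjoinRoot.mk π ((c₀.map σ).comp (X ^ (m - 1)) * f * c₀)
      = (AdjoinRoot.mk π c₀ * τ (AdjoinRoot.mk π c₀)) * AdjoinRoot.mk π f := by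
    rw [map_mul, map_mul, hτmk]
    ring
  rw [hP'.adj', aeval_pow_comp, ← aeval_mul_apply, ← aeval_mul_apply, ← hν₀, e1, hc, ← ha, hν]

end Cfsg.Agent.Helper15
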