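import Mathlib
import Cfsg.Agent.Helper15.HermSemi1

set_option autoImplicit false

namespace Cfsg.Agent.Helper15
open Polynomial

universe u

theorem hgram_equiv {F : Type u} [Field F] {V V' P : Type u} [AddCommGroup V] [Module F V]
    [AddCommGroup V'] [Module F V'] [AddCommGroup P] [Module F P]
    (H : V → V → F) (H' : V' → V' → F) (hz : ∀ w, H 0 w = 0) (hz' : ∀ w, H' 0 w = 0)
    (g : V →ₗ[F] V) (h : V' →ₗ[F] V') (s : P →ₗ[F] P)
    (Φ : P →ₗ[F] V) (Φ' : P →ₗ[F] V')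
    (hs : ∀ x, Φ (s x) = g (Φ x)) (hs' : ∀ x, Φ' (s x) = h (Φ' x))
    (hiso : ∀ x y, H (Φ x) (Φ y) = H' (Φ' x) (Φ' y))
    (hnd : ∀ x, (∀ y, H (Φ x) (Φ y) = 0) → Φ x = 0)
    (hnd' : ∀ x, (∀ y, H' (Φ' x) (Φ' y) = 0) → Φ' x = 0)
    (hU : ∀ u ∈ LinearMap.range Φ, g u ∈ LinearMap.range Φ)
    (hU' : ∀ u ∈ LinearMap.range Φ', h u ∈ LinearMap.range Φ') :
    ∃ T : LinearMap.range Φ ≃ₗ[F] LinearMap.range Φ',
      (∀ w, T (g.restrict hU w) = h.restrict hU' (T w)) ∧
      (∀ u w : LinearMap.range Φ, H' (T u : V') (T w : V') = H (u : V) (w : V)) := by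
  have hker : LinearMap.ker Φ = LinearMap.ker Φ' := by
    ext x
    rw [LinearMap.mem_ker, LinearMap.mem_ker]
    constructor
    · intro hx
      apply hnd'
      intro y
      rw [← hiso, hx]
      exact hz _
    · intro hx
      apply hnd
      intro y
      rw [hiso, hx]
      exact hz' _
  obtain ⟨T, hT⟩ := range_equiv Φ Φ' hker
  refine ⟨T, ?_, ?_⟩
  · intro w
    obtain ⟨x, hx⟩ := w.2
    have hw : w = ⟨Φ x, LinearMap.mem_range_self _ x⟩ := Subtype.ext hx.symm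
    rw [hw]
    apply Subtype.ext
    have h1 : g.restrict hU ⟨Φ x, LinearMap.mem_range_self _ x⟩
        = ⟨Φ (s x), LinearMap.mem_range_self _ _⟩ :=
      Subtype.ext (by rw [LinearMap.coe_restrict_apply]; exact (hs x).symm)
    rw [h1, hT, LinearMap.coe_restrict_apply, hT]
    exact hs' x
  · intro u w
    obtain ⟨x, hx⟩ := u.2
    obtain ⟨y, hy⟩ := w.2
    have hu : u = ⟨Φ x, LinearMap.mem_range_self _ x⟩ := Subtype.ext hx.symm
    have hw : w = ⟨Φ y, LinearMap.mem_range_self _ y⟩ := Subtype.ext hy.symm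
    rw [hu, hw, hT, hT]
    exact (hiso x y).symm

section
variable {F : Type u} [Field F] {V : Type u} [AddCommGroup V] [Module F V]
  {σ : F →+* F} {H : V → V → F} {g : V →ₗ[F] V} {m : ℕ}

theorem HPack.aeval_g_eq (hP : HPack σ H g m) (f : F[X]) :
    aeval g f = aeval (g ^ (m - 1)) (f.comp (X ^ (m - 1))) := by
  rw [← aeval_pow_comp, hP.kk]

theorem hcyc_gram (hP : HPack σ H g m) (v : V) (f f' : F[X]) :
    H (aeval g f v) (aeval g f' v) = H (aeval g ((f'.map σ).comp (X ^ (m - 1)) * f) v) v := by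
  rw [hP.adj', aeval_pow_comp, ← aeval_mul_apply]

theorem hcyc_nd (hP : HPack σ H g m) (π : F[X]) (hπ : Irreducible π) (v : V)
    (hv : aeval g π v = 0) (hf₀ : H v v ≠ 0) (f : F[X])
    (hf : ∀ y, H (cycMap g v f) (cycMap g v y) = 0) : cycMap g v f = 0 := by
  by_contra hne
  obtain ⟨c, hc⟩ := cyc_inv g π hπ v hv f hne
  apply hf₀
  have h1 : H (aeval g (c * f) v) v = 0 := by
    rw [aeval_mul_apply, hP.adj, aeval_pow_comp]
    exact hf _
  rw [hc] at h1
  exact h1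

theorem hhyp_gram (hP : HPack σ H g m) (v₁ v₂ : V)
    (i1 : ∀ f : F[X], H (aeval g f v₁) v₁ = 0)
    (i2 : ∀ f : F[X], H (aeval (g ^ (m - 1)) f v₂) v₂ = 0)
    (x y : F[X] × F[X]) :
    H (((cycMap g v₁).coprod (cycMap (g ^ (m - 1)) v₂)) x)
      (((cycMap g v₁).coprod (cycMap (g ^ (m - 1)) v₂)) y)
      = H (aeval g (y.2.map σ * x.1) v₁) v₂ + σ (H (aeval g (x.2.map σ * y.1) v₁) v₂) := by
  rw [LinearMap.coprod_apply, LinearMap.coprod_apply, cycMap_apply, cycMap_apply, cycMap_apply,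
    cycMap_apply]
  have t11 : H (aeval g x.1 v₁) (aeval g y.1 v₁) = 0 := by
    rw [hcyc_gram hP]
    exact i1 _
  have t12 : ∀ x1 y2 : F[X], H (aeval g x1 v₁) (aeval (g ^ (m - 1)) y2 v₂)
      = H (aeval g (y2.map σ * x1) v₁) v₂ := by
    intro x1 y2
    rw [aeval_mul_apply, hP.adj (y2.map σ), hP.mapmap]
  have t21 : H (aeval (g ^ (m - 1)) x.2 v₂) (aeval g y.1 v₁)
      = σ (H (aeval g (x.2.map σ * y.1) v₁) v₂) := by
    rw [hP.herm (aeval g y.1 v₁) (aeval (g ^ (m - 1)) x.2 v₂), t12]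
  have t22 : H (aeval (g ^ (m - 1)) x.2 v₂) (aeval (g ^ (m - 1)) y.2 v₂) = 0 := by
    have h1 : H (aeval (g ^ (m - 1)) x.2 v₂) (aeval (g ^ (m - 1)) y.2 v₂)
        = H (aeval g (y.2.map σ) (aeval (g ^ (m - 1)) x.2 v₂)) v₂ := by
      rw [hP.adj (y.2.map σ), hP.mapmap]
    rw [h1, hP.aeval_g_eq, ← aeval_mul_apply (g ^ (m - 1))]
    exact i2 _
  rw [hP.add_l, hP.add_r, hP.add_r, t11, t12, t21, t22]
  ring

theorem hhyp_nd (hP : HPack σ H g m) (π : F[X]) (hπ : Irreducible π) (v₁ v₂ : V)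
    (hv₁ : aeval g π v₁ = 0) (hv₂ : aeval (g ^ (m - 1)) (π.map σ) v₂ = 0) (hB : H v₁ v₂ ≠ 0)
    (i1 : ∀ f : F[X], H (aeval g f v₁) v₁ = 0)
    (i2 : ∀ f : F[X], H (aeval (g ^ (m - 1)) f v₂) v₂ = 0)
    (x : F[X] × F[X])
    (hx : ∀ y, H (((cycMap g v₁).coprod (cycMap (g ^ (m - 1)) v₂)) x)
      (((cycMap g v₁).coprod (cycMap (g ^ (m - 1)) v₂)) y) = 0) :
    ((cycMap g v₁).coprod (cycMap (g ^ (m - 1)) v₂)) x = 0 := by
  have hx' : ∀ y : F[X] × F[X],
      H (aeval g (y.2.map σ * x.1) v₁) v₂ + σ (H (aeval g (x.2.map σ * y.1) v₁) v₂) = 0 := by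
    intro y
    rw [← hhyp_gram hP v₁ v₂ i1 i2]
    exact hx y
  have h1 : aeval g x.1 v₁ = 0 := by
    by_contra hne
    obtain ⟨c, hc⟩ := cyc_inv g π hπ v₁ hv₁ x.1 hne
    have h2 := hx' (0, c.map σ)
    simp only [mul_zero, map_zero, LinearMap.zero_apply] at h2
    rw [hP.mapmap, hc, hP.zero_l, map_zero, add_zero] at h2
    exact hB h2
  have h2 : aeval (g ^ (m - 1)) x.2 v₂ = 0 := by
    by_contra hne
    obtain ⟨c, hc⟩ := cyc_inv (g ^ (m - 1)) (π.map σ)
      (irreducible_map_invol σ hP.invol π hπ) v₂ hv₂ x.2 hne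
    have h3 := hx' (c.map σ, 0)
    simp only [Polynomial.map_zero, zero_mul, map_zero, LinearMap.zero_apply] at h3
    rw [hP.zero_l, zero_add, ← Polynomial.map_mul, hP.adj, hP.mapmap, mul_comm, hc] at h3
    apply hB
    have h4 := congrArg σ h3
    rw [hP.invol, map_zero] at h4
    exact h4
  rw [LinearMap.coprod_apply, cycMap_apply, cycMap_apply, h1, h2, add_zero]

theorem horth_pack [Finite F] [FiniteDimensional F V] (hP : HPack σ H g m) (U : Submodule F V)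
    (hU : ∀ u ∈ U, g u ∈ U) (hndU : ∀ u ∈ U, (∀ w ∈ U, H u w = 0) → u = 0) :
    ∃ (W : Submodule F V) (hW : ∀ u ∈ W, g u ∈ W), IsCompl U W ∧
      (∀ u ∈ U, ∀ w ∈ W, H u w = 0) ∧ HPack σ (fun u w : W => H u w) (g.restrict hW) m := by
  let W : Submodule F V :=
    { carrier := {w | ∀ u ∈ U, H u w = 0}
      add_mem' := fun {a b} ha hb u hu => by rw [hP.add_r, ha u hu, hb u hu, add_zero]
      zero_mem' := fun u _ => hP.zero_r u
      smul_mem' := fun c {a} ha u hu => by rw [hP.smul_r, ha u hu, mul_zero] }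
  have hmem : ∀ w, w ∈ W ↔ ∀ u ∈ U, H u w = 0 := fun w => Iff.rfl
  have hPU : HPack σ (fun u w : U => H u w) (g.restrict hU) m :=
    hP.restrict U hU (fun u hu => Subtype.ext (hndU u.1 u.2 (fun w hw => hu ⟨w, hw⟩)))
  have hdisj : Disjoint U W := by
    rw [Submodule.disjoint_def]
    intro x hxU hxW
    apply hndU x hxU
    intro w hw
    rw [hP.herm w x, (hmem x).1 hxW w hw, map_zero]
  have hsup : ∀ x : V, ∃ u ∈ U, ∃ w ∈ W, x = u + w := by
    intro x
    obtain ⟨u₀, hu₀⟩ := hPU.riesz ((hP.lin x) ∘ₗ U.subtype)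
    refine ⟨u₀.1, u₀.2, x - u₀.1, ?_, by abel⟩
    rw [hmem]
    intro u hu
    rw [hP.sub_r, sub_eq_zero]
    exact (hu₀ ⟨u, hu⟩).symm
  have hc : IsCompl U W := by
    refine ⟨hdisj, ?_⟩
    rw [codisjoint_iff]
    apply eq_top_iff.2
    intro x _
    obtain ⟨u, hu, w, hw, rfl⟩ := hsup x
    exact Submodule.add_mem_sup hu hw
  have hW : ∀ w ∈ W, g w ∈ W := by
    intro w hw
    rw [hmem] at hw ⊢
    intro u hu
    have h1 := hP.iso ((g ^ (m - 1)) u) w
    rw [hP.gk] at h1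
    rw [h1]
    exact hw _ (pow_mem_of_inv g U hU (m - 1) u hu)
  refine ⟨W, hW, hc, fun u hu w hw => (hmem w).1 hw u hu, ?_⟩
  apply hP.restrict W hW
  intro u hu
  apply Subtype.ext
  apply hP.nd
  intro z
  obtain ⟨a, ha, b, hb, rfl⟩ := hsup z
  rw [hP.add_r]
  have h1 : H u.1 a = 0 := by
    rw [hP.herm a u.1, (hmem u.1).1 u.2 a ha, map_zero]
  have h2 : H u.1 b = 0 := hu ⟨b, hb⟩
  rw [h1, h2, add_zero]

theorem hiso_glue {V' : Type u} [AddCommGroup V'] [Module F V']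
    (H : V → V → F) (H' : V' → V' → F)
    (hadd : ∀ a b c d, H (a + b) (c + d) = H a c + H a d + H b c + H b d)
    (hadd' : ∀ a b c d, H' (a + b) (c + d) = H' a c + H' a d + H' b c + H' b d)
    (g : V →ₗ[F] V) (h : V' →ₗ[F] V')
    (U W : Submodule F V) (U' W' : Submodule F V') (hc : IsCompl U W) (hc' : IsCompl U' W')
    (hU : ∀ x ∈ U, g x ∈ U) (hW : ∀ x ∈ W, g x ∈ W)
    (hU' : ∀ x ∈ U', h x ∈ U') (hW' : ∀ x ∈ W', h x ∈ W')
    (horth : ∀ u ∈ U, ∀ w ∈ W, H u w = 0 ∧ H w u = 0)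
    (horth' : ∀ u ∈ U', ∀ w ∈ W', H' u w = 0 ∧ H' w u = 0)
    (T1 : U ≃ₗ[F] U') (T2 : W ≃ₗ[F] W')
    (h1 : ∀ w, T1 (g.restrict hU w) = h.restrict hU' (T1 w))
    (h2 : ∀ w, T2 (g.restrict hW w) = h.restrict hW' (T2 w))
    (i1 : ∀ u w : U, H' (T1 u : V') (T1 w : V') = H (u : V) (w : V))
    (i2 : ∀ u w : W, H' (T2 u : V') (T2 w : V') = H (u : V) (w : V)) :
    ∃ T : V ≃ₗ[F] V', (∀ v, T (g v) = h (T v)) ∧ (∀ u w, H' (T u) (T w) = H u w) := by
  have hT : ∀ y : U × W, ((Submodule.prodEquivOfIsCompl U W hc).symm ≪≫ₗ (T1.prodCongr T2) ≪≫ₗ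
      (Submodule.prodEquivOfIsCompl U' W' hc')) (Submodule.prodEquivOfIsCompl U W hc y)
      = ((T1 y.1 : U') : V') + ((T2 y.2 : W') : V') := by
    intro y
    simp only [LinearEquiv.trans_apply, LinearEquiv.symm_apply_apply, LinearEquiv.prodCongr_apply]
    rw [Submodule.coe_prodEquivOfIsCompl']
  refine ⟨(Submodule.prodEquivOfIsCompl U W hc).symm ≪≫ₗ (T1.prodCongr T2) ≪≫ₗ
    (Submodule.prodEquivOfIsCompl U' W' hc'), ?_, ?_⟩
  · intro x
    obtain ⟨y, rfl⟩ := (Submodule.prodEquivOfIsCompl U W hc).surjective x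
    have hg : g (Submodule.prodEquivOfIsCompl U W hc y)
        = Submodule.prodEquivOfIsCompl U W hc (g.restrict hU y.1, g.restrict hW y.2) := by
      rw [Submodule.coe_prodEquivOfIsCompl', Submodule.coe_prodEquivOfIsCompl', map_add]
      rfl
    rw [hg, hT, hT, h1, h2, map_add]
    rfl
  · intro x z
    obtain ⟨y, rfl⟩ := (Submodule.prodEquivOfIsCompl U W hc).surjective x
    obtain ⟨y', rfl⟩ := (Submodule.prodEquivOfIsCompl U W hc).surjective z
    rw [hT, hT, Submodule.coe_prodEquivOfIsCompl', Submodule.coe_prodEquivOfIsCompl', hadd, hadd']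
    rw [i1, i2, (horth' _ (T1 y.1).2 _ (T2 y'.2).2).1, (horth' _ (T1 y'.1).2 _ (T2 y.2).2).2,
      (horth _ y.1.2 _ y'.2.2).1, (horth _ y'.1.2 _ y.2.2).2]

end

theorem hpiece_exists {F : Type u} [Field F] [Fintype F] {V V' : Type u} [AddCommGroup V]
    [Module F V] [FiniteDimensional F V] [AddCommGroup V'] [Module F V'] [FiniteDimensional F V']
    {σ : F →+* F} {H : V → V → F} {g : V →ₗ[F] V} {H' : V' → V' → F}
    {h : V' →ₗ[F] V'} {m : ℕ}
    (hm : (m : F) ≠ 0) (hP : HPack σ H g m) (hP' : HPack σ H' h m) (hne : ∃ a, σ a ≠ a)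
    (π : F[X]) (hπ : Irreducible π)
    (v₁ : V) (hv₁ : aeval g π v₁ = 0) (hv₁0 : v₁ ≠ 0)
    (v₁' : V') (hv₁' : aeval h π v₁' = 0) (hv₁0' : v₁' ≠ 0) :
    ∃ (U : Submodule F V) (U' : Submodule F V') (hU : ∀ u ∈ U, g u ∈ U)
      (hU' : ∀ u ∈ U', h u ∈ U') (T : U ≃ₗ[F] U'),
      (∀ w, T (g.restrict hU w) = h.restrict hU' (T w)) ∧
      (∀ u w : U, H' (T u : V') (T w : V') = H (u : V) (w : V)) ∧
      (∀ u ∈ U, (∀ w ∈ U, H u w = 0) → u = 0) ∧
      (∀ u ∈ U', (∀ w ∈ U', H' u w = 0) → u = 0) ∧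
      U ≠ ⊥ := by
  by_cases hH : IsCoprime π ((π.map σ).comp (X ^ (m - 1)))
  · -- hyperbolic case
    obtain ⟨v₂, hv₂, hB12⟩ := hpair_exists hm hP π hπ v₁ hv₁ hv₁0
    obtain ⟨v₂', hv₂', hmatch⟩ := hpair_match hm hP hP' π hπ v₁ hv₁ hv₁0 v₂ v₁' hv₁' hv₁0'
    have hH' := coprime_swap σ π (m - 1) hH
    have i1 := hhyp_isotropic hP π hH v₁ hv₁
    have i2 := hhyp_isotropic hP.swap (π.map σ) hH' v₂ hv₂
    have i1' := hhyp_isotropic hP' π hH v₁' hv₁'
    have i2' := hhyp_isotropic hP'.swap (π.map σ) hH' v₂' hv₂'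
    have hB12' : H' v₁' v₂' ≠ 0 := by
      have h1 := hmatch 1
      rw [map_one, map_one] at h1
      have h2 : H' v₁' v₂' = H v₁ v₂ := h1
      rw [h2]
      exact hB12
    have hs : ∀ x : F[X] × F[X], ((cycMap g v₁).coprod (cycMap (g ^ (m - 1)) v₂))
        (((LinearMap.mulLeft F (X : F[X])).prodMap (LinearMap.mulLeft F (X ^ (m - 1) : F[X]))) x)
        = g (((cycMap g v₁).coprod (cycMap (g ^ (m - 1)) v₂)) x) := by
      intro x
      rw [LinearMap.coprod_apply, LinearMap.coprod_apply, map_add]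
      congr 1
      · exact cycMap_X_mul g v₁ x.1
      · show aeval (g ^ (m - 1)) (X ^ (m - 1) * x.2) v₂ = g (aeval (g ^ (m - 1)) x.2 v₂)
        rw [aeval_mul_apply, map_pow, aeval_X, hP.kk]
    have hs' : ∀ x : F[X] × F[X], ((cycMap h v₁').coprod (cycMap (h ^ (m - 1)) v₂'))
        (((LinearMap.mulLeft F (X : F[X])).prodMap (LinearMap.mulLeft F (X ^ (m - 1) : F[X]))) x)
        = h (((cycMap h v₁').coprod (cycMap (h ^ (m - 1)) v₂')) x) := by
      intro x
      rw [LinearMap.coprod_apply, LinearMap.coprod_apply, map_add]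
      congr 1
      · exact cycMap_X_mul h v₁' x.1
      · show aeval (h ^ (m - 1)) (X ^ (m - 1) * x.2) v₂' = h (aeval (h ^ (m - 1)) x.2 v₂')
        rw [aeval_mul_apply, map_pow, aeval_X, hP'.kk]
    have hiso : ∀ x y : F[X] × F[X],
        H (((cycMap g v₁).coprod (cycMap (g ^ (m - 1)) v₂)) x)
          (((cycMap g v₁).coprod (cycMap (g ^ (m - 1)) v₂)) y)
        = H' (((cycMap h v₁').coprod (cycMap (h ^ (m - 1)) v₂')) x)
          (((cycMap h v₁').coprod (cycMap (h ^ (m - 1)) v₂')) y) := by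
      intro x y
      rw [hhyp_gram hP v₁ v₂ i1 i2, hhyp_gram hP' v₁' v₂' i1' i2', hmatch, hmatch]
    have hnd := hhyp_nd hP π hπ v₁ v₂ hv₁ hv₂ hB12 i1 i2
    have hnd' := hhyp_nd hP' π hπ v₁' v₂' hv₁' hv₂' hB12' i1' i2'
    have hU : ∀ u ∈ LinearMap.range ((cycMap g v₁).coprod (cycMap (g ^ (m - 1)) v₂)),
        g u ∈ LinearMap.range ((cycMap g v₁).coprod (cycMap (g ^ (m - 1)) v₂)) := by
      rintro _ ⟨x, rfl⟩
      exact ⟨_, hs x⟩
    have hU' : ∀ u ∈ LinearMap.range ((cycMap h v₁').coprod (cycMap (h ^ (m - 1)) v₂')),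
        h u ∈ LinearMap.range ((cycMap h v₁').coprod (cycMap (h ^ (m - 1)) v₂')) := by
      rintro _ ⟨x, rfl⟩
      exact ⟨_, hs' x⟩
    obtain ⟨T, hT1, hT2⟩ := hgram_equiv H H' hP.zero_l hP'.zero_l g h _ _ _ hs hs' hiso hnd hnd'
      hU hU'
    refine ⟨_, _, hU, hU', T, hT1, hT2, ?_, ?_, ?_⟩
    · rintro _ ⟨x, rfl⟩ hx
      exact hnd x (fun y => hx _ ⟨y, rfl⟩)
    · rintro _ ⟨x, rfl⟩ hx
      exact hnd' x (fun y => hx _ ⟨y, rfl⟩)
    · intro hbot
      apply hv₁0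
      have h1 : v₁ ∈ LinearMap.range ((cycMap g v₁).coprod (cycMap (g ^ (m - 1)) v₂)) := by
        refine ⟨(1, 0), ?_⟩
        rw [LinearMap.coprod_apply, cycMap_apply, cycMap_apply, map_one, map_zero]
        simp
      rw [hbot] at h1
      exact (Submodule.mem_bot F).1 h1
  · -- anisotropic case
    have hd : π ∣ (π.map σ).comp (X ^ (m - 1)) := (hπ.isCoprime_or_dvd _).resolve_left hH
    have hμ := dvd_pow_sub_one' g hP.pow π hπ v₁ hv₁ hv₁0
    obtain ⟨v, hv, hf₀⟩ := haniso_exists hm hP π hπ hd hne v₁ hv₁ hv₁0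
    obtain ⟨v₀', hv₀', hf₁⟩ := haniso_exists hm hP' π hπ hd hne v₁' hv₁' hv₁0'
    obtain ⟨v', hv', hmatch⟩ := hnorm_match hP hP' hne π hπ hd hμ v hv hf₀ v₀' hv₀' hf₁
    have hf₀' : H' v' v' ≠ 0 := by
      have h1 := hmatch 1
      rw [map_one, map_one] at h1
      have h2 : H' v' v' = H v v := h1
      rw [h2]
      exact hf₀
    have hs : ∀ x : F[X], (cycMap g v) ((LinearMap.mulLeft F (X : F[X])) x)
        = g ((cycMap g v) x) := fun x => cycMap_X_mul g v x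
    have hs' : ∀ x : F[X], (cycMap h v') ((LinearMap.mulLeft F (X : F[X])) x)
        = h ((cycMap h v') x) := fun x => cycMap_X_mul h v' x
    have hiso : ∀ x y : F[X], H (cycMap g v x) (cycMap g v y)
        = H' (cycMap h v' x) (cycMap h v' y) := by
      intro x y
      rw [cycMap_apply, cycMap_apply, cycMap_apply, cycMap_apply, hcyc_gram hP, hcyc_gram hP',
        hmatch]
    have hnd := hcyc_nd hP π hπ v hv hf₀
    have hnd' := hcyc_nd hP' π hπ v' hv' hf₀'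
    have hU : ∀ u ∈ LinearMap.range (cycMap g v), g u ∈ LinearMap.range (cycMap g v) := by
      rintro _ ⟨x, rfl⟩
      exact ⟨_, hs x⟩
    have hU' : ∀ u ∈ LinearMap.range (cycMap h v'), h u ∈ LinearMap.range (cycMap h v') := by
      rintro _ ⟨x, rfl⟩
      exact ⟨_, hs' x⟩
    obtain ⟨T, hT1, hT2⟩ := hgram_equiv H H' hP.zero_l hP'.zero_l g h _ _ _ hs hs' hiso hnd hnd'
      hU hU'
    refine ⟨_, _, hU, hU', T, hT1, hT2, ?_, ?_, ?_⟩
    · rintro _ ⟨x, rfl⟩ hx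
      exact hnd x (fun y => hx _ ⟨y, rfl⟩)
    · rintro _ ⟨x, rfl⟩ hx
      exact hnd' x (fun y => hx _ ⟨y, rfl⟩)
    · intro hbot
      have h1 : v ∈ LinearMap.range (cycMap g v) := by
        refine ⟨1, ?_⟩
        rw [cycMap_apply, map_one]
        rfl
      rw [hbot] at h1
      have h2 : v = 0 := (Submodule.mem_bot F).1 h1
      apply hf₀
      rw [h2]
      exact hP.zero_l 0

theorem hpiece_single {F : Type u} [Field F] [Fintype F] {V : Type u} [AddCommGroup V]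
    [Module F V] [FiniteDimensional F V]
    {σ : F →+* F} {H : V → V → F} {g : V →ₗ[F] V} {m : ℕ}
    (hm : (m : F) ≠ 0) (hP : HPack σ H g m) (hne : ∃ a, σ a ≠ a) (π : F[X])
    (hπ : Irreducible π) (v₁ : V) (hv₁ : aeval g π v₁ = 0) (hv₁0 : v₁ ≠ 0) :
    ∃ (U : Submodule F V) (v : V) (e : F[X]), (∀ u ∈ U, g u ∈ U) ∧ aeval g π v = 0 ∧ v ≠ 0 ∧
      (∀ u ∈ U, (∀ w ∈ U, H u w = 0) → u = 0) ∧
      LinearMap.range (cycMap g v) ≤ U ∧
      (∀ x ∈ U, aeval g e x ∈ LinearMap.range (cycMap g v)) ∧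
      (∀ x ∈ LinearMap.range (cycMap g v), aeval g e x = x) := by
  by_cases hH : IsCoprime π ((π.map σ).comp (X ^ (m - 1)))
  · obtain ⟨v₂, hv₂, hB12⟩ := hpair_exists hm hP π hπ v₁ hv₁ hv₁0
    have hH' := coprime_swap σ π (m - 1) hH
    have i1 := hhyp_isotropic hP π hH v₁ hv₁
    have i2 := hhyp_isotropic hP.swap (π.map σ) hH' v₂ hv₂
    have hnd := hhyp_nd hP π hπ v₁ v₂ hv₁ hv₂ hB12 i1 i2
    obtain ⟨a, b, hab⟩ := hH
    have hρ : aeval g ((π.map σ).comp (X ^ (m - 1))) v₂ = 0 := by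
      rw [← aeval_pow_comp]
      exact hv₂
    refine ⟨LinearMap.range ((cycMap g v₁).coprod (cycMap (g ^ (m - 1)) v₂)), v₁,
      b * (π.map σ).comp (X ^ (m - 1)), ?_, hv₁, hv₁0, ?_, ?_, ?_, ?_⟩
    · rintro _ ⟨x, rfl⟩
      refine ⟨((LinearMap.mulLeft F (X : F[X])).prodMap
        (LinearMap.mulLeft F (X ^ (m - 1) : F[X]))) x, ?_⟩
      rw [LinearMap.coprod_apply, LinearMap.coprod_apply, map_add]
      congr 1
      · exact cycMap_X_mul g v₁ x.1
      · show aeval (g ^ (m - 1)) (X ^ (m - 1) * x.2) v₂ = g (aeval (g ^ (m - 1)) x.2 v₂)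
        rw [aeval_mul_apply, map_pow, aeval_X, hP.kk]
    · rintro _ ⟨x, rfl⟩ hx
      exact hnd x (fun y => hx _ ⟨y, rfl⟩)
    · rintro _ ⟨x, rfl⟩
      refine ⟨(x, 0), ?_⟩
      show cycMap g v₁ x + cycMap (g ^ (m - 1)) v₂ 0 = cycMap g v₁ x
      rw [map_zero, add_zero]
    · rintro _ ⟨x, rfl⟩
      refine ⟨b * (π.map σ).comp (X ^ (m - 1)) * x.1, ?_⟩
      rw [LinearMap.coprod_apply, map_add, cycMap_apply, cycMap_apply, cycMap_apply]
      have h1 : aeval g (b * (π.map σ).comp (X ^ (m - 1))) (aeval (g ^ (m - 1)) x.2 v₂) = 0 := by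
        rw [aeval_pow_comp, aeval_comm_apply, aeval_mul_apply, hρ, map_zero, map_zero]
      rw [h1, add_zero, ← aeval_mul_apply]
    · rintro _ ⟨x, rfl⟩
      rw [cycMap_apply, aeval_comm_apply]
      have h1 : aeval g (a * π + b * (π.map σ).comp (X ^ (m - 1))) v₁ = v₁ := by
        rw [hab, map_one]
        rfl
      rw [map_add, LinearMap.add_apply, aeval_mul_apply g a π, hv₁, map_zero, zero_add] at h1
      rw [h1]
  · have hd : π ∣ (π.map σ).comp (X ^ (m - 1)) := (hπ.isCoprime_or_dvd _).resolve_left hH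
    obtain ⟨v, hv, hf₀⟩ := haniso_exists hm hP π hπ hd hne v₁ hv₁ hv₁0
    have hv0 : v ≠ 0 := by
      rintro rfl
      exact hf₀ (hP.zero_l 0)
    have hnd := hcyc_nd hP π hπ v hv hf₀
    refine ⟨LinearMap.range (cycMap g v), v, 1, ?_, hv, hv0, ?_, le_refl _, ?_, ?_⟩
    · rintro _ ⟨x, rfl⟩
      exact ⟨_, cycMap_X_mul g v x⟩
    · rintro _ ⟨x, rfl⟩ hx
      exact hnd x (fun y => hx _ ⟨y, rfl⟩)
    · intro x hx
      rw [map_one]
      exact hx
    · intro x _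
      rw [map_one]
      rfl

theorem herm_conj_aux {F : Type u} [Field F] [Fintype F] (σ : F →+* F) (hne : ∃ a, σ a ≠ a)
    (m : ℕ) (hm : (m : F) ≠ 0) :
    ∀ (n : ℕ) (V V' : Type u) [AddCommGroup V] [Module F V] [FiniteDimensional F V]
      [AddCommGroup V'] [Module F V'] [FiniteDimensional F V']
      (H : V → V → F) (H' : V' → V' → F)
      (g : V →ₗ[F] V) (h : V' →ₗ[F] V'),
      HPack σ H g m → HPack σ H' h m → Module.finrank F V = n → g.charpoly = h.charpoly →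
      ∃ T : V ≃ₗ[F] V', (∀ v, T (g v) = h (T v)) ∧ (∀ u w, H' (T u) (T w) = H u w) := by
  intro n
  induction n using Nat.strong_induction_on with
  | _ n ih =>
    intro V V' _ _ _ _ _ _ H H' g h hP hP' hn hc
    have hn' : Module.finrank F V' = n := by
      rw [← hn, ← LinearMap.charpoly_natDegree g, ← LinearMap.charpoly_natDegree h, hc]
    rcases Nat.eq_zero_or_pos n with h0 | hpos
    · have : Subsingleton V := Module.finrank_zero_iff.1 (hn.trans h0)
      have : Subsingleton V' := Module.finrank_zero_iff.1 (hn'.trans h0)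
      refine ⟨LinearEquiv.ofSubsingleton V V', fun v => Subsingleton.elim _ _, fun u w => ?_⟩
      rw [Subsingleton.elim u 0, Subsingleton.elim (LinearEquiv.ofSubsingleton V V' 0) 0,
        hP.zero_l, hP'.zero_l]
    · have hdeg : g.charpoly.natDegree = n := by rw [LinearMap.charpoly_natDegree, hn]
      have hne0 : g.charpoly ≠ 0 := (LinearMap.charpoly_monic g).ne_zero
      have hnu : ¬ IsUnit g.charpoly := by
        intro hu
        have := Polynomial.natDegree_eq_zero_of_isUnit hu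
        omega
      obtain ⟨π, hπ, hπd⟩ := WfDvdMonoid.exists_irreducible_factor hnu hne0
      obtain ⟨v, hv, hv0⟩ := exists_ker_aeval_irred g π hπ hπd
      obtain ⟨v', hv', hv0'⟩ := exists_ker_aeval_irred h π hπ (hc ▸ hπd)
      obtain ⟨U, U', hU, hU', T1, hT1, hT1i, hndU, hndU', hUne⟩ :=
        hpiece_exists hm hP hP' hne π hπ v hv0 hv v' hv0' hv'
      obtain ⟨W, hW, hcW, horW, hPW⟩ := horth_pack hP U hU hndU
      obtain ⟨W', hW', hcW', horW', hPW'⟩ := horth_pack hP' U' hU' hndU'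
      have hχU : (g.restrict hU).charpoly = (h.restrict hU').charpoly := by
        have h1 : T1.conj (g.restrict hU) = h.restrict hU' := by
          apply LinearMap.ext
          intro w
          rw [LinearEquiv.conj_apply_apply, hT1, LinearEquiv.apply_symm_apply]
        rw [← h1, LinearEquiv.charpoly_conj]
      have e1 := charpoly_of_isCompl g U W hU hW hcW
      have e2 := charpoly_of_isCompl h U' W' hU' hW' hcW'
      have hχW : (g.restrict hW).charpoly = (h.restrict hW').charpoly := by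
        have h3 : (g.restrict hU).charpoly * (g.restrict hW).charpoly
            = (g.restrict hU).charpoly * (h.restrict hW').charpoly := by
          rw [← e1, hχU, ← e2, hc]
        exact mul_left_cancel₀ (LinearMap.charpoly_monic _).ne_zero h3
      have hdim : Module.finrank F W < n := by
        have h5 := Submodule.finrank_add_eq_of_isCompl hcW
        have h6 : 0 < Module.finrank F U := by
          obtain ⟨b, hb, hb0⟩ := Submodule.exists_mem_ne_zero_of_ne_bot hUne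
          apply Module.finrank_pos_iff_exists_ne_zero.2
          refine ⟨⟨b, hb⟩, ?_⟩
          intro h7
          exact hb0 (congrArg Subtype.val h7)
        omega
      obtain ⟨T2, hT2, hT2i⟩ := ih (Module.finrank F W) hdim W W' (fun u w : W => H u w)
        (fun u w : W' => H' u w) (g.restrict hW) (h.restrict hW') hPW hPW' rfl hχW
      have hadd : ∀ a b c d, H (a + b) (c + d) = H a c + H a d + H b c + H b d := by
        intro a b c d
        rw [hP.add_l, hP.add_r, hP.add_r]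
        ring
      have hadd' : ∀ a b c d, H' (a + b) (c + d) = H' a c + H' a d + H' b c + H' b d := by
        intro a b c d
        rw [hP'.add_l, hP'.add_r, hP'.add_r]
        ring
      exact hiso_glue H H' hadd hadd' g h U W U' W' hcW hcW' hU hW hU' hW'
        (fun u hu w hw => ⟨horW u hu w hw, by rw [hP.herm u w, horW u hu w hw, map_zero]⟩)
        (fun u hu w hw => ⟨horW' u hu w hw, by rw [hP'.herm u w, horW' u hu w hw, map_zero]⟩)
        T1 T2 hT1 hT2 hT1i hT2i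

end Cfsg.Agent.Helper15
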