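import Mathlib
import Cfsg.Agent.Helper15.HermSemi2
import Cfsg.Agent.Helper15.SemiDet

set_option autoImplicit false

namespace Cfsg.Agent.Helper15
open Polynomial

universe u

theorem cyc_det_surj {F : Type u} [Field F] [Fintype F] {V : Type u} [AddCommGroup V]
    [Module F V] [FiniteDimensional F V] (g : V →ₗ[F] V) (π : F[X]) (hπ : Irreducible π) (v : V)
    (hv : aeval g π v = 0) (hv0 : v ≠ 0) (η : F) :
    ∃ f : F[X], ∀ hU : (∀ u ∈ LinearMap.range (cycMap g v),
        aeval g f u ∈ LinearMap.range (cycMap g v)),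
      LinearMap.det ((aeval g f).restrict hU) = η := by
  classical
  haveI : Fact (Irreducible π) := ⟨hπ⟩
  have hπ0 : π ≠ 0 := hπ.ne_zero
  haveI : FiniteDimensional F (AdjoinRoot π) :=
    Module.Finite.of_basis (AdjoinRoot.powerBasis hπ0).basis
  haveI : Finite (AdjoinRoot π) := Finite.of_equiv (Fin π.natDegree → F)
    (AdjoinRoot.powerBasis hπ0).basis.equivFun.symm.toEquiv
  obtain ⟨r, hr⟩ := FiniteField.norm_surjective F (AdjoinRoot π) η
  obtain ⟨f, rfl⟩ := AdjoinRoot.mk_surjective r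
  refine ⟨f, fun hU => ?_⟩
  have hker : LinearMap.ker (AdjoinRoot.mkₐ π).toLinearMap = LinearMap.ker (cycMap g v) := by
    ext x
    rw [LinearMap.mem_ker, LinearMap.mem_ker, cycMap_eq_zero_iff g v hv0 π hπ hv]
    exact AdjoinRoot.mk_eq_zero
  obtain ⟨T, hT⟩ := range_equiv (AdjoinRoot.mkₐ π).toLinearMap (cycMap g v) hker
  have hrange : LinearMap.range (AdjoinRoot.mkₐ π).toLinearMap = ⊤ :=
    LinearMap.range_eq_top.2 AdjoinRoot.mk_surjective
  obtain ⟨Ψ, hΨ⟩ : ∃ Ψ : AdjoinRoot π ≃ₗ[F] LinearMap.range (cycMap g v),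
      ∀ x : F[X], Ψ (AdjoinRoot.mk π x) = ⟨cycMap g v x, LinearMap.mem_range_self _ x⟩ :=
    ⟨(LinearEquiv.ofTop _ hrange).symm ≪≫ₗ T, fun x => hT x⟩
  have hconj : (aeval g f).restrict hU
      = (Ψ : AdjoinRoot π →ₗ[F] LinearMap.range (cycMap g v)) ∘ₗ
        (Algebra.lmul F (AdjoinRoot π) (AdjoinRoot.mk π f)) ∘ₗ
        (Ψ.symm : LinearMap.range (cycMap g v) →ₗ[F] AdjoinRoot π) := by
    apply LinearMap.ext
    intro w
    obtain ⟨l, rfl⟩ := Ψ.surjective w
    obtain ⟨x, rfl⟩ := AdjoinRoot.mk_surjective l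
    apply Subtype.ext
    rw [LinearMap.coe_restrict_apply]
    show aeval g f ((Ψ (AdjoinRoot.mk π x) : LinearMap.range (cycMap g v)) : V)
      = ((Ψ (AdjoinRoot.mk π f * Ψ.symm (Ψ (AdjoinRoot.mk π x)))) : V)
    rw [LinearEquiv.symm_apply_apply, ← map_mul, hΨ, hΨ]
    show aeval g f (aeval g x v) = aeval g (f * x) v
    rw [aeval_mul_apply]
  rw [hconj, LinearMap.det_conj, ← hr, Algebra.norm_apply]

theorem proj_exists {F : Type u} [Field F] {V : Type u} [AddCommGroup V] [Module F V]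
    (U W : Submodule F V) (hc : IsCompl U W) :
    ∃ P : V →ₗ[F] U, (∀ u : U, P u = u) ∧ (∀ x, x - P x ∈ W) := by
  refine ⟨U.projectionOnto W hc, fun u => Submodule.projectionOnto_apply_left hc u,
    fun x => ?_⟩
  have h1 : x - (U.projectionOnto W hc x : V)
      ∈ LinearMap.ker (U.projectionOnto W hc) := by
    rw [LinearMap.mem_ker, map_sub, Submodule.projectionOnto_apply_left, sub_self]
  rwa [Submodule.ker_projectionOnto] at h1

theorem commute_aeval_of_commute {F : Type*} [Field F] {A : Type*} [Ring A] [Algebra F A]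
    (P a : A) (h : Commute P a) (s : F[X]) : Commute P (aeval a s) := by
  induction s using Polynomial.induction_on' with
  | add p q hp hq =>
    rw [map_add]
    exact hp.add_right hq
  | monomial n c =>
    rw [aeval_monomial]
    exact (Algebra.commute_algebraMap_right c P).mul_right (h.pow_right n)

theorem herm_cent_det {F : Type u} [Field F] [Fintype F] {V : Type u} [AddCommGroup V]
    [Module F V] [FiniteDimensional F V] [Nontrivial V]
    {σ : F →+* F} {H : V → V → F} {g : V →ₗ[F] V} {m : ℕ}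
    (hm : (m : F) ≠ 0) (hP : HPack σ H g m) (hne : ∃ a, σ a ≠ a)
    (hdet : ∀ A A' : V →ₗ[F] V, (∀ u w, H (A u) w = H u (A' w)) →
      LinearMap.det A' = σ (LinearMap.det A))
    (δ : F) (hδ : δ * σ δ = 1) :
    ∃ z : V →ₗ[F] V, (∀ u w, H (z u) (z w) = H u w) ∧ (∀ x, z (g x) = g (z x)) ∧
      LinearMap.det z = δ := by
  classical
  -- Hilbert 90
  obtain ⟨η, hη0, hηδ⟩ : ∃ η : F, η ≠ 0 ∧ δ * σ η = η := by
    by_cases h1 : (1 : F) + δ = 0
    · obtain ⟨x, hx⟩ := hne
      have hδ1 : δ = -1 := by linear_combination h1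
      refine ⟨x - σ x, sub_ne_zero.2 (Ne.symm hx), ?_⟩
      rw [hδ1, map_sub, hP.invol]
      ring
    · refine ⟨1 + δ, h1, ?_⟩
      rw [map_add, map_one, mul_add, mul_one, hδ, add_comm]
  have hση : σ η ≠ 0 := by
    intro h0
    apply hη0
    have h1 := congrArg σ h0
    rw [hP.invol, map_zero] at h1
    exact h1
  -- the piece
  have hfr : 0 < Module.finrank F V := Module.finrank_pos
  have hnu : ¬ IsUnit g.charpoly := by
    intro hu
    have h1 := Polynomial.natDegree_eq_zero_of_isUnit hu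
    rw [LinearMap.charpoly_natDegree] at h1
    omega
  obtain ⟨π, hπ, hπd⟩ :=
    WfDvdMonoid.exists_irreducible_factor hnu (LinearMap.charpoly_monic g).ne_zero
  obtain ⟨v₁, hv₁0, hv₁⟩ := exists_ker_aeval_irred g π hπ hπd
  obtain ⟨U, v, e, hU, hv, hv0, hndU, hle, he1, he2⟩ :=
    hpiece_single hm hP hne π hπ v₁ hv₁ hv₁0
  obtain ⟨W, hW, hcW, horW, -⟩ := horth_pack hP U hU hndU
  obtain ⟨P₀, hP₀1, hP₀2⟩ := proj_exists U W hcW
  obtain ⟨f, hf⟩ := cyc_det_surj g π hπ v hv hv0 η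
  obtain ⟨P, hPdef⟩ : ∃ P : V →ₗ[F] V, P = U.subtype ∘ₗ P₀ := ⟨_, rfl⟩
  have hPU : ∀ x, P x ∈ U := fun x => by rw [hPdef]; exact (P₀ x).2
  have hPW : ∀ x, x - P x ∈ W := fun x => by rw [hPdef]; exact hP₀2 x
  have hPu : ∀ u ∈ U, P u = u := fun u hu => by
    rw [hPdef]
    exact congrArg Subtype.val (hP₀1 ⟨u, hu⟩)
  have hPw0 : ∀ w ∈ W, P w = 0 := by
    intro w hw
    have h1 : P w ∈ W := by
      have h := W.sub_mem hw (hPW w)
      rwa [sub_sub_cancel] at h
    exact Submodule.disjoint_def.1 hcW.disjoint (P w) (hPU w) h1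
  have hPg : ∀ x, P (g x) = g (P x) := by
    intro x
    have h1 : P (g (P x)) = g (P x) := hPu _ (hU _ (hPU x))
    have h2 : P (g (x - P x)) = 0 := hPw0 _ (hW _ (hPW x))
    have h3 : g x = g (P x) + g (x - P x) := by
      rw [← map_add]
      congr 1
      abel
    calc P (g x) = P (g (P x) + g (x - P x)) := by rw [← h3]
      _ = g (P x) := by rw [map_add, h1, h2, add_zero]
  have hPadj : ∀ x y, H (P x) y = H x (P y) := by
    intro x y
    have h1 : H (P x) (y - P y) = 0 := horW _ (hPU x) _ (hPW y)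
    have h2 : H (x - P x) (P y) = 0 := by
      rw [hP.herm (P y) (x - P x), horW _ (hPU y) _ (hPW x), map_zero]
    rw [hP.sub_r, sub_eq_zero] at h1
    rw [hP.sub_l, sub_eq_zero] at h2
    rw [h1, h2]
  -- the cyclic piece and the determinant
  have hU₁ : ∀ u ∈ LinearMap.range (cycMap g v), aeval g f u ∈ LinearMap.range (cycMap g v) := by
    rintro _ ⟨x, rfl⟩
    exact ⟨f * x, by rw [cycMap_apply, cycMap_apply, aeval_mul_apply]⟩
  obtain ⟨pr, hpr⟩ : ∃ pr : V →ₗ[F] LinearMap.range (cycMap g v),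
      ∀ x, (pr x : V) = aeval g e (P x) :=
    ⟨(aeval g e ∘ₗ P).codRestrict _ (fun x => he1 (P x) (hPU x)), fun x => rfl⟩
  have hπι : pr ∘ₗ (LinearMap.range (cycMap g v)).subtype = LinearMap.id := by
    apply LinearMap.ext
    intro u
    apply Subtype.ext
    show (pr (u : V) : V) = u
    rw [hpr, hPu _ (hle u.2), he2 _ u.2]
  have hdet0 := det_one_add_comp (LinearMap.range (cycMap g v)).subtype pr hπι
    ((aeval g f).restrict hU₁)
  rw [hf hU₁] at hdet0
  obtain ⟨z₀, hz₀def⟩ : ∃ z₀ : Module.End F V, z₀ = LinearMap.id +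
      (LinearMap.range (cycMap g v)).subtype ∘ₗ ((aeval g f).restrict hU₁ - LinearMap.id) ∘ₗ pr :=
    ⟨_, rfl⟩
  rw [← hz₀def] at hdet0
  obtain ⟨A, hAdef⟩ : ∃ A : Module.End F V, A = aeval g ((f - 1) * e) := ⟨_, rfl⟩
  obtain ⟨A', hA'def⟩ : ∃ A' : Module.End F V,
      A' = aeval (g ^ (m - 1)) (((f - 1) * e).map σ) := ⟨_, rfl⟩
  have hz₀E : z₀ = 1 + A * P := by
    apply LinearMap.ext
    intro x
    rw [hz₀def, hAdef]
    show x + (aeval g f (pr x : V) - (pr x : V)) = x + aeval g ((f - 1) * e) (P x)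
    rw [hpr, aeval_mul_apply, map_sub, map_one]
    rfl
  obtain ⟨z₀', hz₀'def⟩ : ∃ z₀' : Module.End F V, z₀' = 1 + P * A' := ⟨_, rfl⟩
  have hadj : ∀ u w, H (z₀ u) w = H u (z₀' w) := by
    intro u w
    rw [hz₀E, hz₀'def]
    show H (u + A (P u)) w = H u (w + P (A' w))
    rw [hP.add_l, hP.add_r, hAdef, hA'def, hP.adj, hPadj]
  have hadj' : ∀ u w, H u (z₀ w) = H (z₀' u) w := by
    intro u w
    rw [hP.herm (z₀ w) u, hadj, ← hP.herm]
  have hgP : Commute g P := by
    show g * P = P * g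
    apply LinearMap.ext
    intro x
    exact (hPg x).symm
  have hgA : Commute g A := by
    rw [hAdef]
    exact commute_aeval_of_commute g g (Commute.refl g) _
  have hgA' : Commute g A' := by
    rw [hA'def]
    exact commute_aeval_of_commute g (g ^ (m - 1)) ((Commute.refl g).pow_right _) _
  have hPA : Commute P A := by
    rw [hAdef]
    exact commute_aeval_of_commute P g hgP.symm _
  have hPA' : Commute P A' := by
    rw [hA'def]
    exact commute_aeval_of_commute P (g ^ (m - 1)) (hgP.symm.pow_right _) _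
  have hAA' : Commute A A' := by
    rw [hAdef, hA'def, aeval_pow_comp]
    show aeval g _ * aeval g _ = aeval g _ * aeval g _
    rw [← map_mul, ← map_mul, mul_comm]
  have hcomm : Commute z₀ z₀' := by
    rw [hz₀E, hz₀'def]
    have h1 : Commute (A * P) (P * A') :=
      (hPA.symm.mul_right hAA').mul_left ((Commute.refl P).mul_right hPA')
    exact (Commute.one_right _).add_right ((Commute.one_left _).add_left h1)
  have hgz₀ : Commute g z₀ := by
    rw [hz₀E]
    exact (Commute.one_right g).add_right (hgA.mul_right hgP)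
  have hgz₀' : Commute g z₀' := by
    rw [hz₀'def]
    exact (Commute.one_right g).add_right (hgP.mul_right hgA')
  have hdet0' : LinearMap.det z₀' = σ η := by
    rw [hdet z₀ z₀' hadj, hdet0]
  have hu' : IsUnit z₀' := by
    rw [LinearMap.isUnit_iff_isUnit_det, hdet0']
    exact isUnit_iff_ne_zero.2 hση
  obtain ⟨y, hy⟩ := hu'
  have hy1 : ∀ x, z₀' ((↑y⁻¹ : Module.End F V) x) = x := by
    intro x
    have h := congrArg (fun φ : Module.End F V => φ x) y.mul_inv
    rw [hy] at h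
    exact h
  have hy2 : ∀ x, (↑y⁻¹ : Module.End F V) (z₀' x) = x := by
    intro x
    have h := congrArg (fun φ : Module.End F V => φ x) y.inv_mul
    rw [hy] at h
    exact h
  have hgy : Commute g (↑y⁻¹ : Module.End F V) := by
    have h1 : Commute g (y : Module.End F V) := by rw [hy]; exact hgz₀'
    exact h1.units_inv_right
  refine ⟨z₀ * (↑y⁻¹ : Module.End F V), ?_, ?_, ?_⟩
  · intro u w
    show H (z₀ ((↑y⁻¹ : Module.End F V) u)) (z₀ ((↑y⁻¹ : Module.End F V) w)) = H u w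
    have h1 : z₀' (z₀ ((↑y⁻¹ : Module.End F V) w)) = z₀ w := by
      have h2 := congrArg (fun φ : Module.End F V => φ ((↑y⁻¹ : Module.End F V) w)) hcomm.eq
      have h3 : z₀ (z₀' ((↑y⁻¹ : Module.End F V) w)) = z₀' (z₀ ((↑y⁻¹ : Module.End F V) w)) := h2
      rw [← h3, hy1]
    rw [hadj, h1, hadj', hy1]
  · intro x
    have h1 := congrArg (fun φ : Module.End F V => φ x) (hgz₀.mul_right hgy).eq
    exact h1.symm
  · rw [map_mul, hdet0]
    have h1 : LinearMap.det (↑y⁻¹ : Module.End F V) * σ η = 1 := by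
      rw [← hdet0', ← hy, ← map_mul, Units.inv_mul, map_one]
    have h2 : LinearMap.det (↑y⁻¹ : Module.End F V) = (σ η)⁻¹ := eq_inv_of_mul_eq_one_left h1
    rw [h2, eq_comm, eq_mul_inv_iff_mul_eq₀ hση]
    exact hηδ

end Cfsg.Agent.Helper15
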