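import Mathlib
import Cfsg.Agent.Helper15.HermSemi3
import Cfsg.Agent.Helper15.SemiCount1
import Cfsg.Prelude.Def_Classical

set_option autoImplicit false

namespace Cfsg.Agent.Helper15
open Polynomial Matrix

universe u

theorem hs_exists_pow_ne {F : Type*} [Field F] [Fintype F] {q : ℕ}
    (hF : Fintype.card F = q ^ 2) : 1 < q ∧ ∃ a : F, a ^ q ≠ a := by
  classical
  have hq : 1 < q := by
    have h1 : 1 < Fintype.card F := Fintype.one_lt_card
    rw [hF] at h1
    by_contra h2
    push Not at h2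
    interval_cases q <;> simp at h1
  refine ⟨hq, ?_⟩
  by_contra hcon
  push Not at hcon
  have h0 : (X ^ q - X : F[X]) ≠ 0 := FiniteField.X_pow_card_sub_X_ne_zero F hq
  have h1 : (Finset.univ : Finset F) ⊆ (X ^ q - X : F[X]).roots.toFinset := by
    intro a _
    rw [Multiset.mem_toFinset, Polynomial.mem_roots h0, Polynomial.IsRoot.def, eval_sub,
      eval_pow, eval_X, hcon, sub_self]
  have h2 := Finset.card_le_card h1
  have h3 := Multiset.toFinset_card_le (X ^ q - X : F[X]).roots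
  have h4 := Polynomial.card_roots' (X ^ q - X : F[X])
  rw [FiniteField.X_pow_card_sub_X_natDegree_eq F hq] at h4
  rw [Finset.card_univ, hF] at h2
  nlinarith

theorem exists_frob_hs {F : Type*} [Field F] [Fintype F] {q : ℕ}
    (hF : Fintype.card F = q ^ 2) (p : ℕ) [Fact p.Prime] [CharP F p] :
    ∃ σ : F →+* F, ∀ x, σ x = x ^ q := by
  have hp : p.Prime := Fact.out
  obtain ⟨f, -, hf⟩ := FiniteField.card F p
  have h1 : q ∣ p ^ (f : ℕ) := by
    rw [← hf, hF]
    exact dvd_pow_self q two_ne_zero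
  obtain ⟨k, -, rfl⟩ := (Nat.dvd_prime_pow hp).1 h1
  exact ⟨iterateFrobenius F p k, fun x => iterateFrobenius_def p k x⟩

theorem hs_single_right {F : Type*} [Field F] (n q : ℕ) (hq : q ≠ 0) (v : Fin n → F)
    (j : Fin n) : Cfsg.hermForm n F q v (Pi.single j 1) = v j := by
  unfold Cfsg.hermForm
  rw [Finset.sum_eq_single j]
  · rw [Pi.single_eq_same, one_pow, mul_one]
  · intro i _ hij
    rw [Pi.single_eq_of_ne hij, zero_pow hq, mul_zero]
  · intro hj
    exact absurd (Finset.mem_univ j) hj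

theorem hs_single_left {F : Type*} [Field F] (n q : ℕ) (v : Fin n → F) (i : Fin n) :
    Cfsg.hermForm n F q (Pi.single i 1) v = (v i) ^ q := by
  unfold Cfsg.hermForm
  rw [Finset.sum_eq_single i]
  · rw [Pi.single_eq_same, one_mul]
  · intro j _ hji
    rw [Pi.single_eq_of_ne hji, zero_mul]
  · intro hi
    exact absurd (Finset.mem_univ i) hi

theorem hpack_of_matrix {F : Type u} [Field F] [Fintype F] {q : ℕ}
    (hF : Fintype.card F = q ^ 2)
    (σ : F →+* F) (hσ : ∀ x, σ x = x ^ q) (n : ℕ) (A : Matrix (Fin n) (Fin n) F)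
    (hA : ∀ u w, Cfsg.hermForm n F q (A *ᵥ u) (A *ᵥ w) = Cfsg.hermForm n F q u w)
    (m : ℕ) (hm : 1 ≤ m) (hpow : A ^ m = 1) :
    HPack σ (Cfsg.hermForm n F q) (Matrix.toLin' A) m := by
  have hq : q ≠ 0 := by
    have := (hs_exists_pow_ne hF).1
    omega
  refine ⟨?_, ?_, ?_, ?_, ?_, ?_, ?_, hm⟩
  · intro a
    rw [hσ, hσ, ← pow_mul, ← pow_two, ← hF, FiniteField.pow_card]
  · intro u u' w
    unfold Cfsg.hermForm
    rw [← Finset.sum_add_distrib]
    apply Finset.sum_congr rfl
    intro i _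
    rw [Pi.add_apply, add_mul]
  · intro a u w
    unfold Cfsg.hermForm
    rw [Finset.mul_sum]
    apply Finset.sum_congr rfl
    intro i _
    rw [Pi.smul_apply, smul_eq_mul, mul_assoc]
  · intro u w
    unfold Cfsg.hermForm
    rw [map_sum]
    apply Finset.sum_congr rfl
    intro i _
    rw [map_mul, hσ, hσ, ← pow_mul, ← pow_two, ← hF, FiniteField.pow_card, mul_comm]
  · intro u hu
    funext i
    have h := hu (Pi.single i 1)
    rw [hs_single_right n q hq] at h
    exact h
  · intro u w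
    rw [Matrix.toLin'_apply, Matrix.toLin'_apply]
    exact hA u w
  · rw [← Matrix.toLin'_pow, hpow, Matrix.toLin'_one]
    rfl

theorem herm_det_adj {F : Type u} [Field F] [Fintype F] {q : ℕ} (hF : Fintype.card F = q ^ 2)
    (σ : F →+* F) (hσ : ∀ x, σ x = x ^ q) (n : ℕ) (A A' : (Fin n → F) →ₗ[F] (Fin n → F))
    (h : ∀ u w, Cfsg.hermForm n F q (A u) w = Cfsg.hermForm n F q u (A' w)) :
    LinearMap.det A' = σ (LinearMap.det A) := by
  classical
  have hq : q ≠ 0 := by
    have := (hs_exists_pow_ne hF).1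
    omega
  have hinv : ∀ a, σ (σ a) = a := by
    intro a
    rw [hσ, hσ, ← pow_mul, ← pow_two, ← hF, FiniteField.pow_card]
  have hcol : ∀ (B : (Fin n → F) →ₗ[F] (Fin n → F)) (i k : Fin n),
      LinearMap.toMatrix' B i k = B (Pi.single k 1) i := by
    intro B i k
    rw [LinearMap.toMatrix'_apply]
  have hM : LinearMap.toMatrix' A' = (σ.mapMatrix (LinearMap.toMatrix' A))ᵀ := by
    ext i j
    rw [Matrix.transpose_apply, RingHom.mapMatrix_apply, Matrix.map_apply, hcol, hcol]
    have h1 := h (Pi.single i 1) (Pi.single j 1)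
    rw [hs_single_right n q hq, hs_single_left, ← hσ] at h1
    have h2 := congrArg σ h1
    rw [hinv] at h2
    exact h2.symm
  rw [← LinearMap.det_toMatrix' A', hM, Matrix.det_transpose, ← RingHom.map_det,
    LinearMap.det_toMatrix']

theorem su_conj_of_charpoly {F : Type u} [Field F] [Fintype F] {q : ℕ}
    (hF : Fintype.card F = q ^ 2) (p : ℕ) [Fact p.Prime] [CharP F p] (n : ℕ)
    (g h : ↥(Cfsg.SU n F q)) (hg : (orderOf g).Coprime p) (hh : (orderOf h).Coprime p)
    (hc : ((g : Matrix.SpecialLinearGroup (Fin n) F) : Matrix (Fin n) (Fin n) F).charpoly =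
      ((h : Matrix.SpecialLinearGroup (Fin n) F) : Matrix (Fin n) (Fin n) F).charpoly) :
    IsConj g h := by
  classical
  obtain ⟨σ, hσ⟩ := exists_frob_hs hF p
  obtain ⟨hq1, a₀, ha₀⟩ := hs_exists_pow_ne hF
  have hne : ∃ a, σ a ≠ a := ⟨a₀, by rw [hσ]; exact ha₀⟩
  have hm := cast_ne_zero_of_coprime (F := F) p _ _ hg hh
  have hm1 : 1 ≤ orderOf g * orderOf h := by
    rcases Nat.eq_zero_or_pos (orderOf g * orderOf h) with h0 | h0
    · exfalso
      apply hm
      rw [h0, Nat.cast_zero]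
    · exact h0
  obtain ⟨A, hAdef⟩ : ∃ A : Matrix (Fin n) (Fin n) F,
      A = ((g : Matrix.SpecialLinearGroup (Fin n) F) : Matrix (Fin n) (Fin n) F) := ⟨_, rfl⟩
  obtain ⟨B, hBdef⟩ : ∃ B : Matrix (Fin n) (Fin n) F,
      B = ((h : Matrix.SpecialLinearGroup (Fin n) F) : Matrix (Fin n) (Fin n) F) := ⟨_, rfl⟩
  have hApow : A ^ (orderOf g * orderOf h) = 1 := by
    have h1 : g ^ (orderOf g * orderOf h) = 1 := by rw [pow_mul, pow_orderOf_eq_one, one_pow]
    have h2 := congrArg (fun x : ↥(Cfsg.SU n F q) =>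
      ((x : Matrix.SpecialLinearGroup (Fin n) F) : Matrix (Fin n) (Fin n) F)) h1
    simp only [Subgroup.coe_pow, Matrix.SpecialLinearGroup.coe_pow, Subgroup.coe_one,
      Matrix.SpecialLinearGroup.coe_one] at h2
    rw [hAdef]
    exact h2
  have hBpow : B ^ (orderOf g * orderOf h) = 1 := by
    have h1 : h ^ (orderOf g * orderOf h) = 1 := by
      rw [mul_comm, pow_mul, pow_orderOf_eq_one, one_pow]
    have h2 := congrArg (fun x : ↥(Cfsg.SU n F q) =>
      ((x : Matrix.SpecialLinearGroup (Fin n) F) : Matrix (Fin n) (Fin n) F)) h1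
    simp only [Subgroup.coe_pow, Matrix.SpecialLinearGroup.coe_pow, Subgroup.coe_one,
      Matrix.SpecialLinearGroup.coe_one] at h2
    rw [hBdef]
    exact h2
  have hAiso : ∀ u w, Cfsg.hermForm n F q (A *ᵥ u) (A *ᵥ w) = Cfsg.hermForm n F q u w := by
    intro u w
    rw [hAdef]
    exact g.2 u w
  have hBiso : ∀ u w, Cfsg.hermForm n F q (B *ᵥ u) (B *ᵥ w) = Cfsg.hermForm n F q u w := by
    intro u w
    rw [hBdef]
    exact h.2 u w
  have hPg := hpack_of_matrix hF σ hσ n A hAiso _ hm1 hApow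
  have hPh := hpack_of_matrix hF σ hσ n B hBiso _ hm1 hBpow
  obtain ⟨T, hT, hTi⟩ := herm_conj_aux σ hne (orderOf g * orderOf h) hm
    (Module.finrank F (Fin n → F)) (Fin n → F) (Fin n → F)
    (Cfsg.hermForm n F q) (Cfsg.hermForm n F q) _ _ hPg hPh rfl
    (by rw [Matrix.charpoly_toLin', Matrix.charpoly_toLin', hAdef, hBdef, hc])
  have hz : ∃ z : (Fin n → F) →ₗ[F] (Fin n → F),
      (∀ u w, Cfsg.hermForm n F q (z u) (z w) = Cfsg.hermForm n F q u w) ∧
      (∀ x, z (Matrix.toLin' A x) = Matrix.toLin' A (z x)) ∧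
      LinearMap.det (T.toLinearMap ∘ₗ z) = 1 := by
    rcases Nat.eq_zero_or_pos n with rfl | hn
    · refine ⟨LinearMap.id, fun u w => rfl, fun x => rfl, ?_⟩
      rw [← LinearMap.det_toMatrix']
      exact Matrix.det_isEmpty
    · haveI : Nonempty (Fin n) := ⟨⟨0, hn⟩⟩
      haveI : Nontrivial (Fin n → F) := Function.nontrivial
      have hdT : LinearMap.det T.toLinearMap * σ (LinearMap.det T.toLinearMap) = 1 := by
        have h1 := herm_det_adj hF σ hσ n T.toLinearMap T.symm.toLinearMap (fun u w => by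
          have h2 := hTi u (T.symm w)
          rw [LinearEquiv.apply_symm_apply] at h2
          exact h2)
        rw [← h1, ← LinearMap.det_comp]
        have h3 : T.toLinearMap ∘ₗ T.symm.toLinearMap = LinearMap.id := by
          apply LinearMap.ext
          intro x
          exact T.apply_symm_apply x
        rw [h3, LinearMap.det_id]
      have hdT0 : LinearMap.det T.toLinearMap ≠ 0 := by
        intro h0
        rw [h0, zero_mul] at hdT
        exact zero_ne_one hdT
      obtain ⟨z, hz1, hz2, hz3⟩ := herm_cent_det hm hPg hne (herm_det_adj hF σ hσ n)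
        (LinearMap.det T.toLinearMap)⁻¹ (by rw [map_inv₀, ← mul_inv, hdT, inv_one])
      refine ⟨z, hz1, hz2, ?_⟩
      rw [LinearMap.det_comp, hz3, mul_inv_cancel₀ hdT0]
  obtain ⟨z, hz1, hz2, hz3⟩ := hz
  obtain ⟨S, hSdef⟩ : ∃ S : (Fin n → F) →ₗ[F] (Fin n → F), S = T.toLinearMap ∘ₗ z := ⟨_, rfl⟩
  have hSiso : ∀ u w, Cfsg.hermForm n F q (S u) (S w) = Cfsg.hermForm n F q u w := by
    intro u w
    rw [hSdef]
    show Cfsg.hermForm n F q (T (z u)) (T (z w)) = _
    rw [hTi, hz1]
  have hSg : ∀ x, S (Matrix.toLin' A x) = Matrix.toLin' B (S x) := by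
    intro x
    rw [hSdef]
    show T (z (Matrix.toLin' A x)) = Matrix.toLin' B (T (z x))
    rw [hz2, hT]
  have hSdet : (LinearMap.toMatrix' S).det = 1 := by
    rw [LinearMap.det_toMatrix', hSdef]
    exact hz3
  have hSA : LinearMap.toMatrix' S * A = B * LinearMap.toMatrix' S := by
    have h1 : S ∘ₗ Matrix.toLin' A = Matrix.toLin' B ∘ₗ S := LinearMap.ext hSg
    have h2 := congrArg LinearMap.toMatrix' h1
    rwa [LinearMap.toMatrix'_comp, LinearMap.toMatrix'_comp, LinearMap.toMatrix'_toLin',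
      LinearMap.toMatrix'_toLin'] at h2
  have hcmem : (⟨LinearMap.toMatrix' S, hSdet⟩ : Matrix.SpecialLinearGroup (Fin n) F)
      ∈ Cfsg.SU n F q := by
    show ∀ u w : Fin n → F, Cfsg.hermForm n F q (LinearMap.toMatrix' S *ᵥ u)
      (LinearMap.toMatrix' S *ᵥ w) = Cfsg.hermForm n F q u w
    intro u w
    rw [← Matrix.toLin'_apply, ← Matrix.toLin'_apply, Matrix.toLin'_toMatrix']
    exact hSiso u w
  refine isConj_iff.2 ⟨⟨_, hcmem⟩, mul_inv_eq_iff_eq_mul.2 ?_⟩
  apply Subtype.ext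
  apply Subtype.ext
  show LinearMap.toMatrix' S * ((g : Matrix.SpecialLinearGroup (Fin n) F) :
      Matrix (Fin n) (Fin n) F)
    = ((h : Matrix.SpecialLinearGroup (Fin n) F) : Matrix (Fin n) (Fin n) F)
      * LinearMap.toMatrix' S
  rw [← hAdef, ← hBdef]
  exact hSA

end Cfsg.Agent.Helper15
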