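import Mathlib
import Cfsg.Agent.Helper15.HermSemi4

set_option autoImplicit false

namespace Cfsg.Agent.Helper15
open Polynomial

universe u

theorem hw_mapmap {F : Type*} [Field F] (σ : F →+* F) (hσ : ∀ a, σ (σ a) = a) (f : F[X]) :
    (f.map σ).map σ = f := by
  rw [Polynomial.map_map]
  have h : σ.comp σ = RingHom.id F := RingHom.ext hσ
  rw [h, Polynomial.map_id]

theorem poly_unip_norm {F : Type*} [Field F] (σ : F →+* F) (hσ : ∀ a, σ (σ a) = a) (ε : F)
    (hε : ε + σ ε = 1) (N : ℕ) :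
    ∃ c r : F[X], c.map σ * c = 1 + X + X ^ N * r := by
  induction N with
  | zero => exact ⟨0, -(1 + X), by simp⟩
  | succ N ih =>
    obtain ⟨c, r, hc⟩ := ih
    rcases Nat.eq_zero_or_pos N with rfl | hN
    · exact ⟨1, -1, by simp⟩
    · have hX0 : (X ^ N : F[X]).coeff 0 = 0 := by
        rw [Polynomial.coeff_X_pow, if_neg hN.ne]
      have hr : r.map σ = r := by
        have h1 := congrArg (Polynomial.map σ) hc
        rw [Polynomial.map_mul, hw_mapmap σ hσ, Polynomial.map_add, Polynomial.map_add,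
          Polynomial.map_one, Polynomial.map_X, Polynomial.map_mul, Polynomial.map_pow,
          Polynomial.map_X, mul_comm, hc] at h1
        have h2 : X ^ N * r = X ^ N * r.map σ := add_left_cancel h1
        exact (mul_left_cancel₀ (pow_ne_zero N X_ne_zero) h2).symm
      have hc0 : σ (c.coeff 0) * c.coeff 0 = 1 := by
        have h1 := congrArg (fun f : F[X] => f.coeff 0) hc
        simp only [Polynomial.mul_coeff_zero, Polynomial.coeff_map, Polynomial.coeff_add,
          Polynomial.coeff_one_zero, Polynomial.coeff_X_zero, hX0, zero_mul, add_zero] at h1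
        exact h1
      have hr0 : σ (r.coeff 0) = r.coeff 0 := by
        have h1 := congrArg (fun f : F[X] => f.coeff 0) hr
        simp only [Polynomial.coeff_map] at h1
        exact h1
      obtain ⟨d, hd⟩ : ∃ d : F, d = -(ε * r.coeff 0 * c.coeff 0) := ⟨_, rfl⟩
      have hw : X ∣ r + C d * c.map σ + C (σ d) * c + X ^ N * C (σ d * d) := by
        rw [Polynomial.X_dvd_iff]
        simp only [Polynomial.mul_coeff_zero, Polynomial.coeff_map, Polynomial.coeff_add,
          Polynomial.coeff_C_zero, hX0, zero_mul, add_zero]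
        rw [hd, map_neg, map_mul, map_mul, hr0]
        linear_combination (-(ε + σ ε) * r.coeff 0) * hc0 + (-(r.coeff 0)) * hε
      obtain ⟨r', hr'⟩ := hw
      refine ⟨c + C d * X ^ N, r', ?_⟩
      rw [Polynomial.map_add, Polynomial.map_mul, Polynomial.map_C, Polynomial.map_pow,
        Polynomial.map_X]
      have e1 : (c.map σ + C (σ d) * X ^ N) * (c + C d * X ^ N)
          = c.map σ * c + X ^ N * (r + C d * c.map σ + C (σ d) * c + X ^ N * C (σ d * d))
            - X ^ N * r := by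
        rw [C_mul]
        ring
      rw [e1, hr', hc, pow_succ]
      ring

theorem norm_cong {F : Type*} [Field F] (σ : F →+* F) (d f f₀ : F[X]) (hd : d.map σ = d)
    (h : d ∣ f - f₀) (h0 : d ∣ f₀.map σ * f₀ - X) : d ∣ f.map σ * f - X := by
  have h' : d ∣ f.map σ - f₀.map σ := by
    have := Polynomial.map_dvd σ h
    rwa [hd, Polynomial.map_sub] at this
  have e : f.map σ * f - X
      = (f.map σ - f₀.map σ) * f + f₀.map σ * (f - f₀) + (f₀.map σ * f₀ - X) := by ring
  rw [e]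
  exact dvd_add (dvd_add (Dvd.dvd.mul_right h' _) (Dvd.dvd.mul_left h _)) h0

theorem norm_crt {F : Type*} [Field F] (σ : F →+* F) (d₁ d₂ f₁ f₂ : F[X])
    (hcop : IsCoprime d₁ d₂) (h1 : d₁.map σ = d₁) (h2 : d₂.map σ = d₂)
    (hf1 : d₁ ∣ f₁.map σ * f₁ - X) (hf2 : d₂ ∣ f₂.map σ * f₂ - X) :
    ∃ f : F[X], d₁ * d₂ ∣ f.map σ * f - X := by
  obtain ⟨a, b, hab⟩ := hcop
  refine ⟨f₁ * (b * d₂) + f₂ * (a * d₁), ?_⟩
  apply IsCoprime.mul_dvd ⟨a, b, hab⟩
  · exact norm_cong σ d₁ _ f₁ h1 ⟨(f₂ - f₁) * a, by linear_combination f₁ * hab⟩ hf1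
  · exact norm_cong σ d₂ _ f₂ h2 ⟨(f₁ - f₂) * b, by linear_combination f₂ * hab⟩ hf2

theorem pair_norm {F : Type*} [Field F] (σ : F →+* F) (hσ : ∀ a, σ (σ a) = a) (π : F[X])
    (hcop : IsCoprime π (π.map σ)) : ∃ f : F[X], π * π.map σ ∣ f.map σ * f - X := by
  obtain ⟨a, b, hab⟩ := hcop
  have hab' : a.map σ * π.map σ + b.map σ * π = 1 := by
    have h := congrArg (Polynomial.map σ) hab
    rwa [Polynomial.map_add, Polynomial.map_mul, Polynomial.map_mul, hw_mapmap σ hσ,
      Polynomial.map_one] at h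
  refine ⟨X * (b * π.map σ) + a * π, ?_⟩
  have hfσ : (X * (b * π.map σ) + a * π).map σ = X * (b.map σ * π) + a.map σ * π.map σ := by
    rw [Polynomial.map_add, Polynomial.map_mul, Polynomial.map_mul, Polynomial.map_mul,
      Polynomial.map_X, hw_mapmap σ hσ]
  rw [hfσ]
  apply IsCoprime.mul_dvd ⟨a, b, hab⟩
  · have h1 : π ∣ X * (b * π.map σ) + a * π - X :=
      ⟨a * (1 - X), by linear_combination X * hab⟩
    have h2 : π ∣ X * (b.map σ * π) + a.map σ * π.map σ - 1 :=
      ⟨b.map σ * (X - 1), by linear_combination hab'⟩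
    have e : (X * (b.map σ * π) + a.map σ * π.map σ) * (X * (b * π.map σ) + a * π) - X
        = (X * (b.map σ * π) + a.map σ * π.map σ - 1) * (X * (b * π.map σ) + a * π)
          + (X * (b * π.map σ) + a * π - X) := by ring
    rw [e]
    exact dvd_add (Dvd.dvd.mul_right h2 _) h1
  · have h1 : π.map σ ∣ X * (b * π.map σ) + a * π - 1 :=
      ⟨b * (X - 1), by linear_combination hab⟩
    have h2 : π.map σ ∣ X * (b.map σ * π) + a.map σ * π.map σ - X :=
      ⟨a.map σ * (1 - X), by linear_combination X * hab'⟩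
    have e : (X * (b.map σ * π) + a.map σ * π.map σ) * (X * (b * π.map σ) + a * π) - X
        = (X * (b.map σ * π) + a.map σ * π.map σ) * (X * (b * π.map σ) + a * π - 1)
          + (X * (b.map σ * π) + a.map σ * π.map σ - X) := by ring
    rw [e]
    exact dvd_add (Dvd.dvd.mul_left h1 _) h2

theorem field_norm {F : Type u} [Field F] [Finite F] (σ : F →+* F) (hσ : ∀ a, σ (σ a) = a)
    (hne : ∃ a, σ a ≠ a) (π : F[X]) (hπ : Irreducible π) (hπσ : π.map σ = π)
    (hX : IsCoprime X π) : ∃ f : F[X], π ∣ f.map σ * f - X := by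
  haveI : Fact (Irreducible π) := ⟨hπ⟩
  have hπ0 : π ≠ 0 := hπ.ne_zero
  haveI : FiniteDimensional F (AdjoinRoot π) :=
    Module.Finite.of_basis (AdjoinRoot.powerBasis hπ0).basis
  haveI : Finite (AdjoinRoot π) := Finite.of_equiv (Fin π.natDegree → F)
    (AdjoinRoot.powerBasis hπ0).basis.equivFun.symm.toEquiv
  have hmk1 : ∀ f : F[X], f.eval₂ (AdjoinRoot.of π) (AdjoinRoot.root π) = AdjoinRoot.mk π f := by
    intro f
    have h1 := mk_comp_pow π f 1
    rw [pow_one, pow_one, comp_X] at h1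
    exact h1.symm
  have hlift : π.eval₂ ((AdjoinRoot.of π).comp σ) (AdjoinRoot.root π) = 0 := by
    rw [← Polynomial.eval₂_map, hπσ, hmk1]
    exact AdjoinRoot.mk_self
  obtain ⟨τ, hτdef⟩ : ∃ τ : AdjoinRoot π →+* AdjoinRoot π,
      τ = AdjoinRoot.lift ((AdjoinRoot.of π).comp σ) (AdjoinRoot.root π) hlift := ⟨_, rfl⟩
  have hτmk : ∀ f : F[X], τ (AdjoinRoot.mk π f) = AdjoinRoot.mk π (f.map σ) := by
    intro f
    rw [hτdef, AdjoinRoot.lift_mk, ← Polynomial.eval₂_map, hmk1]
  have hττ : ∀ x, τ (τ x) = x := by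
    intro x
    obtain ⟨f, rfl⟩ := AdjoinRoot.mk_surjective x
    rw [hτmk, hτmk, hw_mapmap σ hσ]
  have hτne : ∃ x, τ x ≠ x := by
    obtain ⟨b, hb⟩ := hne
    refine ⟨AdjoinRoot.of π b, ?_⟩
    rw [hτdef, AdjoinRoot.lift_of]
    intro h0
    rw [RingHom.comp_apply] at h0
    exact hb ((AdjoinRoot.of π).injective h0)
  have hroot0 : AdjoinRoot.mk π X ≠ 0 := by
    intro h0
    have h1 : π ∣ X := AdjoinRoot.mk_eq_zero.1 h0
    exact hπ.not_isUnit (hX.isUnit_of_dvd' h1 (dvd_refl π))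
  have hfix : τ (AdjoinRoot.mk π X) = AdjoinRoot.mk π X := by
    rw [hτmk, Polynomial.map_X]
  obtain ⟨c, hc⟩ := invol_norm_surj τ hττ hτne (AdjoinRoot.mk π X) hroot0 hfix
  obtain ⟨f, rfl⟩ := AdjoinRoot.mk_surjective c
  refine ⟨f, ?_⟩
  rw [hτmk, ← map_mul] at hc
  have h1 := AdjoinRoot.mk_eq_mk.1 hc
  rwa [mul_comm] at h1

theorem poly_semi_norm {F : Type u} [Field F] [Finite F] (σ : F →+* F)
    (hσ : ∀ a, σ (σ a) = a) (hne : ∃ a, σ a ≠ a) :
    ∀ (k : ℕ) (μ : F[X]), μ.natDegree = k → μ ≠ 0 → Squarefree μ → μ.map σ = μ →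
      IsCoprime X μ → ∃ f : F[X], μ ∣ f.map σ * f - X := by
  intro k
  induction k using Nat.strong_induction_on with
  | _ k ih =>
    intro μ hk hμ0 hsq hμσ hXμ
    by_cases hu : IsUnit μ
    · exact ⟨0, hu.dvd⟩
    · obtain ⟨π₀, hπ₀, hπ₀d⟩ := WfDvdMonoid.exists_irreducible_factor hu hμ0
      obtain ⟨π, hπ, hπm, hπd⟩ : ∃ π : F[X], Irreducible π ∧ π.Monic ∧ π ∣ μ := by
        have hunit : IsUnit (C (π₀.leadingCoeff)⁻¹ : F[X]) :=
          Polynomial.isUnit_C.2 (isUnit_iff_ne_zero.2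
            (inv_ne_zero (leadingCoeff_ne_zero.2 hπ₀.ne_zero)))
        exact ⟨π₀ * C (π₀.leadingCoeff)⁻¹, (irreducible_mul_isUnit hunit).2 hπ₀,
          Polynomial.monic_mul_leadingCoeff_inv hπ₀.ne_zero,
          (IsUnit.mul_right_dvd hunit).2 hπ₀d⟩
      obtain ⟨μ₁, hμ₁⟩ := hπd
      have hdegπ : 0 < π.natDegree := hπ.natDegree_pos
      have hμ₁0 : μ₁ ≠ 0 := by
        rintro rfl
        rw [mul_zero] at hμ₁
        exact hμ0 hμ₁
      have hdeg : μ.natDegree = π.natDegree + μ₁.natDegree := by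
        rw [hμ₁, natDegree_mul hπ.ne_zero hμ₁0]
      have hcop1 : IsCoprime π μ₁ := by
        apply (Irreducible.coprime_iff_not_dvd hπ).2
        rintro ⟨r, rfl⟩
        exact hπ.not_isUnit (hsq π ⟨r, by rw [hμ₁]; ring⟩)
      have hπσ_irr : Irreducible (π.map σ) := irreducible_map_invol σ hσ π hπ
      have hπσ_mon : (π.map σ).Monic := hπm.map σ
      have hπσ_dvd : π.map σ ∣ μ := by
        have h1 : π ∣ μ := ⟨μ₁, hμ₁⟩
        have := Polynomial.map_dvd σ h1
        rwa [hμσ] at this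
      have hXμ' : IsCoprime X (π * μ₁) := by rw [← hμ₁]; exact hXμ
      by_cases hcase : π.map σ = π
      · have hμ₁σ : μ₁.map σ = μ₁ := by
          have h1 := congrArg (Polynomial.map σ) hμ₁
          rw [hμσ, Polynomial.map_mul, hcase] at h1
          have h2 : π * μ₁ = π * μ₁.map σ := by rw [← hμ₁]; exact h1
          exact (mul_left_cancel₀ hπ.ne_zero h2).symm
        obtain ⟨f₁, hf₁⟩ := ih μ₁.natDegree (by omega) μ₁ rfl hμ₁0
          (Squarefree.squarefree_of_dvd ⟨π, by rw [hμ₁]; ring⟩ hsq) hμ₁σ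
          hXμ'.of_mul_right_right
        obtain ⟨fπ, hfπ⟩ := field_norm σ hσ hne π hπ hcase hXμ'.of_mul_right_left
        have h3 := norm_crt σ π μ₁ fπ f₁ hcop1 hcase hμ₁σ hfπ hf₁
        rw [← hμ₁] at h3
        exact h3
      · have hnd : ¬ π.map σ ∣ π := by
          intro hd
          exact hcase (Polynomial.eq_of_monic_of_associated hπσ_mon hπm
            (hπσ_irr.associated_of_dvd hπ hd))
        have hd1 : π.map σ ∣ μ₁ := by
          rw [hμ₁] at hπσ_dvd
          exact (hπσ_irr.prime.dvd_mul.1 hπσ_dvd).resolve_left hnd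
        obtain ⟨μ₂, hμ₂⟩ := hd1
        have hμ₂0 : μ₂ ≠ 0 := by
          rintro rfl
          rw [mul_zero] at hμ₂
          exact hμ₁0 hμ₂
        have hdeg2 : μ₁.natDegree = (π.map σ).natDegree + μ₂.natDegree := by
          rw [hμ₂, natDegree_mul hπσ_irr.ne_zero hμ₂0]
        have hμ₂σ : μ₂.map σ = μ₂ := by
          have h1 := congrArg (Polynomial.map σ) hμ₁
          rw [hμσ, Polynomial.map_mul, hμ₂, Polynomial.map_mul, hw_mapmap σ hσ] at h1
          have h2 : π * (π.map σ * μ₂) = π * (π.map σ * μ₂.map σ) := by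
            rw [← hμ₂, ← hμ₁, h1]
            ring
          exact (mul_left_cancel₀ hπσ_irr.ne_zero (mul_left_cancel₀ hπ.ne_zero h2)).symm
        have hcopππ : IsCoprime π (π.map σ) := by
          apply (Irreducible.coprime_iff_not_dvd hπ).2
          intro hd
          exact hcase (Polynomial.eq_of_monic_of_associated hπm hπσ_mon
            (hπ.associated_of_dvd hπσ_irr hd)).symm
        have hdσ : (π * π.map σ).map σ = π * π.map σ := by
          rw [Polynomial.map_mul, hw_mapmap σ hσ, mul_comm]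
        have hcop2 : IsCoprime π μ₂ := by
          rw [hμ₂] at hcop1
          exact hcop1.of_mul_right_right
        have hcop3 : IsCoprime (π.map σ) μ₂ := by
          apply (Irreducible.coprime_iff_not_dvd hπσ_irr).2
          rintro ⟨r, rfl⟩
          exact hπσ_irr.not_isUnit (hsq (π.map σ) ⟨π * r, by rw [hμ₁, hμ₂]; ring⟩)
        have hXμ'' : IsCoprime X (π * (π.map σ * μ₂)) := by rw [← hμ₂]; exact hXμ'
        obtain ⟨f₂, hf₂⟩ := ih μ₂.natDegree (by omega) μ₂ rfl hμ₂0
          (Squarefree.squarefree_of_dvd ⟨π * π.map σ, by rw [hμ₁, hμ₂]; ring⟩ hsq) hμ₂σ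
          hXμ''.of_mul_right_right.of_mul_right_right
        obtain ⟨fd, hfd⟩ := pair_norm σ hσ π hcopππ
        have h3 := norm_crt σ (π * π.map σ) μ₂ fd f₂ (hcop2.mul_left hcop3) hdσ hμ₂σ hfd hf₂
        rw [hμ₁, hμ₂, ← mul_assoc]
        exact h3

theorem poly_semi_norm_pow {F : Type u} [Field F] [Finite F] (σ : F →+* F)
    (hσ : ∀ a, σ (σ a) = a) (hne : ∃ a, σ a ≠ a) (m : ℕ) (hm : (m : F) ≠ 0) :
    ∃ f : F[X], X ^ m - 1 ∣ f.map σ * f - X := by
  have hm0 : 0 < m := by
    rcases Nat.eq_zero_or_pos m with rfl | h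
    · exact absurd Nat.cast_zero hm
    · exact h
  have hne0 : (X ^ m - 1 : F[X]) ≠ 0 := by
    have := Polynomial.X_pow_sub_C_ne_zero hm0 (1 : F)
    rwa [map_one] at this
  have hsq : Squarefree (X ^ m - 1 : F[X]) := by
    have h1 := Polynomial.separable_X_pow_sub_C (1 : F) hm one_ne_zero
    rw [map_one] at h1
    exact h1.squarefree
  have hmap : (X ^ m - 1 : F[X]).map σ = X ^ m - 1 := by
    rw [Polynomial.map_sub, Polynomial.map_pow, Polynomial.map_X, Polynomial.map_one]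
  have hcop : IsCoprime X (X ^ m - 1 : F[X]) := by
    refine ⟨X ^ (m - 1), -1, ?_⟩
    have h1 : (X : F[X]) ^ (m - 1) * X = X ^ m := by
      rw [← pow_succ, Nat.sub_add_cancel hm0]
    rw [h1]
    ring
  exact poly_semi_norm σ hσ hne _ _ rfl hne0 hsq hmap hcop

end Cfsg.Agent.Helper15
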