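import Mathlib
import Cfsg.Agent.Helper15.HermWall1
import Cfsg.Prelude.Def_LieClassical

set_option autoImplicit false

namespace Cfsg.Agent.Helper15
open Polynomial Matrix

universe u

def hadj {F : Type*} [Field F] {n : ℕ} (σ : F →+* F) (M : Matrix (Fin n) (Fin n) F) :
    Matrix (Fin n) (Fin n) F := (M.map σ)ᵀ

section
variable {F : Type*} [Field F] {n : ℕ}

theorem hadj_apply (σ : F →+* F) (M : Matrix (Fin n) (Fin n) F) (i j : Fin n) :
    hadj σ M i j = σ (M j i) := rfl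

theorem hadj_mul (σ : F →+* F) (M N : Matrix (Fin n) (Fin n) F) :
    hadj σ (M * N) = hadj σ N * hadj σ M := by
  unfold hadj
  rw [Matrix.map_mul, Matrix.transpose_mul]

theorem hadj_one (σ : F →+* F) : hadj σ (1 : Matrix (Fin n) (Fin n) F) = 1 := by
  unfold hadj
  rw [Matrix.map_one σ (map_zero σ) (map_one σ), Matrix.transpose_one]

theorem hadj_hadj (σ : F →+* F) (hσ : ∀ a, σ (σ a) = a) (M : Matrix (Fin n) (Fin n) F) :
    hadj σ (hadj σ M) = M := by
  ext i j
  rw [hadj_apply, hadj_apply, hσ]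

theorem hadj_add (σ : F →+* F) (M N : Matrix (Fin n) (Fin n) F) :
    hadj σ (M + N) = hadj σ M + hadj σ N := by
  ext i j
  rw [hadj_apply, Matrix.add_apply, Matrix.add_apply, hadj_apply, hadj_apply, map_add]

theorem hadj_smul (σ : F →+* F) (c : F) (M : Matrix (Fin n) (Fin n) F) :
    hadj σ (c • M) = σ c • hadj σ M := by
  ext i j
  rw [hadj_apply, Matrix.smul_apply, Matrix.smul_apply, hadj_apply, smul_eq_mul, smul_eq_mul,
    map_mul]

theorem hadj_pow (σ : F →+* F) (M : Matrix (Fin n) (Fin n) F) (k : ℕ) :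
    hadj σ (M ^ k) = (hadj σ M) ^ k := by
  induction k with
  | zero => rw [pow_zero, pow_zero, hadj_one]
  | succ k ih => rw [pow_succ, hadj_mul, ih, pow_succ']

theorem hadj_aeval (σ : F →+* F) (M : Matrix (Fin n) (Fin n) F) (f : F[X]) :
    hadj σ (aeval M f) = aeval (hadj σ M) (f.map σ) := by
  induction f using Polynomial.induction_on' with
  | add p q hp hq => rw [map_add, hadj_add, hp, hq, Polynomial.map_add, map_add]
  | monomial k c =>
    rw [Polynomial.map_monomial, aeval_monomial, aeval_monomial, Algebra.algebraMap_eq_smul_one,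
      Algebra.algebraMap_eq_smul_one, smul_mul_assoc, one_mul, smul_mul_assoc, one_mul,
      hadj_smul, hadj_pow]

theorem hadj_det (σ : F →+* F) (M : Matrix (Fin n) (Fin n) F) :
    (hadj σ M).det = σ M.det := by
  unfold hadj
  rw [Matrix.det_transpose]
  exact (RingHom.map_det σ M).symm

end

theorem mem_GU_iff_hadj {K : Type*} [Field K] [Fintype K] {q : ℕ}
    (hK : Fintype.card K = q ^ 2) (σ : K →+* K) (hσq : ∀ x, σ x = x ^ q) (n : ℕ)
    (g : GL (Fin n) K) :
    g ∈ Cfsg.GU n K q ↔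
      hadj σ (g : Matrix (Fin n) (Fin n) K) * (g : Matrix (Fin n) (Fin n) K) = 1 := by
  classical
  have hq : q ≠ 0 := by
    have := (hs_exists_pow_ne hK).1
    omega
  have h1 : ∀ x y : Fin n → K, Cfsg.hermForm n K q x y = x ⬝ᵥ (fun i => σ (y i)) := by
    intro x y
    unfold Cfsg.hermForm
    apply Finset.sum_congr rfl
    intro i _
    show x i * y i ^ q = x i * σ (y i)
    rw [hσq]
  have hform : ∀ (M : Matrix (Fin n) (Fin n) K) (u v : Fin n → K),
      Cfsg.hermForm n K q (M *ᵥ u) (M *ᵥ v)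
        = u ⬝ᵥ ((hadj σ M * M)ᵀ *ᵥ (fun i => σ (v i))) := by
    intro M u v
    rw [h1]
    have h2 : (fun i => σ ((M *ᵥ v) i)) = (M.map σ) *ᵥ (fun i => σ (v i)) := by
      funext i
      show σ ((M *ᵥ v) i) = (M.map σ *ᵥ (σ ∘ v)) i
      exact RingHom.map_mulVec σ M v i
    rw [h2, ← Matrix.vecMul_transpose, ← Matrix.dotProduct_mulVec, Matrix.mulVec_mulVec]
    congr 2
    unfold hadj
    rw [Matrix.transpose_mul, Matrix.transpose_transpose]
  constructor
  · intro hg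
    have hT : (hadj σ (g : Matrix (Fin n) (Fin n) K) * (g : Matrix (Fin n) (Fin n) K))ᵀ = 1 := by
      ext i j
      have h : Cfsg.hermForm n K q ((g : Matrix (Fin n) (Fin n) K) *ᵥ Pi.single i 1)
          ((g : Matrix (Fin n) (Fin n) K) *ᵥ Pi.single j 1)
          = Cfsg.hermForm n K q (Pi.single i 1) (Pi.single j 1) :=
        hg (Pi.single i 1) (Pi.single j 1)
      have hσs : (fun k => σ ((Pi.single j (1 : K) : Fin n → K) k)) = Pi.single j 1 := by
        funext k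
        by_cases hkj : k = j
        · rw [hkj, Pi.single_eq_same, map_one]
        · rw [Pi.single_eq_of_ne hkj, map_zero]
      rw [hform, hσs, Matrix.mulVec_single_one, single_one_dotProduct, hs_single_left] at h
      have h' : (hadj σ (g : Matrix (Fin n) (Fin n) K) * (g : Matrix (Fin n) (Fin n) K))ᵀ i j
          = ((Pi.single j (1 : K) : Fin n → K) i) ^ q := h
      rw [h', Matrix.one_apply, Pi.single_apply]
      split_ifs with hij
      · exact one_pow q
      · exact zero_pow hq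
    exact Matrix.transpose_eq_one.1 hT
  · intro h u v
    show Cfsg.hermForm n K q ((g : Matrix (Fin n) (Fin n) K) *ᵥ u)
      ((g : Matrix (Fin n) (Fin n) K) *ᵥ v) = Cfsg.hermForm n K q u v
    rw [hform, h, Matrix.transpose_one, Matrix.one_mulVec, h1]

theorem herm_sqrt {F : Type u} [Field F] [Fintype F] (p : ℕ) [Fact p.Prime] [CharP F p]
    (σ : F →+* F) (hσ : ∀ a, σ (σ a) = a) (hne : ∃ a, σ a ≠ a) {n : ℕ}
    (S : Matrix (Fin n) (Fin n) F) (hdet : S.det ≠ 0) :
    ∃ G : F[X], aeval S (G.map σ * G) = S := by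
  classical
  have hp : p.Prime := Fact.out
  obtain ⟨Sg, hSg⟩ : ∃ Sg : GL (Fin n) F, (Sg : Matrix (Fin n) (Fin n) F) = S :=
    ⟨Matrix.GeneralLinearGroup.mkOfDetNeZero S hdet, rfl⟩
  have hNpos : 0 < orderOf Sg := orderOf_pos Sg
  obtain ⟨k, m, hpm, hN⟩ := Nat.exists_eq_pow_mul_and_not_dvd hNpos.ne' p hp.ne_one
  have hco : Nat.Coprime m (p ^ k) :=
    ((Nat.Prime.coprime_iff_not_dvd hp).2 hpm).symm.pow_right k
  obtain ⟨a, ha1, ha2⟩ := Nat.chineseRemainder hco 1 0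
  obtain ⟨b, hb1, hb2⟩ := Nat.chineseRemainder hco 0 1
  have hpowS : ∀ j : ℕ, ((Sg ^ j : GL (Fin n) F) : Matrix (Fin n) (Fin n) F) = S ^ j := by
    intro j
    rw [Units.val_pow_eq_pow_val, hSg]
  have hab : S ^ a * S ^ b = S := by
    have h1 : a + b ≡ 1 [MOD m * p ^ k] := by
      apply (Nat.modEq_and_modEq_iff_modEq_mul hco).1
      constructor
      · have := ha1.add hb1
        simpa using this
      · have := ha2.add hb2
        simpa using this
    have h2 : Sg ^ (a + b) = Sg ^ 1 := by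
      rw [pow_eq_pow_iff_modEq, hN, mul_comm]
      exact h1
    have h3 := congrArg (fun x : GL (Fin n) F => (x : Matrix (Fin n) (Fin n) F)) h2
    simp only [hpowS] at h3
    rw [pow_one] at h3
    rw [← pow_add]
    exact h3
  have hSa : (S ^ a) ^ m = 1 := by
    have h1 : orderOf Sg ∣ a * m := by
      rw [hN]
      have h2 : p ^ k ∣ a := (Nat.modEq_zero_iff_dvd).1 ha2
      exact mul_dvd_mul h2 (dvd_refl m)
    have h2 : Sg ^ (a * m) = 1 := orderOf_dvd_iff_pow_eq_one.1 h1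
    have h3 := congrArg (fun x : GL (Fin n) F => (x : Matrix (Fin n) (Fin n) F)) h2
    simp only [hpowS, Units.val_one] at h3
    rw [← pow_mul]
    exact h3
  have hSb : (S ^ b) ^ (p ^ k) = 1 := by
    have h1 : orderOf Sg ∣ b * p ^ k := by
      rw [hN, mul_comm]
      have h2 : m ∣ b := (Nat.modEq_zero_iff_dvd).1 hb1
      exact mul_dvd_mul h2 (dvd_refl _)
    have h2 : Sg ^ (b * p ^ k) = 1 := orderOf_dvd_iff_pow_eq_one.1 h1
    have h3 := congrArg (fun x : GL (Fin n) F => (x : Matrix (Fin n) (Fin n) F)) h2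
    simp only [hpowS, Units.val_one] at h3
    rw [← pow_mul]
    exact h3
  have hmF : (m : F) ≠ 0 := by
    intro h0
    exact hpm ((CharP.cast_eq_zero_iff F p m).1 h0)
  obtain ⟨f₁, t, ht⟩ := poly_semi_norm_pow σ hσ hne m hmF
  obtain ⟨e, he⟩ := exists_trace_ne σ hne
  have hfix : σ (e + σ e) = e + σ e := by rw [map_add, hσ, add_comm]
  obtain ⟨c, r, hc⟩ := poly_unip_norm σ hσ (e / (e + σ e)) (by
    rw [map_div₀, hfix, ← add_div, div_self he]) (p ^ k)
  refine ⟨f₁.comp (X ^ a) * c.comp (X ^ b - 1), ?_⟩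
  have e1 : (f₁.comp (X ^ a) * c.comp (X ^ b - 1)).map σ
        * (f₁.comp (X ^ a) * c.comp (X ^ b - 1))
      = (f₁.map σ * f₁).comp (X ^ a) * (c.map σ * c).comp (X ^ b - 1) := by
    rw [Polynomial.map_mul, Polynomial.map_comp, Polynomial.map_comp, Polynomial.map_pow,
      Polynomial.map_X, Polynomial.map_sub, Polynomial.map_pow, Polynomial.map_X,
      Polynomial.map_one, Polynomial.mul_comp, Polynomial.mul_comp]
    ring
  have e2 : aeval S ((f₁.map σ * f₁).comp (X ^ a)) = S ^ a := by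
    have h1 : f₁.map σ * f₁ = X + (X ^ m - 1) * t := by
      rw [← ht]
      ring
    rw [aeval_comp, map_pow, aeval_X, h1, map_add, aeval_X, map_mul, map_sub, map_pow, aeval_X,
      map_one, hSa, sub_self, zero_mul, add_zero]
  have e3 : aeval S ((c.map σ * c).comp (X ^ b - 1)) = S ^ b := by
    have hnil : (S ^ b - 1) ^ (p ^ k) = 0 := by
      have h1 : ((X - 1 : F[X])) ^ (p ^ k) = X ^ (p ^ k) - 1 := by
        rw [sub_pow_char_pow, one_pow]
      have h2 := congrArg (aeval (S ^ b)) h1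
      rw [map_pow, map_sub, aeval_X, map_one, map_sub, map_pow, aeval_X, map_one, hSb,
        sub_self] at h2
      exact h2
    rw [aeval_comp, map_sub, map_pow, aeval_X, map_one, hc, map_add, map_add, map_one, aeval_X,
      map_mul, map_pow, aeval_X, hnil, zero_mul, add_zero]
    abel
  rw [e1, map_mul, e2, e3, hab]

theorem gu_conj_of_gl_conj {K : Type u} [Field K] [Fintype K] {q n : ℕ}
    (hK : Fintype.card K = q ^ 2) (A B : ↥(Cfsg.GU n K q))
    (h : IsConj (A : GL (Fin n) K) (B : GL (Fin n) K)) : IsConj A B := by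
  classical
  haveI : Fact (ringChar K).Prime := ⟨CharP.char_is_prime K (ringChar K)⟩
  obtain ⟨σ, hσq⟩ := exists_frob_hs hK (ringChar K)
  obtain ⟨hq1, a₀, ha₀⟩ := hs_exists_pow_ne hK
  have hne : ∃ a, σ a ≠ a := ⟨a₀, by rw [hσq]; exact ha₀⟩
  have hσ : ∀ a, σ (σ a) = a := by
    intro a
    rw [hσq, hσq, ← pow_mul, ← pow_two, ← hK, FiniteField.pow_card]
  obtain ⟨P, hP⟩ := isConj_iff.1 h
  have hPA : P * (A : GL (Fin n) K) = (B : GL (Fin n) K) * P := mul_inv_eq_iff_eq_mul.1 hP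
  obtain ⟨Am, hAm⟩ : ∃ Am : Matrix (Fin n) (Fin n) K,
      Am = ((A : GL (Fin n) K) : Matrix (Fin n) (Fin n) K) := ⟨_, rfl⟩
  obtain ⟨Bm, hBm⟩ : ∃ Bm : Matrix (Fin n) (Fin n) K,
      Bm = ((B : GL (Fin n) K) : Matrix (Fin n) (Fin n) K) := ⟨_, rfl⟩
  obtain ⟨Pm, hPm⟩ : ∃ Pm : Matrix (Fin n) (Fin n) K,
      Pm = (P : Matrix (Fin n) (Fin n) K) := ⟨_, rfl⟩
  have hA1 : hadj σ Am * Am = 1 := by
    rw [hAm]
    exact (mem_GU_iff_hadj hK σ hσq n _).1 A.2
  have hB1 : hadj σ Bm * Bm = 1 := by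
    rw [hBm]
    exact (mem_GU_iff_hadj hK σ hσq n _).1 B.2
  have hA2 : Am * hadj σ Am = 1 := mul_eq_one_comm.1 hA1
  have hPAm : Pm * Am = Bm * Pm := by
    have h1 := congrArg (fun x : GL (Fin n) K => (x : Matrix (Fin n) (Fin n) K)) hPA
    simp only [Units.val_mul] at h1
    rw [hPm, hAm, hBm]
    exact h1
  obtain ⟨S, hSdef⟩ : ∃ S : Matrix (Fin n) (Fin n) K, S = hadj σ Pm * Pm := ⟨_, rfl⟩
  have hSadj : hadj σ S = S := by rw [hSdef, hadj_mul, hadj_hadj σ hσ]
  have hPdet : Pm.det ≠ 0 := by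
    rw [hPm]
    exact ((Matrix.isUnit_iff_isUnit_det _).1 P.isUnit).ne_zero
  have hSdet : S.det ≠ 0 := by
    rw [hSdef, Matrix.det_mul, hadj_det]
    exact mul_ne_zero ((map_ne_zero σ).2 hPdet) hPdet
  have hPB : hadj σ Pm * Bm = Am * hadj σ Pm := by
    have h1 := congrArg (hadj σ) hPAm
    rw [hadj_mul, hadj_mul] at h1
    calc hadj σ Pm * Bm = (Am * hadj σ Am) * (hadj σ Pm * Bm) := by rw [hA2, one_mul]
      _ = Am * (hadj σ Am * hadj σ Pm) * Bm := by simp only [mul_assoc]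
      _ = Am * (hadj σ Pm * hadj σ Bm) * Bm := by rw [h1]
      _ = Am * hadj σ Pm * (hadj σ Bm * Bm) := by simp only [mul_assoc]
      _ = Am * hadj σ Pm := by rw [hB1, mul_one]
  have hSA : S * Am = Am * S := by
    rw [hSdef, mul_assoc, hPAm, ← mul_assoc, hPB, mul_assoc]
  obtain ⟨G, hG⟩ := herm_sqrt (ringChar K) σ hσ hne S hSdet
  obtain ⟨R, hRdef⟩ : ∃ R : Matrix (Fin n) (Fin n) K, R = aeval S G := ⟨_, rfl⟩
  have hRR : hadj σ R * R = S := by
    rw [hRdef, hadj_aeval, hSadj, ← map_mul]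
    exact hG
  have hRA : R * Am = Am * R := by
    have h1 : Commute Am S := hSA.symm
    rw [hRdef]
    exact (commute_aeval_of_commute Am S h1 G).symm.eq
  have hRdet : R.det ≠ 0 := by
    intro h0
    apply hSdet
    rw [← hRR, Matrix.det_mul, h0, mul_zero]
  obtain ⟨Rg, hRg⟩ : ∃ Rg : GL (Fin n) K, (Rg : Matrix (Fin n) (Fin n) K) = R :=
    ⟨Matrix.GeneralLinearGroup.mkOfDetNeZero R hRdet, rfl⟩
  have hRgA : Rg * (A : GL (Fin n) K) = (A : GL (Fin n) K) * Rg := by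
    apply Units.ext
    rw [Units.val_mul, Units.val_mul, hRg, ← hAm]
    exact hRA
  have hRinv : R * ((Rg⁻¹ : GL (Fin n) K) : Matrix (Fin n) (Fin n) K) = 1 := by
    rw [← hRg, ← Units.val_mul, mul_inv_cancel, Units.val_one]
  have hmem : P * Rg⁻¹ ∈ Cfsg.GU n K q := by
    rw [mem_GU_iff_hadj hK σ hσq n, Units.val_mul, ← hPm, hadj_mul]
    calc hadj σ ((Rg⁻¹ : GL (Fin n) K) : Matrix (Fin n) (Fin n) K) * hadj σ Pm
          * (Pm * ((Rg⁻¹ : GL (Fin n) K) : Matrix (Fin n) (Fin n) K))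
        = hadj σ ((Rg⁻¹ : GL (Fin n) K) : Matrix (Fin n) (Fin n) K) * (hadj σ Pm * Pm)
          * ((Rg⁻¹ : GL (Fin n) K) : Matrix (Fin n) (Fin n) K) := by simp only [mul_assoc]
      _ = hadj σ ((Rg⁻¹ : GL (Fin n) K) : Matrix (Fin n) (Fin n) K) * (hadj σ R * R)
          * ((Rg⁻¹ : GL (Fin n) K) : Matrix (Fin n) (Fin n) K) := by rw [← hSdef, hRR]
      _ = (hadj σ ((Rg⁻¹ : GL (Fin n) K) : Matrix (Fin n) (Fin n) K) * hadj σ R)
          * (R * ((Rg⁻¹ : GL (Fin n) K) : Matrix (Fin n) (Fin n) K)) := by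
        simp only [mul_assoc]
      _ = 1 := by rw [← hadj_mul, hRinv, hadj_one, one_mul]
  refine isConj_iff.2 ⟨⟨P * Rg⁻¹, hmem⟩, mul_inv_eq_iff_eq_mul.2 ?_⟩
  apply Subtype.ext
  show P * Rg⁻¹ * (A : GL (Fin n) K) = (B : GL (Fin n) K) * (P * Rg⁻¹)
  have h1 : Rg⁻¹ * (A : GL (Fin n) K) = (A : GL (Fin n) K) * Rg⁻¹ :=
    (Commute.inv_left (show Commute Rg (A : GL (Fin n) K) from hRgA)).eq
  rw [mul_assoc, h1, ← mul_assoc, hPA, mul_assoc]

end Cfsg.Agent.Helper15
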