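import Mathlib
import Cfsg.Agent.Helper15.HermWall2

set_option autoImplicit false

namespace Cfsg.Agent.Helper15
open Polynomial

universe u

theorem poly_h90 {F : Type u} [Field F] (σ : F →+* F) (hσ : ∀ a, σ (σ a) = a)
    (hne : ∃ a, σ a ≠ a) (N : ℕ) (hN : 1 ≤ N) :
    ∃ Y Z : F[X], (X ^ N - 1 ∣ Y * Z - 1) ∧
      (X ^ N - 1 ∣ Y - X * (Y.map σ).comp (X ^ (N - 1))) := by
  classical
  obtain ⟨χ, hχdef⟩ : ∃ χ : F[X], χ = X ^ N - 1 := ⟨_, rfl⟩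
  rw [← hχdef]
  have hχ0 : χ ≠ 0 := by
    have := Polynomial.X_pow_sub_C_ne_zero hN (1 : F)
    rw [map_one] at this
    rw [hχdef]
    exact this
  obtain ⟨g, hg, hgnd⟩ := Polynomial.exists_eq_pow_rootMultiplicity_mul_and_not_dvd χ hχ0 (-1)
  obtain ⟨k, hk⟩ : ∃ k : ℕ, k = χ.rootMultiplicity (-1) := ⟨_, rfl⟩
  rw [← hk] at hg
  have hX1 : (X - C (-1) : F[X]) = X + 1 := by
    rw [map_neg, map_one, sub_neg_eq_add]
  have hirr : Irreducible (X - C (-1) : F[X]) := Polynomial.irreducible_X_sub_C (-1)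
  rw [hX1] at hg hgnd hirr
  have hcop0 : IsCoprime (X + 1 : F[X]) g := (Irreducible.coprime_iff_not_dvd hirr).2 hgnd
  have hcopk : IsCoprime ((X + 1 : F[X]) ^ k) g := hcop0.pow_left
  obtain ⟨α, β, hR1⟩ := hcopk
  obtain ⟨u, w, hR2⟩ := hcop0
  obtain ⟨b, hb⟩ := hne
  have hθ : σ b - b ≠ 0 := sub_ne_zero.2 hb
  have hcopL : IsCoprime (C (σ b) + C b * X : F[X]) ((X + 1) ^ k) := by
    apply IsCoprime.pow_right
    refine ⟨C (σ b - b)⁻¹, - C ((σ b - b)⁻¹ * b), ?_⟩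
    have h1 : (C (σ b - b)⁻¹ : F[X]) * C (σ b - b) = 1 := by
      rw [← C_mul, inv_mul_cancel₀ hθ, C_1]
    rw [C_mul]
    rw [C_sub] at h1
    linear_combination h1
  obtain ⟨γ, δ, hR3⟩ := hcopL
  -- the quotient ring
  have hdvdι : χ ∣ (χ.map σ).comp (X ^ (N - 1)) := by
    rw [hχdef, Polynomial.map_sub, Polynomial.map_pow, Polynomial.map_X, Polynomial.map_one,
      Polynomial.sub_comp, Polynomial.pow_comp, Polynomial.X_comp, Polynomial.one_comp,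
      ← pow_mul, mul_comm, pow_mul]
    have := sub_dvd_pow_sub_pow (X ^ N : F[X]) 1 (N - 1)
    rwa [one_pow] at this
  have hlift : χ.eval₂ ((AdjoinRoot.of χ).comp σ) (AdjoinRoot.root χ ^ (N - 1)) = 0 := by
    rw [← Polynomial.eval₂_map, ← mk_comp_pow]
    exact AdjoinRoot.mk_eq_zero.2 hdvdι
  obtain ⟨ι, hιdef⟩ : ∃ ι : AdjoinRoot χ →+* AdjoinRoot χ,
      ι = AdjoinRoot.lift ((AdjoinRoot.of χ).comp σ) (AdjoinRoot.root χ ^ (N - 1)) hlift :=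
    ⟨_, rfl⟩
  have hιmk : ∀ f : F[X],
      ι (AdjoinRoot.mk χ f) = AdjoinRoot.mk χ ((f.map σ).comp (X ^ (N - 1))) := by
    intro f
    rw [hιdef, AdjoinRoot.lift_mk, mk_comp_pow, Polynomial.eval₂_map]
  obtain ⟨x, hx⟩ : ∃ x : AdjoinRoot χ, x = AdjoinRoot.mk χ X := ⟨_, rfl⟩
  obtain ⟨a₁, ha₁⟩ : ∃ a₁ : AdjoinRoot χ, a₁ = AdjoinRoot.mk χ α := ⟨_, rfl⟩
  obtain ⟨b₁, hb₁⟩ : ∃ b₁ : AdjoinRoot χ, b₁ = AdjoinRoot.mk χ β := ⟨_, rfl⟩
  obtain ⟨g₁, hg₁⟩ : ∃ g₁ : AdjoinRoot χ, g₁ = AdjoinRoot.mk χ g := ⟨_, rfl⟩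
  obtain ⟨u₁, hu₁⟩ : ∃ u₁ : AdjoinRoot χ, u₁ = AdjoinRoot.mk χ u := ⟨_, rfl⟩
  obtain ⟨w₁, hw₁⟩ : ∃ w₁ : AdjoinRoot χ, w₁ = AdjoinRoot.mk χ w := ⟨_, rfl⟩
  obtain ⟨γ₁, hγ₁⟩ : ∃ γ₁ : AdjoinRoot χ, γ₁ = AdjoinRoot.mk χ γ := ⟨_, rfl⟩
  obtain ⟨δ₁, hδ₁⟩ : ∃ δ₁ : AdjoinRoot χ, δ₁ = AdjoinRoot.mk χ δ := ⟨_, rfl⟩
  obtain ⟨s₁, hs₁⟩ : ∃ s₁ : AdjoinRoot χ, s₁ = AdjoinRoot.of χ (σ b) := ⟨_, rfl⟩
  obtain ⟨t₁, ht₁⟩ : ∃ t₁ : AdjoinRoot χ, t₁ = AdjoinRoot.of χ b := ⟨_, rfl⟩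
  have hxN : x ^ N = 1 := by
    have h1 : AdjoinRoot.mk χ (X ^ N - 1) = 0 :=
      AdjoinRoot.mk_eq_zero.2 ⟨1, by rw [mul_one]; exact hχdef.symm⟩
    rw [map_sub, map_pow, map_one, ← hx, sub_eq_zero] at h1
    exact h1
  have hx1 : x * x ^ (N - 1) = 1 := by
    rw [← pow_succ', Nat.sub_add_cancel hN, hxN]
  have q0 : (x + 1) ^ k * g₁ = 0 := by
    have h1 : AdjoinRoot.mk χ ((X + 1) ^ k * g) = 0 :=
      AdjoinRoot.mk_eq_zero.2 ⟨1, by rw [mul_one]; exact hg.symm⟩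
    rw [map_mul, map_pow, map_add, map_one, ← hx, ← hg₁] at h1
    exact h1
  have q1 : a₁ * (x + 1) ^ k + b₁ * g₁ = 1 := by
    have h1 := congrArg (AdjoinRoot.mk χ) hR1
    rw [map_add, map_mul, map_mul, map_pow, map_add, map_one, ← hx, ← ha₁, ← hb₁,
      ← hg₁] at h1
    exact h1
  have q2 : u₁ * (x + 1) + w₁ * g₁ = 1 := by
    have h1 := congrArg (AdjoinRoot.mk χ) hR2
    rw [map_add, map_mul, map_mul, map_add, map_one, ← hx, ← hu₁, ← hw₁, ← hg₁] at h1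
    exact h1
  have q3 : γ₁ * (s₁ + t₁ * x) + δ₁ * (x + 1) ^ k = 1 := by
    have h1 := congrArg (AdjoinRoot.mk χ) hR3
    rw [map_add, map_mul, map_mul, map_pow, map_add, map_add, map_mul, map_one,
      AdjoinRoot.mk_C, AdjoinRoot.mk_C, ← hx, ← hγ₁, ← hδ₁, ← hs₁, ← ht₁] at h1
    exact h1
  obtain ⟨e, he⟩ : ∃ e : AdjoinRoot χ, e = a₁ * (x + 1) ^ k := ⟨_, rfl⟩
  obtain ⟨e', he'⟩ : ∃ e' : AdjoinRoot χ, e' = b₁ * g₁ := ⟨_, rfl⟩
  have f1 : e + e' = 1 := by rw [he, he']; exact q1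
  have f2 : e * e' = 0 := by
    rw [he, he']
    linear_combination (a₁ * b₁) * q0
  have f3 : (1 + x) * u₁ * e = e := by
    rw [he]
    linear_combination (a₁ * (x + 1) ^ k) * q2 - (w₁ * a₁) * q0
  have f4 : (s₁ + t₁ * x) * γ₁ * e' = e' := by
    rw [he']
    linear_combination (b₁ * g₁) * q3 - (δ₁ * b₁) * q0
  have hYZ : ((1 + x) * e + (s₁ + t₁ * x) * e') * (u₁ * e + γ₁ * e') = 1 := by
    linear_combination e * f3 + ((1 + x) * γ₁ + (s₁ + t₁ * x) * u₁) * f2 + e' * f4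
      + (e + e' + 1) * f1 - 2 * f2
  -- the involution
  have hιx : ι x = x ^ (N - 1) := by
    rw [hx, hιmk, Polynomial.map_X, Polynomial.X_comp, map_pow]
  have hιof : ∀ c : F, ι (AdjoinRoot.of χ c) = AdjoinRoot.of χ (σ c) := by
    intro c
    rw [← AdjoinRoot.mk_C, hιmk, Polynomial.map_C, Polynomial.C_comp, AdjoinRoot.mk_C]
  have hιx1 : ι (x + 1) = x ^ (N - 1) + 1 := by rw [map_add, map_one, hιx]
  have b1 : (x + 1) ^ k * (1 - e) = 0 := by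
    rw [he]
    linear_combination (-(x + 1) ^ k) * q1 + b₁ * q0
  have b2 : (x + 1) ^ k * (1 - ι e) = 0 := by
    have h1 := congrArg ι b1
    rw [map_mul, map_pow, hιx1, map_sub, map_one, map_zero] at h1
    have h2 : (x + 1) ^ k = x ^ k * (x ^ (N - 1) + 1) ^ k := by
      rw [← mul_pow]
      congr 1
      linear_combination (-1 : AdjoinRoot χ) * hx1
    rw [h2, mul_assoc, h1, mul_zero]
  have c1 : u₁ * (x + 1) * e = e := by
    linear_combination f3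
  have c2 : (ι u₁ * x ^ (N - 1)) * (x + 1) * ι e = ι e := by
    have h1 := congrArg ι c1
    rw [map_mul, map_mul, hιx1] at h1
    linear_combination h1 + (ι u₁ * ι e) * hx1
  have hd : ∀ (U E : AdjoinRoot χ), U * (x + 1) * E = E →
      ∀ j : ℕ, U ^ j * (x + 1) ^ j * E = E := by
    intro U E h j
    induction j with
    | zero => simp
    | succ j ih =>
      calc U ^ (j + 1) * (x + 1) ^ (j + 1) * E = U ^ j * (x + 1) ^ j * (U * (x + 1) * E) := by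
            ring
        _ = E := by rw [h, ih]
  have h12 : e * (1 - ι e) = 0 := by
    calc e * (1 - ι e) = (u₁ ^ k * (x + 1) ^ k * e) * (1 - ι e) := by rw [hd u₁ e c1 k]
      _ = u₁ ^ k * e * ((x + 1) ^ k * (1 - ι e)) := by ring
      _ = 0 := by rw [b2, mul_zero]
  have h21 : ι e * (1 - e) = 0 := by
    calc ι e * (1 - e) = ((ι u₁ * x ^ (N - 1)) ^ k * (x + 1) ^ k * ι e) * (1 - e) := by
          rw [hd (ι u₁ * x ^ (N - 1)) (ι e) c2 k]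
      _ = (ι u₁ * x ^ (N - 1)) ^ k * ι e * ((x + 1) ^ k * (1 - e)) := by ring
      _ = 0 := by rw [b1, mul_zero]
  have hιe : ι e = e := by linear_combination h21 - h12
  have hιe' : ι e' = e' := by
    have h1 : e' = 1 - e := by linear_combination f1
    rw [h1, map_sub, map_one, hιe]
  have hYι : (1 + x) * e + (s₁ + t₁ * x) * e'
      = x * ι ((1 + x) * e + (s₁ + t₁ * x) * e') := by
    rw [map_add, map_mul, map_mul, map_add, map_add, map_mul, map_one, hιx, hιe, hιe', hs₁,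
      ht₁, hιof, hιof, hσ, ← hs₁, ← ht₁]
    linear_combination (-(e + s₁ * e')) * hx1
  -- back to polynomials
  refine ⟨(1 + X) * (α * (X + 1) ^ k) + (C (σ b) + C b * X) * (β * g),
    u * (α * (X + 1) ^ k) + γ * (β * g), ?_, ?_⟩
  · apply AdjoinRoot.mk_eq_zero.1
    have h1 : AdjoinRoot.mk χ ((1 + X) * (α * (X + 1) ^ k) + (C (σ b) + C b * X) * (β * g))
        = (1 + x) * e + (s₁ + t₁ * x) * e' := by
      rw [he, he', ha₁, hb₁, hg₁, hx, hs₁, ht₁]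
      simp only [map_add, map_mul, map_pow, map_one, AdjoinRoot.mk_C]
    have h2 : AdjoinRoot.mk χ (u * (α * (X + 1) ^ k) + γ * (β * g)) = u₁ * e + γ₁ * e' := by
      rw [he, he', ha₁, hb₁, hg₁, hx, hu₁, hγ₁]
      simp only [map_add, map_mul, map_pow, map_one]
    rw [map_sub, map_mul, h1, h2, hYZ, map_one, sub_self]
  · apply AdjoinRoot.mk_eq_zero.1
    have h1 : AdjoinRoot.mk χ ((1 + X) * (α * (X + 1) ^ k) + (C (σ b) + C b * X) * (β * g))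
        = (1 + x) * e + (s₁ + t₁ * x) * e' := by
      rw [he, he', ha₁, hb₁, hg₁, hx, hs₁, ht₁]
      simp only [map_add, map_mul, map_pow, map_one, AdjoinRoot.mk_C]
    rw [map_sub, map_mul, ← hιmk, h1, ← hx, ← hYι, sub_self]

end Cfsg.Agent.Helper15
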