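import Mathlib
import Cfsg.Agent.Helper15.HermWall3

set_option autoImplicit false

namespace Cfsg.Agent.Helper15
open Polynomial Matrix

universe u

theorem aeval_intertwine {F : Type*} [Field F] {n : ℕ} (M₁ M₂ c : Matrix (Fin n) (Fin n) F)
    (h : M₁ * c = c * M₂) (f : F[X]) : aeval M₁ f * c = c * aeval M₂ f := by
  have hk : ∀ k : ℕ, M₁ ^ k * c = c * M₂ ^ k := by
    intro k
    induction k with
    | zero => rw [pow_zero, pow_zero, one_mul, mul_one]
    | succ k ih => rw [pow_succ, mul_assoc, h, ← mul_assoc, ih, mul_assoc, ← pow_succ]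
  induction f using Polynomial.induction_on' with
  | add p q hp hq => rw [map_add, map_add, add_mul, mul_add, hp, hq]
  | monomial k a =>
    rw [aeval_monomial, aeval_monomial, mul_assoc, hk, ← mul_assoc, ← mul_assoc,
      Algebra.commutes]

def hadjU {F : Type*} [Field F] {n : ℕ} (σ : F →+* F) (g : GL (Fin n) F) : GL (Fin n) F :=
  ⟨hadj σ (g : Matrix (Fin n) (Fin n) F),
    hadj σ ((g⁻¹ : GL (Fin n) F) : Matrix (Fin n) (Fin n) F),
    by rw [← hadj_mul, ← Units.val_mul, inv_mul_cancel, Units.val_one, hadj_one],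
    by rw [← hadj_mul, ← Units.val_mul, mul_inv_cancel, Units.val_one, hadj_one]⟩

theorem hadjU_mul {F : Type*} [Field F] {n : ℕ} (σ : F →+* F) (g h : GL (Fin n) F) :
    hadjU σ (g * h) = hadjU σ h * hadjU σ g :=
  Units.ext (hadj_mul σ _ _)

theorem hadjU_inv {F : Type*} [Field F] {n : ℕ} (σ : F →+* F) (g : GL (Fin n) F) :
    hadjU σ g⁻¹ = (hadjU σ g)⁻¹ :=
  Units.ext rfl

theorem hadjU_hadjU {F : Type*} [Field F] {n : ℕ} (σ : F →+* F) (hσ : ∀ a, σ (σ a) = a)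
    (g : GL (Fin n) F) : hadjU σ (hadjU σ g) = g :=
  Units.ext (hadj_hadj σ hσ _)

theorem similar_unitary_of_conj {K : Type u} [Field K] [Fintype K] {q n : ℕ}
    (hK : Fintype.card K = q ^ 2) (A : GL (Fin n) K) (σ : K →+* K) (hσq : ∀ x, σ x = x ^ q)
    (c : GL (Fin n) K) (hc : c * A = (hadjU σ A)⁻¹ * c) :
    ∃ B : ↥(Cfsg.GU n K q), IsConj A (B : GL (Fin n) K) := by
  classical
  haveI : Fact (ringChar K).Prime := ⟨CharP.char_is_prime K (ringChar K)⟩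
  obtain ⟨hq1, a₀, ha₀⟩ := hs_exists_pow_ne hK
  have hne : ∃ a, σ a ≠ a := ⟨a₀, by rw [hσq]; exact ha₀⟩
  have hσ : ∀ a, σ (σ a) = a := by
    intro a
    rw [hσq, hσq, ← pow_mul, ← pow_two, ← hK, FiniteField.pow_card]
  have h1 : hadjU σ A * c * A = c := by
    rw [mul_assoc, hc, ← mul_assoc, mul_inv_cancel, one_mul]
  have h2 : hadjU σ A * hadjU σ c * A = hadjU σ c := by
    have h := congrArg (hadjU σ) h1
    rw [hadjU_mul, hadjU_mul, hadjU_hadjU σ hσ, ← mul_assoc] at h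
    exact h
  obtain ⟨T, hTdef⟩ : ∃ T : GL (Fin n) K, T = c⁻¹ * hadjU σ c := ⟨_, rfl⟩
  have hcT : hadjU σ c = c * T := by rw [hTdef, ← mul_assoc, mul_inv_cancel, one_mul]
  have e1 : hadjU σ c * A = (hadjU σ A)⁻¹ * hadjU σ c := by
    calc hadjU σ c * A = (hadjU σ A)⁻¹ * (hadjU σ A * hadjU σ c * A) := by group
      _ = (hadjU σ A)⁻¹ * hadjU σ c := by rw [h2]
  have e2 : A * c⁻¹ = c⁻¹ * (hadjU σ A)⁻¹ := by
    calc A * c⁻¹ = c⁻¹ * (c * A) * c⁻¹ := by group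
      _ = c⁻¹ * ((hadjU σ A)⁻¹ * c) * c⁻¹ := by rw [hc]
      _ = c⁻¹ * (hadjU σ A)⁻¹ := by group
  have hTA : T * A = A * T := by
    calc T * A = c⁻¹ * (hadjU σ c * A) := by rw [hTdef, mul_assoc]
      _ = c⁻¹ * ((hadjU σ A)⁻¹ * hadjU σ c) := by rw [e1]
      _ = (c⁻¹ * (hadjU σ A)⁻¹) * hadjU σ c := by rw [mul_assoc]
      _ = (A * c⁻¹) * hadjU σ c := by rw [e2]
      _ = A * T := by rw [hTdef, mul_assoc]
  have hTadj : hadjU σ T * c = c * T⁻¹ := by
    have e3 : hadjU σ T = c * (hadjU σ c)⁻¹ := by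
      rw [hTdef, hadjU_mul, hadjU_hadjU σ hσ, hadjU_inv]
    rw [e3, hTdef]
    group
  obtain ⟨N, hNdef⟩ : ∃ N : ℕ, N = orderOf T := ⟨_, rfl⟩
  have hNpos : 1 ≤ N := by
    rw [hNdef]
    exact orderOf_pos T
  have hTN : T ^ N = 1 := by rw [hNdef, pow_orderOf_eq_one]
  have hTinv : T⁻¹ = T ^ (N - 1) := by
    symm
    apply eq_inv_of_mul_eq_one_left
    rw [← pow_succ, Nat.sub_add_cancel hNpos, hTN]
  -- matrices
  obtain ⟨Am, hAm⟩ : ∃ Am : Matrix (Fin n) (Fin n) K, Am = (A : Matrix (Fin n) (Fin n) K) :=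
    ⟨_, rfl⟩
  obtain ⟨cm, hcm⟩ : ∃ cm : Matrix (Fin n) (Fin n) K, cm = (c : Matrix (Fin n) (Fin n) K) :=
    ⟨_, rfl⟩
  obtain ⟨Tm, hTm⟩ : ∃ Tm : Matrix (Fin n) (Fin n) K, Tm = (T : Matrix (Fin n) (Fin n) K) :=
    ⟨_, rfl⟩
  have mTA : Tm * Am = Am * Tm := by
    have h := congrArg (fun x : GL (Fin n) K => (x : Matrix (Fin n) (Fin n) K)) hTA
    simp only [Units.val_mul] at h
    rw [hTm, hAm]
    exact h
  have mTN : Tm ^ N = 1 := by
    have h := congrArg (fun x : GL (Fin n) K => (x : Matrix (Fin n) (Fin n) K)) hTN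
    simp only [Units.val_pow_eq_pow_val, Units.val_one] at h
    rw [hTm]
    exact h
  have mTadj : hadj σ Tm * cm = cm * Tm ^ (N - 1) := by
    have h := congrArg (fun x : GL (Fin n) K => (x : Matrix (Fin n) (Fin n) K)) hTadj
    rw [hTinv] at h
    simp only [Units.val_mul, Units.val_pow_eq_pow_val] at h
    rw [hTm, hcm]
    exact h
  have mcT : hadj σ cm = cm * Tm := by
    have h := congrArg (fun x : GL (Fin n) K => (x : Matrix (Fin n) (Fin n) K)) hcT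
    simp only [Units.val_mul] at h
    rw [hTm, hcm]
    exact h
  have m1 : hadj σ Am * cm * Am = cm := by
    have h := congrArg (fun x : GL (Fin n) K => (x : Matrix (Fin n) (Fin n) K)) h1
    simp only [Units.val_mul] at h
    rw [hAm, hcm]
    exact h
  obtain ⟨Y, Z, ⟨r₁, hr₁⟩, ⟨r₂, hr₂⟩⟩ := poly_h90 σ hσ hne N hNpos
  have hχT : aeval Tm (X ^ N - 1 : K[X]) = 0 := by
    rw [map_sub, map_pow, aeval_X, map_one, mTN, sub_self]
  have hv1 : aeval Tm Y * aeval Tm Z = 1 := by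
    have h := congrArg (aeval Tm) hr₁
    rw [map_sub, map_mul, map_one, map_mul, hχT, zero_mul, sub_eq_zero] at h
    exact h
  have hv2 : aeval Tm Y = Tm * aeval (Tm ^ (N - 1)) (Y.map σ) := by
    have h := congrArg (aeval Tm) hr₂
    rw [map_sub, map_mul, map_mul, hχT, zero_mul, sub_eq_zero, aeval_X, aeval_comp, map_pow,
      aeval_X] at h
    exact h
  obtain ⟨v, hvdef⟩ : ∃ v : Matrix (Fin n) (Fin n) K, v = aeval Tm Y := ⟨_, rfl⟩
  obtain ⟨M, hMdef⟩ : ∃ M : Matrix (Fin n) (Fin n) K, M = cm * v := ⟨_, rfl⟩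
  have hcomm1 : aeval (Tm ^ (N - 1)) (Y.map σ) * Tm = Tm * aeval (Tm ^ (N - 1)) (Y.map σ) :=
    (commute_aeval_of_commute Tm (Tm ^ (N - 1)) ((Commute.refl Tm).pow_right _) _).symm.eq
  have hMadj : hadj σ M = M := by
    rw [hMdef, hadj_mul, hvdef, hadj_aeval, mcT, ← mul_assoc,
      aeval_intertwine (hadj σ Tm) (Tm ^ (N - 1)) cm mTadj, mul_assoc, hcomm1, ← hv2]
  have hvA : v * Am = Am * v := by
    have h : Commute Am Tm := mTA.symm
    rw [hvdef]
    exact (commute_aeval_of_commute Am Tm h Y).symm.eq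
  have hMA : hadj σ Am * M * Am = M := by
    rw [hMdef]
    calc hadj σ Am * (cm * v) * Am = hadj σ Am * cm * (v * Am) := by simp only [mul_assoc]
      _ = hadj σ Am * cm * (Am * v) := by rw [hvA]
      _ = (hadj σ Am * cm * Am) * v := by simp only [mul_assoc]
      _ = cm * v := by rw [m1]
  have hcdet : cm.det ≠ 0 := by
    rw [hcm]
    exact ((Matrix.isUnit_iff_isUnit_det _).1 c.isUnit).ne_zero
  have hvdet : v.det ≠ 0 := by
    intro h0
    have h := congrArg Matrix.det hv1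
    rw [Matrix.det_mul, ← hvdef, h0, zero_mul, Matrix.det_one] at h
    exact zero_ne_one h
  have hMdet : M.det ≠ 0 := by
    rw [hMdef, Matrix.det_mul]
    exact mul_ne_zero hcdet hvdet
  obtain ⟨G, hG⟩ := herm_sqrt (ringChar K) σ hσ hne M hMdet
  obtain ⟨R, hRdef⟩ : ∃ R : Matrix (Fin n) (Fin n) K, R = aeval M G := ⟨_, rfl⟩
  have hRR : hadj σ R * R = M := by
    rw [hRdef, hadj_aeval, hMadj, ← map_mul]
    exact hG
  have hRdet : R.det ≠ 0 := by
    intro h0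
    apply hMdet
    rw [← hRR, Matrix.det_mul, h0, mul_zero]
  obtain ⟨Rg, hRg⟩ : ∃ Rg : GL (Fin n) K, (Rg : Matrix (Fin n) (Fin n) K) = R :=
    ⟨Matrix.GeneralLinearGroup.mkOfDetNeZero R hRdet, rfl⟩
  have hRinv : R * ((Rg⁻¹ : GL (Fin n) K) : Matrix (Fin n) (Fin n) K) = 1 := by
    rw [← hRg, ← Units.val_mul, mul_inv_cancel, Units.val_one]
  have hmem : Rg * A * Rg⁻¹ ∈ Cfsg.GU n K q := by
    rw [mem_GU_iff_hadj hK σ hσq n, Units.val_mul, Units.val_mul, hRg, ← hAm, hadj_mul, hadj_mul]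
    calc hadj σ ((Rg⁻¹ : GL (Fin n) K) : Matrix (Fin n) (Fin n) K) * (hadj σ Am * hadj σ R)
          * (R * Am * ((Rg⁻¹ : GL (Fin n) K) : Matrix (Fin n) (Fin n) K))
        = hadj σ ((Rg⁻¹ : GL (Fin n) K) : Matrix (Fin n) (Fin n) K)
          * (hadj σ Am * (hadj σ R * R) * Am)
          * ((Rg⁻¹ : GL (Fin n) K) : Matrix (Fin n) (Fin n) K) := by simp only [mul_assoc]
      _ = hadj σ ((Rg⁻¹ : GL (Fin n) K) : Matrix (Fin n) (Fin n) K) * (hadj σ R * R)
          * ((Rg⁻¹ : GL (Fin n) K) : Matrix (Fin n) (Fin n) K) := by rw [hRR, hMA]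
      _ = (hadj σ ((Rg⁻¹ : GL (Fin n) K) : Matrix (Fin n) (Fin n) K) * hadj σ R)
          * (R * ((Rg⁻¹ : GL (Fin n) K) : Matrix (Fin n) (Fin n) K)) := by
        simp only [mul_assoc]
      _ = 1 := by rw [← hadj_mul, hRinv, hadj_one, one_mul]
  exact ⟨⟨Rg * A * Rg⁻¹, hmem⟩, isConj_iff.2 ⟨Rg, rfl⟩⟩

theorem conj_of_similar_unitary {K : Type u} [Field K] [Fintype K] {q n : ℕ}
    (hK : Fintype.card K = q ^ 2) (A : GL (Fin n) K) (σ : K →+* K) (hσq : ∀ x, σ x = x ^ q)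
    (B : ↥(Cfsg.GU n K q)) (h : IsConj A (B : GL (Fin n) K)) :
    ∃ c : GL (Fin n) K, c * A = (hadjU σ A)⁻¹ * c := by
  obtain ⟨P, hP⟩ := isConj_iff.1 h
  have hPA : P * A = (B : GL (Fin n) K) * P := mul_inv_eq_iff_eq_mul.1 hP
  have hB : hadjU σ (B : GL (Fin n) K) * (B : GL (Fin n) K) = 1 := by
    apply Units.ext
    rw [Units.val_mul]
    exact (mem_GU_iff_hadj hK σ hσq n _).1 B.2
  refine ⟨hadjU σ P * P, ?_⟩
  have h3 : hadjU σ A * hadjU σ P = hadjU σ P * hadjU σ (B : GL (Fin n) K) := by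
    have := congrArg (hadjU σ) hPA
    rwa [hadjU_mul, hadjU_mul] at this
  rw [eq_inv_mul_iff_mul_eq]
  calc hadjU σ A * (hadjU σ P * P * A) = (hadjU σ A * hadjU σ P) * (P * A) := by group
    _ = (hadjU σ P * hadjU σ (B : GL (Fin n) K)) * ((B : GL (Fin n) K) * P) := by rw [h3, hPA]
    _ = hadjU σ P * (hadjU σ (B : GL (Fin n) K) * (B : GL (Fin n) K)) * P := by group
    _ = hadjU σ P * P := by rw [hB, mul_one]

theorem similar_unitary_iff {K : Type u} [Field K] [Fintype K] {q n : ℕ}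
    (hK : Fintype.card K = q ^ 2) (A : GL (Fin n) K) :
    (∃ B : ↥(Cfsg.GU n K q), IsConj A (B : GL (Fin n) K)) ↔
      IsConj (A : Matrix (Fin n) (Fin n) K)
        (((A : Matrix (Fin n) (Fin n) K).map (fun x : K => x ^ q)).transpose)⁻¹ := by
  classical
  haveI : Fact (ringChar K).Prime := ⟨CharP.char_is_prime K (ringChar K)⟩
  obtain ⟨σ, hσq⟩ := exists_frob_hs hK (ringChar K)
  have hfun : (fun x : K => x ^ q) = ⇑σ := funext fun x => (hσq x).symm
  have hmat : (((A : Matrix (Fin n) (Fin n) K).map (fun x : K => x ^ q)).transpose)⁻¹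
      = (((hadjU σ A)⁻¹ : GL (Fin n) K) : Matrix (Fin n) (Fin n) K) := by
    rw [Matrix.coe_units_inv, hfun]
    rfl
  rw [hmat]
  constructor
  · rintro ⟨B, hB⟩
    obtain ⟨c, hc⟩ := conj_of_similar_unitary hK A σ hσq B hB
    exact ⟨c, congrArg Units.val hc⟩
  · rintro ⟨c, hc⟩
    exact similar_unitary_of_conj hK A σ hσq c (Units.ext hc)

end Cfsg.Agent.Helper15
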