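import Mathlib
import Cfsg.Agent.Helper15.SemiCount1

set_option autoImplicit false

namespace Cfsg.Agent.Helper15
open Polynomial

universe u

theorem card_multiset_on {β : Type*} (S : Finset β) (N : ℕ) :
    Nat.card {M : Multiset β // (∀ x ∈ M, x ∈ S) ∧ Multiset.card M = N}
      = (S.card + N - 1).choose N := by
  classical
  have h1 := Sym.natCard_sym_eq_choose (α := {x : β // x ∈ S}) N
  rw [Nat.card_eq_fintype_card (α := {x : β // x ∈ S}), Fintype.card_coe] at h1
  rw [← h1]
  have hmem : ∀ s : Sym {x : β // x ∈ S} N,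
      (∀ x ∈ s.1.map Subtype.val, x ∈ S) ∧ Multiset.card (s.1.map Subtype.val) = N := by
    intro s
    refine ⟨fun x hx => ?_, ?_⟩
    · obtain ⟨y, _, rfl⟩ := Multiset.mem_map.1 hx
      exact y.2
    · rw [Multiset.card_map]
      exact s.2
  have hbij : Function.Bijective (fun s : Sym {x : β // x ∈ S} N =>
      (⟨s.1.map Subtype.val, hmem s⟩ :
        {M : Multiset β // (∀ x ∈ M, x ∈ S) ∧ Multiset.card M = N})) := by
    constructor
    · intro s s' h
      have h2 : s.1.map Subtype.val = s'.1.map Subtype.val := congrArg Subtype.val h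
      exact Subtype.ext (Multiset.map_injective Subtype.val_injective h2)
    · rintro ⟨M, hM1, hM2⟩
      refine ⟨⟨M.pmap (fun x hx => (⟨x, hx⟩ : {x : β // x ∈ S})) hM1, by
        rw [Multiset.card_pmap]; exact hM2⟩, ?_⟩
      apply Subtype.ext
      show (M.pmap (fun x hx => (⟨x, hx⟩ : {x : β // x ∈ S})) hM1).map Subtype.val = M
      rw [Multiset.map_pmap]
      exact (Multiset.pmap_eq_map (fun x => x ∈ S) (fun x => x) M hM1).trans (Multiset.map_id' M)
  exact (Nat.card_congr (Equiv.ofBijective _ hbij)).symm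

theorem card_ne_sub_one {α : Type*} (a : α) (k : ℕ) (hk : Nat.card α = k) (hk0 : 0 < k) :
    Nat.card {x : α // x ≠ a} = k - 1 := by
  classical
  have hfin : Finite α := Nat.finite_of_card_ne_zero (by omega)
  have := Fintype.ofFinite α
  rw [Nat.card_eq_fintype_card, Fintype.card_subtype, Finset.filter_ne',
    Finset.card_erase_of_mem (Finset.mem_univ a), Finset.card_univ, ← Nat.card_eq_fintype_card, hk]

theorem filter_ne_add_replicate {β : Type*} (a : β) [DecidablePred (fun x : β => x ≠ a)]
    (M : Multiset β) (k : ℕ) (hM : ∀ x ∈ M, x ≠ a) :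
    Multiset.filter (fun x => x ≠ a) (M + Multiset.replicate k a) = M := by
  rw [Multiset.filter_add, Multiset.filter_eq_self.2 hM,
    Multiset.filter_eq_nil.2 (fun x hx => by
      rw [Multiset.eq_of_mem_replicate hx]
      exact fun h => h rfl), add_zero]

theorem card_slack {β : Type*} (S : Finset β) (a : β) (ha : a ∈ S) (t N : ℕ)
    (hS : S.card = t + 1) :
    Nat.card {M : Multiset β // (∀ x ∈ M, x ∈ S ∧ x ≠ a) ∧ Multiset.card M ≤ N ∧ M ≠ 0}
      = (N + t).choose t - 1 := by
  classical
  have hT := card_multiset_on S N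
  rw [hS] at hT
  have hT' : Nat.card {M : Multiset β // (∀ x ∈ M, x ∈ S) ∧ Multiset.card M = N}
      = (N + t).choose t := by
    rw [hT, show t + 1 + N - 1 = N + t by omega, Nat.choose_symm_add]
  have hpos : 0 < (N + t).choose t := Nat.choose_pos (by omega)
  have hρ : (∀ x ∈ Multiset.replicate N a, x ∈ S)
      ∧ Multiset.card (Multiset.replicate N a) = N :=
    ⟨fun x hx => by rw [Multiset.eq_of_mem_replicate hx]; exact ha, Multiset.card_replicate N a⟩
  rw [← card_ne_sub_one (⟨Multiset.replicate N a, hρ⟩ :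
    {M : Multiset β // (∀ x ∈ M, x ∈ S) ∧ Multiset.card M = N}) _ hT' hpos]
  have hmem : ∀ M : {M : Multiset β // (∀ x ∈ M, x ∈ S ∧ x ≠ a) ∧ Multiset.card M ≤ N ∧ M ≠ 0},
      (∀ x ∈ M.1 + Multiset.replicate (N - Multiset.card M.1) a, x ∈ S)
        ∧ Multiset.card (M.1 + Multiset.replicate (N - Multiset.card M.1) a) = N := by
    rintro ⟨M, h1, h2, h3⟩
    refine ⟨fun x hx => ?_, ?_⟩
    · rcases Multiset.mem_add.1 hx with h | h
      · exact (h1 x h).1
      · rw [Multiset.eq_of_mem_replicate h]
        exact ha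
    · rw [Multiset.card_add, Multiset.card_replicate]
      show Multiset.card M + (N - Multiset.card M) = N
      omega
  have hne : ∀ M : {M : Multiset β // (∀ x ∈ M, x ∈ S ∧ x ≠ a) ∧ Multiset.card M ≤ N ∧ M ≠ 0},
      (⟨M.1 + Multiset.replicate (N - Multiset.card M.1) a, hmem M⟩ :
        {M : Multiset β // (∀ x ∈ M, x ∈ S) ∧ Multiset.card M = N})
        ≠ ⟨Multiset.replicate N a, hρ⟩ := by
    rintro ⟨M, h1, h2, h3⟩ heq
    have h4 : M + Multiset.replicate (N - Multiset.card M) a = Multiset.replicate N a :=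
      congrArg Subtype.val heq
    obtain ⟨x, hx⟩ := Multiset.exists_mem_of_ne_zero h3
    have h5 : x ∈ Multiset.replicate N a := by
      rw [← h4]
      exact Multiset.mem_add.2 (Or.inl hx)
    exact (h1 x hx).2 (Multiset.eq_of_mem_replicate h5)
  have hbij : Function.Bijective
      (fun M : {M : Multiset β // (∀ x ∈ M, x ∈ S ∧ x ≠ a) ∧ Multiset.card M ≤ N ∧ M ≠ 0} =>
        (⟨⟨M.1 + Multiset.replicate (N - Multiset.card M.1) a, hmem M⟩, hne M⟩ :
          {τ : {M : Multiset β // (∀ x ∈ M, x ∈ S) ∧ Multiset.card M = N} //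
            τ ≠ ⟨Multiset.replicate N a, hρ⟩})) := by
    constructor
    · intro M M' h
      have h2 : M.1 + Multiset.replicate (N - Multiset.card M.1) a
          = M'.1 + Multiset.replicate (N - Multiset.card M'.1) a :=
        congrArg (fun τ : {τ : {M : Multiset β // (∀ x ∈ M, x ∈ S) ∧ Multiset.card M = N} //
            τ ≠ ⟨Multiset.replicate N a, hρ⟩} => τ.1.1) h
      have h3 := congrArg (Multiset.filter (fun x => x ≠ a)) h2
      rw [filter_ne_add_replicate a _ _ (fun x hx => (M.2.1 x hx).2),
        filter_ne_add_replicate a _ _ (fun x hx => (M'.2.1 x hx).2)] at h3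
      exact Subtype.ext h3
    · rintro ⟨⟨M, hM1, hM2⟩, hMne⟩
      have hsplit := Multiset.filter_add_not (fun x => x ≠ a) M
      have hrep : Multiset.filter (fun x => ¬ x ≠ a) M
          = Multiset.replicate (Multiset.card (Multiset.filter (fun x => ¬ x ≠ a) M)) a := by
        rw [Multiset.eq_replicate]
        exact ⟨rfl, fun b hb => not_not.1 (Multiset.mem_filter.1 hb).2⟩
      have hcard : Multiset.card (Multiset.filter (fun x => x ≠ a) M)
          + Multiset.card (Multiset.filter (fun x => ¬ x ≠ a) M) = N := by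
        rw [← Multiset.card_add, hsplit, hM2]
      have hne0 : Multiset.filter (fun x => x ≠ a) M ≠ 0 := by
        intro h0
        apply hMne
        apply Subtype.ext
        show M = Multiset.replicate N a
        rw [h0, zero_add] at hsplit
        rw [h0, Multiset.card_zero, zero_add] at hcard
        rw [← hsplit, hrep, hcard]
      refine ⟨⟨Multiset.filter (fun x => x ≠ a) M,
        fun x hx => ⟨hM1 x (Multiset.mem_of_mem_filter hx), (Multiset.mem_filter.1 hx).2⟩,
        by omega, hne0⟩, ?_⟩
      apply Subtype.ext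
      apply Subtype.ext
      show Multiset.filter (fun x => x ≠ a) M
          + Multiset.replicate (N - Multiset.card (Multiset.filter (fun x => x ≠ a) M)) a = M
      have h5 : N - Multiset.card (Multiset.filter (fun x => x ≠ a) M)
          = Multiset.card (Multiset.filter (fun x => ¬ x ≠ a) M) := by omega
      rw [h5, ← hrep, hsplit]
  exact Nat.card_congr (Equiv.ofBijective _ hbij)

theorem x_sub_one_monic {F : Type u} [Field F] : (X - 1 : F[X]).Monic := by
  simpa using monic_X_sub_C (1 : F)

theorem x_sub_one_irred {F : Type u} [Field F] : Irreducible (X - 1 : F[X]) := by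
  simpa using irreducible_X_sub_C (1 : F)

theorem cyc_factor_set {F : Type u} [Field F] [Fintype F] [DecidableEq F] (p : ℕ) [Fact p.Prime]
    [CharP F p] (r : ℕ) (hr : r.Prime) (hrp : r ≠ p) (i t : ℕ)
    (hi : i = orderOf ((Fintype.card F : ℕ) : ZMod r)) (ht : t * i = r - 1) :
    ∃ S : Finset F[X], S.card = t + 1 ∧ (X - 1 : F[X]) ∈ S ∧
      (∀ x ∈ S, x.Monic ∧ Irreducible x ∧ x ∣ X ^ r - 1) ∧
      (∀ x ∈ S, x ≠ X - 1 → x.natDegree = i) ∧
      (∀ x : F[X], x.Monic → Irreducible x → x ∣ X ^ r - 1 → x ∈ S) := by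
  have hp : p.Prime := Fact.out
  haveI : Fact r.Prime := ⟨hr⟩
  obtain ⟨f, -, hf⟩ := FiniteField.card F p
  have hcop : p.Coprime r := (Nat.coprime_primes hp hr).2 (Ne.symm hrp)
  have hΦ : cyclotomic r F * (X - 1) = X ^ r - 1 := cyclotomic_prime_mul_X_sub_one F r
  have hΦ0 : cyclotomic r F ≠ 0 := cyclotomic_ne_zero r F
  have hord : orderOf (ZMod.unitOfCoprime (p ^ (f : ℕ)) (hcop.pow_left f)) = i := by
    rw [hi, hf, ← orderOf_units, ZMod.coe_unitOfCoprime]
  have hi0 : 0 < i := by
    rcases Nat.eq_zero_or_pos i with h | h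
    · rw [h, mul_zero] at ht
      have := hr.two_le
      omega
    · exact h
  have hrF : ((r : ℕ) : F) ≠ 0 := by
    intro h0
    have h1 : p ∣ r := (CharP.cast_eq_zero_iff F p r).1 h0
    exact hrp ((Nat.prime_dvd_prime_iff_eq hp hr).1 h1).symm
  have hX1 : ¬ (X - 1 : F[X]) ∣ cyclotomic r F := by
    intro hd
    have h1 : (cyclotomic r F).eval 1 = 0 := by
      obtain ⟨c, hc⟩ := hd
      rw [hc, eval_mul, eval_sub, eval_X, eval_one, sub_self, zero_mul]
    rw [eval_one_cyclotomic_prime] at h1
    exact hrF h1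
  refine ⟨insert (X - 1) (UniqueFactorizationMonoid.normalizedFactors (cyclotomic r F)).toFinset,
    ?_, Finset.mem_insert_self _ _, ?_, ?_, ?_⟩
  · rw [Finset.card_insert_of_notMem, normalizedFactors_cyclotomic_card hf hcop, hord,
      Nat.totient_prime hr, ← ht, Nat.mul_div_cancel _ hi0]
    intro hmem
    exact hX1 (UniqueFactorizationMonoid.dvd_of_mem_normalizedFactors
      (Multiset.mem_toFinset.1 hmem))
  · intro x hx
    rcases Finset.mem_insert.1 hx with rfl | hx
    · exact ⟨x_sub_one_monic, x_sub_one_irred, ⟨cyclotomic r F, by rw [← hΦ, mul_comm]⟩⟩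
    · have hx' := Multiset.mem_toFinset.1 hx
      have hirr := UniqueFactorizationMonoid.irreducible_of_normalized_factor x hx'
      have hnorm := UniqueFactorizationMonoid.normalize_normalized_factor x hx'
      have hdvd := UniqueFactorizationMonoid.dvd_of_mem_normalizedFactors hx'
      refine ⟨?_, hirr, hdvd.trans ⟨X - 1, hΦ.symm⟩⟩
      rw [← hnorm]
      exact monic_normalize hirr.ne_zero
  · intro x hx hne
    rcases Finset.mem_insert.1 hx with h | hx
    · exact absurd h hne
    · have hx' := Multiset.mem_toFinset.1 hx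
      rw [natDegree_of_dvd_cyclotomic_of_irreducible hf hcop
        (UniqueFactorizationMonoid.dvd_of_mem_normalizedFactors hx')
        (UniqueFactorizationMonoid.irreducible_of_normalized_factor x hx'), hord]
  · intro x hxm hxi hxd
    rw [← hΦ] at hxd
    rcases (hxi.prime).dvd_or_dvd hxd with h | h
    · apply Finset.mem_insert_of_mem
      rw [Multiset.mem_toFinset, UniqueFactorizationMonoid.mem_normalizedFactors_iff' hΦ0]
      exact ⟨hxi, hxm.normalize_eq_self, h⟩
    · apply Finset.mem_insert.2
      left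
      exact eq_of_monic_of_associated hxm x_sub_one_monic
        (hxi.associated_of_dvd x_sub_one_irred h)

theorem monic_factor {F : Type u} [Field F] (f : F[X]) (hf : f.Monic) :
    ∃ M : Multiset F[X], (∀ x ∈ M, x.Monic ∧ Irreducible x ∧ x ∣ f) ∧ M.prod = f := by
  classical
  have hmon : ∀ x ∈ UniqueFactorizationMonoid.normalizedFactors f, x.Monic := by
    intro x hx
    rw [← UniqueFactorizationMonoid.normalize_normalized_factor x hx]
    exact monic_normalize (UniqueFactorizationMonoid.irreducible_of_normalized_factor x hx).ne_zero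
  refine ⟨UniqueFactorizationMonoid.normalizedFactors f, fun x hx => ⟨hmon x hx,
    UniqueFactorizationMonoid.irreducible_of_normalized_factor x hx,
    UniqueFactorizationMonoid.dvd_of_mem_normalizedFactors hx⟩, ?_⟩
  apply eq_of_monic_of_associated _ hf
    (UniqueFactorizationMonoid.prod_normalizedFactors hf.ne_zero)
  have h1 := monic_multiset_prod_of_monic (UniqueFactorizationMonoid.normalizedFactors f) id
    (fun x hx => hmon x hx)
  rwa [Multiset.map_id] at h1

theorem monic_factor_unique {F : Type u} [Field F] (M₁ M₂ : Multiset F[X])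
    (h₁ : ∀ x ∈ M₁, x.Monic ∧ Irreducible x) (h₂ : ∀ x ∈ M₂, x.Monic ∧ Irreducible x)
    (h : M₁.prod = M₂.prod) : M₁ = M₂ := by
  classical
  have key : ∀ M : Multiset F[X], (∀ x ∈ M, x.Monic ∧ Irreducible x) →
      UniqueFactorizationMonoid.normalizedFactors M.prod = M := by
    intro M hM
    rw [UniqueFactorizationMonoid.normalizedFactors_multiset_prod M
      (fun h0 => (hM 0 h0).2.ne_zero rfl)]
    have h3 : ∀ x ∈ M, UniqueFactorizationMonoid.normalizedFactors x
        = (fun y : F[X] => ({y} : Multiset F[X])) x := by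
      intro x hx
      rw [UniqueFactorizationMonoid.normalizedFactors_irreducible (hM x hx).2,
        (hM x hx).1.normalize_eq_self]
    rw [Multiset.map_congr rfl h3]
    exact Multiset.sum_map_singleton M
  calc M₁ = UniqueFactorizationMonoid.normalizedFactors M₁.prod := (key M₁ h₁).symm
    _ = UniqueFactorizationMonoid.normalizedFactors M₂.prod := by rw [h]
    _ = M₂ := key M₂ h₂

end Cfsg.Agent.Helper15
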