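import Mathlib
import Cfsg.Agent.Helper15.PrimeCount1

set_option autoImplicit false

namespace Cfsg.Agent.Helper15
open Polynomial

universe u

theorem irr_dvd_of_pow {F : Type u} [Field F] {n : ℕ} (A : Matrix (Fin n) (Fin n) F) (r : ℕ)
    (hA : A ^ r = 1) (x : F[X]) (hx : Irreducible x) (hd : x ∣ A.charpoly) :
    x ∣ X ^ r - 1 := by
  by_contra hnd
  obtain ⟨a, b, hab⟩ := (hx.coprime_iff_not_dvd.2 hnd : IsCoprime x (X ^ r - 1))
  obtain ⟨v, hv0, hv⟩ := exists_ker_aeval_irred (Matrix.toLin' A) x hx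
    (by rw [Matrix.charpoly_toLin']; exact hd)
  have hg : Matrix.toLin' A ^ r = 1 := by
    rw [← Matrix.toLin'_pow, hA, Matrix.toLin'_one]
    rfl
  have h2 : Polynomial.aeval (Matrix.toLin' A) (X ^ r - 1 : F[X]) = 0 := by
    rw [map_sub, map_pow, Polynomial.aeval_X, map_one, hg, sub_self]
  have h3 : (Polynomial.aeval (Matrix.toLin' A) (a * x + b * (X ^ r - 1))) v = v := by
    rw [hab, map_one]
    rfl
  rw [map_add, map_mul, map_mul, h2, mul_zero, add_zero, Module.End.mul_apply, hv, map_zero] at h3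
  exact hv0 h3.symm

theorem type_exists {F : Type u} [Field F] {n : ℕ} (S : Finset F[X]) (r : ℕ)
    (hScomp : ∀ x : F[X], x.Monic → Irreducible x → x ∣ X ^ r - 1 → x ∈ S)
    (A : Matrix (Fin n) (Fin n) F) (hA : A ^ r = 1) :
    ∃ (M' : Multiset F[X]) (k : ℕ), (∀ x ∈ M', x ∈ S ∧ x ≠ X - 1)
      ∧ A.charpoly = M'.prod * (X - 1) ^ k := by
  classical
  obtain ⟨M, hM, hprod⟩ := monic_factor A.charpoly (Matrix.charpoly_monic A)
  have hsplit := Multiset.filter_add_not (fun x : F[X] => x ≠ X - 1) M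
  have hrep : Multiset.filter (fun x : F[X] => ¬ x ≠ X - 1) M
      = Multiset.replicate (Multiset.card (Multiset.filter (fun x : F[X] => ¬ x ≠ X - 1) M))
        (X - 1) := by
    rw [Multiset.eq_replicate]
    exact ⟨rfl, fun b hb => not_not.1 (Multiset.mem_filter.1 hb).2⟩
  refine ⟨Multiset.filter (fun x : F[X] => x ≠ X - 1) M,
    Multiset.card (Multiset.filter (fun x : F[X] => ¬ x ≠ X - 1) M),
    fun x hx => ⟨?_, (Multiset.mem_filter.1 hx).2⟩, ?_⟩
  · have hxM := Multiset.mem_of_mem_filter hx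
    obtain ⟨h1, h2, h3⟩ := hM x hxM
    exact hScomp x h1 h2 (irr_dvd_of_pow A r hA x h2 h3)
  · rw [← Multiset.prod_replicate, ← hrep, ← Multiset.prod_add, hsplit, hprod]

theorem type_unique {F : Type u} [Field F] (S : Finset F[X])
    (hS : ∀ x ∈ S, x.Monic ∧ Irreducible x)
    (M₁ M₂ : Multiset F[X]) (k₁ k₂ : ℕ) (h₁ : ∀ x ∈ M₁, x ∈ S ∧ x ≠ X - 1)
    (h₂ : ∀ x ∈ M₂, x ∈ S ∧ x ≠ X - 1)
    (h : M₁.prod * (X - 1) ^ k₁ = M₂.prod * (X - 1) ^ k₂) : M₁ = M₂ := by
  classical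
  have key := monic_factor_unique (M₁ + Multiset.replicate k₁ (X - 1))
    (M₂ + Multiset.replicate k₂ (X - 1))
    (by
      intro x hx
      rcases Multiset.mem_add.1 hx with h' | h'
      · exact hS x (h₁ x h').1
      · rw [Multiset.eq_of_mem_replicate h']
        exact ⟨x_sub_one_monic, x_sub_one_irred⟩)
    (by
      intro x hx
      rcases Multiset.mem_add.1 hx with h' | h'
      · exact hS x (h₂ x h').1
      · rw [Multiset.eq_of_mem_replicate h']
        exact ⟨x_sub_one_monic, x_sub_one_irred⟩)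
    (by
      rw [Multiset.prod_add, Multiset.prod_add, Multiset.prod_replicate, Multiset.prod_replicate]
      exact h)
  have h3 := congrArg (Multiset.filter (fun x : F[X] => x ≠ X - 1)) key
  rw [filter_ne_add_replicate (X - 1) _ _ (fun x hx => (h₁ x hx).2),
    filter_ne_add_replicate (X - 1) _ _ (fun x hx => (h₂ x hx).2)] at h3
  exact h3

theorem type_prod_degree {F : Type u} [Field F] (S : Finset F[X]) (i : ℕ)
    (hS : ∀ x ∈ S, x.Monic) (hdeg : ∀ x ∈ S, x ≠ X - 1 → x.natDegree = i)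
    (M' : Multiset F[X]) (k : ℕ) (h₁ : ∀ x ∈ M', x ∈ S ∧ x ≠ X - 1) :
    (M'.prod * (X - 1) ^ k).Monic ∧
      (M'.prod * (X - 1) ^ k).natDegree = i * Multiset.card M' + k := by
  have hM'm : M'.prod.Monic := by
    have h1 := monic_multiset_prod_of_monic M' id (fun x hx => hS x (h₁ x hx).1)
    rwa [Multiset.map_id] at h1
  refine ⟨hM'm.mul (x_sub_one_monic.pow k), ?_⟩
  rw [hM'm.natDegree_mul (x_sub_one_monic.pow k), x_sub_one_monic.natDegree_pow,
    natDegree_multiset_prod_of_monic M' (fun x hx => hS x (h₁ x hx).1)]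
  have h2 : M'.map natDegree = Multiset.replicate (Multiset.card M') i := by
    rw [Multiset.eq_replicate]
    refine ⟨Multiset.card_map _ _, fun b hb => ?_⟩
    obtain ⟨x, hx, rfl⟩ := Multiset.mem_map.1 hb
    exact hdeg x (h₁ x hx).1 (h₁ x hx).2
  have h3 : (X - 1 : F[X]).natDegree = 1 := by simpa using natDegree_X_sub_C (1 : F)
  rw [h2, Multiset.sum_replicate, smul_eq_mul, h3, mul_one, mul_comm]

theorem type_degree {F : Type u} [Field F] {n : ℕ} (S : Finset F[X]) (i : ℕ)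
    (hS : ∀ x ∈ S, x.Monic) (hdeg : ∀ x ∈ S, x ≠ X - 1 → x.natDegree = i)
    (A : Matrix (Fin n) (Fin n) F) (M' : Multiset F[X]) (k : ℕ)
    (h₁ : ∀ x ∈ M', x ∈ S ∧ x ≠ X - 1)
    (h : A.charpoly = M'.prod * (X - 1) ^ k) : n = i * Multiset.card M' + k := by
  have h1 := congrArg natDegree h
  rw [Matrix.charpoly_natDegree_eq_dim, Fintype.card_fin,
    (type_prod_degree S i hS hdeg M' k h₁).2] at h1
  exact h1

theorem type_realize {F : Type u} [Field F] [Fintype F] (p : ℕ) [Fact p.Prime] [CharP F p]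
    {n : ℕ} (S : Finset F[X]) (r i : ℕ) (hr : r.Prime) (hX1S : (X - 1 : F[X]) ∈ S)
    (hS : ∀ x ∈ S, x.Monic ∧ Irreducible x ∧ x ∣ X ^ r - 1)
    (hdeg : ∀ x ∈ S, x ≠ X - 1 → x.natDegree = i)
    (M' : Multiset F[X]) (h₁ : ∀ x ∈ M', x ∈ S ∧ x ≠ X - 1)
    (hle : i * Multiset.card M' ≤ n) (hne : M' ≠ 0) :
    ∃ g : Matrix.GeneralLinearGroup (Fin n) F, orderOf g = r ∧
      (g : Matrix (Fin n) (Fin n) F).charpoly
        = M'.prod * (X - 1) ^ (n - i * Multiset.card M') := by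
  classical
  haveI : Fact r.Prime := ⟨hr⟩
  obtain ⟨hfm, hfdeg⟩ := type_prod_degree S i (fun x hx => (hS x hx).1) hdeg M'
    (n - i * Multiset.card M') h₁
  have hfdeg' : (M'.prod * (X - 1) ^ (n - i * Multiset.card M')).natDegree = n := by
    rw [hfdeg]
    omega
  have hfdvd : M'.prod * (X - 1) ^ (n - i * Multiset.card M')
      ∣ (X ^ r - 1) ^ (Multiset.card M' + (n - i * Multiset.card M')) := by
    rw [pow_add]
    apply mul_dvd_mul
    · have hgen : ∀ M : Multiset F[X], (∀ x ∈ M, x ∣ X ^ r - 1) →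
          M.prod ∣ (X ^ r - 1) ^ Multiset.card M := by
        intro M
        induction M using Multiset.induction_on with
        | empty =>
          intro _
          simp
        | cons a s ih =>
          intro h
          rw [Multiset.prod_cons, Multiset.card_cons, pow_succ']
          exact mul_dvd_mul (h a (Multiset.mem_cons_self a s))
            (ih (fun x hx => h x (Multiset.mem_cons_of_mem hx)))
      exact hgen M' (fun x hx => (hS x (h₁ x hx).1).2.2)
    · exact pow_dvd_pow_of_dvd (hS _ hX1S).2.2 _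
  have hf0 : (M'.prod * (X - 1) ^ (n - i * Multiset.card M')).coeff 0 ≠ 0 := by
    intro h0
    have hX : (X : F[X]) ∣ M'.prod * (X - 1) ^ (n - i * Multiset.card M') := X_dvd_iff.2 h0
    have hX2 := prime_X.dvd_of_dvd_pow (hX.trans hfdvd)
    have h3 := X_dvd_iff.1 hX2
    rw [coeff_sub, coeff_X_pow, coeff_one_zero, if_neg (Ne.symm hr.ne_zero), zero_sub] at h3
    exact one_ne_zero (neg_eq_zero.1 h3)
  obtain ⟨A, m, hm, hAm, hχ⟩ := exists_semi_matrix n _ hfm hfdeg' hf0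
  have hsq : Squarefree (minpoly F A) := by
    have h1 : minpoly F A ∣ X ^ m - 1 := by
      apply minpoly.dvd
      rw [map_sub, map_pow, aeval_X, map_one, hAm, sub_self]
    exact ((X_pow_sub_one_separable_iff.2 hm).squarefree).squarefree_of_dvd h1
  have hdvd : minpoly F A ∣ X ^ r - 1 := by
    have h1 : minpoly F A
        ∣ (X ^ r - 1) ^ (Multiset.card M' + (n - i * Multiset.card M') + 1) := by
      refine ((Matrix.minpoly_dvd_charpoly A).trans ?_).trans (pow_dvd_pow _ (Nat.le_succ _))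
      rw [hχ]
      exact hfdvd
    exact (hsq.dvd_pow_iff_dvd (Nat.succ_ne_zero _)).1 h1
  have hAr : A ^ r = 1 := by
    have h1 : Polynomial.aeval A (X ^ r - 1 : F[X]) = 0 := by
      obtain ⟨c, hc⟩ := hdvd
      rw [hc, map_mul, minpoly.aeval, zero_mul]
    rw [map_sub, map_pow, aeval_X, map_one] at h1
    exact sub_eq_zero.1 h1
  have hr1 : 1 ≤ r := hr.one_lt.le
  have hinv1 : A * A ^ (r - 1) = 1 := by rw [← pow_succ', Nat.sub_add_cancel hr1, hAr]
  have hinv2 : A ^ (r - 1) * A = 1 := by rw [← pow_succ, Nat.sub_add_cancel hr1, hAr]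
  refine ⟨⟨A, A ^ (r - 1), hinv1, hinv2⟩, ?_, hχ⟩
  have hgr : (⟨A, A ^ (r - 1), hinv1, hinv2⟩ : Matrix.GeneralLinearGroup (Fin n) F) ^ r = 1 := by
    apply Units.ext
    rw [Units.val_pow_eq_pow_val]
    exact hAr
  have hg1 : (⟨A, A ^ (r - 1), hinv1, hinv2⟩ : Matrix.GeneralLinearGroup (Fin n) F) ≠ 1 := by
    intro h1
    have hA1 : A = 1 := congrArg Units.val h1
    rw [hA1, Matrix.charpoly_one, Fintype.card_fin] at hχ
    obtain ⟨x, hx⟩ := Multiset.exists_mem_of_ne_zero hne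
    have hxd : x ∣ (X - 1 : F[X]) ^ n := by
      rw [hχ]
      exact (Multiset.dvd_prod hx).trans (dvd_mul_right _ _)
    have hxi := (hS x (h₁ x hx).1).2.1
    have hxd' := hxi.prime.dvd_of_dvd_pow hxd
    exact (h₁ x hx).2 (eq_of_monic_of_associated (hS x (h₁ x hx).1).1 x_sub_one_monic
      (hxi.associated_of_dvd x_sub_one_irred hxd'))
  exact orderOf_eq_prime hgr hg1

theorem gl_prime_order_class_count {F : Type u} [Field F] [Fintype F] {p q : ℕ} [Fact p.Prime]
    [CharP F p] (hF : Fintype.card F = q) (n r i t : ℕ) (hr : r.Prime) (hrp : r ≠ p)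
    (hi : i = orderOf (q : ZMod r)) (ht : t * i = r - 1) :
    Nat.card {C : ConjClasses (Matrix.GeneralLinearGroup (Fin n) F) //
        ∃ g : Matrix.GeneralLinearGroup (Fin n) F, ConjClasses.mk g = C ∧ orderOf g = r}
      = Nat.choose (n / i + t) t - 1 := by
  classical
  subst hF
  obtain ⟨S, hScard, hX1S, hS, hSdeg, hScomp⟩ := cyc_factor_set p r hr hrp i t hi ht
  have hi0 : 0 < i := by
    rcases Nat.eq_zero_or_pos i with h | h
    · rw [h, mul_zero] at ht
      have := hr.two_le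
      omega
    · exact h
  have hcop : r.Coprime p := (Nat.coprime_primes hr (Fact.out)).2 hrp
  rw [← card_slack S (X - 1) hX1S t (n / i) hScard]
  have hex : ∀ C : {C : ConjClasses (Matrix.GeneralLinearGroup (Fin n) F) //
        ∃ g : Matrix.GeneralLinearGroup (Fin n) F, ConjClasses.mk g = C ∧ orderOf g = r},
      ∃ M' : Multiset F[X], ((∀ x ∈ M', x ∈ S ∧ x ≠ X - 1) ∧ Multiset.card M' ≤ n / i ∧ M' ≠ 0) ∧
        ∀ g : Matrix.GeneralLinearGroup (Fin n) F, ConjClasses.mk g = C.1 →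
          ∃ k : ℕ, (g : Matrix (Fin n) (Fin n) F).charpoly = M'.prod * (X - 1) ^ k := by
    rintro ⟨C, g, hg, hord⟩
    have hgr : (g : Matrix (Fin n) (Fin n) F) ^ r = 1 := by
      rw [← Units.val_pow_eq_pow_val, ← hord, pow_orderOf_eq_one, Units.val_one]
    obtain ⟨M', k, hM', hχ⟩ := type_exists S r hScomp (g : Matrix (Fin n) (Fin n) F) hgr
    have hdeg := type_degree S i (fun x hx => (hS x hx).1) hSdeg _ M' k hM' hχ
    refine ⟨M', ⟨hM', ?_, ?_⟩, ?_⟩
    · rw [Nat.le_div_iff_mul_le hi0, mul_comm]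
      omega
    · intro h0
      rw [h0, Multiset.prod_zero, one_mul] at hχ
      rw [h0, Multiset.card_zero, mul_zero, zero_add] at hdeg
      have h1 : (g : Matrix (Fin n) (Fin n) F).charpoly
          = ((1 : Matrix.GeneralLinearGroup (Fin n) F) : Matrix (Fin n) (Fin n) F).charpoly := by
        rw [hχ, ← hdeg, Units.val_one, Matrix.charpoly_one, Fintype.card_fin]
      have h2 := gl_isConj_of_charpoly p g 1 (by rw [hord]; exact hcop)
        (by rw [orderOf_one]; exact Nat.coprime_one_left p) h1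
      have h3 : g = 1 := isConj_one_left.1 h2
      rw [h3, orderOf_one] at hord
      exact hr.one_lt.ne hord
    · intro g' hg'
      refine ⟨k, ?_⟩
      have hconj : IsConj g' g := ConjClasses.mk_eq_mk_iff_isConj.1 (hg'.trans hg.symm)
      obtain ⟨c, hc⟩ := isConj_iff.1 hconj
      rw [← hχ, ← hc, Units.val_mul, Units.val_mul, Matrix.coe_units_inv,
        Matrix.charpoly_units_conj]
  choose Ξ hΞ1 hΞ2 using hex
  apply Nat.card_congr
  refine Equiv.ofBijective (fun C => ⟨Ξ C, hΞ1 C⟩) ⟨?_, ?_⟩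
  · intro C₁ C₂ h
    have h1 : Ξ C₁ = Ξ C₂ := congrArg Subtype.val h
    obtain ⟨g₁, hg₁, ho₁⟩ := C₁.2
    obtain ⟨g₂, hg₂, ho₂⟩ := C₂.2
    obtain ⟨k₁, hk₁⟩ := hΞ2 C₁ g₁ hg₁
    obtain ⟨k₂, hk₂⟩ := hΞ2 C₂ g₂ hg₂
    have hd₁ := type_degree S i (fun x hx => (hS x hx).1) hSdeg _ _ k₁ (hΞ1 C₁).1 hk₁
    have hd₂ := type_degree S i (fun x hx => (hS x hx).1) hSdeg _ _ k₂ (hΞ1 C₂).1 hk₂
    have hk : k₁ = k₂ := by
      rw [h1] at hd₁
      exact Nat.add_left_cancel (hd₁.symm.trans hd₂)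
    have hχ : (g₁ : Matrix (Fin n) (Fin n) F).charpoly
        = (g₂ : Matrix (Fin n) (Fin n) F).charpoly := by
      rw [hk₁, hk₂, h1, hk]
    have hconj := gl_isConj_of_charpoly p g₁ g₂ (by rw [ho₁]; exact hcop)
      (by rw [ho₂]; exact hcop) hχ
    apply Subtype.ext
    rw [← hg₁, ← hg₂]
    exact ConjClasses.mk_eq_mk_iff_isConj.2 hconj
  · rintro ⟨M', hM'1, hM'2, hM'3⟩
    have hle : i * Multiset.card M' ≤ n := by
      have h5 := (Nat.le_div_iff_mul_le hi0).1 hM'2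
      rwa [mul_comm] at h5
    obtain ⟨g, hord, hχ⟩ := type_realize p S r i hr hX1S hS hSdeg M' hM'1 hle hM'3
    refine ⟨⟨ConjClasses.mk g, g, rfl, hord⟩, ?_⟩
    apply Subtype.ext
    show Ξ ⟨ConjClasses.mk g, g, rfl, hord⟩ = M'
    obtain ⟨k, hk⟩ := hΞ2 ⟨ConjClasses.mk g, g, rfl, hord⟩ g rfl
    exact type_unique S (fun x hx => ⟨(hS x hx).1, (hS x hx).2.1⟩) _ _ k _ (hΞ1 _).1 hM'1
      (hk.symm.trans hχ)

end Cfsg.Agent.Helper15
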