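import Mathlib
import Cfsg.Agent.Helper15.PrimeCount2

set_option autoImplicit false

namespace Cfsg.Agent.Helper15
open Polynomial

universe u

section
variable {F : Type u} [Field F]

theorem rev_natDegree (x : F[X]) (h0 : x.coeff 0 ≠ 0) : x.reverse.natDegree = x.natDegree := by
  apply le_antisymm (reverse_natDegree_le x)
  apply le_natDegree_of_ne_zero
  rw [coeff_reverse, revAt_le le_rfl, Nat.sub_self]
  exact h0

theorem rev_leadingCoeff (x : F[X]) (h0 : x.coeff 0 ≠ 0) : x.reverse.leadingCoeff = x.coeff 0 := by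
  rw [leadingCoeff, rev_natDegree x h0, coeff_reverse, revAt_le le_rfl, Nat.sub_self]

theorem rev_rev (x : F[X]) (h0 : x.coeff 0 ≠ 0) : x.reverse.reverse = x := by
  ext n
  rw [coeff_reverse, coeff_reverse, rev_natDegree x h0, revAt_invol]

theorem eval_one_rev (x : F[X]) : x.reverse.eval 1 = x.eval 1 := by
  haveI : Invertible (1 : F) := invertibleOne
  have h := eval₂_reverse_mul_pow (RingHom.id F) (1 : F) x
  rw [invOf_one, one_pow, mul_one] at h
  exact h

theorem rev_X_pow_sub_one (r : ℕ) : (X ^ r - 1 : F[X]).reverse = C (-1) * (X ^ r - 1) := by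
  have hd : (X ^ r - 1 : F[X]).natDegree = r := by
    have h1 := natDegree_X_pow_sub_C (R := F) (n := r) (r := 1)
    rwa [C_1] at h1
  rw [reverse, hd, reflect_sub, reflect_monomial, reflect_one, revAt_le le_rfl, Nat.sub_self,
    pow_zero, C_neg, C_1]
  ring

theorem rev_X_sub_one : (X - 1 : F[X]).reverse = C (-1) * (X - 1) := by
  have h1 := rev_X_pow_sub_one (F := F) 1
  rwa [pow_one] at h1

theorem rev_X_sub_one_pow (k : ℕ) :
    ((X - 1 : F[X]) ^ k).reverse = C ((-1) ^ k) * (X - 1) ^ k := by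
  induction k with
  | zero =>
    simp only [pow_zero, C_1, mul_one]
    rw [← C_1, reverse_C]
  | succ k ih =>
    rw [pow_succ, reverse_mul_of_domain, ih, rev_X_sub_one, pow_succ, C_mul]
    ring

noncomputable def pstar (x : F[X]) : F[X] := C (x.coeff 0)⁻¹ * x.reverse

theorem pstar_monic (x : F[X]) (h0 : x.coeff 0 ≠ 0) : (pstar x).Monic := by
  show (C (x.coeff 0)⁻¹ * x.reverse).leadingCoeff = 1
  rw [leadingCoeff_mul, leadingCoeff_C, rev_leadingCoeff x h0, inv_mul_cancel₀ h0]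

theorem pstar_natDegree (x : F[X]) (h0 : x.coeff 0 ≠ 0) : (pstar x).natDegree = x.natDegree := by
  show (C (x.coeff 0)⁻¹ * x.reverse).natDegree = x.natDegree
  rw [natDegree_C_mul (inv_ne_zero h0), rev_natDegree x h0]

theorem pstar_coeff_zero (x : F[X]) (hm : x.Monic) : (pstar x).coeff 0 = (x.coeff 0)⁻¹ := by
  show (C (x.coeff 0)⁻¹ * x.reverse).coeff 0 = (x.coeff 0)⁻¹
  rw [coeff_C_mul, coeff_zero_reverse, hm.leadingCoeff, mul_one]

theorem pstar_pstar (x : F[X]) (hm : x.Monic) (h0 : x.coeff 0 ≠ 0) : pstar (pstar x) = x := by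
  have h1 : (pstar x).reverse = C (x.coeff 0)⁻¹ * x := by
    show (C (x.coeff 0)⁻¹ * x.reverse).reverse = C (x.coeff 0)⁻¹ * x
    rw [reverse_mul_of_domain, rev_rev x h0, reverse_C]
  show C ((pstar x).coeff 0)⁻¹ * (pstar x).reverse = x
  rw [pstar_coeff_zero x hm, h1, inv_inv, ← mul_assoc, ← C_mul, mul_inv_cancel₀ h0, C_1, one_mul]

theorem rev_eq_pstar (x : F[X]) (h0 : x.coeff 0 ≠ 0) : x.reverse = C (x.coeff 0) * pstar x := by
  show x.reverse = C (x.coeff 0) * (C (x.coeff 0)⁻¹ * x.reverse)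
  rw [← mul_assoc, ← C_mul, mul_inv_cancel₀ h0, C_1, one_mul]

theorem pstar_eval_one (x : F[X]) : (pstar x).eval 1 = (x.coeff 0)⁻¹ * x.eval 1 := by
  show (C (x.coeff 0)⁻¹ * x.reverse).eval 1 = (x.coeff 0)⁻¹ * x.eval 1
  rw [eval_mul, eval_C, eval_one_rev]

theorem coeff_zero_ne_of_dvd (r : ℕ) (hr : r ≠ 0) (x : F[X]) (hd : x ∣ X ^ r - 1) :
    x.coeff 0 ≠ 0 := by
  intro h0
  have hX : (X : F[X]) ∣ x := X_dvd_iff.2 h0
  have h3 := X_dvd_iff.1 (hX.trans hd)
  rw [coeff_sub, coeff_X_pow, coeff_one_zero, if_neg (Ne.symm hr), zero_sub] at h3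
  exact one_ne_zero (neg_eq_zero.1 h3)

theorem eval_one_ne_of_irred (x : F[X]) (hm : x.Monic) (hi : Irreducible x) (hne : x ≠ X - 1) :
    x.eval 1 ≠ 0 := by
  intro h0
  have hd : (X - C 1 : F[X]) ∣ x := dvd_iff_isRoot.2 h0
  rw [C_1] at hd
  exact hne (eq_of_monic_of_associated x_sub_one_monic hm
    (x_sub_one_irred.associated_of_dvd hi hd)).symm

theorem not_dvd_of_eval_one_ne (y : F[X]) (h : y.eval 1 ≠ 0) : ¬ (X - 1 : F[X]) ∣ y := by
  intro hd
  apply h
  obtain ⟨c, hc⟩ := hd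
  rw [hc, eval_mul, eval_sub, eval_X, eval_one, sub_self, zero_mul]

theorem pstar_dvd (r : ℕ) (x : F[X]) (h0 : x.coeff 0 ≠ 0) (hd : x ∣ X ^ r - 1) :
    pstar x ∣ X ^ r - 1 := by
  obtain ⟨y, hy⟩ := hd
  have h1 := congrArg reverse hy
  rw [rev_X_pow_sub_one, reverse_mul_of_domain] at h1
  show C (x.coeff 0)⁻¹ * x.reverse ∣ X ^ r - 1
  rw [C_mul_dvd (inv_ne_zero h0)]
  refine ⟨C (-1) * y.reverse, ?_⟩
  have h2 : (X ^ r - 1 : F[X]) = C (-1) * (C (-1) * (X ^ r - 1)) := by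
    rw [← mul_assoc, ← C_mul]
    simp
  rw [h2, h1]
  ring

theorem pstar_mem (S : Finset F[X]) (r i : ℕ) (hr : r ≠ 0)
    (hS : ∀ x ∈ S, x.Monic ∧ Irreducible x ∧ x ∣ X ^ r - 1)
    (hdeg : ∀ x ∈ S, x ≠ X - 1 → x.natDegree = i)
    (hcrit : ∀ y : F[X], y.Monic → y.natDegree = i → y ∣ X ^ r - 1 → ¬ (X - 1 : F[X]) ∣ y →
      y ∈ S)
    (x : F[X]) (hx : x ∈ S) (hne : x ≠ X - 1) : pstar x ∈ S ∧ pstar x ≠ X - 1 := by
  obtain ⟨hm, hirr, hd⟩ := hS x hx
  have h0 := coeff_zero_ne_of_dvd r hr x hd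
  have hev : (pstar x).eval 1 ≠ 0 := by
    rw [pstar_eval_one]
    exact mul_ne_zero (inv_ne_zero h0) (eval_one_ne_of_irred x hm hirr hne)
  have hnd := not_dvd_of_eval_one_ne _ hev
  refine ⟨hcrit _ (pstar_monic x h0) (by rw [pstar_natDegree x h0, hdeg x hx hne])
    (pstar_dvd r x h0 hd) hnd, ?_⟩
  intro heq
  apply hnd
  rw [heq]

theorem rev_multiset_prod : ∀ (M : Multiset F[X]), (∀ x ∈ M, x.coeff 0 ≠ 0) →
    M.prod.reverse = C (M.map (fun x => x.coeff 0)).prod * (M.map pstar).prod := by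
  intro M
  induction M using Multiset.induction_on with
  | empty =>
    intro _
    rw [Multiset.prod_zero, Multiset.map_zero, Multiset.map_zero, Multiset.prod_zero,
      Multiset.prod_zero, C_1, mul_one, ← C_1, reverse_C]
  | cons a s ih =>
    intro hM
    have h1 := ih (fun x hx => hM x (Multiset.mem_cons_of_mem hx))
    have ha := hM a (Multiset.mem_cons_self a s)
    rw [Multiset.prod_cons, reverse_mul_of_domain, h1, Multiset.map_cons, Multiset.prod_cons,
      Multiset.map_cons, Multiset.prod_cons, C_mul, rev_eq_pstar a ha]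
    ring

theorem rev_type (M : Multiset F[X]) (hM : ∀ x ∈ M, x.coeff 0 ≠ 0) (k : ℕ) :
    (M.prod * (X - 1) ^ k).reverse
      = C ((M.map (fun x => x.coeff 0)).prod * (-1) ^ k) * ((M.map pstar).prod * (X - 1) ^ k) := by
  rw [reverse_mul_of_domain, rev_multiset_prod M hM, rev_X_sub_one_pow, C_mul]
  ring

theorem reps_exist {β : Type*} (P : Finset β) (σ : β → β) (hσP : ∀ x ∈ P, σ x ∈ P)
    (hσσ : ∀ x ∈ P, σ (σ x) = x) (hσne : ∀ x ∈ P, σ x ≠ x) :
    ∃ P₀ : Finset β, P₀ ⊆ P ∧ 2 * P₀.card = P.card ∧ ∀ x ∈ P, (x ∈ P₀ ↔ σ x ∉ P₀) := by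
  classical
  have hmem : ∀ x ∈ P, (x ∈ P.filter (fun x => WellOrderingRel x (σ x))
      ↔ σ x ∉ P.filter (fun x => WellOrderingRel x (σ x))) := by
    intro x hx
    simp only [Finset.mem_filter]
    constructor
    · rintro ⟨_, h1⟩ ⟨_, h2⟩
      rw [hσσ x hx] at h2
      exact asymm_of WellOrderingRel h1 h2
    · intro h
      refine ⟨hx, ?_⟩
      rcases trichotomous_of WellOrderingRel x (σ x) with h1 | h1 | h1
      · exact h1
      · exact absurd h1.symm (hσne x hx)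
      · exfalso
        apply h
        refine ⟨hσP x hx, ?_⟩
        rw [hσσ x hx]
        exact h1
  refine ⟨P.filter (fun x => WellOrderingRel x (σ x)), Finset.filter_subset _ _, ?_, hmem⟩
  have h1 : (P \ P.filter (fun x => WellOrderingRel x (σ x))).card
      = (P.filter (fun x => WellOrderingRel x (σ x))).card := by
    apply Finset.card_bij (fun x _ => σ x)
    · intro x hx
      rw [Finset.mem_sdiff] at hx
      by_contra hn
      exact hx.2 ((hmem x hx.1).2 hn)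
    · intro x hx y hy hxy
      rw [Finset.mem_sdiff] at hx hy
      have hxy' : σ x = σ y := hxy
      calc x = σ (σ x) := (hσσ x hx.1).symm
        _ = σ (σ y) := by rw [hxy']
        _ = y := hσσ y hy.1
    · intro y hy
      have hyP : y ∈ P := Finset.filter_subset _ _ hy
      refine ⟨σ y, ?_, hσσ y hyP⟩
      rw [Finset.mem_sdiff]
      exact ⟨hσP y hyP, (hmem y hyP).1 hy⟩
  have h2 := Finset.card_sdiff_add_card_eq_card
    (Finset.filter_subset (fun x => WellOrderingRel x (σ x)) P)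
  omega

end

end Cfsg.Agent.Helper15
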