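import Mathlib
import Cfsg.Agent.Helper15.PrimeCount3

set_option autoImplicit false

namespace Cfsg.Agent.Helper15
open Polynomial

universe u

theorem cyc_irred_crit {F : Type u} [Field F] [Fintype F] (p : ℕ) [Fact p.Prime] [CharP F p]
    (r : ℕ) (hr : r.Prime) (hrp : r ≠ p) (i : ℕ)
    (hi : i = orderOf ((Fintype.card F : ℕ) : ZMod r)) (y : F[X]) (hdeg : y.natDegree = i)
    (hd : y ∣ X ^ r - 1) (hnd : ¬ (X - 1 : F[X]) ∣ y) : Irreducible y := by
  have hp : p.Prime := Fact.out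
  haveI : Fact r.Prime := ⟨hr⟩
  obtain ⟨f, -, hf⟩ := FiniteField.card F p
  have hcop : p.Coprime r := (Nat.coprime_primes hp hr).2 (Ne.symm hrp)
  have hΦ : cyclotomic r F * (X - 1) = X ^ r - 1 := cyclotomic_prime_mul_X_sub_one F r
  have hord : orderOf (ZMod.unitOfCoprime (p ^ (f : ℕ)) (hcop.pow_left f)) = i := by
    rw [hi, hf, ← orderOf_units, ZMod.coe_unitOfCoprime]
  have hco : IsCoprime y (X - 1 : F[X]) := (x_sub_one_irred.coprime_iff_not_dvd.2 hnd).symm
  have hyΦ : y ∣ cyclotomic r F := hco.dvd_of_dvd_mul_right (by rw [hΦ]; exact hd)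
  exact irreducible_of_dvd_cyclotomic_of_natDegree hf hcop hyΦ (by rw [hdeg, hord])

theorem irr_dvd_of_pow' {F : Type u} [Field F] {ι : Type} [Fintype ι] [DecidableEq ι]
    (A : Matrix ι ι F) (r : ℕ)
    (hA : A ^ r = 1) (x : F[X]) (hx : Irreducible x) (hd : x ∣ A.charpoly) :
    x ∣ X ^ r - 1 := by
  by_contra hnd
  obtain ⟨a, b, hab⟩ := (hx.coprime_iff_not_dvd.2 hnd : IsCoprime x (X ^ r - 1))
  obtain ⟨v, hv0, hv⟩ := exists_ker_aeval_irred (Matrix.toLin' A) x hx
    (by rw [Matrix.charpoly_toLin']; exact hd)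
  have hg : Matrix.toLin' A ^ r = 1 := by
    rw [← Matrix.toLin'_pow, hA, Matrix.toLin'_one]
    rfl
  have h2 : Polynomial.aeval (Matrix.toLin' A) (X ^ r - 1 : F[X]) = 0 := by
    rw [map_sub, map_pow, Polynomial.aeval_X, map_one, hg, sub_self]
  have h3 : (Polynomial.aeval (Matrix.toLin' A) (a * x + b * (X ^ r - 1))) v = v := by
    rw [hab, map_one]
    rfl
  rw [map_add, map_mul, map_mul, h2, mul_zero, add_zero, Module.End.mul_apply, hv, map_zero] at h3
  exact hv0 h3.symm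

theorem type_exists' {F : Type u} [Field F] {ι : Type} [Fintype ι] [DecidableEq ι]
    (S : Finset F[X]) (r : ℕ)
    (hScomp : ∀ x : F[X], x.Monic → Irreducible x → x ∣ X ^ r - 1 → x ∈ S)
    (A : Matrix ι ι F) (hA : A ^ r = 1) :
    ∃ (M' : Multiset F[X]) (k : ℕ), (∀ x ∈ M', x ∈ S ∧ x ≠ X - 1)
      ∧ A.charpoly = M'.prod * (X - 1) ^ k := by
  classical
  obtain ⟨M, hM, hprod⟩ := monic_factor A.charpoly (Matrix.charpoly_monic A)
  have hsplit := Multiset.filter_add_not (fun x : F[X] => x ≠ X - 1) M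
  have hrep : Multiset.filter (fun x : F[X] => ¬ x ≠ X - 1) M
      = Multiset.replicate (Multiset.card (Multiset.filter (fun x : F[X] => ¬ x ≠ X - 1) M))
        (X - 1) := by
    rw [Multiset.eq_replicate]
    exact ⟨rfl, fun b hb => not_not.1 (Multiset.mem_filter.1 hb).2⟩
  refine ⟨Multiset.filter (fun x : F[X] => x ≠ X - 1) M,
    Multiset.card (Multiset.filter (fun x : F[X] => ¬ x ≠ X - 1) M),
    fun x hx => ⟨?_, (Multiset.mem_filter.1 hx).2⟩, ?_⟩
  · have hxM := Multiset.mem_of_mem_filter hx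
    obtain ⟨h1, h2, h3⟩ := hM x hxM
    exact hScomp x h1 h2 (irr_dvd_of_pow' A r hA x h2 h3)
  · rw [← Multiset.prod_replicate, ← hrep, ← Multiset.prod_add, hsplit, hprod]

theorem type_degree' {F : Type u} [Field F] {ι : Type} [Fintype ι] [DecidableEq ι]
    (S : Finset F[X]) (i : ℕ)
    (hS : ∀ x ∈ S, x.Monic) (hdeg : ∀ x ∈ S, x ≠ X - 1 → x.natDegree = i)
    (A : Matrix ι ι F) (M' : Multiset F[X]) (k : ℕ)
    (h₁ : ∀ x ∈ M', x ∈ S ∧ x ≠ X - 1)
    (h : A.charpoly = M'.prod * (X - 1) ^ k) : Fintype.card ι = i * Multiset.card M' + k := by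
  have h1 := congrArg natDegree h
  rw [Matrix.charpoly_natDegree_eq_dim, (type_prod_degree S i hS hdeg M' k h₁).2] at h1
  exact h1

theorem semi_pow_of_charpoly {F : Type u} [Field F] {ι : Type} [Fintype ι] [DecidableEq ι]
    (A : Matrix ι ι F) (e : ℕ) (he : (e : F) ≠ 0) (hAe : A ^ e = 1) (r N : ℕ)
    (hdvd : A.charpoly ∣ (X ^ r - 1) ^ N) : A ^ r = 1 := by
  have hsq : Squarefree (minpoly F A) := by
    have h1 : minpoly F A ∣ X ^ e - 1 := by
      apply minpoly.dvd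
      rw [map_sub, map_pow, aeval_X, map_one, hAe, sub_self]
    exact ((X_pow_sub_one_separable_iff.2 he).squarefree).squarefree_of_dvd h1
  have hdvd' : minpoly F A ∣ X ^ r - 1 := by
    have h1 : minpoly F A ∣ (X ^ r - 1) ^ (N + 1) :=
      ((Matrix.minpoly_dvd_charpoly A).trans hdvd).trans (pow_dvd_pow _ (Nat.le_succ _))
    exact (hsq.dvd_pow_iff_dvd (Nat.succ_ne_zero _)).1 h1
  have h1 : Polynomial.aeval A (X ^ r - 1 : F[X]) = 0 := by
    obtain ⟨c, hc⟩ := hdvd'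
    rw [hc, map_mul, minpoly.aeval, zero_mul]
  rw [map_sub, map_pow, aeval_X, map_one] at h1
  exact sub_eq_zero.1 h1

theorem type_dvd_pow {F : Type u} [Field F] (S : Finset F[X]) (r : ℕ)
    (hX1S : (X - 1 : F[X]) ∈ S) (hS : ∀ x ∈ S, x ∣ X ^ r - 1) (M' : Multiset F[X])
    (h₁ : ∀ x ∈ M', x ∈ S) (k : ℕ) :
    M'.prod * (X - 1) ^ k ∣ (X ^ r - 1) ^ (Multiset.card M' + k) := by
  rw [pow_add]
  apply mul_dvd_mul
  · have hgen : ∀ M : Multiset F[X], (∀ x ∈ M, x ∣ X ^ r - 1) →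
        M.prod ∣ (X ^ r - 1) ^ Multiset.card M := by
      intro M
      induction M using Multiset.induction_on with
      | empty =>
        intro _
        simp
      | cons a s ih =>
        intro h
        rw [Multiset.prod_cons, Multiset.card_cons, pow_succ']
        exact mul_dvd_mul (h a (Multiset.mem_cons_self a s))
          (ih (fun x hx => h x (Multiset.mem_cons_of_mem hx)))
    exact hgen M' (fun x hx => hS x (h₁ x hx))
  · exact pow_dvd_pow_of_dvd (hS _ hX1S) _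

theorem type_ne_pow {F : Type u} [Field F] (S : Finset F[X])
    (hS : ∀ x ∈ S, x.Monic ∧ Irreducible x) (M' : Multiset F[X])
    (h₁ : ∀ x ∈ M', x ∈ S ∧ x ≠ X - 1) (hne : M' ≠ 0) (k n : ℕ) :
    M'.prod * (X - 1) ^ k ≠ (X - 1) ^ n := by
  intro heq
  obtain ⟨x, hx⟩ := Multiset.exists_mem_of_ne_zero hne
  have hxd : x ∣ (X - 1 : F[X]) ^ n := by
    rw [← heq]
    exact (Multiset.dvd_prod hx).trans (dvd_mul_right _ _)
  have hxi := (hS x (h₁ x hx).1).2
  have hxd' := hxi.prime.dvd_of_dvd_pow hxd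
  exact (h₁ x hx).2 (eq_of_monic_of_associated (hS x (h₁ x hx).1).1 x_sub_one_monic
    (hxi.associated_of_dvd x_sub_one_irred hxd'))

theorem pstar_self_of_even {F : Type u} [Field F] [Fintype F] (r i : ℕ) (hr : r.Prime)
    (hi : i = orderOf ((Fintype.card F : ℕ) : ZMod r)) (hev : Even i) (hi0 : 0 < i)
    (x : F[X]) (hm : x.Monic) (hirr : Irreducible x) (hd : x ∣ X ^ r - 1) : pstar x = x := by
  haveI : Fact r.Prime := ⟨hr⟩
  haveI : Fact (Irreducible x) := ⟨hirr⟩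
  have h0 := coeff_zero_ne_of_dvd r hr.ne_zero x hd
  have hζr : (AdjoinRoot.root x) ^ r = 1 := by
    have h1 : Polynomial.aeval (AdjoinRoot.root x) (X ^ r - 1 : F[X]) = 0 := by
      rw [AdjoinRoot.aeval_eq, AdjoinRoot.mk_eq_zero]
      exact hd
    rw [map_sub, map_pow, aeval_X, map_one] at h1
    exact sub_eq_zero.1 h1
  have hfrob : ∀ j : ℕ, Polynomial.aeval ((AdjoinRoot.root x) ^ (Fintype.card F ^ j)) x = 0 := by
    intro j
    induction j with
    | zero =>
      rw [pow_zero, pow_one, AdjoinRoot.aeval_eq, AdjoinRoot.mk_self]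
    | succ j ih =>
      rw [pow_succ, pow_mul, ← expand_aeval, FiniteField.expand_card, map_pow, ih,
        zero_pow Fintype.card_ne_zero]
  obtain ⟨c, hc⟩ := hev
  have hc0 : c ≠ 0 := by omega
  have hu : ((Fintype.card F : ℕ) : ZMod r) ^ c = -1 := by
    have h1 : (((Fintype.card F : ℕ) : ZMod r) ^ c) * (((Fintype.card F : ℕ) : ZMod r) ^ c)
        = 1 := by
      rw [← pow_add, ← hc, hi, pow_orderOf_eq_one]
    have h2 : ((Fintype.card F : ℕ) : ZMod r) ^ c ≠ 1 :=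
      pow_ne_one_of_lt_orderOf hc0 (by rw [← hi]; omega)
    rcases mul_self_eq_one_iff.1 h1 with h | h
    · exact absurd h h2
    · exact h
  have hdvd : r ∣ Fintype.card F ^ c + 1 := by
    rw [← ZMod.natCast_eq_zero_iff, Nat.cast_add, Nat.cast_pow, hu, Nat.cast_one, neg_add_cancel]
  obtain ⟨e, he⟩ := hdvd
  have hinv : (AdjoinRoot.root x) ^ (Fintype.card F ^ c) * AdjoinRoot.root x = 1 := by
    rw [← pow_succ, he, pow_mul, hζr, one_pow]
  have hinv' : AdjoinRoot.root x * (AdjoinRoot.root x) ^ (Fintype.card F ^ c) = 1 := by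
    rw [mul_comm]
    exact hinv
  letI : Invertible ((AdjoinRoot.root x) ^ (Fintype.card F ^ c)) :=
    ⟨AdjoinRoot.root x, hinv', hinv⟩
  have h1 := eval₂_reverse_mul_pow (algebraMap F (AdjoinRoot x))
    ((AdjoinRoot.root x) ^ (Fintype.card F ^ c)) x
  have h2 : eval₂ (algebraMap F (AdjoinRoot x)) ((AdjoinRoot.root x) ^ (Fintype.card F ^ c)) x
      = 0 := hfrob c
  rw [h2] at h1
  have h3 : ((AdjoinRoot.root x) ^ (Fintype.card F ^ c)) ^ x.natDegree ≠ 0 := by
    apply pow_ne_zero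
    intro h4
    rw [h4, zero_mul] at hinv
    exact zero_ne_one hinv
  have h4 : eval₂ (algebraMap F (AdjoinRoot x)) (AdjoinRoot.root x) x.reverse = 0 := by
    rcases mul_eq_zero.1 h1 with h | h
    · exact h
    · exact absurd h h3
  have h5 : x ∣ x.reverse := by
    rw [← AdjoinRoot.mk_eq_zero, ← AdjoinRoot.aeval_eq]
    exact h4
  have h6 : x ∣ pstar x := Dvd.dvd.mul_left h5 _
  exact eq_of_monic_of_dvd_of_natDegree_le hm (pstar_monic x h0) h6
    (by rw [pstar_natDegree x h0])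

theorem pstar_ne_of_odd {F : Type u} [Field F] (r i : ℕ) (hr : r.Prime) (hr2 : r ≠ 2)
    (hodd : Odd i) (x : F[X]) (hm : x.Monic) (hirr : Irreducible x) (hd : x ∣ X ^ r - 1)
    (hdeg : x.natDegree = i) (hne : x ≠ X - 1) : pstar x ≠ x := by
  intro hfix
  have h0 := coeff_zero_ne_of_dvd r hr.ne_zero x hd
  have hev1 := eval_one_ne_of_irred x hm hirr hne
  have hc : x.coeff 0 = 1 := by
    have h1 := pstar_eval_one x
    rw [hfix] at h1
    have h2 : (x.coeff 0)⁻¹ = 1 := by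
      have h3 : (x.coeff 0)⁻¹ * x.eval 1 = 1 * x.eval 1 := by
        rw [one_mul]
        exact h1.symm
      exact mul_right_cancel₀ hev1 h3
    rw [← inv_inv (x.coeff 0), h2, inv_one]
  have hrev : x.reverse = x := by
    rw [rev_eq_pstar x h0, hfix, hc, C_1, one_mul]
  have hcoef : ∀ j, j ≤ i → x.coeff (i - j) = x.coeff j := by
    intro j hj
    have h1 : x.reverse.coeff j = x.coeff j := by rw [hrev]
    rw [coeff_reverse, hdeg, revAt_le hj] at h1
    exact h1
  obtain ⟨h', hh'⟩ := hodd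
  have hsum : x.eval (-1) = 0 := by
    rw [eval_eq_sum_range, hdeg, show i + 1 = (h' + 1) + (h' + 1) by omega, Finset.sum_range_add]
    have h2' := Finset.sum_range_reflect
      (fun j => x.coeff (h' + 1 + j) * (-1 : F) ^ (h' + 1 + j)) (h' + 1)
    beta_reduce at h2'
    have h2 : ∑ j ∈ Finset.range (h' + 1), x.coeff (h' + 1 + j) * (-1 : F) ^ (h' + 1 + j)
        = ∑ j ∈ Finset.range (h' + 1), -(x.coeff j * (-1 : F) ^ j) := by
      rw [← h2']
      apply Finset.sum_congr rfl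
      intro j hj
      have hj' : j < h' + 1 := Finset.mem_range.1 hj
      have h3 : h' + 1 + (h' + 1 - 1 - j) = i - j := by omega
      have hji : j ≤ i := by omega
      rw [h3, hcoef j hji]
      have h4 : (-1 : F) ^ (i - j) = -((-1) ^ j) := by
        rcases Nat.even_or_odd j with hje | hjo
        · have h5 : Odd (i - j) := Nat.Odd.sub_even hji ⟨h', hh'⟩ hje
          rw [h5.neg_one_pow, hje.neg_one_pow]
        · have h5 : Even (i - j) := Nat.Odd.sub_odd ⟨h', hh'⟩ hjo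
          rw [h5.neg_one_pow, hjo.neg_one_pow, neg_neg]
      rw [h4]
      ring
    rw [h2, Finset.sum_neg_distrib, add_neg_cancel]
  have hd1 : (X - C (-1) : F[X]) ∣ x := dvd_iff_isRoot.2 hsum
  have hx : x = X - C (-1) := (eq_of_monic_of_associated (monic_X_sub_C (-1)) hm
    ((irreducible_X_sub_C (-1)).associated_of_dvd hirr hd1)).symm
  have h5 : (X ^ r - 1 : F[X]).eval (-1) = 0 := by
    obtain ⟨c, hc'⟩ := hd1.trans hd
    rw [hc', eval_mul, eval_sub, eval_X, eval_C, sub_self, zero_mul]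
  rw [eval_sub, eval_pow, eval_X, eval_one, (hr.odd_of_ne_two hr2).neg_one_pow] at h5
  have h6 : (-1 : F) = 1 := sub_eq_zero.1 h5
  apply hne
  rw [hx, h6, C_1]

theorem pal_imp_sym {F : Type u} [Field F] (S : Finset F[X]) (r i : ℕ) (hr : r ≠ 0)
    (hS : ∀ x ∈ S, x.Monic ∧ Irreducible x ∧ x ∣ X ^ r - 1)
    (hdeg : ∀ x ∈ S, x ≠ X - 1 → x.natDegree = i)
    (hcrit : ∀ y : F[X], y.Monic → y.natDegree = i → y ∣ X ^ r - 1 → ¬ (X - 1 : F[X]) ∣ y →
      y ∈ S)
    (M' : Multiset F[X]) (h₁ : ∀ x ∈ M', x ∈ S ∧ x ≠ X - 1) (k : ℕ)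
    (hpal : (M'.prod * (X - 1) ^ k).reverse = M'.prod * (X - 1) ^ k) : M'.map pstar = M' := by
  have h0 : ∀ x ∈ M', x.coeff 0 ≠ 0 :=
    fun x hx => coeff_zero_ne_of_dvd r hr x (hS x (h₁ x hx).1).2.2
  have hstar : ∀ y ∈ M'.map pstar, y ∈ S ∧ y ≠ X - 1 := by
    intro y hy
    obtain ⟨x, hx, rfl⟩ := Multiset.mem_map.1 hy
    exact pstar_mem S r i hr hS hdeg hcrit x (h₁ x hx).1 (h₁ x hx).2
  rw [rev_type M' h0 k] at hpal
  have hm1 := (type_prod_degree S i (fun x hx => (hS x hx).1) hdeg (M'.map pstar) k hstar).1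
  have hm2 := (type_prod_degree S i (fun x hx => (hS x hx).1) hdeg M' k h₁).1
  have hc : (M'.map (fun x => x.coeff 0)).prod * (-1) ^ k = 1 := by
    have h3 := congrArg leadingCoeff hpal
    rw [leadingCoeff_mul, leadingCoeff_C, hm1.leadingCoeff, hm2.leadingCoeff, mul_one] at h3
    exact h3
  rw [hc, C_1, one_mul] at hpal
  exact type_unique S (fun x hx => ⟨(hS x hx).1, (hS x hx).2.1⟩) _ _ k k hstar h₁ hpal

theorem sym_imp_pal {F : Type u} [Field F] (S : Finset F[X]) (r : ℕ) (hr : r ≠ 0)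
    (hS : ∀ x ∈ S, x.Monic ∧ Irreducible x ∧ x ∣ X ^ r - 1)
    (M' : Multiset F[X]) (h₁ : ∀ x ∈ M', x ∈ S ∧ x ≠ X - 1) (k : ℕ) (hk : Even k)
    (hsym : M'.map pstar = M') :
    (M'.prod * (X - 1) ^ k).reverse = M'.prod * (X - 1) ^ k := by
  have h0 : ∀ x ∈ M', x.coeff 0 ≠ 0 :=
    fun x hx => coeff_zero_ne_of_dvd r hr x (hS x (h₁ x hx).1).2.2
  have hc : (M'.map (fun x => x.coeff 0)).prod = 1 := by
    have h2 := rev_multiset_prod M' h0
    rw [hsym] at h2
    have h3 := congrArg (eval 1) h2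
    rw [eval_one_rev, eval_mul, eval_C] at h3
    have hne : M'.prod.eval 1 ≠ 0 := by
      rw [eval_multiset_prod, Ne, Multiset.prod_eq_zero_iff]
      intro hmem
      obtain ⟨x, hx, hx0⟩ := Multiset.mem_map.1 hmem
      exact eval_one_ne_of_irred x (hS x (h₁ x hx).1).1 (hS x (h₁ x hx).1).2.1 (h₁ x hx).2 hx0
    have h4 : (M'.map (fun x => x.coeff 0)).prod * M'.prod.eval 1 = 1 * M'.prod.eval 1 := by
      rw [one_mul]
      exact h3.symm
    exact mul_right_cancel₀ hne h4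
  rw [rev_type M' h0 k, hsym, hc, hk.neg_one_pow, one_mul, C_1, one_mul]

end Cfsg.Agent.Helper15
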