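import Mathlib
import Cfsg.Agent.Helper15.PrimeCount4
import Cfsg.Agent.Helper15.HermWall4

set_option autoImplicit false

namespace Cfsg.Agent.Helper15
open Polynomial Matrix

universe u

theorem aeval_frob_map {K : Type u} [Field K] {L : Type u} [Field L] [Algebra K L] (p : ℕ)
    [Fact p.Prime] [CharP K p] (f : ℕ) (σ : K →+* K) (hσ : ∀ a, σ a = a ^ (p ^ f)) (y : K[X])
    (β : L) : aeval (β ^ (p ^ f)) (y.map σ) = (aeval β y) ^ (p ^ f) := by
  haveI : CharP L p := charP_of_injective_algebraMap (algebraMap K L).injective p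
  have h1 : (aeval β y) ^ (p ^ f) = iterateFrobenius L p f (aeval β y) := rfl
  have h2 : β ^ (p ^ f) = iterateFrobenius L p f β := rfl
  rw [h1, h2, aeval_def, aeval_def, eval₂_map, hom_eval₂]
  congr 1
  ext a
  rw [RingHom.comp_apply, RingHom.comp_apply, iterateFrobenius_def, hσ, map_pow]

theorem pstar_root {K : Type u} [Field K] {L : Type u} [Field L] [Algebra K L] (x : K[X]) (β : L)
    (hβ : β ≠ 0) (h : aeval β⁻¹ x = 0) : aeval β (pstar x) = 0 := by
  letI : Invertible (β⁻¹) := ⟨β, mul_inv_cancel₀ hβ, inv_mul_cancel₀ hβ⟩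
  have h1 := eval₂_reverse_mul_pow (algebraMap K L) (β⁻¹) x
  have h2 : eval₂ (algebraMap K L) β⁻¹ x = 0 := h
  rw [h2] at h1
  have h4 : aeval β x.reverse = 0 := by
    rcases mul_eq_zero.1 h1 with h | h
    · exact h
    · exact absurd h (pow_ne_zero _ (inv_ne_zero hβ))
  show aeval β (C (x.coeff 0)⁻¹ * x.reverse) = 0
  rw [map_mul, h4, mul_zero]

theorem map_map_invol {K : Type u} [Field K] (σ : K →+* K) (hσ : ∀ a, σ (σ a) = a) (y : K[X]) :
    (y.map σ).map σ = y := by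
  rw [Polynomial.map_map, show σ.comp σ = RingHom.id K from RingHom.ext hσ, Polynomial.map_id]

theorem pstar_map {K : Type u} [Field K] (σ : K →+* K) (y : K[X]) :
    pstar (y.map σ) = (pstar y).map σ := by
  have h1 : (y.map σ).reverse = y.reverse.map σ := by
    unfold reverse
    rw [natDegree_map, reflect_map]
  show C ((y.map σ).coeff 0)⁻¹ * (y.map σ).reverse = (C (y.coeff 0)⁻¹ * y.reverse).map σ
  rw [h1, Polynomial.map_mul, map_C, coeff_map, map_inv₀ σ]

theorem cyc_roots {K : Type u} [Field K] [Fintype K] (r d : ℕ) (hr : r.Prime)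
    (hd : d = orderOf ((Fintype.card K : ℕ) : ZMod r)) (hd0 : 0 < d) (x : K[X]) (hm : x.Monic)
    [hirr : Fact (Irreducible x)] (hdvd : x ∣ X ^ r - 1) (hne : x ≠ X - 1)
    (hdeg : x.natDegree = d) :
    orderOf (AdjoinRoot.root x) = r ∧
    (∀ j : ℕ, aeval ((AdjoinRoot.root x) ^ (Fintype.card K ^ j)) x = 0) ∧
    ∀ w : AdjoinRoot x, aeval w x = 0 →
      ∃ j : ℕ, w = (AdjoinRoot.root x) ^ (Fintype.card K ^ j) := by
  classical
  haveI : Fact r.Prime := ⟨hr⟩
  have hζr : (AdjoinRoot.root x) ^ r = 1 := by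
    have h1 : Polynomial.aeval (AdjoinRoot.root x) (X ^ r - 1 : K[X]) = 0 := by
      rw [AdjoinRoot.aeval_eq, AdjoinRoot.mk_eq_zero]
      exact hdvd
    rw [map_sub, map_pow, aeval_X, map_one] at h1
    exact sub_eq_zero.1 h1
  have hζ1 : AdjoinRoot.root x ≠ 1 := by
    intro h1
    have h2 : aeval (AdjoinRoot.root x) x = 0 := by
      rw [AdjoinRoot.aeval_eq, AdjoinRoot.mk_self]
    rw [h1, ← map_one (algebraMap K (AdjoinRoot x)),
      aeval_algebraMap_apply_eq_algebraMap_eval] at h2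
    have h3 : x.eval 1 = 0 := (map_eq_zero (algebraMap K (AdjoinRoot x))).1 h2
    exact eval_one_ne_of_irred x hm hirr.out hne h3
  have hord : orderOf (AdjoinRoot.root x) = r := orderOf_eq_prime hζr hζ1
  have hfrob : ∀ j : ℕ,
      Polynomial.aeval ((AdjoinRoot.root x) ^ (Fintype.card K ^ j)) x = 0 := by
    intro j
    induction j with
    | zero =>
      rw [pow_zero, pow_one, AdjoinRoot.aeval_eq, AdjoinRoot.mk_self]
    | succ j ih =>
      rw [pow_succ, pow_mul, ← expand_aeval, FiniteField.expand_card, map_pow, ih,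
        zero_pow Fintype.card_ne_zero]
  refine ⟨hord, hfrob, ?_⟩
  intro w hw
  have hx' : x.map (algebraMap K (AdjoinRoot x)) ≠ 0 := (hm.map _).ne_zero
  have hfinζ : IsOfFinOrder (AdjoinRoot.root x) :=
    isOfFinOrder_iff_pow_eq_one.2 ⟨r, hr.pos, hζr⟩
  have hfinQ : IsOfFinOrder ((Fintype.card K : ℕ) : ZMod r) := by
    rw [← orderOf_pos_iff, ← hd]
    exact hd0
  have hinj : ∀ a ∈ Multiset.range d, ∀ b ∈ Multiset.range d,
      (AdjoinRoot.root x) ^ (Fintype.card K ^ a) = (AdjoinRoot.root x) ^ (Fintype.card K ^ b)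
        → a = b := by
    intro a ha b hb hab
    rw [Multiset.mem_range] at ha hb
    have h1 : Fintype.card K ^ a ≡ Fintype.card K ^ b [MOD r] := by
      rw [← hord]
      exact hfinζ.pow_eq_pow_iff_modEq.1 hab
    have h2 : ((Fintype.card K : ℕ) : ZMod r) ^ a = ((Fintype.card K : ℕ) : ZMod r) ^ b := by
      have := (ZMod.natCast_eq_natCast_iff _ _ _).2 h1
      rwa [Nat.cast_pow, Nat.cast_pow] at this
    have h3 : a ≡ b [MOD d] := by
      rw [hd]
      exact hfinQ.pow_eq_pow_iff_modEq.1 h2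
    have h4 : a % d = b % d := h3
    rwa [Nat.mod_eq_of_lt ha, Nat.mod_eq_of_lt hb] at h4
  have hnodup : ((Multiset.range d).map
      (fun j => (AdjoinRoot.root x) ^ (Fintype.card K ^ j))).Nodup :=
    Multiset.Nodup.map_on hinj (Multiset.nodup_range d)
  have hsub : (Multiset.range d).map (fun j => (AdjoinRoot.root x) ^ (Fintype.card K ^ j))
      ≤ (x.map (algebraMap K (AdjoinRoot x))).roots := by
    rw [Multiset.le_iff_subset hnodup]
    intro y hy
    obtain ⟨j, -, rfl⟩ := Multiset.mem_map.1 hy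
    rw [mem_roots hx', IsRoot.def, eval_map, ← aeval_def]
    exact hfrob j
  have hcard : Multiset.card (x.map (algebraMap K (AdjoinRoot x))).roots
      ≤ Multiset.card ((Multiset.range d).map
        (fun j => (AdjoinRoot.root x) ^ (Fintype.card K ^ j))) := by
    rw [Multiset.card_map, Multiset.card_range]
    refine (card_roots' _).trans ?_
    rw [natDegree_map, hdeg]
  have heq := Multiset.eq_of_le_of_card_le hsub hcard
  have hwmem : w ∈ (x.map (algebraMap K (AdjoinRoot x))).roots := by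
    rw [mem_roots hx', IsRoot.def, eval_map, ← aeval_def]
    exact hw
  rw [← heq] at hwmem
  obtain ⟨j, -, hj⟩ := Multiset.mem_map.1 hwmem
  exact ⟨j, hj.symm⟩

theorem tstar_fix {K : Type u} [Field K] [Fintype K] (p : ℕ) [Fact p.Prime] [CharP K p] (f : ℕ)
    (hK : Fintype.card K = (p ^ f) ^ 2) (σ : K →+* K) (hσq : ∀ a, σ a = a ^ (p ^ f))
    (r i d : ℕ) (hr : r.Prime) (hi : i = orderOf ((p ^ f : ℕ) : ZMod r))
    (hd : d = orderOf ((Fintype.card K : ℕ) : ZMod r)) (hd0 : 0 < d) (hi4 : i % 4 = 2)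
    (x : K[X]) (hm : x.Monic) (hirr : Irreducible x) (hdvd : x ∣ X ^ r - 1) (hne : x ≠ X - 1)
    (hdeg : x.natDegree = d) : (pstar x).map σ = x := by
  have hp : p.Prime := Fact.out
  haveI : Fact r.Prime := ⟨hr⟩
  haveI : Fact (Irreducible x) := ⟨hirr⟩
  obtain ⟨hord, hfrob, -⟩ := cyc_roots r d hr hd hd0 x hm hdvd hne hdeg
  have h0 := coeff_zero_ne_of_dvd r hr.ne_zero x hdvd
  have hζr : (AdjoinRoot.root x) ^ r = 1 := by
    rw [← hord]
    exact pow_orderOf_eq_one _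
  have hζ0 : AdjoinRoot.root x ≠ 0 := by
    intro h
    rw [h, zero_pow hr.ne_zero] at hζr
    exact zero_ne_one hζr
  obtain ⟨e, he⟩ : ∃ e, i = 2 * (2 * e + 1) := ⟨i / 4, by omega⟩
  have hu : ((p ^ f : ℕ) : ZMod r) ^ (2 * e + 1) = -1 := by
    have h1 : (((p ^ f : ℕ) : ZMod r) ^ (2 * e + 1)) * (((p ^ f : ℕ) : ZMod r) ^ (2 * e + 1))
        = 1 := by
      rw [← pow_add, ← two_mul, ← he, hi, pow_orderOf_eq_one]
    have h2 : ((p ^ f : ℕ) : ZMod r) ^ (2 * e + 1) ≠ 1 :=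
      pow_ne_one_of_lt_orderOf (by omega) (by rw [← hi]; omega)
    rcases mul_self_eq_one_iff.1 h1 with h | h
    · exact absurd h h2
    · exact h
  have hdvd2 : r ∣ (p ^ f) ^ (2 * e + 1) + 1 := by
    rw [← ZMod.natCast_eq_zero_iff, Nat.cast_add, Nat.cast_pow, hu, Nat.cast_one, neg_add_cancel]
  obtain ⟨c, hc⟩ := hdvd2
  have hu0 : (AdjoinRoot.root x) ^ (Fintype.card K ^ e) ≠ 0 := pow_ne_zero _ hζ0
  have h1 : aeval (((AdjoinRoot.root x) ^ (Fintype.card K ^ e))⁻¹) (pstar x) = 0 :=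
    pstar_root x _ (inv_ne_zero hu0) (by rw [inv_inv]; exact hfrob e)
  have h2 := aeval_frob_map p f σ hσq (pstar x) (((AdjoinRoot.root x) ^ (Fintype.card K ^ e))⁻¹)
  rw [h1, zero_pow (pow_ne_zero f hp.ne_zero)] at h2
  have hQe : Fintype.card K ^ e * p ^ f = (p ^ f) ^ (2 * e + 1) := by
    rw [hK]
    ring
  have h3 : (((AdjoinRoot.root x) ^ (Fintype.card K ^ e))⁻¹) ^ (p ^ f) = AdjoinRoot.root x := by
    rw [inv_pow, ← pow_mul, hQe, inv_eq_iff_eq_inv]
    apply eq_inv_of_mul_eq_one_left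
    rw [← pow_succ, hc, pow_mul, hζr, one_pow]
  rw [h3] at h2
  have h5 : x ∣ (pstar x).map σ := by
    rw [← AdjoinRoot.mk_eq_zero, ← AdjoinRoot.aeval_eq]
    exact h2
  exact eq_of_monic_of_dvd_of_natDegree_le hm ((pstar_monic x h0).map σ) h5
    (by rw [natDegree_map, pstar_natDegree x h0])

theorem tstar_nofix {K : Type u} [Field K] [Fintype K] (p : ℕ) [Fact p.Prime] [CharP K p]
    (f : ℕ) (hK : Fintype.card K = (p ^ f) ^ 2) (σ : K →+* K) (hσq : ∀ a, σ a = a ^ (p ^ f))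
    (r i d : ℕ) (hr : r.Prime) (hr2 : r ≠ 2) (hi : i = orderOf ((p ^ f : ℕ) : ZMod r))
    (hi0 : 0 < i) (hd : d = orderOf ((Fintype.card K : ℕ) : ZMod r)) (hd0 : 0 < d)
    (hi4 : ¬ i % 4 = 2)
    (x : K[X]) (hm : x.Monic) (hirr : Irreducible x) (hdvd : x ∣ X ^ r - 1) (hne : x ≠ X - 1)
    (hdeg : x.natDegree = d) : (pstar x).map σ ≠ x := by
  intro hfix
  have hp : p.Prime := Fact.out
  haveI : Fact r.Prime := ⟨hr⟩
  haveI : Fact (Irreducible x) := ⟨hirr⟩
  obtain ⟨hord, hfrob, hroots⟩ := cyc_roots r d hr hd hd0 x hm hdvd hne hdeg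
  have hζr : (AdjoinRoot.root x) ^ r = 1 := by
    rw [← hord]
    exact pow_orderOf_eq_one _
  have hζ0 : AdjoinRoot.root x ≠ 0 := by
    intro h
    rw [h, zero_pow hr.ne_zero] at hζr
    exact zero_ne_one hζr
  have h1 : aeval ((AdjoinRoot.root x)⁻¹) (pstar x) = 0 :=
    pstar_root x _ (inv_ne_zero hζ0) (by
      rw [inv_inv, AdjoinRoot.aeval_eq, AdjoinRoot.mk_self])
  have h2 := aeval_frob_map p f σ hσq (pstar x) ((AdjoinRoot.root x)⁻¹)
  rw [h1, zero_pow (pow_ne_zero f hp.ne_zero), hfix] at h2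
  obtain ⟨j, hj⟩ := hroots _ h2
  have h3 : (AdjoinRoot.root x) ^ (Fintype.card K ^ j + p ^ f) = 1 := by
    rw [pow_add, ← hj, inv_pow, inv_mul_cancel₀ (pow_ne_zero _ hζ0)]
  have h4 : r ∣ Fintype.card K ^ j + p ^ f := by
    rw [← hord]
    exact orderOf_dvd_of_pow_eq_one h3
  have h5 : ((p ^ f : ℕ) : ZMod r) ^ (2 * j) = -((p ^ f : ℕ) : ZMod r) := by
    have h6 := (ZMod.natCast_eq_zero_iff _ _).2 h4
    rw [Nat.cast_add, Nat.cast_pow, hK, Nat.cast_pow, ← pow_mul] at h6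
    exact eq_neg_of_add_eq_zero_left h6
  have hqi : ((p ^ f : ℕ) : ZMod r) ^ i = 1 := by
    rw [hi]
    exact pow_orderOf_eq_one _
  by_cases hodd : Odd i
  · have h7 : (((p ^ f : ℕ) : ZMod r) ^ (2 * j)) ^ i = 1 := by
      rw [← pow_mul, show 2 * j * i = i * (2 * j) by ring, pow_mul, hqi, one_pow]
    rw [h5, hodd.neg_pow, hqi] at h7
    have h8 : ((2 : ℕ) : ZMod r) = 0 := by
      push_cast
      linear_combination (-1 : ZMod r) * h7
    have h10 := (ZMod.natCast_eq_zero_iff _ _).1 h8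
    exact hr2 ((Nat.prime_dvd_prime_iff_eq hr Nat.prime_two).1 h10)
  · have hev : Even i := Nat.not_odd_iff_even.1 hodd
    obtain ⟨e, he⟩ : ∃ e, i = 2 * (2 * e) := ⟨i / 4, by
      have := Nat.even_iff.1 hev
      omega⟩
    have h7 : (((p ^ f : ℕ) : ZMod r) ^ (2 * j)) ^ (2 * e) = 1 := by
      rw [← pow_mul, show 2 * j * (2 * e) = i * j by rw [he]; ring, pow_mul, hqi, one_pow]
    rw [h5, (even_two_mul e).neg_pow] at h7
    have h8 := orderOf_dvd_of_pow_eq_one h7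
    rw [← hi] at h8
    have h9 := Nat.le_of_dvd (by omega) h8
    omega

theorem sym_count_nofix {β : Type*} (S : Finset β) (a : β) (ha : a ∈ S) (τ : β → β) (t d N : ℕ)
    (hd : 0 < d) (hScard : S.card = t + 1)
    (hτP : ∀ x ∈ S, x ≠ a → (τ x ∈ S ∧ τ x ≠ a)) (hh : ∀ x ∈ S, x ≠ a → τ (τ x) = x)
    (hne : ∀ x ∈ S, x ≠ a → τ x ≠ x) :
    Nat.card {M' : Multiset β // (∀ x ∈ M', x ∈ S ∧ x ≠ a) ∧ d * Multiset.card M' ≤ N ∧
        M' ≠ 0 ∧ M'.map τ = M'}
      = (N / (2 * d) + t / 2).choose (t / 2) - 1 := by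
  classical
  have h2d : 0 < 2 * d := by omega
  have hPmem : ∀ x, x ∈ S.erase a ↔ x ∈ S ∧ x ≠ a := fun x => by
    rw [Finset.mem_erase]
    tauto
  have hPcard : (S.erase a).card = t := by
    rw [Finset.card_erase_of_mem ha, hScard]
    rfl
  have hstarP : ∀ x ∈ S.erase a, τ x ∈ S.erase a := by
    intro x hx
    rw [hPmem] at hx ⊢
    exact hτP x hx.1 hx.2
  have hh' : ∀ x ∈ S.erase a, τ (τ x) = x := by
    intro x hx
    rw [hPmem] at hx
    exact hh x hx.1 hx.2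
  have hne' : ∀ x ∈ S.erase a, τ x ≠ x := by
    intro x hx
    rw [hPmem] at hx
    exact hne x hx.1 hx.2
  obtain ⟨P₀, hP₀sub, hP₀card, hP₀⟩ := reps_exist (S.erase a) τ hstarP hh' hne'
  have haP₀ : a ∉ P₀ := fun h => by
    have h1 := hP₀sub h
    rw [hPmem] at h1
    exact h1.2 rfl
  have hS₀card : (insert a P₀).card = t / 2 + 1 := by
    rw [Finset.card_insert_of_notMem haP₀]
    omega
  rw [← card_slack (insert a P₀) a (Finset.mem_insert_self _ _) (t / 2) (N / (2 * d)) hS₀card]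
  have hmemP₀ : ∀ x, (x ∈ insert a P₀ ∧ x ≠ a) ↔ x ∈ P₀ := by
    intro x
    rw [Finset.mem_insert]
    constructor
    · rintro ⟨h | h, h'⟩
      · exact absurd h h'
      · exact h
    · intro h
      exact ⟨Or.inr h, fun h' => haP₀ (h' ▸ h)⟩
  have hdecomp : ∀ M' : Multiset β, (∀ x ∈ M', x ∈ S ∧ x ≠ a) → M'.map τ = M' →
      M' = Multiset.filter (fun x => x ∈ P₀) M'
        + (Multiset.filter (fun x => x ∈ P₀) M').map τ := by
    intro M' h1 hsym
    have hsplit := Multiset.filter_add_not (fun x => x ∈ P₀) M'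
    have h2 : Multiset.filter (fun x => ¬ x ∈ P₀) M'
        = (Multiset.filter (fun x => x ∈ P₀) M').map τ := by
      have h3 : Multiset.filter (fun x => ¬ x ∈ P₀) (M'.map τ)
          = (Multiset.filter ((fun x => ¬ x ∈ P₀) ∘ τ) M').map τ :=
        Multiset.filter_map _ _ _
      rw [hsym] at h3
      rw [h3]
      congr 1
      apply Multiset.filter_congr
      intro x hx
      show ¬ τ x ∈ P₀ ↔ x ∈ P₀
      exact (hP₀ x ((hPmem x).2 (h1 x hx))).symm
    rw [← h2, hsplit]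
  have hΘ : ∀ M' : {M' : Multiset β // (∀ x ∈ M', x ∈ S ∧ x ≠ a) ∧ d * Multiset.card M' ≤ N ∧
        M' ≠ 0 ∧ M'.map τ = M'},
      (∀ x ∈ Multiset.filter (fun x => x ∈ P₀) M'.1, x ∈ insert a P₀ ∧ x ≠ a) ∧
        Multiset.card (Multiset.filter (fun x => x ∈ P₀) M'.1) ≤ N / (2 * d) ∧
        Multiset.filter (fun x => x ∈ P₀) M'.1 ≠ 0 := by
    rintro ⟨M', h1, h2, h3, hsym⟩
    have hd' := hdecomp M' h1 hsym
    have hcard : Multiset.card M'
        = 2 * Multiset.card (Multiset.filter (fun x => x ∈ P₀) M') := by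
      conv_lhs => rw [hd']
      rw [Multiset.card_add, Multiset.card_map]
      ring
    refine ⟨fun x hx => (hmemP₀ x).2 (Multiset.mem_filter.1 hx).2, ?_, ?_⟩
    · rw [Nat.le_div_iff_mul_le h2d]
      rw [hcard] at h2
      have h7 : d * (2 * Multiset.card (Multiset.filter (fun x => x ∈ P₀) M'))
          = Multiset.card (Multiset.filter (fun x => x ∈ P₀) M') * (2 * d) := by ring
      rw [h7] at h2
      exact h2
    · intro h0
      apply h3
      rw [hd']
      show Multiset.filter (fun x => x ∈ P₀) M'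
        + (Multiset.filter (fun x => x ∈ P₀) M').map τ = 0
      have h0' : Multiset.filter (fun x => x ∈ P₀) M' = 0 := h0
      rw [h0', Multiset.map_zero, add_zero]
  apply Nat.card_congr
  refine Equiv.ofBijective (fun M' => ⟨Multiset.filter (fun x => x ∈ P₀) M'.1, hΘ M'⟩) ⟨?_, ?_⟩
  · rintro ⟨M₁, h1, h2, h3, h4⟩ ⟨M₂, h1', h2', h3', h4'⟩ heq
    have h5 : Multiset.filter (fun x => x ∈ P₀) M₁ = Multiset.filter (fun x => x ∈ P₀) M₂ :=
      congrArg Subtype.val heq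
    apply Subtype.ext
    show M₁ = M₂
    calc M₁ = Multiset.filter (fun x => x ∈ P₀) M₁
          + (Multiset.filter (fun x => x ∈ P₀) M₁).map τ := hdecomp M₁ h1 h4
      _ = Multiset.filter (fun x => x ∈ P₀) M₂
          + (Multiset.filter (fun x => x ∈ P₀) M₂).map τ := by rw [h5]
      _ = M₂ := (hdecomp M₂ h1' h4').symm
  · rintro ⟨M₀, hM1, hM2, hM3⟩
    have hM₀P₀ : ∀ x ∈ M₀, x ∈ P₀ := fun x hx => (hmemP₀ x).1 (hM1 x hx)
    have hM₀S : ∀ x ∈ M₀, x ∈ S ∧ x ≠ a :=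
      fun x hx => (hPmem x).1 (hP₀sub (hM₀P₀ x hx))
    have hel : ∀ x ∈ M₀ + M₀.map τ, x ∈ S ∧ x ≠ a := by
      intro x hx
      rcases Multiset.mem_add.1 hx with h | h
      · exact hM₀S x h
      · obtain ⟨y, hy, rfl⟩ := Multiset.mem_map.1 h
        exact hτP y (hM₀S y hy).1 (hM₀S y hy).2
    have hcard : Multiset.card (M₀ + M₀.map τ) = 2 * Multiset.card M₀ := by
      rw [Multiset.card_add, Multiset.card_map]
      ring
    have hle : d * Multiset.card (M₀ + M₀.map τ) ≤ N := by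
      rw [hcard]
      have h5 := (Nat.le_div_iff_mul_le h2d).1 hM2
      have h6 : d * (2 * Multiset.card M₀) = Multiset.card M₀ * (2 * d) := by ring
      rw [h6]
      exact h5
    have hne0 : M₀ + M₀.map τ ≠ 0 := by
      intro h0
      obtain ⟨x, hx⟩ := Multiset.exists_mem_of_ne_zero hM3
      have h7 : x ∈ M₀ + M₀.map τ := Multiset.mem_add.2 (Or.inl hx)
      rw [h0] at h7
      exact Multiset.notMem_zero x h7
    have h6 : Multiset.map (τ ∘ τ) M₀ = M₀ := by
      have h9 : Multiset.map (τ ∘ τ) M₀ = Multiset.map (fun x => x) M₀ :=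
        Multiset.map_congr rfl (fun x hx => hh' x (hP₀sub (hM₀P₀ x hx)))
      rw [h9, Multiset.map_id']
    have hsym : (M₀ + M₀.map τ).map τ = M₀ + M₀.map τ := by
      rw [Multiset.map_add, Multiset.map_map, h6, add_comm]
    have hnil : ∀ y ∈ M₀.map τ, ¬ y ∈ P₀ := by
      intro y hy
      obtain ⟨x, hx, rfl⟩ := Multiset.mem_map.1 hy
      exact (hP₀ x (hP₀sub (hM₀P₀ x hx))).1 (hM₀P₀ x hx)
    refine ⟨⟨M₀ + M₀.map τ, hel, hle, hne0, hsym⟩, ?_⟩
    apply Subtype.ext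
    show Multiset.filter (fun x => x ∈ P₀) (M₀ + M₀.map τ) = M₀
    rw [Multiset.filter_add, Multiset.filter_eq_self.2 hM₀P₀, Multiset.filter_eq_nil.2 hnil,
      add_zero]

end Cfsg.Agent.Helper15
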