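import Mathlib
import Cfsg.Agent.Helper15.GUPrime1

set_option autoImplicit false

namespace Cfsg.Agent.Helper15
open Polynomial Matrix

universe u

theorem charpoly_inv_type {K : Type u} [Field K] {n : ℕ} (g : GL (Fin n) K) (S : Finset K[X])
    (r i : ℕ) (hr : r ≠ 0) (hS : ∀ x ∈ S, x.Monic ∧ Irreducible x ∧ x ∣ X ^ r - 1)
    (hdeg : ∀ x ∈ S, x ≠ X - 1 → x.natDegree = i)
    (hcrit : ∀ y : K[X], y.Monic → y.natDegree = i → y ∣ X ^ r - 1 → ¬ (X - 1 : K[X]) ∣ y →
      y ∈ S)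
    (M' : Multiset K[X]) (hM' : ∀ x ∈ M', x ∈ S ∧ x ≠ X - 1) (k : ℕ)
    (hχ : (g : Matrix (Fin n) (Fin n) K).charpoly = M'.prod * (X - 1) ^ k) :
    ((g⁻¹ : GL (Fin n) K) : Matrix (Fin n) (Fin n) K).charpoly
      = (M'.map pstar).prod * (X - 1) ^ k := by
  have h0 : ∀ x ∈ M', x.coeff 0 ≠ 0 :=
    fun x hx => coeff_zero_ne_of_dvd r hr x (hS x (hM' x hx).1).2.2
  have hstar : ∀ y ∈ M'.map pstar, y ∈ S ∧ y ≠ X - 1 := by
    intro y hy
    obtain ⟨x, hx, rfl⟩ := Multiset.mem_map.1 hy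
    exact pstar_mem S r i hr hS hdeg hcrit x (hM' x hx).1 (hM' x hx).2
  obtain ⟨hm1, hd1⟩ := type_prod_degree S i (fun x hx => (hS x hx).1) hdeg M' k hM'
  obtain ⟨hm2, hd2⟩ := type_prod_degree S i (fun x hx => (hS x hx).1) hdeg (M'.map pstar) k hstar
  rw [Multiset.card_map] at hd2
  have hE := Matrix.charpoly_inv (g : Matrix (Fin n) (Fin n) K) (Units.isUnit g)
  rw [← Matrix.reverse_charpoly, hχ, rev_type M' h0 k] at hE
  rw [Matrix.coe_units_inv]
  apply eq_of_monic_of_dvd_of_natDegree_le hm2 (Matrix.charpoly_monic _)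
  · rw [hE]
    exact (dvd_mul_left _ _).mul_left _
  · rw [Matrix.charpoly_natDegree_eq_dim, Fintype.card_fin, hd2]
    have h3 := congrArg natDegree hχ
    rw [Matrix.charpoly_natDegree_eq_dim, Fintype.card_fin, hd1] at h3
    omega

theorem gu_prime_class_equiv {K : Type u} [Field K] [Fintype K] {p q n : ℕ} [Fact p.Prime]
    [CharP K p] (hK : Fintype.card K = q ^ 2) (r d : ℕ) (hr : r.Prime) (hrp : r ≠ p)
    (S : Finset K[X]) (hX1S : (X - 1 : K[X]) ∈ S)
    (hS : ∀ x ∈ S, x.Monic ∧ Irreducible x ∧ x ∣ X ^ r - 1)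
    (hSdeg : ∀ x ∈ S, x ≠ X - 1 → x.natDegree = d)
    (hScomp : ∀ x : K[X], x.Monic → Irreducible x → x ∣ X ^ r - 1 → x ∈ S)
    (hcrit : ∀ y : K[X], y.Monic → y.natDegree = d → y ∣ X ^ r - 1 → ¬ (X - 1 : K[X]) ∣ y →
      y ∈ S)
    (σ : K →+* K) (hσq : ∀ x, σ x = x ^ q)
    (hτP : ∀ x ∈ S, x ≠ X - 1 → ((pstar x).map σ ∈ S ∧ (pstar x).map σ ≠ X - 1)) :
    Nat.card {C : ConjClasses ↥(Cfsg.GU n K q) //
        ∃ g : ↥(Cfsg.GU n K q), ConjClasses.mk g = C ∧ orderOf g = r}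
      = Nat.card {M' : Multiset K[X] // (∀ x ∈ M', x ∈ S ∧ x ≠ X - 1) ∧
        d * Multiset.card M' ≤ n ∧ M' ≠ 0 ∧ M'.map (fun x => (pstar x).map σ) = M'} := by
  classical
  haveI : Fact r.Prime := ⟨hr⟩
  have hcop : r.Coprime p := (Nat.coprime_primes hr (Fact.out)).2 hrp
  have hSmi : ∀ x ∈ S, x.Monic ∧ Irreducible x := fun x hx => ⟨(hS x hx).1, (hS x hx).2.1⟩
  have hτmem : ∀ M' : Multiset K[X], (∀ x ∈ M', x ∈ S ∧ x ≠ X - 1) →
      ∀ y ∈ M'.map (fun x => (pstar x).map σ), y ∈ S ∧ y ≠ X - 1 := by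
    intro M' hM' y hy
    obtain ⟨x, hx, rfl⟩ := Multiset.mem_map.1 hy
    exact hτP x (hM' x hx).1 (hM' x hx).2
  have hdual : ∀ (g : GL (Fin n) K) (M' : Multiset K[X]) (k : ℕ),
      (∀ x ∈ M', x ∈ S ∧ x ≠ X - 1) →
      (g : Matrix (Fin n) (Fin n) K).charpoly = M'.prod * (X - 1) ^ k →
      (((hadjU σ g)⁻¹ : GL (Fin n) K) : Matrix (Fin n) (Fin n) K).charpoly
        = (M'.map (fun x => (pstar x).map σ)).prod * (X - 1) ^ k := by
    intro g M' k hM' hχ
    have h1 := charpoly_inv_type g S r d hr.ne_zero hS hSdeg hcrit M' hM' k hχ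
    have h2 : (((hadjU σ g)⁻¹ : GL (Fin n) K) : Matrix (Fin n) (Fin n) K)
        = (((g⁻¹ : GL (Fin n) K) : Matrix (Fin n) (Fin n) K).map σ)ᵀ := rfl
    rw [h2, Matrix.charpoly_transpose, Matrix.charpoly_map, h1, Polynomial.map_mul,
      Polynomial.map_pow, Polynomial.map_sub, Polynomial.map_X, Polynomial.map_one,
      Polynomial.map_multiset_prod, Multiset.map_map]
    rfl
  have hex : ∀ C : {C : ConjClasses ↥(Cfsg.GU n K q) //
        ∃ g : ↥(Cfsg.GU n K q), ConjClasses.mk g = C ∧ orderOf g = r},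
      ∃ M' : Multiset K[X], ((∀ x ∈ M', x ∈ S ∧ x ≠ X - 1) ∧
        d * Multiset.card M' ≤ n ∧ M' ≠ 0 ∧ M'.map (fun x => (pstar x).map σ) = M') ∧
        ∀ g : ↥(Cfsg.GU n K q), ConjClasses.mk g = C.1 →
          ((g : GL (Fin n) K) : Matrix (Fin n) (Fin n) K).charpoly
            = M'.prod * (X - 1) ^ (n - d * Multiset.card M') := by
    rintro ⟨C, g, hg, hord⟩
    have hordG : orderOf (g : GL (Fin n) K) = r := by
      rw [Subgroup.orderOf_coe]
      exact hord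
    have hgr : ((g : GL (Fin n) K) : Matrix (Fin n) (Fin n) K) ^ r = 1 := by
      rw [← Units.val_pow_eq_pow_val, ← hordG, pow_orderOf_eq_one, Units.val_one]
    obtain ⟨M', k, hM', hχ⟩ := type_exists S r hScomp _ hgr
    have hdeg := type_degree S d (fun x hx => (hS x hx).1) hSdeg _ M' k hM' hχ
    have hk : k = n - d * Multiset.card M' := by omega
    have hle : d * Multiset.card M' ≤ n := by omega
    rw [hk] at hχ
    refine ⟨M', ⟨hM', hle, ?_, ?_⟩, ?_⟩
    · intro h0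
      rw [h0, Multiset.prod_zero, one_mul, Multiset.card_zero, mul_zero, Nat.sub_zero] at hχ
      have h1 : ((g : GL (Fin n) K) : Matrix (Fin n) (Fin n) K).charpoly
          = ((1 : GL (Fin n) K) : Matrix (Fin n) (Fin n) K).charpoly := by
        rw [hχ, Units.val_one, Matrix.charpoly_one, Fintype.card_fin]
      have h2 := gl_isConj_of_charpoly p (g : GL (Fin n) K) 1 (by rw [hordG]; exact hcop)
        (by rw [orderOf_one]; exact Nat.coprime_one_left p) h1
      have h3 : (g : GL (Fin n) K) = 1 := isConj_one_left.1 h2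
      rw [h3, orderOf_one] at hordG
      exact hr.one_lt.ne hordG
    · have hu : hadj σ ((g : GL (Fin n) K) : Matrix (Fin n) (Fin n) K)
          * ((g : GL (Fin n) K) : Matrix (Fin n) (Fin n) K) = 1 :=
        (mem_GU_iff_hadj hK σ hσq n (g : GL (Fin n) K)).1 g.2
      have hu' : hadjU σ (g : GL (Fin n) K) * (g : GL (Fin n) K) = 1 := Units.ext hu
      have hu'' : (g : GL (Fin n) K) = (hadjU σ (g : GL (Fin n) K))⁻¹ :=
        eq_inv_of_mul_eq_one_right hu'
      have h5 := hdual (g : GL (Fin n) K) M' _ hM' hχ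
      rw [← hu'', hχ] at h5
      exact (type_unique S hSmi M' _ _ _ hM' (hτmem M' hM') h5).symm
    · intro g' hg'
      have hconj : IsConj g' g := ConjClasses.mk_eq_mk_iff_isConj.1 (hg'.trans hg.symm)
      have hconjGL : IsConj (g' : GL (Fin n) K) (g : GL (Fin n) K) :=
        MonoidHom.map_isConj (Cfsg.GU n K q).subtype hconj
      obtain ⟨c, hc⟩ := isConj_iff.1 hconjGL
      rw [← hχ, ← hc, Units.val_mul, Units.val_mul, Matrix.coe_units_inv,
        Matrix.charpoly_units_conj]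
  choose Ξ hΞ1 hΞ2 using hex
  apply Nat.card_congr
  refine Equiv.ofBijective (fun C => ⟨Ξ C, hΞ1 C⟩) ⟨?_, ?_⟩
  · intro C₁ C₂ h
    have h1 : Ξ C₁ = Ξ C₂ := congrArg Subtype.val h
    obtain ⟨g₁, hg₁, ho₁⟩ := C₁.2
    obtain ⟨g₂, hg₂, ho₂⟩ := C₂.2
    have hχ : ((g₁ : GL (Fin n) K) : Matrix (Fin n) (Fin n) K).charpoly
        = ((g₂ : GL (Fin n) K) : Matrix (Fin n) (Fin n) K).charpoly := by
      rw [hΞ2 C₁ g₁ hg₁, hΞ2 C₂ g₂ hg₂, h1]
    have hconj := gl_isConj_of_charpoly p (g₁ : GL (Fin n) K) (g₂ : GL (Fin n) K)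
      (by rw [Subgroup.orderOf_coe, ho₁]; exact hcop)
      (by rw [Subgroup.orderOf_coe, ho₂]; exact hcop) hχ
    apply Subtype.ext
    rw [← hg₁, ← hg₂]
    exact ConjClasses.mk_eq_mk_iff_isConj.2 (gu_conj_of_gl_conj hK g₁ g₂ hconj)
  · rintro ⟨M', hM'1, hM'2, hM'3, hM'4⟩
    obtain ⟨g, hord, hχ⟩ := type_realize p S r d hr hX1S hS hSdeg M' hM'1 hM'2 hM'3
    have h5 := hdual g M' _ hM'1 hχ
    rw [hM'4, ← hχ] at h5
    have hgr : g ^ r = 1 := by
      rw [← hord]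
      exact pow_orderOf_eq_one g
    have hdr : ((hadjU σ g)⁻¹) ^ r = 1 := by
      rw [inv_pow, inv_eq_one]
      apply Units.ext
      rw [Units.val_pow_eq_pow_val, Units.val_one]
      show (hadj σ (g : Matrix (Fin n) (Fin n) K)) ^ r = 1
      rw [← hadj_pow, ← Units.val_pow_eq_pow_val, hgr, Units.val_one, hadj_one]
    have hcop' : (orderOf ((hadjU σ g)⁻¹)).Coprime p :=
      Nat.Coprime.coprime_dvd_left (orderOf_dvd_of_pow_eq_one hdr) hcop
    have hconj := gl_isConj_of_charpoly p g ((hadjU σ g)⁻¹) (by rw [hord]; exact hcop) hcop'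
      h5.symm
    obtain ⟨c, hc⟩ := isConj_iff.1 hconj
    have hc' : c * g = (hadjU σ g)⁻¹ * c := mul_inv_eq_iff_eq_mul.1 hc
    obtain ⟨B, hB⟩ := similar_unitary_of_conj hK g σ hσq c hc'
    obtain ⟨e, he⟩ := isConj_iff.1 hB
    have hordB : orderOf B = r := by
      rw [← Subgroup.orderOf_coe, ← he, ← hord]
      exact orderOf_injective (MulAut.conj e).toMonoidHom (MulAut.conj e).injective g
    refine ⟨⟨ConjClasses.mk B, B, rfl, hordB⟩, ?_⟩
    apply Subtype.ext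
    show Ξ ⟨ConjClasses.mk B, B, rfl, hordB⟩ = M'
    have hk := hΞ2 ⟨ConjClasses.mk B, B, rfl, hordB⟩ B rfl
    have hχB : ((B : GL (Fin n) K) : Matrix (Fin n) (Fin n) K).charpoly
        = (g : Matrix (Fin n) (Fin n) K).charpoly := by
      rw [← he, Units.val_mul, Units.val_mul, Matrix.coe_units_inv, Matrix.charpoly_units_conj]
    exact type_unique S hSmi _ _ _ _ (hΞ1 _).1 hM'1 (hk.symm.trans (hχB.trans hχ))

theorem gu_prime_order_class_count {K : Type u} [Field K] [Fintype K] {p q n r i b s : ℕ}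
    [Fact p.Prime] [CharP K p] (hK : Fintype.card K = q ^ 2) (hr : r.Prime) (hr2 : r ≠ 2)
    (hrp : r ≠ p) (hi : i = orderOf (q : ZMod r)) (hi2 : i ≠ 2)
    (hb : b = if Odd i then i else i / 2) (hs : s * b = r - 1) :
    Nat.card {C : ConjClasses ↥(Cfsg.GU n K q) //
        ∃ g : ↥(Cfsg.GU n K q), ConjClasses.mk g = C ∧ orderOf g = r}
      = if i % 4 = 2 then Nat.choose (2 * n / i + s) s - 1
        else Nat.choose (n / (2 * b) + s / 2) (s / 2) - 1 := by
  classical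
  have hp : p.Prime := Fact.out
  haveI : Fact r.Prime := ⟨hr⟩
  have hb0 : 0 < b := by
    rcases Nat.eq_zero_or_pos b with h | h
    · rw [h, mul_zero] at hs
      have := hr.two_le
      omega
    · exact h
  have hi0 : 0 < i := by
    rcases Nat.eq_zero_or_pos i with h | h
    · rw [h] at hb
      simp at hb
      omega
    · exact h
  have hbord : b = orderOf ((Fintype.card K : ℕ) : ZMod r) := by
    rw [hK, Nat.cast_pow, orderOf_pow' _ two_ne_zero, ← hi, hb]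
    split_ifs with hodd
    · rw [Nat.gcd_comm, Nat.gcd_rec, Nat.odd_iff.1 hodd, Nat.gcd_one_left, Nat.div_one]
    · have hev : Even i := Nat.not_odd_iff_even.1 hodd
      rw [Nat.gcd_eq_right hev.two_dvd]
  obtain ⟨S, hScard, hX1S, hS, hSdeg, hScomp⟩ := cyc_factor_set p r hr hrp b s hbord hs
  have hcrit : ∀ y : K[X], y.Monic → y.natDegree = b → y ∣ X ^ r - 1 →
      ¬ (X - 1 : K[X]) ∣ y → y ∈ S :=
    fun y hm hdeg hd hnd => hScomp y hm (cyc_irred_crit p r hr hrp b hbord y hdeg hd hnd) hd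
  obtain ⟨σ, hσq⟩ := exists_frob_hs hK p
  have hσ : ∀ a, σ (σ a) = a := by
    intro a
    rw [hσq, hσq, ← pow_mul, ← pow_two, ← hK, FiniteField.pow_card]
  obtain ⟨f, hf⟩ : ∃ f, q = p ^ f := by
    obtain ⟨m, -, hm⟩ := FiniteField.card K p
    have h1 : q ∣ p ^ (m : ℕ) := by
      rw [← hm, hK]
      exact dvd_pow_self q two_ne_zero
    obtain ⟨f, -, hf⟩ := (Nat.dvd_prime_pow hp).1 h1
    exact ⟨f, hf⟩
  subst hf
  have hτP : ∀ x ∈ S, x ≠ X - 1 → ((pstar x).map σ ∈ S ∧ (pstar x).map σ ≠ X - 1) := by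
    intro x hx hne
    obtain ⟨hy1, hy2⟩ := pstar_mem S r b hr.ne_zero hS hSdeg hcrit x hx hne
    obtain ⟨hym, hyi, hyd⟩ := hS _ hy1
    refine ⟨hScomp _ (hym.map σ) (irreducible_map_invol σ hσ _ hyi) ?_, ?_⟩
    · have h1 := Polynomial.map_dvd σ hyd
      rwa [Polynomial.map_sub, Polynomial.map_pow, Polynomial.map_X, Polynomial.map_one] at h1
    · intro h1
      apply hy2
      have h2 := congrArg (Polynomial.map σ) h1
      rwa [map_map_invol σ hσ, Polynomial.map_sub, Polynomial.map_X, Polynomial.map_one] at h2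
  have hh : ∀ x ∈ S, x ≠ X - 1 → (pstar ((pstar x).map σ)).map σ = x := by
    intro x hx hne
    obtain ⟨hm, -, hd⟩ := hS x hx
    rw [pstar_map, pstar_pstar x hm (coeff_zero_ne_of_dvd r hr.ne_zero x hd), map_map_invol σ hσ]
  rw [gu_prime_class_equiv hK r b hr hrp S hX1S hS hSdeg hScomp hcrit σ hσq hτP]
  split_ifs with h4
  · have hfix : ∀ x ∈ S, x ≠ X - 1 → (pstar x).map σ = x := fun x hx hne =>
      tstar_fix p f hK σ hσq r i b hr hi hbord hb0 h4 x (hS x hx).1 (hS x hx).2.1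
        (hS x hx).2.2 hne (hSdeg x hx hne)
    have hib : i = 2 * b := by
      rw [hb, if_neg (by rw [Nat.odd_iff]; omega)]
      omega
    rw [hib, Nat.mul_div_mul_left n b (by norm_num : 0 < 2),
      ← card_slack S (X - 1) hX1S s (n / b) hScard]
    apply Nat.card_congr
    apply Equiv.subtypeEquivRight
    intro M'
    constructor
    · rintro ⟨h1, h2, h3, -⟩
      exact ⟨h1, by rw [Nat.le_div_iff_mul_le hb0, mul_comm]; exact h2, h3⟩
    · rintro ⟨h1, h2, h3⟩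
      refine ⟨h1, by rw [Nat.le_div_iff_mul_le hb0, mul_comm] at h2; exact h2, h3, ?_⟩
      have h9 : Multiset.map (fun x => (pstar x).map σ) M' = Multiset.map (fun x => x) M' :=
        Multiset.map_congr rfl (fun x hx => hfix x (h1 x hx).1 (h1 x hx).2)
      rw [h9, Multiset.map_id']
  · exact sym_count_nofix S (X - 1) hX1S (fun x => (pstar x).map σ) s b n hb0 hScard hτP hh
      (fun x hx hne => tstar_nofix p f hK σ hσq r i b hr hr2 hi hi0 hbord hb0 h4 x (hS x hx).1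
        (hS x hx).2.1 (hS x hx).2.2 hne (hSdeg x hx hne))

end Cfsg.Agent.Helper15
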