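import Mathlib
import Cfsg.Agent.Helper15.SUCenter
import Cfsg.Agent.Helper15.CycQuot

set_option autoImplicit false

namespace Cfsg.Agent.Helper15

/-- A matrix commuting with every element of `SU_n(q)` is scalar. -/
theorem su_centralizer_scalar {K : Type*} [Field K] [Fintype K] {q : ℕ}
    (hK : Fintype.card K = q ^ 2)
    (n : ℕ) (hn : 1 ≤ n) (Z : Matrix (Fin n) (Fin n) K)
    (hcomm : ∀ s : Matrix.SpecialLinearGroup (Fin n) K, s ∈ Cfsg.SU n K q →
      (s : Matrix (Fin n) (Fin n) K) * Z = Z * (s : Matrix (Fin n) (Fin n) K)) :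
    ∃ c : K, Z = c • 1 := by
  classical
  have hq := two_le_of_card_sq hK
  have hh := hermForm_isHerm hK n
  obtain ⟨l, hl1, hl2⟩ := exists_norm_one_sq_ne hK
  have hl0 : l ≠ 0 := by
    rintro rfl
    rw [zero_pow (by omega)] at hl1
    exact zero_ne_one hl1
  obtain ⟨a, ha0, ha⟩ := exists_skew hK
  obtain ⟨m, hm0, hm⟩ := exists_norm_neg_one hK
  -- off-diagonal entries vanish
  have hoff : ∀ i j : Fin n, i ≠ j → Z i j = 0 := by
    intro i j hij
    obtain ⟨d, hd⟩ : ∃ d : Fin n → K, d = fun k => if k = i then l else if k = j then l⁻¹ else 1 :=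
      ⟨_, rfl⟩
    have hdi : d i = l := by rw [hd]; simp
    have hdj : d j = l⁻¹ := by rw [hd]; simp [hij.symm]
    have hdk : ∀ k, d k ^ (q + 1) = 1 := by
      intro k
      rw [hd]
      by_cases hki : k = i
      · simp [hki, hl1]
      · by_cases hkj : k = j
        · simp [hkj, hij.symm, hl1]
        · simp [hki, hkj]
    have hprod : ∏ k, d k = 1 := by
      rw [Finset.prod_eq_mul i j hij, hdi, hdj, mul_inv_cancel₀ hl0]
      · intro k _ hk
        rw [hd]
        simp [hk.1, hk.2]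
      · intro h
        exact absurd (Finset.mem_univ i) h
      · intro h
        exact absurd (Finset.mem_univ j) h
    obtain ⟨s, hs, hsd⟩ := su_diag_mem n q d hdk hprod
    have h1 := congrFun (congrFun (hcomm s hs) i) j
    rw [hsd, Matrix.diagonal_mul, Matrix.mul_diagonal, hdi, hdj] at h1
    have h2 : Z i j * (l ^ 2 - 1) = 0 := by
      have h3 : l * (l * Z i j) = l * (Z i j * l⁻¹) := by rw [h1]
      rw [mul_comm (Z i j) l⁻¹, ← mul_assoc l l⁻¹, mul_inv_cancel₀ hl0, one_mul] at h3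
      linear_combination h3
    rcases mul_eq_zero.1 h2 with h | h
    · exact h
    · exact absurd (sub_eq_zero.1 h) hl2
  have hdiag : Z = Matrix.diagonal (fun k => Z k k) := by
    ext i j
    by_cases hij : i = j
    · rw [hij, Matrix.diagonal_apply_eq]
    · rw [Matrix.diagonal_apply_ne _ hij, hoff i j hij]
  -- diagonal entries agree
  have heq : ∀ i j : Fin n, i ≠ j → Z i i = Z j j := by
    intro i j hij
    obtain ⟨v, hv⟩ : ∃ v : Fin n → K, v = fun k => if k = i then 1 else if k = j then m else 0 :=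
      ⟨_, rfl⟩
    have hvi : v i = 1 := by rw [hv]; simp
    have hvj : v j = m := by rw [hv]; simp [hij.symm]
    have hvv : Cfsg.hermForm n K q v v = 0 := by
      rw [hermForm_self_eq, Finset.sum_eq_add i j hij, hvi, hvj, hm]
      · ring
      · intro k _ hk
        rw [hv]
        simp [hk.1, hk.2]
      · intro h
        exact absurd (Finset.mem_univ i) h
      · intro h
        exact absurd (Finset.mem_univ j) h
    obtain ⟨s, hs, hsT⟩ := su_transv_mem hK n a ha v hvv
    have h1 := congrFun (congrFun (hcomm s hs) i) j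
    rw [hdiag, Matrix.mul_diagonal, Matrix.diagonal_mul, hsT] at h1
    have h2 : (1 + a • Matrix.vecMulVec v (fun k => v k ^ q)) i j = a * m ^ q := by
      rw [Matrix.add_apply, Matrix.one_apply_ne hij, Matrix.smul_apply, Matrix.vecMulVec_apply,
        hvi, hvj, smul_eq_mul]
      ring
    rw [h2] at h1
    have h3 : a * m ^ q ≠ 0 := mul_ne_zero ha0 (pow_ne_zero _ hm0)
    have h4 : (a * m ^ q) * (Z j j - Z i i) = 0 := by linear_combination h1
    rcases mul_eq_zero.1 h4 with h | h
    · exact absurd h h3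
    · exact (sub_eq_zero.1 h).symm
  obtain ⟨c, hc⟩ : ∃ c : K, c = Z ⟨0, hn⟩ ⟨0, hn⟩ := ⟨_, rfl⟩
  refine ⟨c, ?_⟩
  rw [Matrix.smul_one_eq_diagonal, hdiag]
  congr 1
  funext k
  show Z k k = c
  rw [hc]
  by_cases hk : k = ⟨0, hn⟩
  · rw [hk]
  · exact heq k _ hk

/-- `GU_n(q) / (SU_n(q) Z)` is cyclic of order `gcd(n, q + 1)`. -/
theorem gu_center_quot {F : Type*} [Field F] [Fintype F] {q : ℕ} (hF : Fintype.card F = q ^ 2)
    (n : ℕ) (hn : 1 ≤ n) :
    ∃ φ : ↥(Cfsg.GU n F q) →* Multiplicative (ZMod (Nat.gcd n (q + 1))), Function.Surjective φ ∧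
      φ.ker = (Matrix.GeneralLinearGroup.det :
        Matrix.GeneralLinearGroup (Fin n) F →* Fˣ).ker.subgroupOf (Cfsg.GU n F q)
          ⊔ Subgroup.center ↥(Cfsg.GU n F q) := by
  classical
  have hq := two_le_of_card_sq hF
  have hh := hermForm_isHerm hF n
  obtain ⟨D, hD⟩ : ∃ D : ↥(Cfsg.GU n F q) →* Fˣ,
      D = Matrix.GeneralLinearGroup.det.comp (Cfsg.GU n F q).subtype := ⟨_, rfl⟩
  have hDapp : ∀ g : ↥(Cfsg.GU n F q), ((D g : Fˣ) : F)
      = ((g : GL (Fin n) F) : Matrix (Fin n) (Fin n) F).det := by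
    intro g
    rw [hD]
    rfl
  have hcardR : Nat.card D.range = q + 1 := by
    rw [hD]
    exact gu_det_range_card hF n hn
  have hmemR : ∀ y : D.range, ((y : Fˣ) : F) ^ (q + 1) = 1 := by
    rintro ⟨y, ⟨g, rfl⟩⟩
    show ((D g : Fˣ) : F) ^ (q + 1) = 1
    rw [hDapp]
    exact gu_det_pow hF n g.1 g.2
  have hRall : ∀ c : Fˣ, (c : F) ^ (q + 1) = 1 → c ∈ D.range := by
    intro c hc
    have hinj : Function.Injective
        (fun y : D.range => (⟨((y : Fˣ) : F), hmemR y⟩ : {c : F // c ^ (q + 1) = 1})) := by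
      intro y y' hyy
      apply Subtype.ext
      apply Units.ext
      exact congrArg Subtype.val hyy
    have hdvd : q + 1 ∣ Fintype.card F - 1 := by
      rw [hF, ← nat_sq_sub_one q (by omega)]
      exact Dvd.intro_left _ rfl
    have hbij := Function.Injective.bijective_of_nat_card_le hinj (by
      rw [hcardR, card_roots_of_unity_of_dvd (K := F) (q + 1) (by omega) hdvd])
    obtain ⟨y, hy⟩ := hbij.2 ⟨(c : F), hc⟩
    have hyc : (y : Fˣ) = c := Units.ext (congrArg Subtype.val hy)
    rw [← hyc]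
    exact y.2
  obtain ⟨ψ, hψs, hψk⟩ := cyc_quot (G := D.range) n (q + 1) hcardR
  refine ⟨ψ.comp D.rangeRestrict, hψs.comp D.rangeRestrict_surjective, ?_⟩
  apply le_antisymm
  · intro g hg
    rw [MonoidHom.mem_ker, MonoidHom.comp_apply, hψk] at hg
    obtain ⟨h, hh'⟩ := hg
    obtain ⟨r, hr⟩ : ∃ r : Fˣ, r = (h : Fˣ) := ⟨_, rfl⟩
    have hr1 : (r : F) ^ (q + 1) = 1 := by
      rw [hr]
      exact hmemR h
    have hdetg : ((g : GL (Fin n) F) : Matrix (Fin n) (Fin n) F).det = (r : F) ^ n := by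
      rw [← hDapp]
      have h1 := congrArg (fun y : D.range => ((y : Fˣ) : F)) hh'
      simp only [MonoidHom.coe_rangeRestrict, Subgroup.coe_pow, Units.val_pow_eq_pow_val] at h1
      rw [h1, hr]
    -- the scalar matrix r
    obtain ⟨z, hz⟩ : ∃ z : GL (Fin n) F, (z : Matrix (Fin n) (Fin n) F) = (r : F) • 1 :=
      ⟨⟨(r : F) • 1, ((r⁻¹ : Fˣ) : F) • 1, by
        rw [Matrix.smul_mul, Matrix.one_mul, smul_smul, Units.mul_inv, one_smul], by
        rw [Matrix.smul_mul, Matrix.one_mul, smul_smul, Units.inv_mul, one_smul]⟩, rfl⟩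
    have hzGU : z ∈ Cfsg.GU n F q := by
      refine (mem_GU_iff n q z).2 ?_
      intro u v
      rw [hz, Matrix.smul_mulVec, Matrix.one_mulVec, Matrix.smul_mulVec, Matrix.one_mulVec,
        hh.smul_left, hh.smul_right, ← mul_assoc, ← pow_succ', hr1, one_mul]
    have hzc : ∀ x : GL (Fin n) F, x * z = z * x := by
      intro x
      apply Units.ext
      show (x : Matrix (Fin n) (Fin n) F) * (z : Matrix (Fin n) (Fin n) F)
        = (z : Matrix (Fin n) (Fin n) F) * (x : Matrix (Fin n) (Fin n) F)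
      rw [hz, Matrix.mul_smul, Matrix.smul_mul, Matrix.mul_one, Matrix.one_mul]
    have hzcen : (⟨z, hzGU⟩ : ↥(Cfsg.GU n F q)) ∈ Subgroup.center ↥(Cfsg.GU n F q) := by
      rw [Subgroup.mem_center_iff]
      intro x
      apply Subtype.ext
      exact hzc x.1
    have hdetz : (z : Matrix (Fin n) (Fin n) F).det = (r : F) ^ n := by
      rw [hz, Matrix.det_smul, Matrix.det_one, mul_one, Fintype.card_fin]
    have hgz : g * (⟨z, hzGU⟩ : ↥(Cfsg.GU n F q))⁻¹ ∈
        (Matrix.GeneralLinearGroup.det :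
          Matrix.GeneralLinearGroup (Fin n) F →* Fˣ).ker.subgroupOf (Cfsg.GU n F q) := by
      rw [Subgroup.mem_subgroupOf, MonoidHom.mem_ker]
      apply Units.ext
      show (((g : GL (Fin n) F) * z⁻¹ : GL (Fin n) F) : Matrix (Fin n) (Fin n) F).det = 1
      have h2 : (((g : GL (Fin n) F) * z⁻¹ : GL (Fin n) F) : Matrix (Fin n) (Fin n) F)
          * (z : Matrix (Fin n) (Fin n) F) = ((g : GL (Fin n) F) : Matrix (Fin n) (Fin n) F) := by
        rw [← Units.val_mul, inv_mul_cancel_right]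
      have h3 := congrArg Matrix.det h2
      rw [Matrix.det_mul, hdetz, hdetg] at h3
      have hrn : (r : F) ^ n ≠ 0 := pow_ne_zero _ r.ne_zero
      exact mul_right_cancel₀ hrn (by rw [h3, one_mul])
    have hfin : g = g * (⟨z, hzGU⟩ : ↥(Cfsg.GU n F q))⁻¹ * ⟨z, hzGU⟩ := by
      rw [inv_mul_cancel_right]
    rw [hfin]
    exact Subgroup.mul_mem_sup hgz hzcen
  · apply sup_le
    · intro g hg
      rw [Subgroup.mem_subgroupOf, MonoidHom.mem_ker] at hg
      rw [MonoidHom.mem_ker, MonoidHom.comp_apply]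
      have h1 : D.rangeRestrict g = 1 := by
        apply Subtype.ext
        show D g = 1
        rw [hD]
        exact hg
      rw [h1, map_one]
    · intro g hg
      rw [Subgroup.mem_center_iff] at hg
      rw [MonoidHom.mem_ker, MonoidHom.comp_apply, hψk]
      have hcomm : ∀ s : Matrix.SpecialLinearGroup (Fin n) F, s ∈ Cfsg.SU n F q →
          (s : Matrix (Fin n) (Fin n) F) * ((g : GL (Fin n) F) : Matrix (Fin n) (Fin n) F)
            = ((g : GL (Fin n) F) : Matrix (Fin n) (Fin n) F) * (s : Matrix (Fin n) (Fin n) F) := by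
        intro s hs
        have hsGU : Matrix.SpecialLinearGroup.toGL s ∈ Cfsg.GU n F q :=
          (mem_GU_iff n q _).2 ((mem_SU_iff n q s).1 hs)
        have h1 := hg ⟨Matrix.SpecialLinearGroup.toGL s, hsGU⟩
        have h2 := congrArg (fun x : ↥(Cfsg.GU n F q) =>
          ((x : GL (Fin n) F) : Matrix (Fin n) (Fin n) F)) h1
        exact h2
      obtain ⟨c, hc⟩ := su_centralizer_scalar hF n hn _ hcomm
      have hc1 : c ^ (q + 1) = 1 := by
        have h1 := (mem_GU_iff n q g.1).1 g.2 (Pi.single ⟨0, hn⟩ 1) (Pi.single ⟨0, hn⟩ 1)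
        rw [hc, Matrix.smul_mulVec, Matrix.one_mulVec, hh.smul_left, hh.smul_right,
          hermForm_single (by omega), if_pos rfl, mul_one] at h1
        rw [pow_succ']
        exact h1
      have hc0 : c ≠ 0 := by
        rintro rfl
        rw [zero_pow (by omega)] at hc1
        exact zero_ne_one hc1
      have hcR : Units.mk0 c hc0 ∈ D.range := hRall _ hc1
      refine ⟨⟨Units.mk0 c hc0, hcR⟩, ?_⟩
      apply Subtype.ext
      apply Units.ext
      show ((D g : Fˣ) : F) = ((Units.mk0 c hc0 ^ n : Fˣ) : F)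
      rw [hDapp, hc, Matrix.det_smul, Matrix.det_one, mul_one, Fintype.card_fin,
        Units.val_pow_eq_pow_val, Units.val_mk0]

end Cfsg.Agent.Helper15
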