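import Mathlib
import Cfsg.Agent.Helper15.FieldEmb

set_option autoImplicit false

namespace Cfsg.Agent.Helper15

theorem frob_frob {F K : Type*} [Field F] [Fintype F] [Field K] [Fintype K] [Algebra F K]
    (hK : Fintype.card K = Fintype.card F ^ 2) (x : K) :
    FiniteField.frobeniusAlgHom F K (FiniteField.frobeniusAlgHom F K x) = x := by
  rw [FiniteField.frobeniusAlgHom_apply, FiniteField.frobeniusAlgHom_apply, ← pow_mul, ← pow_two,
    ← hK, FiniteField.pow_card]

theorem mul_frob_eq_norm {F K : Type*} [Field F] [Fintype F] [Field K] [Fintype K]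
    [Algebra F K] (hK : Fintype.card K = Fintype.card F ^ 2) (x : K) :
    x * FiniteField.frobeniusAlgHom F K x = algebraMap F K (Algebra.norm F x) := by
  have hq2 : 2 ≤ Fintype.card F := Fintype.one_lt_card
  rw [FiniteField.algebraMap_norm_eq_pow, Nat.card_eq_fintype_card, Nat.card_eq_fintype_card,
    hK, FiniteField.frobeniusAlgHom_apply]
  have h3 : (Fintype.card F ^ 2 - 1) / (Fintype.card F - 1) = Fintype.card F + 1 := by
    obtain ⟨r, hr⟩ : ∃ r, Fintype.card F = r + 2 := ⟨Fintype.card F - 2, by omega⟩
    rw [hr]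
    have h4 : (r + 2) ^ 2 - 1 = (r + 2 + 1) * (r + 2 - 1) := by
      have h5 : (r + 2) ^ 2 = (r + 3) * (r + 1) + 1 := by ring
      have h6 : r + 2 - 1 = r + 1 := by omega
      rw [h6, h5]
      rfl
    rw [h4]
    exact Nat.mul_div_cancel _ (by omega)
  rw [h3, pow_succ, mul_comm]

theorem exists_normForm {F K : Type*} [Field F] [Fintype F] [Field K] [Fintype K]
    [Algebra F K] (hK : Fintype.card K = Fintype.card F ^ 2) :
    ∃ N : QuadraticForm F K, ∀ x, algebraMap F K (N x)
      = x * FiniteField.frobeniusAlgHom F K x := by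
  have h2 : Module.finrank F K = 2 := finrank_eq_two_of_card_sq hK
  have hinj : Function.Injective (algebraMap F K) := (algebraMap F K).injective
  have hN : ∀ x : K, algebraMap F K (Algebra.norm F x)
      = x * FiniteField.frobeniusAlgHom F K x := fun x => (mul_frob_eq_norm hK x).symm
  refine ⟨QuadraticMap.ofPolar (fun x => Algebra.norm F x) ?_ ?_ ?_, fun x => hN x⟩
  · intro a x
    show Algebra.norm F (a • x) = (a * a) • Algebra.norm F x
    rw [Algebra.smul_def, map_mul, Algebra.norm_algebraMap, h2, pow_two, smul_eq_mul]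
  · intro x x' y
    apply hinj
    simp only [QuadraticMap.polar, map_sub, map_add, hN]
    ring
  · intro a x y
    apply hinj
    simp only [QuadraticMap.polar, map_sub, map_add, hN, smul_eq_mul, map_mul,
      Algebra.smul_def, AlgHom.commutes]
    ring

theorem exists_hermQuad {F K : Type*} [Field F] [Fintype F] [Field K] [Fintype K]
    [Algebra F K] (hK : Fintype.card K = Fintype.card F ^ 2) (n : ℕ) :
    ∃ Q : QuadraticForm F (Fin n → K), (∀ v, algebraMap F K (Q v)
        = ∑ i, v i * FiniteField.frobeniusAlgHom F K (v i)) ∧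
      (QuadraticMap.polarBilin Q).Nondegenerate := by
  classical
  obtain ⟨N, hN⟩ := exists_normForm hK
  obtain ⟨σ, hσ⟩ : ∃ σ : K →ₐ[F] K, σ = FiniteField.frobeniusAlgHom F K := ⟨_, rfl⟩
  rw [← hσ] at hN
  have hσσ : ∀ x, σ (σ x) = x := fun x => by
    rw [hσ]
    exact frob_frob hK x
  have hinj : Function.Injective (algebraMap F K) := (algebraMap F K).injective
  have hσsurj : Function.Surjective σ := Finite.injective_iff_surjective.1 σ.toRingHom.injective
  obtain ⟨Q, hQdef⟩ : ∃ Q : QuadraticForm F (Fin n → K), Q = QuadraticMap.pi (fun _ => N) :=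
    ⟨_, rfl⟩
  have hQ : ∀ v, algebraMap F K (Q v) = ∑ i, v i * σ (v i) := by
    intro v
    rw [hQdef, QuadraticMap.pi_apply, map_sum]
    exact Finset.sum_congr rfl fun i _ => hN (v i)
  refine ⟨Q, fun v => by rw [hQ, hσ], ?_⟩
  obtain ⟨T, hT⟩ : ∃ T : K →ₗ[F] F, T = QuadraticMap.polarBilin N 1 := ⟨_, rfl⟩
  have hTapp : ∀ z, algebraMap F K (T z) = z + σ z := by
    intro z
    rw [hT]
    show algebraMap F K (QuadraticMap.polar ⇑N 1 z) = _
    simp only [QuadraticMap.polar, map_sub, map_add, hN, map_one]
    ring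
  have hT0 : T ≠ 0 := by
    intro h0
    have h1 : ∀ z : K, z + σ z = 0 := by
      intro z
      rw [← hTapp, h0]
      simp
    have h2' : (2 : K) = 0 := by
      have h3 := h1 1
      rw [map_one] at h3
      linear_combination h3
    have h4 : ∀ z : K, z ^ Fintype.card F - z = 0 := by
      intro z
      have h5 := h1 z
      rw [hσ, FiniteField.frobeniusAlgHom_apply] at h5
      linear_combination h5 - z * h2'
    have hq1 : 1 < Fintype.card F := Fintype.one_lt_card
    have h6 := Polynomial.eq_zero_of_natDegree_lt_card_of_eval_eq_zero'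
      (Polynomial.X ^ Fintype.card F - Polynomial.X : Polynomial K) Finset.univ (by
        intro z _
        simp only [Polynomial.eval_sub, Polynomial.eval_pow, Polynomial.eval_X]
        exact h4 z) (by
        rw [FiniteField.X_pow_card_sub_X_natDegree_eq K hq1, Finset.card_univ, hK]
        nlinarith)
    exact FiniteField.X_pow_card_sub_X_ne_zero K hq1 h6
  have hpol : ∀ u v : Fin n → K, QuadraticMap.polar ⇑Q u v = T (∑ i, u i * σ (v i)) := by
    intro u v
    apply hinj
    rw [hTapp, map_sum]
    simp only [QuadraticMap.polar, map_sub, hQ, Pi.add_apply, map_add, map_mul, hσσ]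
    rw [← Finset.sum_sub_distrib, ← Finset.sum_sub_distrib, ← Finset.sum_add_distrib]
    exact Finset.sum_congr rfl fun i _ => by ring
  have hsep : ∀ u : Fin n → K, (∀ v, QuadraticMap.polar ⇑Q u v = 0) → u = 0 := by
    intro u hu
    have h1 := trace_form_sep T hT0
      (fun u v : Fin n → K => ∑ i, u i * σ (v i)) (by
        intro u v d hne
        obtain ⟨c, hc⟩ := hσsurj (d / (∑ i, u i * σ (v i)))
        refine ⟨c • v, ?_⟩
        show ∑ i, u i * σ ((c • v) i) = d
        simp only [Pi.smul_apply, smul_eq_mul, map_mul, hc]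
        have h3 : ∀ i, u i * (d / (∑ i, u i * σ (v i)) * σ (v i))
            = d / (∑ i, u i * σ (v i)) * (u i * σ (v i)) := fun i => by ring
        simp only [h3]
        rw [← Finset.mul_sum, div_mul_cancel₀ _ hne]) u (fun v => by rw [← hpol]; exact hu v)
    funext i
    have h3 := h1 (Pi.single i 1)
    simp only [Pi.single_apply, apply_ite σ, map_one, map_zero, mul_ite, mul_one, mul_zero,
      Finset.sum_ite_eq', Finset.mem_univ, if_true] at h3
    exact h3
  constructor
  · intro u hu
    exact hsep u hu
  · intro u hu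
    apply hsep u
    intro v
    rw [QuadraticMap.polar_comm]
    exact hu v

end Cfsg.Agent.Helper15
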