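import Mathlib
import Cfsg.Agent.Helper15.QuadStd
import Cfsg.Agent.Helper15.HermQuad
import Cfsg.Agent.Helper15.AnisoParam

set_option autoImplicit false

namespace Cfsg.Agent.Helper15

theorem aniso_pair {F : Type*} [Field F] [Finite F] {V : Type*} [AddCommGroup V] [Module F V]
    [FiniteDimensional F V] (Q : QuadraticForm F V)
    (hQ : (QuadraticMap.polarBilin Q).Nondegenerate) (hV : Module.finrank F V = 2)
    (hani : ∀ v, Q v = 0 → v = 0) (a b : F)
    (hab : ∀ z₁ z₂ : F, z₁ ^ 2 + a * z₁ * z₂ + b * z₂ ^ 2 = 0 → z₁ = 0 ∧ z₂ = 0) :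
    ∃ x y, Q x = 1 ∧ QuadraticMap.polar ⇑Q x y = a ∧ Q y = b := by
  rcases exists_hyp_family 0 Q hQ (by rw [hV]) with
    ⟨e, f, h1, h2, h3⟩ | ⟨e, f, x, y, ζ, hζ, h1, h2, h3, h4, hx, hxy, hy⟩
  · exfalso
    have h5 := hani (e 0) (h1 0).1
    have h6 := h2 0 0
    rw [h5, if_pos rfl] at h6
    simp [QuadraticMap.polar] at h6
  · obtain ⟨α, β, hαβ, hαβ'⟩ := aniso_param ζ hζ a b hab
    refine ⟨x, α • x + β • y, hx, ?_, ?_⟩
    · rw [QuadraticMap.polar_add_right, QuadraticMap.polar_smul_right,
        QuadraticMap.polar_smul_right, QuadraticMap.polar_self, hx, hxy]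
      simp only [smul_eq_mul, nsmul_eq_mul]
      linear_combination hαβ
    · rw [QuadraticMap.map_add ⇑Q, QuadraticMap.map_smul, QuadraticMap.map_smul,
        QuadraticMap.polar_smul_left, QuadraticMap.polar_smul_right, hx, hy, hxy]
      simp only [smul_eq_mul]
      linear_combination hαβ'

theorem orth_sum_polar {F V V₁ V₂ : Type*} [Field F] [AddCommGroup V] [Module F V]
    [AddCommGroup V₁] [Module F V₁] [AddCommGroup V₂] [Module F V₂]
    (Q : QuadraticForm F V) (Q₁ : QuadraticForm F V₁) (Q₂ : QuadraticForm F V₂)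
    (j₁ : V₁ →ₗ[F] V) (j₂ : V₂ →ₗ[F] V)
    (h : ∀ u x, Q (j₁ u + j₂ x) = Q₁ u + Q₂ x) :
    (∀ u, Q (j₁ u) = Q₁ u) ∧ (∀ x, Q (j₂ x) = Q₂ x) ∧
    (∀ u u', QuadraticMap.polar ⇑Q (j₁ u) (j₁ u') = QuadraticMap.polar ⇑Q₁ u u') ∧
    (∀ x x', QuadraticMap.polar ⇑Q (j₂ x) (j₂ x') = QuadraticMap.polar ⇑Q₂ x x') ∧
    (∀ u x, QuadraticMap.polar ⇑Q (j₁ u) (j₂ x) = 0) := by
  have e1 : ∀ u, Q (j₁ u) = Q₁ u := fun u => by
    have h5 := h u 0
    rw [map_zero, add_zero, QuadraticMap.map_zero, add_zero] at h5
    exact h5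
  have e2 : ∀ x, Q (j₂ x) = Q₂ x := fun x => by
    have h5 := h 0 x
    rw [map_zero, zero_add, QuadraticMap.map_zero, zero_add] at h5
    exact h5
  refine ⟨e1, e2, ?_, ?_, ?_⟩
  · intro u u'
    unfold QuadraticMap.polar
    rw [← map_add, e1, e1, e1]
  · intro x x'
    unfold QuadraticMap.polar
    rw [← map_add, e2, e2, e2]
  · intro u x
    unfold QuadraticMap.polar
    rw [h, e1, e2]
    ring

theorem herm_hyp_family {F K : Type*} [Field F] [Fintype F] [Field K] [Fintype K]
    [Algebra F K] (hK : Fintype.card K = Fintype.card F ^ 2) (n : ℕ)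
    (Q : QuadraticForm F (Fin (n + n) → K))
    (hQ : ∀ v, algebraMap F K (Q v) = ∑ i, v i * FiniteField.frobeniusAlgHom F K (v i))
    (hQnd : (QuadraticMap.polarBilin Q).Nondegenerate) :
    ∃ e f : Fin (n + n) → (Fin (n + n) → K), (∀ i, Q (e i) = 0 ∧ Q (f i) = 0) ∧
      (∀ i j, QuadraticMap.polar ⇑Q (e i) (f j) = if i = j then 1 else 0) ∧
      (∀ i j, QuadraticMap.polar ⇑Q (e i) (e j) = 0
        ∧ QuadraticMap.polar ⇑Q (f i) (f j) = 0) := by
  classical
  rcases Nat.eq_zero_or_pos n with rfl | hn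
  · exact ⟨fun i => absurd i.2 (by omega), fun i => absurd i.2 (by omega),
      fun i => absurd i.2 (by omega), fun i => absurd i.2 (by omega),
      fun i => absurd i.2 (by omega)⟩
  obtain ⟨k, hk⟩ : ∃ k, n + n = k + 1 := ⟨n + n - 1, by omega⟩
  have h2 : Module.finrank F K = 2 := finrank_eq_two_of_card_sq hK
  obtain ⟨σ, hσ⟩ : ∃ σ : K →ₐ[F] K, σ = FiniteField.frobeniusAlgHom F K := ⟨_, rfl⟩
  rw [← hσ] at hQ
  have hinj : Function.Injective (algebraMap F K) := (algebraMap F K).injective
  have hfin : Module.finrank F (Fin (n + n) → K) = 2 * k + 2 := by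
    rw [Module.finrank_pi_fintype F]
    simp [h2]
    omega
  obtain ⟨c, hc⟩ := FiniteField.norm_surjective F K (-1)
  have hc' : c * σ c = -1 := by
    rw [hσ, mul_frob_eq_norm hK, hc]
    simp
  let j : (Fin n → K) →ₗ[F] (Fin (n + n) → K) :=
    { toFun := fun x => Fin.append x (c • x)
      map_add' := by
        intro x y
        funext i
        show Fin.append (x + y) (c • (x + y)) i
          = Fin.append x (c • x) i + Fin.append y (c • y) i
        induction i using Fin.addCases with
        | left i =>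
          rw [Fin.append_left, Fin.append_left, Fin.append_left]
          rfl
        | right i =>
          rw [Fin.append_right, Fin.append_right, Fin.append_right]
          simp [mul_add]
      map_smul' := by
        intro r x
        funext i
        show Fin.append (r • x) (c • (r • x)) i = r • Fin.append x (c • x) i
        induction i using Fin.addCases with
        | left i =>
          rw [Fin.append_left, Fin.append_left]
          rfl
        | right i =>
          rw [Fin.append_right, Fin.append_right]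
          simp }
  have hjapp : ∀ x, j x = Fin.append x (c • x) := fun x => rfl
  have hj : Function.Injective j := by
    intro x y hxy
    funext i
    have h3 := congrFun hxy (Fin.castAdd n i)
    rw [hjapp, hjapp, Fin.append_left, Fin.append_left] at h3
    exact h3
  have hsing : ∀ x, Q (j x) = 0 := by
    intro x
    apply hinj
    rw [hQ, map_zero, hjapp, Fin.sum_univ_add]
    simp only [Fin.append_left, Fin.append_right, Pi.smul_apply, smul_eq_mul, map_mul]
    rw [← Finset.sum_add_distrib]
    apply Finset.sum_eq_zero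
    intro i _
    linear_combination (x i * σ (x i)) * hc'
  have hU : Module.finrank F (Fin n → K) = k + 1 := by
    rw [Module.finrank_pi_fintype F]
    simp [h2]
    omega
  obtain ⟨e, f, h1, h2', h3⟩ := hyp_family_of_singular k Q hQnd hfin j hj hU hsing
  refine ⟨fun i => e (Fin.cast hk i), fun i => f (Fin.cast hk i), fun i => h1 _,
    fun i j => ?_, fun i j => h3 _ _⟩
  rw [h2']
  simp only [Fin.cast_inj]

end Cfsg.Agent.Helper15
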