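import Mathlib
import Cfsg.Agent.Helper15.TILinesSp

set_option autoImplicit false

namespace Cfsg.Agent.Helper15

/-- The number of vectors orthogonal to a linearly independent family. -/
theorem alt_perp_card {F : Type*} [Field F] [Fintype F] {q : ℕ} (hF : Fintype.card F = q)
    {V : Type*} [AddCommGroup V] [Module F V] [FiniteDimensional F V]
    (ω : LinearMap.BilinForm F V) (hnd : ω.Nondegenerate) {k : ℕ} (b : Fin k → V)
    (hb : LinearIndependent F b) :
    Nat.card {v : V // ∀ i, ω (b i) v = 0} = q ^ (Module.finrank F V - k) := by
  classical
  have hmem : ∀ v : V, (∀ i, ω (b i) v = 0)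
      ↔ v ∈ ω.orthogonal (Submodule.span F (Set.range b)) := by
    intro v
    rw [LinearMap.BilinForm.mem_orthogonal_iff]
    constructor
    · intro h n hn
      have h1 : Submodule.span F (Set.range b) ≤ LinearMap.ker (ω.flip v) := by
        rw [Submodule.span_le]
        rintro _ ⟨i, rfl⟩
        exact h i
      exact h1 hn
    · intro h i
      exact h _ (Submodule.subset_span (Set.mem_range_self i))
  rw [Nat.card_congr (Equiv.subtypeEquivRight hmem)]
  have h1 : Nat.card ↥(ω.orthogonal (Submodule.span F (Set.range b)))
      = Nat.card F ^ Module.finrank F ↥(ω.orthogonal (Submodule.span F (Set.range b))) :=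
    Module.natCard_eq_pow_finrank
  rw [h1, LinearMap.BilinForm.finrank_orthogonal hnd, finrank_span_eq_card hb, Fintype.card_fin,
    Nat.card_eq_fintype_card, hF]

/-- The number of totally isotropic linearly independent `k`-tuples for a nondegenerate
alternating form. -/
theorem card_iso_frames {F : Type*} [Field F] [Fintype F] {q : ℕ} (hF : Fintype.card F = q)
    {V : Type*} [AddCommGroup V] [Module F V] [FiniteDimensional F V]
    (ω : LinearMap.BilinForm F V) (halt : ∀ x, ω x x = 0) (hnd : ω.Nondegenerate) (k : ℕ) :
    Nat.card {b : Fin k → V // LinearIndependent F b ∧ ∀ i j, ω (b i) (b j) = 0}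
      = ∏ i : Fin k, (q ^ (Module.finrank F V - (i : ℕ)) - q ^ (i : ℕ)) := by
  classical
  haveI : Finite V := Module.finite_of_finite F
  have hskew : ∀ x y, ω y x = -ω x y := by
    intro x y
    have h1 := halt (x + y)
    simp only [map_add, LinearMap.add_apply, halt, zero_add, add_zero] at h1
    linear_combination h1
  induction k with
  | zero =>
    rw [Finset.univ_eq_empty, Finset.prod_empty]
    haveI : Unique {b : Fin 0 → V // LinearIndependent F b ∧ ∀ i j, ω (b i) (b j) = 0} :=
      { default := ⟨fun i => i.elim0, linearIndependent_empty_type, fun i => i.elim0⟩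
        uniq := fun b => Subtype.ext (funext fun i => i.elim0) }
    exact Nat.card_unique
  | succ k ih =>
    haveI : Fintype {b : Fin k → V // LinearIndependent F b ∧ ∀ i j, ω (b i) (b j) = 0} :=
      Fintype.ofFinite _
    let f : {b : Fin (k + 1) → V // LinearIndependent F b ∧ ∀ i j, ω (b i) (b j) = 0} →
        {b : Fin k → V // LinearIndependent F b ∧ ∀ i j, ω (b i) (b j) = 0} :=
      fun b => ⟨Fin.init b.1, (linearIndependent_finSucc'.1 b.2.1).1,
        fun i j => b.2.2 (Fin.castSucc i) (Fin.castSucc j)⟩
    have hfiber : ∀ b : {b : Fin k → V // LinearIndependent F b ∧ ∀ i j, ω (b i) (b j) = 0},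
        Nat.card {b' : {b : Fin (k + 1) → V // LinearIndependent F b ∧ ∀ i j, ω (b i) (b j) = 0}
          // f b' = b} = q ^ (Module.finrank F V - k) - q ^ k := by
      intro b
      let E : {b' : {b : Fin (k + 1) → V // LinearIndependent F b ∧ ∀ i j, ω (b i) (b j) = 0}
          // f b' = b}
          ≃ {v : V // (∀ i, ω (b.1 i) v = 0) ∧ v ∉ Submodule.span F (Set.range b.1)} :=
        { toFun := fun b' => ⟨b'.1.1 (Fin.last k), by
            have h1 : Fin.init b'.1.1 = b.1 := congrArg Subtype.val b'.2
            constructor
            · intro i
              rw [← h1]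
              exact b'.1.2.2 (Fin.castSucc i) (Fin.last k)
            · rw [← h1]
              exact (linearIndependent_finSucc'.1 b'.1.2.1).2⟩
          invFun := fun v => ⟨⟨Fin.snoc b.1 v.1, linearIndependent_finSnoc.2 ⟨b.2.1, v.2.2⟩, by
            intro i j
            induction i using Fin.lastCases with
            | last =>
              induction j using Fin.lastCases with
              | last => exact halt _
              | cast j =>
                rw [Fin.snoc_last, Fin.snoc_castSucc, hskew, v.2.1 j, neg_zero]
            | cast i =>
              induction j using Fin.lastCases with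
              | last =>
                rw [Fin.snoc_last, Fin.snoc_castSucc, v.2.1 i]
              | cast j =>
                rw [Fin.snoc_castSucc, Fin.snoc_castSucc]
                exact b.2.2 i j⟩, Subtype.ext (by
                  show Fin.init (Fin.snoc b.1 v.1 : Fin (k + 1) → V) = b.1
                  exact Fin.init_snoc _ _)⟩
          left_inv := by
            intro b'
            apply Subtype.ext
            apply Subtype.ext
            have h1 : Fin.init b'.1.1 = b.1 := congrArg Subtype.val b'.2
            show Fin.snoc b.1 (b'.1.1 (Fin.last k)) = b'.1.1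
            rw [← h1, Fin.snoc_init_self]
          right_inv := by
            intro v
            apply Subtype.ext
            show (Fin.snoc b.1 v.1 : Fin (k + 1) → V) (Fin.last k) = v.1
            rw [Fin.snoc_last] }
      rw [Nat.card_congr E]
      have h1 : Nat.card {v : V // (∀ i, ω (b.1 i) v = 0) ∧ v ∉ Submodule.span F (Set.range b.1)}
          = Nat.card {p : {v : V // ∀ i, ω (b.1 i) v = 0}
              // ¬ (p.1 ∈ Submodule.span F (Set.range b.1))} :=
        Nat.card_congr
          { toFun := fun v => ⟨⟨v.1, v.2.1⟩, v.2.2⟩
            invFun := fun p => ⟨p.1.1, p.1.2, p.2⟩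
            left_inv := fun v => rfl
            right_inv := fun p => rfl }
      have h2 : Nat.card {p : {v : V // ∀ i, ω (b.1 i) v = 0}
          // p.1 ∈ Submodule.span F (Set.range b.1)} = q ^ k := by
        have h3 : Nat.card {p : {v : V // ∀ i, ω (b.1 i) v = 0}
            // p.1 ∈ Submodule.span F (Set.range b.1)}
            = Nat.card ↥(Submodule.span F (Set.range b.1)) :=
          Nat.card_congr
            { toFun := fun p => ⟨p.1.1, p.2⟩
              invFun := fun s => ⟨⟨s.1, fun i =>
                bilin_span_isotropic ω b.1 b.2.2 _
                  (Submodule.subset_span (Set.mem_range_self i)) _ s.2⟩, s.2⟩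
              left_inv := fun p => rfl
              right_inv := fun s => rfl }
        have h4 : Nat.card ↥(Submodule.span F (Set.range b.1))
            = Nat.card F ^ Module.finrank F ↥(Submodule.span F (Set.range b.1)) :=
          Module.natCard_eq_pow_finrank
        rw [h3, h4, finrank_span_eq_card b.2.1, Fintype.card_fin, Nat.card_eq_fintype_card, hF]
      rw [h1, card_compl_sub, alt_perp_card hF ω hnd b.1 b.2.1, h2]
    rw [← Nat.card_congr (Equiv.sigmaFiberEquiv f), Nat.card_sigma,
      Finset.sum_congr rfl (fun b _ => hfiber b), Finset.sum_const, Finset.card_univ,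
      smul_eq_mul, ← Nat.card_eq_fintype_card, ih, Fin.prod_univ_castSucc]
    simp only [Fin.val_castSucc, Fin.val_last]

end Cfsg.Agent.Helper15
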