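import Mathlib
import Cfsg.Agent.Helper15.Jord1

set_option autoImplicit false

namespace Cfsg.Agent.Helper15
open Polynomial

universe u

theorem cyc_model {F : Type u} [Field F] (e : ℕ) (he : 1 ≤ e) :
    ∃ (V : Type u) (_ : AddCommGroup V) (_ : Module F V) (_ : FiniteDimensional F V)
      (N : V →ₗ[F] V), N ^ e = 0 ∧ Module.finrank F V = e ∧
      ∀ k, Module.finrank F (LinearMap.ker (N ^ k)) = min e k := by
  classical
  have hmon : (X ^ e : F[X]).Monic := monic_X_pow e
  haveI : Module.Finite F (AdjoinRoot (X ^ e : F[X])) := hmon.finite_adjoinRoot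
  have hN : ∀ (f : F[X]) (x : AdjoinRoot (X ^ e : F[X])),
      aeval (Algebra.lmul F (AdjoinRoot (X ^ e : F[X])) (AdjoinRoot.root (X ^ e : F[X]))) f x
        = AdjoinRoot.mk (X ^ e : F[X]) f * x := by
    intro f x
    have h1 : aeval (Algebra.lmul F (AdjoinRoot (X ^ e : F[X])) (AdjoinRoot.root (X ^ e : F[X]))) f
        = Algebra.lmul F (AdjoinRoot (X ^ e : F[X])) (aeval (AdjoinRoot.root (X ^ e : F[X])) f) :=
      Polynomial.aeval_algHom_apply (Algebra.lmul F (AdjoinRoot (X ^ e : F[X]))) _ f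
    rw [h1, AdjoinRoot.aeval_eq]
    rfl
  have hpow : ∀ (j : ℕ) (x : AdjoinRoot (X ^ e : F[X])),
      ((Algebra.lmul F (AdjoinRoot (X ^ e : F[X])) (AdjoinRoot.root (X ^ e : F[X]))) ^ j) x
        = AdjoinRoot.mk (X ^ e : F[X]) (X ^ j) * x := by
    intro j x
    rw [← hN, map_pow, aeval_X]
  have hk := cyclic_kappa (Algebra.lmul F (AdjoinRoot (X ^ e : F[X])) (AdjoinRoot.root (X ^ e : F[X])))
    (1 : AdjoinRoot (X ^ e : F[X])) e he (by
      intro x
      obtain ⟨f, rfl⟩ := AdjoinRoot.mk_surjective x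
      exact ⟨f, by rw [hN, mul_one]⟩) (by
      rw [hpow, AdjoinRoot.mk_self, zero_mul]) (by
      rw [hpow, mul_one]
      intro h0
      rw [AdjoinRoot.mk_eq_zero] at h0
      have h2 := Polynomial.natDegree_le_of_dvd h0 (pow_ne_zero _ X_ne_zero)
      rw [natDegree_X_pow, natDegree_X_pow] at h2
      omega)
  have h0 : (Algebra.lmul F (AdjoinRoot (X ^ e : F[X])) (AdjoinRoot.root (X ^ e : F[X]))) ^ e = 0 := by
    apply LinearMap.ext
    intro x
    rw [hpow, AdjoinRoot.mk_self, zero_mul]
    rfl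
  refine ⟨AdjoinRoot (X ^ e : F[X]), inferInstance, inferInstance, inferInstance,
    Algebra.lmul F (AdjoinRoot (X ^ e : F[X])) (AdjoinRoot.root (X ^ e : F[X])), h0, ?_, hk⟩
  have h1 := hk e
  rw [h0, LinearMap.ker_zero, finrank_top, min_self] at h1
  exact h1

theorem nil_model {F : Type u} [Field F] (s : Multiset ℕ) (hs : ∀ a ∈ s, 1 ≤ a) :
    ∃ (V : Type u) (_ : AddCommGroup V) (_ : Module F V) (_ : FiniteDimensional F V)
      (N : V →ₗ[F] V), (∃ r, N ^ r = 0) ∧ Module.finrank F V = s.sum ∧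
      ∀ k, Module.finrank F (LinearMap.ker (N ^ k)) = (s.map (fun a => min a k)).sum := by
  induction s using Multiset.induction_on with
  | empty =>
    refine ⟨PUnit, inferInstance, inferInstance, inferInstance, 0, ⟨1, by rw [pow_one]⟩, ?_, ?_⟩
    · rw [Multiset.sum_zero]
      exact Module.finrank_zero_of_subsingleton
    · intro k
      rw [Multiset.map_zero, Multiset.sum_zero]
      exact Module.finrank_zero_of_subsingleton
  | cons a s ih =>
    obtain ⟨V₂, i1, i2, i3, N₂, ⟨r₂, hr₂⟩, hd₂, hk₂⟩ :=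
      ih (fun b hb => hs b (Multiset.mem_cons_of_mem hb))
    obtain ⟨V₁, j1, j2, j3, N₁, hN₁, hd₁, hk₁⟩ :=
      cyc_model (F := F) a (hs a (Multiset.mem_cons_self a s))
    refine ⟨V₁ × V₂, inferInstance, inferInstance, inferInstance, N₁.prodMap N₂,
      ⟨a + r₂, ?_⟩, ?_, ?_⟩
    · rw [prodMap_pow', pow_add, hN₁, zero_mul, pow_add, hr₂, mul_zero, LinearMap.prodMap_zero]
    · rw [Module.finrank_prod, hd₁, hd₂, Multiset.sum_cons]
    · intro k
      rw [prodMap_pow', finrank_ker_prodMap, hk₁, hk₂, Multiset.map_cons, Multiset.sum_cons]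

theorem nil_matrix {F : Type u} [Field F] (n : ℕ) (s : Multiset ℕ) (hs : ∀ a ∈ s, 1 ≤ a)
    (hsum : s.sum = n) :
    ∃ N : (Fin n → F) →ₗ[F] (Fin n → F), (∃ r, N ^ r = 0) ∧
      ∀ k, Module.finrank F (LinearMap.ker (N ^ k)) = (s.map (fun a => min a k)).sum := by
  obtain ⟨V, i1, i2, i3, N, ⟨r, hr⟩, hd, hk⟩ := nil_model (F := F) s hs
  have hfr : Module.finrank F V = Module.finrank F (Fin n → F) := by
    rw [hd, hsum, Module.finrank_fin_fun]
  obtain ⟨T⟩ : Nonempty (V ≃ₗ[F] (Fin n → F)) := FiniteDimensional.nonempty_linearEquiv_of_finrank_eq hfr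
  have hT : ∀ v, T (N v) = (T.conj N) (T v) := by
    intro v
    rw [LinearEquiv.conj_apply]
    simp
  refine ⟨T.conj N, ⟨r, ?_⟩, ?_⟩
  · exact (pow_zero_iff_ker (T.conj N) r).2 (by
      rw [← kappa_conj N (T.conj N) T hT r, (pow_zero_iff_ker N r).1 hr, hfr])
  · intro k
    rw [← kappa_conj N (T.conj N) T hT k, hk k]

theorem kappa_step (s : Multiset ℕ) (k : ℕ) :
    (s.map (fun a => min a (k + 1))).sum
      = (s.map (fun a => min a k)).sum + s.countP (fun a => k + 1 ≤ a) := by
  induction s using Multiset.induction_on with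
  | empty => simp
  | cons a s ih =>
    rw [Multiset.map_cons, Multiset.sum_cons, Multiset.map_cons, Multiset.sum_cons,
      Multiset.countP_cons, ih]
    split_ifs with h <;> omega

theorem countP_step (s : Multiset ℕ) (a : ℕ) :
    s.countP (fun b => a ≤ b) = s.count a + s.countP (fun b => a + 1 ≤ b) := by
  induction s using Multiset.induction_on with
  | empty => simp
  | cons b s ih =>
    rw [Multiset.countP_cons, Multiset.countP_cons, Multiset.count_cons, ih]
    split_ifs <;> omega

theorem kappa_inj (s t : Multiset ℕ) (hs : ∀ a ∈ s, 1 ≤ a) (ht : ∀ a ∈ t, 1 ≤ a)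
    (h : ∀ k, (s.map (fun a => min a k)).sum = (t.map (fun a => min a k)).sum) : s = t := by
  have hc : ∀ k, s.countP (fun a => k + 1 ≤ a) = t.countP (fun a => k + 1 ≤ a) := by
    intro k
    have h1 := kappa_step s k
    have h2 := kappa_step t k
    have h3 := h k
    have h4 := h (k + 1)
    omega
  ext a
  rcases Nat.eq_zero_or_pos a with rfl | ha
  · rw [Multiset.count_eq_zero_of_notMem, Multiset.count_eq_zero_of_notMem]
    · intro h0; exact absurd (ht 0 h0) (by norm_num)
    · intro h0; exact absurd (hs 0 h0) (by norm_num)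
  · obtain ⟨b, rfl⟩ : ∃ b, a = b + 1 := ⟨a - 1, by omega⟩
    have h1 := countP_step s (b + 1)
    have h2 := countP_step t (b + 1)
    have h3 := hc b
    have h4 := hc (b + 1)
    omega

theorem sum_min_eq_iff (s : Multiset ℕ) (k : ℕ) :
    (s.map (fun a => min a k)).sum = s.sum ↔ ∀ a ∈ s, a ≤ k := by
  have hle : ∀ t : Multiset ℕ, (t.map (fun a => min a k)).sum ≤ t.sum := by
    intro t
    induction t using Multiset.induction_on with
    | empty => simp
    | cons a t ih =>
      rw [Multiset.map_cons, Multiset.sum_cons, Multiset.sum_cons]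
      omega
  induction s using Multiset.induction_on with
  | empty => simp
  | cons a s ih =>
    rw [Multiset.map_cons, Multiset.sum_cons, Multiset.sum_cons]
    have h1 := hle s
    constructor
    · intro h b hb
      have h2 : (s.map (fun a => min a k)).sum = s.sum := by omega
      rcases Multiset.mem_cons.1 hb with rfl | hb
      · omega
      · exact ih.1 h2 b hb
    · intro h
      have h2 := ih.2 (fun b hb => h b (Multiset.mem_cons_of_mem hb))
      have h3 := h a (Multiset.mem_cons_self a s)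
      omega

end Cfsg.Agent.Helper15
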