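import Mathlib
import Cfsg.Agent.Helper15.Jord2

set_option autoImplicit false

namespace Cfsg.Agent.Helper15
open Polynomial

universe u

noncomputable def nilOf {F : Type u} [Field F] {n : ℕ} (g : Matrix.GeneralLinearGroup (Fin n) F) :
    (Fin n → F) →ₗ[F] (Fin n → F) := Matrix.toLin' (g.val - 1)

theorem nilOf_pow {F : Type u} [Field F] {n : ℕ} (g : Matrix.GeneralLinearGroup (Fin n) F)
    (k : ℕ) : (nilOf g) ^ k = Matrix.toLin' ((g.val - 1) ^ k) := by
  unfold nilOf
  rw [Matrix.toLin'_pow]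

theorem nilOf_pow_zero_iff {F : Type u} [Field F] {n : ℕ}
    (g : Matrix.GeneralLinearGroup (Fin n) F) (k : ℕ) :
    (nilOf g) ^ k = 0 ↔ (g.val - 1) ^ k = 0 := by
  rw [nilOf_pow]
  constructor
  · intro h
    have := congrArg LinearMap.toMatrix' h
    rwa [LinearMap.toMatrix'_toLin', map_zero] at this
  · intro h
    rw [h, map_zero]

theorem gl_pow_p_pow {F : Type u} [Field F] (p : ℕ) [Fact p.Prime] [CharP F p] {n : ℕ}
    (g : Matrix.GeneralLinearGroup (Fin n) F) (k : ℕ) :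
    g ^ (p ^ k) = 1 ↔ (g.val - 1) ^ (p ^ k) = 0 := by
  rcases Nat.eq_zero_or_pos n with hn | hn
  · subst hn
    constructor
    · intro _; exact Subsingleton.elim _ _
    · intro _; exact Units.ext (Subsingleton.elim _ _)
  · haveI : Nonempty (Fin n) := ⟨⟨0, hn⟩⟩
    haveI : CharP (Matrix (Fin n) (Fin n) F) p := inferInstance
    have h0 : (g : Matrix (Fin n) (Fin n) F) = 1 + ((g : Matrix (Fin n) (Fin n) F) - 1) := by abel
    rw [← Units.val_inj, Units.val_pow_eq_pow_val, Units.val_one]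
    nth_rewrite 1 [h0]
    rw [add_pow_char_pow_of_commute p k (Commute.one_left _), one_pow]
    constructor
    · intro h; simpa using h
    · intro h; rw [h, add_zero]

theorem unip_iff {F : Type u} [Field F] (p : ℕ) [Fact p.Prime] [CharP F p] {n : ℕ}
    (g : Matrix.GeneralLinearGroup (Fin n) F) :
    (∃ k : ℕ, orderOf g = p ^ k) ↔ ∃ r, (nilOf g) ^ r = 0 := by
  have hp : p.Prime := Fact.out
  constructor
  · rintro ⟨k, hk⟩
    refine ⟨p ^ k, ?_⟩
    rw [nilOf_pow_zero_iff, ← gl_pow_p_pow p g k, ← hk]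
    exact pow_orderOf_eq_one g
  · rintro ⟨r, hr⟩
    rw [nilOf_pow_zero_iff] at hr
    have h1 : g ^ (p ^ r) = 1 := by
      rw [gl_pow_p_pow p g r]
      obtain ⟨c, hc⟩ := Nat.exists_eq_add_of_le (Nat.lt_pow_self hp.one_lt (n := r)).le
      rw [hc, pow_add, hr, zero_mul]
    obtain ⟨j, _, hj⟩ := (Nat.dvd_prime_pow hp).1 (orderOf_dvd_of_pow_eq_one h1)
    exact ⟨j, hj⟩

theorem gl_conj_iff_nil {F : Type u} [Field F] {n : ℕ}
    (g g' : Matrix.GeneralLinearGroup (Fin n) F) :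
    IsConj g g' ↔ ∃ T : (Fin n → F) ≃ₗ[F] (Fin n → F), ∀ v, T (nilOf g v) = nilOf g' (T v) := by
  constructor
  · intro h
    obtain ⟨c, hc⟩ := isConj_iff.1 h
    have hc' : c.val * g.val = g'.val * c.val := by
      have := congrArg Units.val (mul_inv_eq_iff_eq_mul.1 hc)
      rwa [Units.val_mul, Units.val_mul] at this
    refine ⟨LinearEquiv.ofLinear (Matrix.toLin' c.val) (Matrix.toLin' c⁻¹.val) ?_ ?_, ?_⟩
    · rw [← Matrix.toLin'_mul, ← Units.val_mul, mul_inv_cancel, Units.val_one, Matrix.toLin'_one]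
    · rw [← Matrix.toLin'_mul, ← Units.val_mul, inv_mul_cancel, Units.val_one, Matrix.toLin'_one]
    · intro v
      show Matrix.toLin' c.val (Matrix.toLin' (g.val - 1) v)
        = Matrix.toLin' (g'.val - 1) (Matrix.toLin' c.val v)
      rw [← LinearMap.comp_apply, ← Matrix.toLin'_mul, ← LinearMap.comp_apply,
        ← Matrix.toLin'_mul, Matrix.mul_sub, Matrix.sub_mul, hc', Matrix.mul_one, Matrix.one_mul]
  · rintro ⟨T, hT⟩
    have h1 : T.toLinearMap ∘ₗ Matrix.toLin' (g.val - 1)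
        = Matrix.toLin' (g'.val - 1) ∘ₗ T.toLinearMap := LinearMap.ext hT
    have h2 := congrArg LinearMap.toMatrix' h1
    rw [LinearMap.toMatrix'_comp, LinearMap.toMatrix'_comp, LinearMap.toMatrix'_toLin',
      LinearMap.toMatrix'_toLin', Matrix.mul_sub, Matrix.sub_mul, Matrix.mul_one,
      Matrix.one_mul] at h2
    have h3 : LinearMap.toMatrix' T.toLinearMap * g.val
        = g'.val * LinearMap.toMatrix' T.toLinearMap := by
      have := congrArg (· + LinearMap.toMatrix' T.toLinearMap) h2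
      simpa using this
    refine isConj_iff.2 ⟨⟨LinearMap.toMatrix' T.toLinearMap,
      LinearMap.toMatrix' T.symm.toLinearMap, ?_, ?_⟩, mul_inv_eq_iff_eq_mul.2 (Units.ext h3)⟩
    · rw [← LinearMap.toMatrix'_comp]
      have : T.toLinearMap ∘ₗ T.symm.toLinearMap = LinearMap.id :=
        LinearMap.ext fun x => T.apply_symm_apply x
      rw [this, LinearMap.toMatrix'_id]
    · rw [← LinearMap.toMatrix'_comp]
      have : T.symm.toLinearMap ∘ₗ T.toLinearMap = LinearMap.id :=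
        LinearMap.ext fun x => T.symm_apply_apply x
      rw [this, LinearMap.toMatrix'_id]

theorem unip_class_equiv {F : Type u} [Field F] (p : ℕ) [Fact p.Prime] [CharP F p] (n : ℕ) :
    ∃ Ψ : {C : ConjClasses (Matrix.GeneralLinearGroup (Fin n) F) //
        ∃ g : Matrix.GeneralLinearGroup (Fin n) F,
          (∃ k : ℕ, orderOf g = p ^ k) ∧ ConjClasses.mk g = C} ≃ Nat.Partition n,
      ∀ C (g : Matrix.GeneralLinearGroup (Fin n) F), ConjClasses.mk g = C.1 →
        ∀ k, Module.finrank F (LinearMap.ker ((nilOf g) ^ k))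
          = ((Ψ C).parts.map (fun a => min a k)).sum := by
  classical
  have htype : ∀ g : Matrix.GeneralLinearGroup (Fin n) F, (∃ k : ℕ, orderOf g = p ^ k) →
      ∃ μ : Nat.Partition n, ∀ k, Module.finrank F (LinearMap.ker ((nilOf g) ^ k))
        = (μ.parts.map (fun a => min a k)).sum := by
    intro g hg
    obtain ⟨s, hs1, hs2, hs3⟩ := nil_type_exists n (Fin n → F) (nilOf g)
      (Module.finrank_fin_fun F) ((unip_iff p g).1 hg)
    exact ⟨⟨s, fun {i} hi => hs1 i hi, hs2⟩, hs3⟩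
  have hΨ : ∀ C : {C : ConjClasses (Matrix.GeneralLinearGroup (Fin n) F) //
        ∃ g : Matrix.GeneralLinearGroup (Fin n) F,
          (∃ k : ℕ, orderOf g = p ^ k) ∧ ConjClasses.mk g = C},
      ∃ μ : Nat.Partition n, ∀ g : Matrix.GeneralLinearGroup (Fin n) F,
        ConjClasses.mk g = C.1 → ∀ k, Module.finrank F (LinearMap.ker ((nilOf g) ^ k))
          = (μ.parts.map (fun a => min a k)).sum := by
    rintro ⟨C, g₀, hg₀, hC⟩
    obtain ⟨μ, hμ⟩ := htype g₀ hg₀
    refine ⟨μ, ?_⟩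
    intro g hg k
    have hconj : IsConj g₀ g := ConjClasses.mk_eq_mk_iff_isConj.1 (hC.trans hg.symm)
    obtain ⟨T, hT⟩ := (gl_conj_iff_nil g₀ g).1 hconj
    rw [← kappa_conj (nilOf g₀) (nilOf g) T hT k, hμ k]
  choose Ψ₀ hΨ₀ using hΨ
  have hinj : Function.Injective Ψ₀ := by
    rintro ⟨C, g, hg, hC⟩ ⟨C', g', hg', hC'⟩ heq
    apply Subtype.ext
    show C = C'
    rw [← hC, ← hC']
    apply ConjClasses.mk_eq_mk_iff_isConj.2
    apply (gl_conj_iff_nil g g').2
    apply nil_conj_aux n (Fin n → F) (Fin n → F) (nilOf g) (nilOf g')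
      (Module.finrank_fin_fun F) ((unip_iff p g).1 hg) ((unip_iff p g').1 hg')
    intro k
    rw [hΨ₀ ⟨C, g, hg, hC⟩ g hC k, hΨ₀ ⟨C', g', hg', hC'⟩ g' hC' k, heq]
  have hsurj : Function.Surjective Ψ₀ := by
    intro μ
    obtain ⟨N, ⟨r, hr⟩, hk⟩ := nil_matrix (F := F) n μ.parts
      (fun a ha => μ.parts_pos ha) μ.parts_sum
    have hnilM : IsNilpotent (LinearMap.toMatrix' N) := by
      refine ⟨r, ?_⟩
      apply Matrix.toLin'.injective
      rw [Matrix.toLin'_pow, Matrix.toLin'_toMatrix', hr, map_zero]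
    obtain ⟨g, hg⟩ := hnilM.isUnit_one_add
    have hgN : nilOf g = N := by
      unfold nilOf
      rw [hg, add_sub_cancel_left, Matrix.toLin'_toMatrix']
    have hunip : ∃ k : ℕ, orderOf g = p ^ k := (unip_iff p g).2 ⟨r, by rw [hgN]; exact hr⟩
    refine ⟨⟨ConjClasses.mk g, g, hunip, rfl⟩, ?_⟩
    apply Nat.Partition.ext
    apply kappa_inj _ _ (fun a ha => (Ψ₀ _).parts_pos ha) (fun a ha => μ.parts_pos ha)
    intro k
    rw [← hΨ₀ ⟨ConjClasses.mk g, g, hunip, rfl⟩ g rfl k, hgN, hk k]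
  exact ⟨Equiv.ofBijective Ψ₀ ⟨hinj, hsurj⟩, fun C g hg k => hΨ₀ C g hg k⟩

theorem order_p_iff {F : Type u} [Field F] (p : ℕ) [Fact p.Prime] [CharP F p] (n : ℕ)
    (g : Matrix.GeneralLinearGroup (Fin n) F) (μ : Nat.Partition n)
    (hμ : ∀ k, Module.finrank F (LinearMap.ker ((nilOf g) ^ k))
      = (μ.parts.map (fun a => min a k)).sum) :
    orderOf g = p ↔ (∀ a ∈ μ.parts, a ≤ p) ∧ ¬ ∀ a ∈ μ.parts, a ≤ 1 := by
  haveI hp : Fact p.Prime := inferInstance
  have hfin : Module.finrank F (Fin n → F) = μ.parts.sum := by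
    rw [Module.finrank_fin_fun, μ.parts_sum]
  have hz : ∀ k, (nilOf g) ^ k = 0 ↔ ∀ a ∈ μ.parts, a ≤ k := by
    intro k
    rw [pow_zero_iff_ker, hμ k, hfin, sum_min_eq_iff]
  rw [orderOf_eq_prime_iff, ← hz p, ← hz 1]
  have h1 : g ^ p = 1 ↔ (nilOf g) ^ p = 0 := by
    have := gl_pow_p_pow p g 1
    rw [pow_one] at this
    rw [this, nilOf_pow_zero_iff]
  have h2 : g = 1 ↔ (nilOf g) ^ 1 = 0 := by
    rw [nilOf_pow_zero_iff, pow_one, sub_eq_zero]
    constructor
    · intro h; rw [h]; rfl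
    · intro h; exact Units.ext h
  rw [h1, Ne, h2]

theorem partition_count (n p : ℕ) (hp : 1 ≤ p)
    (inst : DecidablePred (fun μ : Nat.Partition n => ∀ a ∈ μ.parts, a ≤ p)) :
    Nat.card {μ : Nat.Partition n // (∀ a ∈ μ.parts, a ≤ p) ∧ ¬ ∀ a ∈ μ.parts, a ≤ 1}
      = (@Finset.filter _ (fun μ : Nat.Partition n => ∀ a ∈ μ.parts, a ≤ p) inst
          Finset.univ).card - 1 := by
  classical
  have hones : (⟨Multiset.replicate n 1, fun {i} hi => by
        rw [Multiset.eq_of_mem_replicate hi]; exact Nat.one_pos, by simp⟩ : Nat.Partition n)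
      ∈ @Finset.filter _ (fun μ : Nat.Partition n => ∀ a ∈ μ.parts, a ≤ p) inst Finset.univ := by
    rw [Finset.mem_filter]
    refine ⟨Finset.mem_univ _, ?_⟩
    intro a ha
    rw [Multiset.eq_of_mem_replicate ha]
    exact hp
  rw [← Finset.card_erase_of_mem hones, Nat.card_eq_fintype_card, Fintype.card_subtype]
  congr 1
  ext μ
  simp only [Finset.mem_filter, Finset.mem_erase, Finset.mem_univ, true_and]
  constructor
  · rintro ⟨h1, h2⟩
    refine ⟨?_, h1⟩
    intro heq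
    apply h2
    intro a ha
    rw [heq] at ha
    rw [Multiset.eq_of_mem_replicate ha]
  · rintro ⟨h1, h2⟩
    refine ⟨h2, ?_⟩
    intro h3
    apply h1
    apply Nat.Partition.ext
    have h4 : μ.parts = Multiset.replicate (Multiset.card μ.parts) 1 := by
      rw [Multiset.eq_replicate_card]
      intro a ha
      have := h3 a ha
      have := μ.parts_pos ha
      omega
    have h5 := μ.parts_sum
    rw [h4, Multiset.sum_replicate, smul_eq_mul, mul_one] at h5
    rw [h4, h5]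

theorem gl_order_p_class_count {F : Type u} [Field F] (p : ℕ) [Fact p.Prime] [CharP F p]
    (n : ℕ) (inst : DecidablePred (fun μ : Nat.Partition n => ∀ a ∈ μ.parts, a ≤ p)) :
    Nat.card {C : ConjClasses (Matrix.GeneralLinearGroup (Fin n) F) //
        ∃ g : Matrix.GeneralLinearGroup (Fin n) F, ConjClasses.mk g = C ∧ orderOf g = p}
      = (@Finset.filter _ (fun μ : Nat.Partition n => ∀ a ∈ μ.parts, a ≤ p) inst
          Finset.univ).card - 1 := by
  classical
  have hp : p.Prime := Fact.out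
  obtain ⟨Ψ, hΨ⟩ := unip_class_equiv (F := F) p n
  have hf : ∀ C : {C : ConjClasses (Matrix.GeneralLinearGroup (Fin n) F) //
        ∃ g : Matrix.GeneralLinearGroup (Fin n) F, ConjClasses.mk g = C ∧ orderOf g = p},
      ∃ g : Matrix.GeneralLinearGroup (Fin n) F,
        (∃ k : ℕ, orderOf g = p ^ k) ∧ ConjClasses.mk g = C.1 := by
    rintro ⟨C, g, h1, h2⟩
    exact ⟨g, ⟨1, by rw [pow_one]; exact h2⟩, h1⟩
  have hQ : ∀ C : {C : ConjClasses (Matrix.GeneralLinearGroup (Fin n) F) //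
        ∃ g : Matrix.GeneralLinearGroup (Fin n) F, ConjClasses.mk g = C ∧ orderOf g = p},
      (∀ a ∈ (Ψ ⟨C.1, hf C⟩).parts, a ≤ p) ∧ ¬ ∀ a ∈ (Ψ ⟨C.1, hf C⟩).parts, a ≤ 1 := by
    rintro ⟨C, g, h1, h2⟩
    exact (order_p_iff p n g _ (hΨ ⟨C, _⟩ g h1)).1 h2
  have hbij : Function.Bijective (fun C : {C : ConjClasses (Matrix.GeneralLinearGroup (Fin n) F) //
        ∃ g : Matrix.GeneralLinearGroup (Fin n) F, ConjClasses.mk g = C ∧ orderOf g = p} =>
      (⟨Ψ ⟨C.1, hf C⟩, hQ C⟩ : {μ : Nat.Partition n //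
        (∀ a ∈ μ.parts, a ≤ p) ∧ ¬ ∀ a ∈ μ.parts, a ≤ 1})) := by
    constructor
    · intro C C' h
      have h1 := congrArg Subtype.val h
      have h2 := Ψ.injective h1
      have h3 := congrArg Subtype.val h2
      exact Subtype.ext h3
    · rintro ⟨μ, hμ⟩
      obtain ⟨g, hg1, hg2⟩ := (Ψ.symm μ).2
      have hord : orderOf g = p := by
        apply (order_p_iff p n g μ ?_).2 hμ
        intro k
        rw [hΨ (Ψ.symm μ) g hg2 k, Equiv.apply_symm_apply]
      refine ⟨⟨(Ψ.symm μ).1, g, hg2, hord⟩, ?_⟩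
      apply Subtype.ext
      show Ψ ⟨(Ψ.symm μ).1, _⟩ = μ
      exact Ψ.apply_symm_apply μ
  exact (Nat.card_congr (Equiv.ofBijective _ hbij)).trans (partition_count n p hp.one_lt.le inst)

end Cfsg.Agent.Helper15
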