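import Mathlib
import Cfsg.Agent.Helper15.SpSemi3
import Cfsg.Agent.Helper15.Jord1
import Cfsg.Agent.S0750
import Cfsg.Prelude.Def_Classical

set_option autoImplicit false

namespace Cfsg.Agent.Helper15

universe u

section
variable {F : Type u} [Field F] {V : Type u} [AddCommGroup V] [Module F V]
  (Q : QuadraticForm F V) (a : V →ₗ[F] V) (m : ℕ)

theorem os_polar_iso (haQ : ∀ v, Q (a v) = Q v) (u w : V) :
    QuadraticMap.polarBilin Q (a u) (a w) = QuadraticMap.polarBilin Q u w := by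
  show Q (a u + a w) - Q (a u) - Q (a w) = Q (u + w) - Q u - Q w
  rw [← map_add, haQ, haQ, haQ]

theorem os_quad_sub (u w : V) :
    Q (u - w) = Q u + Q w - QuadraticMap.polarBilin Q u w := by
  have h1 : QuadraticMap.polarBilin Q (u - w) w = Q (u - w + w) - Q (u - w) - Q w := rfl
  have h2 : QuadraticMap.polarBilin Q w w = Q w + Q w := by
    show QuadraticMap.polar Q w w = _
    rw [QuadraticMap.polar_self, two_smul]
  rw [map_sub, LinearMap.sub_apply, sub_add_cancel, h2] at h1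
  linear_combination h1

theorem os_polar_self (y : V) : Q y + Q y = QuadraticMap.polarBilin Q y y := by
  show _ = QuadraticMap.polar Q y y
  rw [QuadraticMap.polar_self, two_smul]

theorem os_inv_left (hm : 1 ≤ m) (ha : a ^ m = 1) (x : V) : a ((a ^ (m - 1)) x) = x := by
  have h1 : a * a ^ (m - 1) = 1 := by rw [← pow_succ', Nat.sub_add_cancel hm, ha]
  exact LinearMap.congr_fun h1 x

theorem os_inv_right (hm : 1 ≤ m) (ha : a ^ m = 1) (x : V) : (a ^ (m - 1)) (a x) = x := by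
  have h1 : a ^ (m - 1) * a = 1 := by rw [← pow_succ, Nat.sub_add_cancel hm, ha]
  exact LinearMap.congr_fun h1 x

theorem os_pow_comm (k : ℕ) (y : V) : (a ^ k) (a y) = a ((a ^ k) y) :=
  LinearMap.congr_fun (Commute.pow_self a k).eq y

theorem os_polar_adj (hm : 1 ≤ m) (ha : a ^ m = 1) (haQ : ∀ v, Q (a v) = Q v) (u w : V) :
    QuadraticMap.polarBilin Q (a u) w = QuadraticMap.polarBilin Q u ((a ^ (m - 1)) w) := by
  rw [← os_polar_iso Q a haQ u ((a ^ (m - 1)) w), os_inv_left a m hm ha]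

theorem os_polar_adj' (hm : 1 ≤ m) (ha : a ^ m = 1) (haQ : ∀ v, Q (a v) = Q v) (u w : V) :
    QuadraticMap.polarBilin Q ((a ^ (m - 1)) u) w = QuadraticMap.polarBilin Q u (a w) := by
  rw [← os_polar_iso Q a haQ ((a ^ (m - 1)) u) w, os_inv_left a m hm ha]

theorem os_fix_range_zero (hmF : (m : F) ≠ 0) (ha : a ^ m = 1) (x : V)
    (hx : a (a x - x) = a x - x) : a x - x = 0 := by
  have hgeo : (∑ i ∈ Finset.range m, a ^ i) * (a - 1) = 0 := by rw [geom_sum_mul, ha, sub_self]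
  have hpow : ∀ i : ℕ, (a ^ i) (a x - x) = a x - x := by
    intro i
    induction i with
    | zero => rfl
    | succ i ih => rw [pow_succ, Module.End.mul_apply, hx, ih]
  have h1 : (∑ i ∈ Finset.range m, a ^ i) (a x - x) = (m : F) • (a x - x) := by
    rw [LinearMap.sum_apply, Finset.sum_congr rfl (fun i _ => hpow i), Finset.sum_const,
      Finset.card_range]
    exact (Nat.cast_smul_eq_nsmul F m _).symm
  have h2 : (∑ i ∈ Finset.range m, a ^ i) (a x - x) = 0 := by
    have h3 := LinearMap.congr_fun hgeo x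
    exact h3
  rw [h2] at h1
  exact (smul_eq_zero.1 h1.symm).resolve_left hmF

theorem os_decomp [FiniteDimensional F V] (hmF : (m : F) ≠ 0) (ha : a ^ m = 1) (v : V) :
    ∃ v₁ v₂ : V, a v₁ = v₁ ∧ v₂ ∈ LinearMap.range (a - 1) ∧ v = v₁ + v₂ := by
  have hdisj : Disjoint (LinearMap.ker (a - 1)) (LinearMap.range (a - 1)) := by
    rw [Submodule.disjoint_def]
    rintro u hu ⟨x, rfl⟩
    rw [LinearMap.mem_ker] at hu
    have h2 : a (a x - x) - (a x - x) = 0 := hu
    exact os_fix_range_zero a m hmF ha x (sub_eq_zero.1 h2)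
  have htop := Submodule.eq_top_of_disjoint _ _
    (by rw [add_comm]; exact (LinearMap.finrank_range_add_finrank_ker (a - 1)).ge) hdisj
  have hv : v ∈ LinearMap.ker (a - 1) ⊔ LinearMap.range (a - 1) := by
    rw [htop]
    trivial
  obtain ⟨v₁, hv₁, v₂, hv₂, h⟩ := Submodule.mem_sup.1 hv
  refine ⟨v₁, v₂, ?_, hv₂, h.symm⟩
  rw [LinearMap.mem_ker] at hv₁
  have h2 : a v₁ - v₁ = 0 := hv₁
  exact sub_eq_zero.1 h2

theorem os_range_comm (k : V →ₗ[F] V) (hk : ∀ y, k (a y) = a (k y)) (x : V)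
    (hx : x ∈ LinearMap.range (a - 1)) : k x ∈ LinearMap.range (a - 1) := by
  obtain ⟨y, rfl⟩ := hx
  refine ⟨k y, ?_⟩
  show a (k y) - k y = k (a y - y)
  rw [map_sub, hk]

theorem os_range_inv (x : V) (hx : x ∈ LinearMap.range (a - 1)) :
    a x ∈ LinearMap.range (a - 1) :=
  os_range_comm a a (fun _ => rfl) x hx

theorem os_c_inj (hmF : (m : F) ≠ 0) (hodd : Odd m) (ha : a ^ m = 1) (u : V)
    (hu : u ∈ LinearMap.range (a - 1)) (hc : a u = (a ^ (m - 1)) u) : u = 0 := by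
  have hm1 : 1 ≤ m := hodd.pos
  have h1 : a (a u) = u := by rw [hc, os_inv_left a m hm1 ha]
  obtain ⟨k, hk⟩ := hodd
  have h2 : ∀ j : ℕ, (a ^ (2 * j)) u = u := by
    intro j
    induction j with
    | zero => rfl
    | succ j ih =>
      have h0 : 2 * (j + 1) = 2 * j + 1 + 1 := by ring
      rw [h0, pow_succ, pow_succ, Module.End.mul_apply, Module.End.mul_apply, h1, ih]
  have h3 : a u = u := by
    have h4 : (a ^ m) u = u := by
      rw [ha]
      rfl
    rw [hk, pow_succ, Module.End.mul_apply, os_pow_comm, h2] at h4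
    exact h4
  obtain ⟨x, rfl⟩ := hu
  exact os_fix_range_zero a m hmF ha x h3

theorem os_c_surj [FiniteDimensional F V] (hmF : (m : F) ≠ 0) (hodd : Odd m) (ha : a ^ m = 1)
    (w : V) (hw : w ∈ LinearMap.range (a - 1)) :
    ∃ w₀ ∈ LinearMap.range (a - 1), w = a w₀ - (a ^ (m - 1)) w₀ := by
  have hcW : ∀ x ∈ LinearMap.range (a - 1), (a - a ^ (m - 1)) x ∈ LinearMap.range (a - 1) :=
    os_range_comm a (a - a ^ (m - 1)) (fun y => by
      show a (a y) - (a ^ (m - 1)) (a y) = a (a y - (a ^ (m - 1)) y)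
      rw [map_sub, os_pow_comm])
  have hinj : Function.Injective ((a - a ^ (m - 1)).restrict hcW) := by
    rw [← LinearMap.ker_eq_bot, LinearMap.ker_eq_bot']
    intro u hu
    apply Subtype.ext
    have h1 : a (u : V) - (a ^ (m - 1)) (u : V) = 0 := congrArg Subtype.val hu
    exact os_c_inj a m hmF hodd ha u u.2 (sub_eq_zero.1 h1)
  have hsurj := LinearMap.injective_iff_surjective.1 hinj
  obtain ⟨w₀, hw₀⟩ := hsurj ⟨w, hw⟩
  exact ⟨w₀, w₀.2, (congrArg Subtype.val hw₀).symm⟩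

theorem os_range_self [FiniteDimensional F V] (hmF : (m : F) ≠ 0) (ha : a ^ m = 1)
    (w : V) (hw : w ∈ LinearMap.range (a - 1)) :
    ∃ x ∈ LinearMap.range (a - 1), w = a x - x := by
  obtain ⟨v, rfl⟩ := hw
  obtain ⟨v₁, v₂, h1, h2, rfl⟩ := os_decomp a m hmF ha v
  refine ⟨v₂, h2, ?_⟩
  show a (v₁ + v₂) - (v₁ + v₂) = a v₂ - v₂
  rw [map_add, h1]
  abel

theorem os_perp_fix (hQ : (QuadraticMap.polarBilin Q).Nondegenerate) (hm1 : 1 ≤ m)
    (ha : a ^ m = 1) (haQ : ∀ v, Q (a v) = Q v) (y : V)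
    (hy : ∀ w ∈ LinearMap.range (a - 1), QuadraticMap.polarBilin Q y w = 0) : a y = y := by
  have h1 : ∀ x, QuadraticMap.polarBilin Q ((a ^ (m - 1)) y - y) x = 0 := by
    intro x
    have h2 : QuadraticMap.polarBilin Q y (a x - x) = 0 := hy (a x - x) ⟨x, rfl⟩
    rw [map_sub, sub_eq_zero] at h2
    rw [map_sub, LinearMap.sub_apply, os_polar_adj' Q a m hm1 ha haQ, h2, sub_self]
  have h3 := hQ.1 _ h1
  have h4 : (a ^ (m - 1)) y = y := sub_eq_zero.1 h3
  have h5 := os_inv_left a m hm1 ha y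
  rw [h4] at h5
  exact h5

theorem os_fix_perp (haQ : ∀ v, Q (a v) = Q v) (v₁ : V) (h1 : a v₁ = v₁) (w : V)
    (hw : w ∈ LinearMap.range (a - 1)) : QuadraticMap.polarBilin Q v₁ w = 0 := by
  obtain ⟨x, rfl⟩ := hw
  show QuadraticMap.polarBilin Q v₁ (a x - x) = 0
  rw [map_sub, sub_eq_zero]
  have h2 := os_polar_iso Q a haQ v₁ x
  rw [h1] at h2
  exact h2

noncomputable def twistForm : LinearMap.BilinForm F (LinearMap.range (a - 1)) :=
  LinearMap.BilinForm.restrict ((QuadraticMap.polarBilin Q).compl₂ (a - a ^ (m - 1)))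
    (LinearMap.range (a - 1))

theorem twistForm_apply (u w : LinearMap.range (a - 1)) :
    twistForm Q a m u w
      = QuadraticMap.polarBilin Q (u : V) (a (w : V) - (a ^ (m - 1)) (w : V)) := rfl

theorem os_iso_pack [FiniteDimensional F V] (hQ : (QuadraticMap.polarBilin Q).Nondegenerate)
    (hmF : (m : F) ≠ 0) (hodd : Odd m) (ha : a ^ m = 1) (haQ : ∀ v, Q (a v) = Q v)
    (hW : ∀ x ∈ LinearMap.range (a - 1), a x ∈ LinearMap.range (a - 1)) :
    IsoPack (twistForm Q a m) (a.restrict hW) m := by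
  have hm1 : 1 ≤ m := hodd.pos
  refine ⟨fun u => ?_, fun u hu => ?_, fun u w => ?_, ?_, hm1⟩
  · rw [twistForm_apply, map_sub, ← os_polar_adj Q a m hm1 ha haQ, sub_eq_zero]
    exact QuadraticMap.polar_comm _ _ _
  · apply Subtype.ext
    apply os_c_inj a m hmF hodd ha u u.2
    have h1 : ∀ x, QuadraticMap.polarBilin Q ((a ^ (m - 1)) (u : V) - a (u : V)) x = 0 := by
      intro x
      obtain ⟨v₁, v₂, hv1, hv2, rfl⟩ := os_decomp a m hmF ha x
      have h3 : QuadraticMap.polarBilin Q (u : V) (a v₂ - (a ^ (m - 1)) v₂) = 0 :=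
        hu ⟨v₂, hv2⟩
      rw [map_sub, sub_eq_zero] at h3
      have h4 : (a ^ (m - 1)) v₁ = v₁ := by
        have h5 := os_inv_right a m hm1 ha v₁
        rw [hv1] at h5
        exact h5
      rw [map_sub, LinearMap.sub_apply, os_polar_adj' Q a m hm1 ha haQ,
        os_polar_adj Q a m hm1 ha haQ]
      simp only [map_add, hv1, h4, h3, sub_self]
    have h5 := hQ.1 _ h1
    exact (sub_eq_zero.1 h5).symm
  · rw [twistForm_apply, twistForm_apply]
    show QuadraticMap.polarBilin Q (a (u : V)) (a (a (w : V)) - (a ^ (m - 1)) (a (w : V)))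
      = QuadraticMap.polarBilin Q (u : V) (a (w : V) - (a ^ (m - 1)) (w : V))
    rw [os_pow_comm, ← map_sub, os_polar_iso Q a haQ]
  · apply LinearMap.ext
    intro w
    apply Subtype.ext
    rw [restrict_pow_coe, ha]
    rfl

end

theorem orth_semi_conj {F : Type u} [Field F] [Fintype F] {V : Type u} [AddCommGroup V]
    [Module F V] [FiniteDimensional F V] (Q : QuadraticForm F V)
    (hQ : (QuadraticMap.polarBilin Q).Nondegenerate)
    (a b : V →ₗ[F] V) (m : ℕ) (hmF : (m : F) ≠ 0) (hodd : Odd m)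
    (ha : a ^ m = 1) (hb : b ^ m = 1) (haQ : ∀ v, Q (a v) = Q v) (hbQ : ∀ v, Q (b v) = Q v)
    (t : V ≃ₗ[F] V) (ht : ∀ v, t (a v) = b (t v)) :
    ∃ S : V ≃ₗ[F] V, (∀ v, Q (S v) = Q v) ∧ ∀ v, S (a v) = b (S v) := by
  classical
  have hm1 : 1 ≤ m := hodd.pos
  have hWa := os_range_inv a
  have hWb := os_range_inv b
  have htW : ∀ x ∈ LinearMap.range (a - 1), t.toLinearMap x ∈ LinearMap.range (b - 1) := by
    rintro x ⟨y, rfl⟩
    refine ⟨t y, ?_⟩
    show b (t y) - t y = t (a y - y)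
    rw [map_sub, ht]
  have hbij : Function.Bijective (t.toLinearMap.restrict htW) := by
    constructor
    · intro x y hxy
      apply Subtype.ext
      exact t.injective (congrArg Subtype.val hxy)
    · rintro ⟨y, z, rfl⟩
      refine ⟨⟨a (t.symm z) - t.symm z, ⟨t.symm z, rfl⟩⟩, ?_⟩
      apply Subtype.ext
      show t (a (t.symm z) - t.symm z) = b z - z
      rw [map_sub, ht, LinearEquiv.apply_symm_apply]
  have hχ : (a.restrict hWa).charpoly = (b.restrict hWb).charpoly := by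
    have h1 : (LinearEquiv.ofBijective _ hbij).conj (a.restrict hWa) = b.restrict hWb := by
      apply LinearMap.ext
      intro w
      rw [LinearEquiv.conj_apply_apply]
      obtain ⟨w0, rfl⟩ := (LinearEquiv.ofBijective _ hbij).surjective w
      rw [LinearEquiv.symm_apply_apply]
      apply Subtype.ext
      show t (a (w0 : V)) = b (t (w0 : V))
      exact ht _
    rw [← h1, LinearEquiv.charpoly_conj]
  obtain ⟨T, hT, hTi⟩ := sp_conj_aux m hmF (Module.finrank F (LinearMap.range (a - 1)))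
    (LinearMap.range (a - 1)) (LinearMap.range (b - 1)) (twistForm Q a m) (twistForm Q b m)
    (a.restrict hWa) (b.restrict hWb) (os_iso_pack Q a m hQ hmF hodd ha haQ hWa)
    (os_iso_pack Q b m hQ hmF hodd hb hbQ hWb) rfl hχ
  have hTa : ∀ (x : V) (hx : x ∈ LinearMap.range (a - 1))
      (hx' : a x ∈ LinearMap.range (a - 1)),
      (T ⟨a x, hx'⟩ : V) = b (T ⟨x, hx⟩ : V) := by
    intro x hx hx'
    exact congrArg Subtype.val (hT ⟨x, hx⟩)
  have hWa' : ∀ x ∈ LinearMap.range (a - 1), (a ^ (m - 1)) x ∈ LinearMap.range (a - 1) :=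
    os_range_comm a (a ^ (m - 1)) (fun y => os_pow_comm a (m - 1) y)
  have hTa' : ∀ (x : V) (hx : x ∈ LinearMap.range (a - 1))
      (hx' : (a ^ (m - 1)) x ∈ LinearMap.range (a - 1)),
      (T ⟨(a ^ (m - 1)) x, hx'⟩ : V) = (b ^ (m - 1)) (T ⟨x, hx⟩ : V) := by
    intro x hx hx'
    have h1 := hTa ((a ^ (m - 1)) x) hx' (hWa _ hx')
    have h2 : T ⟨a ((a ^ (m - 1)) x), hWa _ hx'⟩ = T ⟨x, hx⟩ :=
      congrArg T (Subtype.ext (os_inv_left a m hm1 ha _))
    rw [h2] at h1
    have h3 := os_inv_right b m hm1 hb (T ⟨(a ^ (m - 1)) x, hx'⟩ : V)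
    rw [← h1] at h3
    exact h3.symm
  have hTP : ∀ (u w : LinearMap.range (a - 1)),
      QuadraticMap.polarBilin Q (T u : V) (T w : V)
        = QuadraticMap.polarBilin Q (u : V) (w : V) := by
    intro u w
    obtain ⟨w₀, hw₀, hw⟩ := os_c_surj a m hmF hodd ha (w : V) w.2
    have h1 := hTi u ⟨w₀, hw₀⟩
    rw [twistForm_apply, twistForm_apply] at h1
    have h2 : (T w : V) = b (T ⟨w₀, hw₀⟩ : V) - (b ^ (m - 1)) (T ⟨w₀, hw₀⟩ : V) := by
      have h3 : w = ⟨a w₀, hWa _ hw₀⟩ - ⟨(a ^ (m - 1)) w₀, hWa' _ hw₀⟩ := Subtype.ext hw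
      rw [h3, map_sub, Submodule.coe_sub, hTa w₀ hw₀, hTa' w₀ hw₀]
    rw [h2, h1, ← hw]
  have hTQ : ∀ w : LinearMap.range (a - 1), Q (T w : V) = Q (w : V) := by
    intro w
    obtain ⟨x, hx, hw⟩ := os_range_self a m hmF ha (w : V) w.2
    have h2 : (T w : V) = b (T ⟨x, hx⟩ : V) - (T ⟨x, hx⟩ : V) := by
      have h3 : w = ⟨a x, hWa _ hx⟩ - ⟨x, hx⟩ := Subtype.ext hw
      rw [h3, map_sub, Submodule.coe_sub, hTa x hx]
    rw [h2, hw, os_quad_sub, os_quad_sub, hbQ, haQ, os_polar_self, os_polar_self,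
      ← hTa x hx (hWa _ hx), hTP, hTP]
  obtain ⟨S, hSQ, hSx⟩ := Cfsg.Agent.S0750.result Q hQ (LinearMap.range (a - 1))
    (LinearMap.range (b - 1)) T hTQ
  have hSP : ∀ u w, QuadraticMap.polarBilin Q (S u) (S w) = QuadraticMap.polarBilin Q u w :=
    fun u w => os_polar_iso Q S.toLinearMap hSQ u w
  refine ⟨S, hSQ, fun v => ?_⟩
  obtain ⟨v₁, v₂, hv1, hv2, rfl⟩ := os_decomp a m hmF ha v
  have h1 : S (a v₂) = b (S v₂) := by
    have h6 : S (a v₂) = (T ⟨a v₂, hWa _ hv2⟩ : V) := hSx ⟨a v₂, hWa _ hv2⟩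
    have h7 : S v₂ = (T ⟨v₂, hv2⟩ : V) := hSx ⟨v₂, hv2⟩
    rw [h6, h7, hTa v₂ hv2]
  have h2 : b (S v₁) = S v₁ := by
    apply os_perp_fix Q b m hQ hm1 hb hbQ
    intro w hw
    have h3 : w = S ((T.symm ⟨w, hw⟩ : LinearMap.range (a - 1)) : V) := by
      rw [hSx, LinearEquiv.apply_symm_apply]
    rw [h3, hSP]
    exact os_fix_perp Q a haQ v₁ hv1 _ (T.symm ⟨w, hw⟩).2
  simp only [map_add, hv1, h1, h2]

theorem orth_conj_iff {F : Type u} [Field F] [Fintype F] {p : ℕ} [Fact p.Prime] [CharP F p]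
    {n : ℕ} (Q : QuadraticForm F (Fin n → F)) (hQ : (QuadraticMap.polarBilin Q).Nondegenerate)
    (A B : ↥(Cfsg.isometryGroup F ⇑Q)) (hodd : Odd (orderOf A)) (hA : (orderOf A).Coprime p) :
    IsConj A B ↔ IsConj ((A : Matrix.GeneralLinearGroup (Fin n) F) : Matrix (Fin n) (Fin n) F)
      ((B : Matrix.GeneralLinearGroup (Fin n) F) : Matrix (Fin n) (Fin n) F) := by
  classical
  constructor
  · intro h
    obtain ⟨c, hc⟩ := isConj_iff.1 h
    refine ⟨(c : Matrix.GeneralLinearGroup (Fin n) F), ?_⟩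
    have h3 : c * A = B * c := mul_inv_eq_iff_eq_mul.1 hc
    have h4 := congrArg (fun x : ↥(Cfsg.isometryGroup F ⇑Q) =>
      ((x : Matrix.GeneralLinearGroup (Fin n) F) : Matrix (Fin n) (Fin n) F)) h3
    exact h4
  · rintro ⟨c, hc⟩
    have hc' : (c : Matrix (Fin n) (Fin n) F) * (A.1 : Matrix (Fin n) (Fin n) F)
        = (B.1 : Matrix (Fin n) (Fin n) F) * (c : Matrix (Fin n) (Fin n) F) := hc
    have hAm : (A.1 : Matrix (Fin n) (Fin n) F) ^ orderOf A = 1 := by
      have h1 : A ^ orderOf A = 1 := pow_orderOf_eq_one A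
      have h2 := congrArg (fun x : ↥(Cfsg.isometryGroup F ⇑Q) =>
        ((x : Matrix.GeneralLinearGroup (Fin n) F) : Matrix (Fin n) (Fin n) F)) h1
      exact h2
    have hBm : (B.1 : Matrix (Fin n) (Fin n) F) ^ orderOf A = 1 := by
      have hBeq : (B.1 : Matrix (Fin n) (Fin n) F)
          = (c : Matrix (Fin n) (Fin n) F) * (A.1 : Matrix (Fin n) (Fin n) F)
            * ((c⁻¹ : (Matrix (Fin n) (Fin n) F)ˣ) : Matrix (Fin n) (Fin n) F) := by
        rw [hc', mul_assoc, Units.mul_inv, mul_one]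
      rw [hBeq, Units.conj_pow, hAm, mul_one, Units.mul_inv]
    have hmF : ((orderOf A : ℕ) : F) ≠ 0 := by
      intro h0
      have h1 : (p : ℕ) ∣ orderOf A := (CharP.cast_eq_zero_iff F p _).1 h0
      exact (Nat.Prime.coprime_iff_not_dvd (Fact.out)).1 hA.symm h1
    obtain ⟨S, hSQ, hSab⟩ := orth_semi_conj Q hQ
      (Matrix.toLin' (A.1 : Matrix (Fin n) (Fin n) F))
      (Matrix.toLin' (B.1 : Matrix (Fin n) (Fin n) F)) (orderOf A) hmF hodd
      (by rw [← Matrix.toLin'_pow, hAm, Matrix.toLin'_one]; rfl)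
      (by rw [← Matrix.toLin'_pow, hBm, Matrix.toLin'_one]; rfl)
      (fun v => by rw [Matrix.toLin'_apply]; exact A.2 v v)
      (fun v => by rw [Matrix.toLin'_apply]; exact B.2 v v)
      (LinearEquiv.ofLinear (Matrix.toLin' (c : Matrix (Fin n) (Fin n) F))
        (Matrix.toLin' ((c⁻¹ : (Matrix (Fin n) (Fin n) F)ˣ) : Matrix (Fin n) (Fin n) F))
        (by rw [← Matrix.toLin'_mul, Units.mul_inv, Matrix.toLin'_one])
        (by rw [← Matrix.toLin'_mul, Units.inv_mul, Matrix.toLin'_one]))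
      (fun v => by
        show Matrix.toLin' (c : Matrix (Fin n) (Fin n) F)
            (Matrix.toLin' (A.1 : Matrix (Fin n) (Fin n) F) v)
          = Matrix.toLin' (B.1 : Matrix (Fin n) (Fin n) F)
            (Matrix.toLin' (c : Matrix (Fin n) (Fin n) F) v)
        rw [← LinearMap.comp_apply, ← Matrix.toLin'_mul, hc', Matrix.toLin'_mul]
        rfl)
    have hS1 : LinearMap.toMatrix' S.toLinearMap * LinearMap.toMatrix' S.symm.toLinearMap
        = 1 := by
      rw [← LinearMap.toMatrix'_comp,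
        show S.toLinearMap ∘ₗ S.symm.toLinearMap = LinearMap.id from
          LinearMap.ext (fun v => S.apply_symm_apply v), LinearMap.toMatrix'_id]
    have hS2 : LinearMap.toMatrix' S.symm.toLinearMap * LinearMap.toMatrix' S.toLinearMap
        = 1 := by
      rw [← LinearMap.toMatrix'_comp,
        show S.symm.toLinearMap ∘ₗ S.toLinearMap = LinearMap.id from
          LinearMap.ext (fun v => S.symm_apply_apply v), LinearMap.toMatrix'_id]
    have hsmem : (⟨_, _, hS1, hS2⟩ : Matrix.GeneralLinearGroup (Fin n) F)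
        ∈ Cfsg.isometryGroup F ⇑Q := by
      intro u v
      show Q (Matrix.mulVec (LinearMap.toMatrix' S.toLinearMap) u) = Q u
      have h1 : Matrix.mulVec (LinearMap.toMatrix' S.toLinearMap) u = S u := by
        rw [← Matrix.toLin'_apply, Matrix.toLin'_toMatrix']
        rfl
      rw [h1, hSQ]
    have hsA : LinearMap.toMatrix' S.toLinearMap * (A.1 : Matrix (Fin n) (Fin n) F)
        = (B.1 : Matrix (Fin n) (Fin n) F) * LinearMap.toMatrix' S.toLinearMap := by
      have h1 : S.toLinearMap ∘ₗ Matrix.toLin' (A.1 : Matrix (Fin n) (Fin n) F)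
          = Matrix.toLin' (B.1 : Matrix (Fin n) (Fin n) F) ∘ₗ S.toLinearMap :=
        LinearMap.ext hSab
      have h2 := congrArg LinearMap.toMatrix' h1
      rwa [LinearMap.toMatrix'_comp, LinearMap.toMatrix'_comp, LinearMap.toMatrix'_toLin',
        LinearMap.toMatrix'_toLin'] at h2
    refine isConj_iff.2 ⟨⟨_, hsmem⟩, mul_inv_eq_iff_eq_mul.2 ?_⟩
    apply Subtype.ext
    apply Units.ext
    exact hsA

end Cfsg.Agent.Helper15
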