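import Mathlib
import Cfsg.Agent.Helper15.OrthSemi1
import Cfsg.Agent.Helper15.QuadClass
import Cfsg.Agent.Helper15.GUPrime2
import Cfsg.Agent.S0286

set_option autoImplicit false

namespace Cfsg.Agent.Helper15
open Polynomial Matrix

universe u

noncomputable def quadOfMatrix {F : Type u} [Field F] {κ : Type} [Fintype κ] [DecidableEq κ]
    (M : Matrix κ κ F) : QuadraticForm F (κ → F) :=
  (Matrix.toBilin' M).toQuadraticMap

theorem quadOfMatrix_apply {F : Type u} [Field F] {κ : Type} [Fintype κ] [DecidableEq κ]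
    (M : Matrix κ κ F) (v : κ → F) : quadOfMatrix M v = v ⬝ᵥ M *ᵥ v := by
  show (Matrix.toBilin' M) v v = _
  rw [Matrix.toBilin'_apply']

theorem quadOfMatrix_polar {F : Type u} [Field F] {κ : Type} [Fintype κ] [DecidableEq κ]
    (M : Matrix κ κ F) (hM : Mᵀ = M) (u w : κ → F) :
    QuadraticMap.polar (quadOfMatrix M) u w = u ⬝ᵥ ((2 : F) • M) *ᵥ w := by
  have h1 : QuadraticMap.polar (quadOfMatrix M) u w
      = (Matrix.toBilin' M) u w + (Matrix.toBilin' M) w u :=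
    LinearMap.BilinMap.polar_toQuadraticMap u w
  rw [h1, Matrix.toBilin'_apply', Matrix.toBilin'_apply']
  have h2 : w ⬝ᵥ M *ᵥ u = u ⬝ᵥ M *ᵥ w := by
    rw [Matrix.dotProduct_mulVec, dotProduct_comm, ← Matrix.mulVec_transpose, hM]
  rw [h2, Matrix.smul_mulVec, dotProduct_smul, smul_eq_mul]
  ring

theorem quadOfMatrix_nondeg {F : Type u} [Field F] {κ : Type} [Fintype κ] [DecidableEq κ]
    (h2 : (2 : F) ≠ 0) (M : Matrix κ κ F) (hM : Mᵀ = M) (hdet : M.det ≠ 0) :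
    (QuadraticMap.polarBilin (quadOfMatrix M)).Nondegenerate := by
  have h3 : QuadraticMap.polarBilin (quadOfMatrix M) = Matrix.toBilin' ((2 : F) • M) := by
    refine LinearMap.ext fun u => LinearMap.ext fun w => ?_
    show QuadraticMap.polar (quadOfMatrix M) u w = _
    rw [quadOfMatrix_polar M hM, Matrix.toBilin'_apply']
  rw [h3]
  apply Matrix.Nondegenerate.toBilin'
  apply Matrix.nondegenerate_of_det_ne_zero
  rw [Matrix.det_smul]
  exact mul_ne_zero (pow_ne_zero _ h2) hdet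

theorem quadOfMatrix_gram {F : Type u} [Field F] {κ : Type} [Fintype κ] [DecidableEq κ]
    (M : Matrix κ κ F) (hM : Mᵀ = M) :
    Matrix.of (fun i j : κ => QuadraticMap.polar (quadOfMatrix M) (Pi.single i 1)
      (Pi.single j 1)) = (2 : F) • M := by
  ext i j
  rw [Matrix.of_apply, quadOfMatrix_polar M hM, Matrix.mulVec_single_one,
    single_one_dotProduct]
  rfl

theorem quadOfMatrix_inv {F : Type u} [Field F] {κ : Type} [Fintype κ] [DecidableEq κ]
    (M A : Matrix κ κ F) (hA : Aᵀ * M * A = M) (v : κ → F) :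
    quadOfMatrix M (A *ᵥ v) = quadOfMatrix M v := by
  rw [quadOfMatrix_apply, quadOfMatrix_apply]
  conv_rhs => rw [← hA]
  rw [← Matrix.mulVec_mulVec, ← Matrix.mulVec_mulVec, Matrix.dotProduct_mulVec v Aᵀ,
    Matrix.vecMul_transpose]

theorem isometric_general {F : Type u} [Field F] [Fintype F] (h2 : (2 : F) ≠ 0) {κ₁ κ₂ : Type}
    [Fintype κ₁] [DecidableEq κ₁] [Fintype κ₂] [DecidableEq κ₂]
    (hcard : Fintype.card κ₁ = Fintype.card κ₂)
    (Q₁ : QuadraticForm F (κ₁ → F)) (Q₂ : QuadraticForm F (κ₂ → F))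
    (h₁ : (QuadraticMap.polarBilin Q₁).Nondegenerate)
    (h₂ : (QuadraticMap.polarBilin Q₂).Nondegenerate)
    (hsq : IsSquare ((Matrix.of (fun i j : κ₁ =>
        QuadraticMap.polar ⇑Q₁ (Pi.single i 1) (Pi.single j 1))).det
      * (Matrix.of (fun i j : κ₂ =>
        QuadraticMap.polar ⇑Q₂ (Pi.single i 1) (Pi.single j 1))).det)) :
    ∃ T : (κ₁ → F) ≃ₗ[F] (κ₂ → F), ∀ v, Q₂ (T v) = Q₁ v := by
  classical
  have key : ∀ {κ : Type} [Fintype κ] [DecidableEq κ] (e : κ ≃ Fin (Fintype.card κ₁))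
      (Q : QuadraticForm F (κ → F)), (QuadraticMap.polarBilin Q).Nondegenerate →
      ∃ (L : (Fin (Fintype.card κ₁) → F) ≃ₗ[F] (κ → F))
        (Q' : QuadraticForm F (Fin (Fintype.card κ₁) → F)),
        (∀ v, Q' v = Q (L v)) ∧ (QuadraticMap.polarBilin Q').Nondegenerate ∧
        (Matrix.of (fun i j : Fin (Fintype.card κ₁) =>
          QuadraticMap.polar ⇑Q' (Pi.single i 1) (Pi.single j 1))).det
        = (Matrix.of (fun i j : κ =>
          QuadraticMap.polar ⇑Q (Pi.single i 1) (Pi.single j 1))).det := by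
    intro κ _ _ e Q hQ
    obtain ⟨L, hL⟩ : ∃ L : (Fin (Fintype.card κ₁) → F) ≃ₗ[F] (κ → F),
        ∀ v, L v = fun k => v (e k) := ⟨LinearEquiv.funCongrLeft F F e, fun v => rfl⟩
    have hpol : ∀ u w, QuadraticMap.polar ⇑(Q.comp L.toLinearMap) u w
        = QuadraticMap.polar ⇑Q (L u) (L w) := by
      intro u w
      show Q (L (u + w)) - Q (L u) - Q (L w) = Q (L u + L w) - Q (L u) - Q (L w)
      rw [map_add]
    refine ⟨L, Q.comp L.toLinearMap, fun v => rfl, ⟨?_, ?_⟩, ?_⟩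
    · intro u hu
      have h3 : L u = 0 := by
        apply hQ.1
        intro w
        have h4 := hu (L.symm w)
        have h5 : QuadraticMap.polar ⇑(Q.comp L.toLinearMap) u (L.symm w) = 0 := h4
        rw [hpol, LinearEquiv.apply_symm_apply] at h5
        exact h5
      exact L.map_eq_zero_iff.1 h3
    · intro w hw
      have h3 : L w = 0 := by
        apply hQ.2
        intro u
        have h4 := hw (L.symm u)
        have h5 : QuadraticMap.polar ⇑(Q.comp L.toLinearMap) (L.symm u) w = 0 := h4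
        rw [hpol, LinearEquiv.apply_symm_apply] at h5
        exact h5
      exact L.map_eq_zero_iff.1 h3
    · have hsingle : ∀ i : Fin (Fintype.card κ₁), L (Pi.single i 1) = Pi.single (e.symm i) 1 := by
        intro i
        rw [hL]
        funext k
        rw [Pi.single_apply, Pi.single_apply]
        by_cases hk : e k = i
        · rw [if_pos hk, if_pos (by rw [← hk, Equiv.symm_apply_apply])]
        · rw [if_neg hk, if_neg (fun h => hk (by rw [h, Equiv.apply_symm_apply]))]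
      have hmat : Matrix.of (fun i j : Fin (Fintype.card κ₁) =>
          QuadraticMap.polar ⇑(Q.comp L.toLinearMap) (Pi.single i 1) (Pi.single j 1))
          = Matrix.reindex e e (Matrix.of (fun i j : κ =>
            QuadraticMap.polar ⇑Q (Pi.single i 1) (Pi.single j 1))) := by
        ext i j
        rw [Matrix.of_apply, hpol, hsingle, hsingle]
        rfl
      rw [hmat, Matrix.det_reindex_self]
  obtain ⟨L₁, Q₁', hQ₁', hnd₁, hdet₁⟩ := key (Fintype.equivFin κ₁) Q₁ h₁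
  obtain ⟨L₂, Q₂', hQ₂', hnd₂, hdet₂⟩ := key (Fintype.equivFinOfCardEq hcard.symm) Q₂ h₂
  obtain ⟨g, hg⟩ := isometric_of_isSquare h2 Q₁' Q₂' hnd₁ hnd₂ (by rw [hdet₁, hdet₂]; exact hsq)
  refine ⟨(L₁.symm.trans g).trans L₂, fun v => ?_⟩
  show Q₂ (L₂ (g (L₁.symm v))) = Q₁ v
  rw [← hQ₂', hg, hQ₁', LinearEquiv.apply_symm_apply]

theorem conj_pow_apply {F : Type u} [Field F] {V W : Type*} [AddCommGroup V] [Module F V]
    [AddCommGroup W] [Module F W] (T : V ≃ₗ[F] W) (a : V →ₗ[F] V) (f : W →ₗ[F] W)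
    (hf : ∀ x, f x = T (a (T.symm x))) (j : ℕ) (x : W) :
    (f ^ j) x = T ((a ^ j) (T.symm x)) := by
  induction j generalizing x with
  | zero => rw [pow_zero, pow_zero, Module.End.one_apply, Module.End.one_apply,
      LinearEquiv.apply_symm_apply]
  | succ j ih =>
    rw [pow_succ, pow_succ, Module.End.mul_apply, Module.End.mul_apply, ih, hf,
      LinearEquiv.symm_apply_apply]

theorem fromBlocks_diag_pow {F : Type u} [Field F] {κ₁ κ₂ : Type} [Fintype κ₁] [DecidableEq κ₁]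
    [Fintype κ₂] [DecidableEq κ₂] (A : Matrix κ₁ κ₁ F) (B : Matrix κ₂ κ₂ F) (j : ℕ) :
    (Matrix.fromBlocks A 0 0 B) ^ j = Matrix.fromBlocks (A ^ j) 0 0 (B ^ j) := by
  induction j with
  | zero => rw [pow_zero, pow_zero, pow_zero, Matrix.fromBlocks_one]
  | succ j ih =>
    rw [pow_succ, ih, Matrix.fromBlocks_multiply, pow_succ, pow_succ]
    simp

theorem embed_isometry_quad {F : Type u} [Field F] [Fintype F] (h2 : (2 : F) ≠ 0) {ι : Type}
    [Fintype ι] [DecidableEq ι] (𝒬 : QuadraticForm F (ι → F))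
    (hnd : (QuadraticMap.polarBilin 𝒬).Nondegenerate) {κ₀ : Type} [Fintype κ₀] [DecidableEq κ₀]
    (A₀ M₀ : Matrix κ₀ κ₀ F) (hM₀ : M₀ᵀ = M₀) (hdet : M₀.det ≠ 0)
    (hA₀ : A₀ᵀ * M₀ * A₀ = M₀) (r : ℕ) (hr : A₀ ^ r = 1) (k : ℕ) (hk : 1 ≤ k)
    (hcard : Fintype.card κ₀ + k = Fintype.card ι) :
    ∃ B : Matrix ι ι F, B ^ r = 1 ∧ (∀ v, 𝒬 (B *ᵥ v) = 𝒬 v) ∧
      B.charpoly = A₀.charpoly * (X - 1) ^ k := by
  classical
  obtain ⟨D₂, hD₂⟩ : ∃ D₂ : F, D₂ = (Matrix.of (fun i j : ι =>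
      QuadraticMap.polar ⇑𝒬 (Pi.single i 1) (Pi.single j 1))).det := ⟨_, rfl⟩
  obtain ⟨c₀, hc₀⟩ : ∃ c₀ : F, c₀ = (2 : F) ^ Fintype.card (κ₀ ⊕ Fin k) * M₀.det * D₂ :=
    ⟨_, rfl⟩
  obtain ⟨δ, hδ0, hδsq⟩ : ∃ δ : F, δ ≠ 0 ∧ IsSquare (c₀ * δ) := by
    by_cases h0 : c₀ = 0
    · exact ⟨1, one_ne_zero, by rw [h0, zero_mul]; exact ⟨0, by rw [mul_zero]⟩⟩
    · exact ⟨c₀, h0, ⟨c₀, rfl⟩⟩
  obtain ⟨d, hd⟩ : ∃ d : Fin k → F, d = fun j => if j = ⟨0, hk⟩ then δ else 1 := ⟨_, rfl⟩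
  have hdprod : ∏ j, d j = δ := by
    rw [hd]
    simp [Finset.prod_ite_eq']
  obtain ⟨M₁, hM₁⟩ : ∃ M₁ : Matrix (κ₀ ⊕ Fin k) (κ₀ ⊕ Fin k) F,
      M₁ = Matrix.fromBlocks M₀ 0 0 (Matrix.diagonal d) := ⟨_, rfl⟩
  obtain ⟨A₁, hA₁⟩ : ∃ A₁ : Matrix (κ₀ ⊕ Fin k) (κ₀ ⊕ Fin k) F,
      A₁ = Matrix.fromBlocks A₀ 0 0 1 := ⟨_, rfl⟩
  have hM₁symm : M₁ᵀ = M₁ := by
    rw [hM₁, Matrix.fromBlocks_transpose, hM₀, Matrix.transpose_zero, Matrix.transpose_zero,
      Matrix.diagonal_transpose]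
  have hM₁det : M₁.det = M₀.det * δ := by
    rw [hM₁, Matrix.det_fromBlocks_zero₁₂, Matrix.det_diagonal, hdprod]
  have hM₁det0 : M₁.det ≠ 0 := by
    rw [hM₁det]
    exact mul_ne_zero hdet hδ0
  have hA₁M : A₁ᵀ * M₁ * A₁ = M₁ := by
    rw [hA₁, hM₁, Matrix.fromBlocks_transpose, Matrix.fromBlocks_multiply,
      Matrix.fromBlocks_multiply]
    simp [hA₀]
  have hA₁r : A₁ ^ r = 1 := by
    rw [hA₁, fromBlocks_diag_pow, hr, one_pow, Matrix.fromBlocks_one]
  have hA₁χ : A₁.charpoly = A₀.charpoly * (X - 1) ^ k := by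
    rw [hA₁, Matrix.charpoly_fromBlocks_zero₁₂, Matrix.charpoly_one, Fintype.card_fin]
  have hcard' : Fintype.card (κ₀ ⊕ Fin k) = Fintype.card ι := by
    rw [Fintype.card_sum, Fintype.card_fin, hcard]
  obtain ⟨T, hT⟩ := isometric_general h2 hcard' (quadOfMatrix M₁) 𝒬
    (quadOfMatrix_nondeg h2 M₁ hM₁symm hM₁det0) hnd (by
      rw [quadOfMatrix_gram M₁ hM₁symm, Matrix.det_smul, hM₁det, ← hD₂]
      have h5 : (2 : F) ^ Fintype.card (κ₀ ⊕ Fin k) * (M₀.det * δ) * D₂ = c₀ * δ := by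
        rw [hc₀]
        ring
      rw [h5]
      exact hδsq)
  obtain ⟨f, hf⟩ : ∃ f : (ι → F) →ₗ[F] (ι → F), ∀ x, f x = T (Matrix.toLin' A₁ (T.symm x)) :=
    ⟨(T.toLinearMap ∘ₗ Matrix.toLin' A₁) ∘ₗ T.symm.toLinearMap, fun x => rfl⟩
  have hfr : f ^ r = 1 := by
    apply LinearMap.ext
    intro x
    rw [conj_pow_apply T (Matrix.toLin' A₁) f hf r x, ← Matrix.toLin'_pow, hA₁r,
      Matrix.toLin'_one]
    show T (T.symm x) = x
    rw [LinearEquiv.apply_symm_apply]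
  have hfχ : f.charpoly = A₁.charpoly := by
    have h6 : f = T.conj (Matrix.toLin' A₁) := by
      apply LinearMap.ext
      intro x
      rw [hf]
      rfl
    rw [h6, LinearEquiv.charpoly_conj, Matrix.charpoly_toLin']
  refine ⟨LinearMap.toMatrix' f, ?_, ?_, ?_⟩
  · apply Matrix.toLin'.injective
    rw [Matrix.toLin'_pow, Matrix.toLin'_toMatrix', hfr, Matrix.toLin'_one]
    rfl
  · intro v
    rw [LinearMap.toMatrix'_mulVec, hf, hT, Matrix.toLin'_apply, quadOfMatrix_inv M₁ A₁ hA₁M,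
      ← hT, LinearEquiv.apply_symm_apply]
  · rw [← Matrix.charpoly_toLin', Matrix.toLin'_toMatrix', hfχ, hA₁χ]

end Cfsg.Agent.Helper15
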