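import Mathlib
import Cfsg.Agent.Helper15.OrthPrime1

set_option autoImplicit false

namespace Cfsg.Agent.Helper15
open Polynomial Matrix

universe u

theorem irr_invariant_form {F : Type u} [Field F] {n : ℕ} (A Ai Sg : Matrix (Fin n) (Fin n) F)
    (hAi : A * Ai = 1) (hirr : Irreducible A.charpoly) (hS : Aᵀ * Sg * A = Sg) :
    Sg = 0 ∨ Sg.det ≠ 0 := by
  classical
  by_cases hdet : Sg.det = 0
  · left
    obtain ⟨v, hv0, hv⟩ := Matrix.exists_mulVec_eq_zero_iff.2 hdet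
    have hSA : Sg * A = Aiᵀ * Sg := by
      have h1 : Aiᵀ * (Aᵀ * Sg * A) = Aiᵀ * Sg := by rw [hS]
      rw [← mul_assoc, ← mul_assoc, ← Matrix.transpose_mul, hAi, Matrix.transpose_one,
        one_mul] at h1
      exact h1
    have hker : ∀ j : ℕ, Sg *ᵥ ((A ^ j) *ᵥ v) = 0 := by
      intro j
      induction j with
      | zero =>
        rw [pow_zero, Matrix.one_mulVec]
        exact hv
      | succ j ih =>
        have h1 : (A ^ (j + 1)) *ᵥ v = A *ᵥ ((A ^ j) *ᵥ v) := by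
          rw [pow_succ', Matrix.mulVec_mulVec]
        rw [h1, Matrix.mulVec_mulVec _ Sg A, hSA, ← Matrix.mulVec_mulVec, ih,
          Matrix.mulVec_zero]
    have hCH : (Polynomial.aeval (Matrix.toLin' A) A.charpoly) v = 0 := by
      have h1 : Polynomial.aeval (Matrix.toLin' A) A.charpoly = 0 := by
        rw [← Matrix.charpoly_toLin']
        exact LinearMap.aeval_self_charpoly _
      rw [h1]
      rfl
    have hli : LinearIndependent F (fun j : Fin n => (A ^ (j : ℕ)) *ᵥ v) := by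
      rw [Fintype.linearIndependent_iff]
      intro g hg
      have hcyc : cycMap (Matrix.toLin' A) v (∑ j : Fin n, C (g j) * X ^ (j : ℕ))
          = ∑ j : Fin n, g j • ((A ^ (j : ℕ)) *ᵥ v) := by
        rw [map_sum]
        apply Finset.sum_congr rfl
        intro j _
        rw [cycMap_apply, map_mul, aeval_C, map_pow, aeval_X, Module.End.mul_apply,
          Module.algebraMap_end_apply, ← Matrix.toLin'_pow, Matrix.toLin'_apply]
      rw [← hcyc, cycMap_eq_zero_iff (Matrix.toLin' A) v hv0 A.charpoly hirr hCH] at hg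
      have hlt : (∑ j : Fin n, C (g j) * X ^ (j : ℕ)).degree < A.charpoly.degree := by
        rw [Matrix.charpoly_degree_eq_dim, Fintype.card_fin]
        exact Polynomial.degree_sum_fin_lt g
      have hz := Polynomial.eq_zero_of_dvd_of_degree_lt hg hlt
      intro k
      have hcoeff : (∑ j : Fin n, C (g j) * X ^ (j : ℕ)).coeff (k : ℕ) = g k := by
        rw [Polynomial.finset_sum_coeff, Finset.sum_eq_single k]
        · rw [coeff_C_mul, coeff_X_pow, if_pos rfl, mul_one]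
        · intro j _ hjk
          rw [coeff_C_mul, coeff_X_pow, if_neg (fun h => hjk (Fin.ext h.symm)), mul_zero]
        · intro h
          exact absurd (Finset.mem_univ k) h
      rw [← hcoeff, hz, coeff_zero]
    have hspan := hli.span_eq_top_of_card_eq_finrank'
      (by rw [Fintype.card_fin, Module.finrank_fin_fun])
    have hle : Submodule.span F (Set.range (fun j : Fin n => (A ^ (j : ℕ)) *ᵥ v))
        ≤ LinearMap.ker (Matrix.toLin' Sg) := by
      rw [Submodule.span_le]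
      rintro _ ⟨j, rfl⟩
      rw [SetLike.mem_coe, LinearMap.mem_ker, Matrix.toLin'_apply]
      exact hker j
    rw [hspan] at hle
    have h0 : Matrix.toLin' Sg = 0 := LinearMap.ker_eq_top.1 (top_le_iff.1 hle)
    exact Matrix.toLin'.injective (by rw [h0, map_zero])
  · exact Or.inr hdet

theorem orth_block {F : Type u} [Field F] [Fintype F] (p : ℕ) [Fact p.Prime] [CharP F p]
    (S : Finset F[X]) (r i : ℕ) (hr : r.Prime) (hr2 : r ≠ 2) (hrp : r ≠ p)
    (hX1S : (X - 1 : F[X]) ∈ S)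
    (hS : ∀ x ∈ S, x.Monic ∧ Irreducible x ∧ x ∣ X ^ r - 1)
    (hSdeg : ∀ x ∈ S, x ≠ X - 1 → x.natDegree = i)
    (hcrit : ∀ y : F[X], y.Monic → y.natDegree = i → y ∣ X ^ r - 1 → ¬ (X - 1 : F[X]) ∣ y →
      y ∈ S)
    (x : F[X]) (hx : x ∈ S) (hne : x ≠ X - 1) (hself : pstar x = x) :
    ∃ A M : Matrix (Fin i) (Fin i) F, A ^ r = 1 ∧ Mᵀ = M ∧ M.det ≠ 0 ∧ Aᵀ * M * A = M ∧
      A.charpoly = x := by
  classical
  have hp : p.Prime := Fact.out
  have hrF : ((r : ℕ) : F) ≠ 0 := by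
    intro h0
    have h1 : p ∣ r := (CharP.cast_eq_zero_iff F p r).1 h0
    exact hrp ((Nat.prime_dvd_prime_iff_eq hp hr).1 h1).symm
  obtain ⟨hxm, hxirr, hxd⟩ := hS x hx
  have hi0 : i ≠ 0 := by
    rw [← hSdeg x hx hne]
    exact (Irreducible.natDegree_pos hxirr).ne'
  have hM1 : ∀ y ∈ ({x} : Multiset F[X]), y ∈ S ∧ y ≠ X - 1 := by
    intro y hy
    rw [Multiset.mem_singleton] at hy
    rw [hy]
    exact ⟨hx, hne⟩
  obtain ⟨g, hord, hχ⟩ := type_realize (n := i) p S r i hr hX1S hS hSdeg {x} hM1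
    (by rw [Multiset.card_singleton, mul_one]) (Multiset.singleton_ne_zero x)
  rw [Multiset.card_singleton, mul_one, Nat.sub_self] at hχ
  have hχi := charpoly_inv_type g S r i hr.ne_zero hS hSdeg hcrit {x} hM1 0 hχ
  rw [Multiset.prod_singleton, pow_zero, mul_one] at hχ
  rw [Multiset.map_singleton, Multiset.prod_singleton, pow_zero, mul_one, hself] at hχi
  obtain ⟨A, hA⟩ : ∃ A : Matrix (Fin i) (Fin i) F, A = (g : Matrix (Fin i) (Fin i) F) :=
    ⟨_, rfl⟩
  obtain ⟨Ai, hAi⟩ : ∃ Ai : Matrix (Fin i) (Fin i) F,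
      Ai = ((g⁻¹ : GL (Fin i) F) : Matrix (Fin i) (Fin i) F) := ⟨_, rfl⟩
  have hAAi : A * Ai = 1 := by
    rw [hA, hAi, ← Units.val_mul, mul_inv_cancel, Units.val_one]
  have hAiA : Ai * A = 1 := by
    rw [hA, hAi, ← Units.val_mul, inv_mul_cancel, Units.val_one]
  have hAr : A ^ r = 1 := by
    rw [hA, ← Units.val_pow_eq_pow_val, ← hord, pow_orderOf_eq_one, Units.val_one]
  have hAir : Aiᵀ ^ r = 1 := by
    rw [← Matrix.transpose_pow, hAi, ← Units.val_pow_eq_pow_val, inv_pow, ← hord,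
      pow_orderOf_eq_one, inv_one, Units.val_one, Matrix.transpose_one]
  have hχA : A.charpoly = x := by
    rw [hA]
    exact hχ
  have hχAi : Aiᵀ.charpoly = x := by
    rw [Matrix.charpoly_transpose, hAi]
    exact hχi
  obtain ⟨P, P', hPP', hP'P, hPA⟩ :=
    gl_conj_of_charpoly r hrF A Aiᵀ hAr hAir (hχA.trans hχAi.symm)
  have hirrA : Irreducible A.charpoly := by
    rw [hχA]
    exact hxirr
  have hinvP : Aᵀ * P * A = P := by
    rw [mul_assoc, hPA, ← mul_assoc, ← Matrix.transpose_mul, hAiA, Matrix.transpose_one,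
      one_mul]
  have hinvPt : Aᵀ * Pᵀ * A = Pᵀ := by
    have h1 := congrArg Matrix.transpose hinvP
    rw [Matrix.transpose_mul, Matrix.transpose_mul, Matrix.transpose_transpose,
      ← mul_assoc] at h1
    exact h1
  rcases irr_invariant_form A Ai (P + Pᵀ) hAAi hirrA
    (by rw [Matrix.mul_add, Matrix.add_mul, hinvP, hinvPt]) with h0 | h0
  · have hPt : Pᵀ = -P := by
      rw [eq_neg_iff_add_eq_zero, add_comm]
      exact h0
    have hAtP : Aᵀ * P = P * Ai := by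
      have h1 : Aᵀ * P * A * Ai = P * Ai := by rw [hinvP]
      rw [mul_assoc, hAAi, mul_one] at h1
      exact h1
    have hAitP : Aiᵀ * P = P * A := hPA.symm
    have hinvM : Aᵀ * (P * (A - Ai)) * A = P * (A - Ai) := by
      have hcomm : (A - Ai) * A = A * (A - Ai) := by
        rw [Matrix.sub_mul, Matrix.mul_sub, hAiA, hAAi]
      rw [mul_assoc, mul_assoc, hcomm, ← mul_assoc, ← mul_assoc, hinvP]
    rcases irr_invariant_form A Ai (P * (A - Ai)) hAAi hirrA hinvM with h1 | h1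
    · exfalso
      have h2 : P' * (P * (A - Ai)) = P' * 0 := by rw [h1]
      rw [← mul_assoc, hP'P, one_mul, mul_zero] at h2
      have h3 : A = Ai := sub_eq_zero.1 h2
      have hAA : A * A = 1 := by
        have h4 := hAAi
        rw [← h3] at h4
        exact h4
      obtain ⟨k, hk⟩ := hr.eq_two_or_odd'.resolve_left hr2
      have hA1 : A = 1 := by
        have h5 := hAr
        rw [hk, pow_succ, pow_mul, pow_two, hAA, one_pow, one_mul] at h5
        exact h5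
      rw [hA1, Matrix.charpoly_one, Fintype.card_fin] at hχA
      have h6 := congrArg (Polynomial.eval 1) hχA
      rw [eval_pow, eval_sub, eval_X, eval_one, sub_self, zero_pow hi0] at h6
      exact eval_one_ne_of_irred x hxm hxirr hne h6.symm
    · refine ⟨A, P * (A - Ai), hAr, ?_, h1, hinvM, hχA⟩
      rw [Matrix.transpose_mul, Matrix.transpose_sub, hPt, Matrix.sub_mul, Matrix.mul_neg,
        Matrix.mul_neg, hAtP, hAitP, Matrix.mul_sub]
      abel
  · refine ⟨A, P + Pᵀ, hAr, ?_, h0, ?_, hχA⟩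
    · rw [Matrix.transpose_add, Matrix.transpose_transpose, add_comm]
    · rw [Matrix.mul_add, Matrix.add_mul, hinvP, hinvPt]

theorem orth_blocks {F : Type u} [Field F] [Fintype F] (p : ℕ) [Fact p.Prime] [CharP F p]
    (S : Finset F[X]) (r i : ℕ) (hr : r.Prime) (hr2 : r ≠ 2) (hrp : r ≠ p)
    (hX1S : (X - 1 : F[X]) ∈ S)
    (hS : ∀ x ∈ S, x.Monic ∧ Irreducible x ∧ x ∣ X ^ r - 1)
    (hSdeg : ∀ x ∈ S, x ≠ X - 1 → x.natDegree = i)
    (hcrit : ∀ y : F[X], y.Monic → y.natDegree = i → y ∣ X ^ r - 1 → ¬ (X - 1 : F[X]) ∣ y →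
      y ∈ S)
    (hself : ∀ x ∈ S, x ≠ X - 1 → pstar x = x) (M' : Multiset F[X])
    (hM' : ∀ x ∈ M', x ∈ S ∧ x ≠ X - 1) :
    ∃ (κ : Type) (_ : Fintype κ) (_ : DecidableEq κ) (A M : Matrix κ κ F),
      A ^ r = 1 ∧ Mᵀ = M ∧ M.det ≠ 0 ∧ Aᵀ * M * A = M ∧ A.charpoly = M'.prod ∧
        Fintype.card κ = i * Multiset.card M' := by
  induction M' using Multiset.induction_on with
  | empty =>
    refine ⟨Fin 0, inferInstance, inferInstance, 1, 1, one_pow r, Matrix.transpose_one,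
      ?_, ?_, ?_, ?_⟩
    · rw [Matrix.det_one]
      exact one_ne_zero
    · rw [Matrix.transpose_one, one_mul, one_mul]
    · rw [Matrix.charpoly_one, Fintype.card_fin, pow_zero, Multiset.prod_zero]
    · rw [Fintype.card_fin, Multiset.card_zero, mul_zero]
  | cons x M' ih =>
    obtain ⟨κ, hκ1, hκ2, A, M, hAr, hMs, hMd, hAM, hχ, hcard⟩ :=
      ih (fun y hy => hM' y (Multiset.mem_cons_of_mem hy))
    obtain ⟨hxS, hxne⟩ := hM' x (Multiset.mem_cons_self x M')
    obtain ⟨A₀, M₀, hA₀r, hM₀s, hM₀d, hA₀M, hχ₀⟩ :=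
      orth_block p S r i hr hr2 hrp hX1S hS hSdeg hcrit x hxS hxne (hself x hxS hxne)
    refine ⟨Fin i ⊕ κ, inferInstance, inferInstance, Matrix.fromBlocks A₀ 0 0 A,
      Matrix.fromBlocks M₀ 0 0 M, ?_, ?_, ?_, ?_, ?_, ?_⟩
    · rw [fromBlocks_diag_pow, hA₀r, hAr, Matrix.fromBlocks_one]
    · rw [Matrix.fromBlocks_transpose, hM₀s, hMs, Matrix.transpose_zero, Matrix.transpose_zero]
    · rw [Matrix.det_fromBlocks_zero₁₂]
      exact mul_ne_zero hM₀d hMd
    · rw [Matrix.fromBlocks_transpose, Matrix.fromBlocks_multiply, Matrix.fromBlocks_multiply]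
      simp [hA₀M, hAM]
    · rw [Matrix.charpoly_fromBlocks_zero₁₂, hχ₀, hχ, Multiset.prod_cons]
    · rw [Fintype.card_sum, Fintype.card_fin, hcard, Multiset.card_cons]
      ring

theorem orth_pair {F : Type u} [Field F] [Fintype F] (p : ℕ) [Fact p.Prime] [CharP F p]
    (S : Finset F[X]) (r i : ℕ) (hr : r.Prime) (hX1S : (X - 1 : F[X]) ∈ S)
    (hS : ∀ x ∈ S, x.Monic ∧ Irreducible x ∧ x ∣ X ^ r - 1)
    (hSdeg : ∀ x ∈ S, x ≠ X - 1 → x.natDegree = i)
    (hcrit : ∀ y : F[X], y.Monic → y.natDegree = i → y ∣ X ^ r - 1 → ¬ (X - 1 : F[X]) ∣ y →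
      y ∈ S)
    (M₀ : Multiset F[X]) (hM₀ : ∀ x ∈ M₀, x ∈ S ∧ x ≠ X - 1) (hne : M₀ ≠ 0) :
    ∃ (κ : Type) (_ : Fintype κ) (_ : DecidableEq κ) (A M : Matrix κ κ F),
      A ^ r = 1 ∧ Mᵀ = M ∧ M.det ≠ 0 ∧ Aᵀ * M * A = M ∧
        A.charpoly = (M₀ + M₀.map pstar).prod ∧
        Fintype.card κ = i * Multiset.card (M₀ + M₀.map pstar) := by
  obtain ⟨g, hord, hχ⟩ := type_realize (n := i * Multiset.card M₀) p S r i hr hX1S hS hSdeg M₀
    hM₀ le_rfl hne
  rw [Nat.sub_self] at hχ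
  have hχi := charpoly_inv_type g S r i hr.ne_zero hS hSdeg hcrit M₀ hM₀ 0 hχ
  rw [pow_zero, mul_one] at hχ hχi
  obtain ⟨B, hB⟩ : ∃ B : Matrix (Fin (i * Multiset.card M₀)) (Fin (i * Multiset.card M₀)) F,
      B = (g : Matrix (Fin (i * Multiset.card M₀)) (Fin (i * Multiset.card M₀)) F) := ⟨_, rfl⟩
  obtain ⟨Bi, hBi⟩ : ∃ Bi : Matrix (Fin (i * Multiset.card M₀)) (Fin (i * Multiset.card M₀)) F,
      Bi = ((g⁻¹ : GL (Fin (i * Multiset.card M₀)) F) :
        Matrix (Fin (i * Multiset.card M₀)) (Fin (i * Multiset.card M₀)) F) := ⟨_, rfl⟩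
  have hBiB : Bi * B = 1 := by
    rw [hB, hBi, ← Units.val_mul, inv_mul_cancel, Units.val_one]
  have hBtBit : Bᵀ * Biᵀ = 1 := by
    rw [← Matrix.transpose_mul, hBiB, Matrix.transpose_one]
  have hBr : B ^ r = 1 := by
    rw [hB, ← Units.val_pow_eq_pow_val, ← hord, pow_orderOf_eq_one, Units.val_one]
  have hBir : Biᵀ ^ r = 1 := by
    rw [← Matrix.transpose_pow, hBi, ← Units.val_pow_eq_pow_val, inv_pow, ← hord,
      pow_orderOf_eq_one, inv_one, Units.val_one, Matrix.transpose_one]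
  have hχB : B.charpoly = M₀.prod := by
    rw [hB]
    exact hχ
  have hχBi : Biᵀ.charpoly = (M₀.map pstar).prod := by
    rw [Matrix.charpoly_transpose, hBi]
    exact hχi
  refine ⟨Fin (i * Multiset.card M₀) ⊕ Fin (i * Multiset.card M₀), inferInstance, inferInstance,
    Matrix.fromBlocks B 0 0 Biᵀ, Matrix.fromBlocks 0 1 1 0, ?_, ?_, ?_, ?_, ?_, ?_⟩
  · rw [fromBlocks_diag_pow, hBr, hBir, Matrix.fromBlocks_one]
  · rw [Matrix.fromBlocks_transpose, Matrix.transpose_zero, Matrix.transpose_one]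
  · intro h0
    have h1 : (Matrix.fromBlocks 0 1 1 0 : Matrix
        (Fin (i * Multiset.card M₀) ⊕ Fin (i * Multiset.card M₀))
        (Fin (i * Multiset.card M₀) ⊕ Fin (i * Multiset.card M₀)) F)
        * (Matrix.fromBlocks 0 1 1 0 : Matrix
        (Fin (i * Multiset.card M₀) ⊕ Fin (i * Multiset.card M₀))
        (Fin (i * Multiset.card M₀) ⊕ Fin (i * Multiset.card M₀)) F) = 1 := by
      rw [Matrix.fromBlocks_multiply]
      simp [Matrix.fromBlocks_one]
    have h2 := congrArg Matrix.det h1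
    rw [Matrix.det_mul, h0, zero_mul, Matrix.det_one] at h2
    exact zero_ne_one h2
  · rw [Matrix.fromBlocks_transpose, Matrix.fromBlocks_multiply, Matrix.fromBlocks_multiply]
    simp [hBiB, hBtBit]
  · rw [Matrix.charpoly_fromBlocks_zero₁₂, hχB, hχBi, Multiset.prod_add]
  · rw [Fintype.card_sum, Fintype.card_fin, Multiset.card_add, Multiset.card_map]
    ring

theorem orth_charpoly_inv {F : Type u} [Field F] {ι : Type} [Fintype ι] [DecidableEq ι]
    (𝒬 : QuadraticForm F (ι → F)) (hnd : (QuadraticMap.polarBilin 𝒬).Nondegenerate)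
    (g : GL ι F) (hg : ∀ v, 𝒬 ((g : Matrix ι ι F) *ᵥ v) = 𝒬 v) :
    ((g⁻¹ : GL ι F) : Matrix ι ι F).charpoly = (g : Matrix ι ι F).charpoly := by
  have hcomp : LinearMap.BilinForm.comp (QuadraticMap.polarBilin 𝒬)
      (Matrix.toLin' (g : Matrix ι ι F))
      (Matrix.toLin' (g : Matrix ι ι F)) = QuadraticMap.polarBilin 𝒬 := by
    refine LinearMap.ext fun u => LinearMap.ext fun w => ?_
    exact os_polar_iso 𝒬 (Matrix.toLin' (g : Matrix ι ι F))
      (fun v => by rw [Matrix.toLin'_apply]; exact hg v) u w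
  have hP := congrArg LinearMap.BilinForm.toMatrix' hcomp
  rw [LinearMap.BilinForm.toMatrix'_comp, LinearMap.toMatrix'_toLin'] at hP
  have hdet : (LinearMap.BilinForm.toMatrix' (QuadraticMap.polarBilin 𝒬)).det ≠ 0 :=
    Matrix.nondegenerate_iff_det_ne_zero.1
      (LinearMap.BilinForm.nondegenerate_toMatrix'_iff.2 hnd)
  obtain ⟨P, hPdef⟩ : ∃ P : Matrix ι ι F,
      P = LinearMap.BilinForm.toMatrix' (QuadraticMap.polarBilin 𝒬) := ⟨_, rfl⟩
  rw [← hPdef] at hP hdet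
  have hPu : IsUnit P.det := isUnit_iff_ne_zero.2 hdet
  have h1 : (g : Matrix ι ι F)ᵀ * P = P * ((g⁻¹ : GL ι F) : Matrix ι ι F) := by
    have h2 : (g : Matrix ι ι F)ᵀ * P * (g : Matrix ι ι F) * ((g⁻¹ : GL ι F) : Matrix ι ι F)
        = P * ((g⁻¹ : GL ι F) : Matrix ι ι F) := by rw [hP]
    rw [mul_assoc, ← Units.val_mul, mul_inv_cancel, Units.val_one, mul_one] at h2
    exact h2
  have h3 : ((g⁻¹ : GL ι F) : Matrix ι ι F) = P⁻¹ * ((g : Matrix ι ι F)ᵀ * P) := by
    rw [h1, ← mul_assoc, Matrix.nonsing_inv_mul P hPu, one_mul]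
  rw [h3, Matrix.charpoly_mul_comm, mul_assoc, Matrix.mul_nonsing_inv P hPu, mul_one,
    Matrix.charpoly_transpose]

theorem charpoly_inv_type' {K : Type u} [Field K] {ι : Type} [Fintype ι] [DecidableEq ι]
    (g : GL ι K) (S : Finset K[X])
    (r i : ℕ) (hr : r ≠ 0) (hS : ∀ x ∈ S, x.Monic ∧ Irreducible x ∧ x ∣ X ^ r - 1)
    (hdeg : ∀ x ∈ S, x ≠ X - 1 → x.natDegree = i)
    (hcrit : ∀ y : K[X], y.Monic → y.natDegree = i → y ∣ X ^ r - 1 → ¬ (X - 1 : K[X]) ∣ y →
      y ∈ S)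
    (M' : Multiset K[X]) (hM' : ∀ x ∈ M', x ∈ S ∧ x ≠ X - 1) (k : ℕ)
    (hχ : (g : Matrix ι ι K).charpoly = M'.prod * (X - 1) ^ k) :
    ((g⁻¹ : GL ι K) : Matrix ι ι K).charpoly
      = (M'.map pstar).prod * (X - 1) ^ k := by
  have h0 : ∀ x ∈ M', x.coeff 0 ≠ 0 :=
    fun x hx => coeff_zero_ne_of_dvd r hr x (hS x (hM' x hx).1).2.2
  have hstar : ∀ y ∈ M'.map pstar, y ∈ S ∧ y ≠ X - 1 := by
    intro y hy
    obtain ⟨x, hx, rfl⟩ := Multiset.mem_map.1 hy
    exact pstar_mem S r i hr hS hdeg hcrit x (hM' x hx).1 (hM' x hx).2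
  obtain ⟨hm1, hd1⟩ := type_prod_degree S i (fun x hx => (hS x hx).1) hdeg M' k hM'
  obtain ⟨hm2, hd2⟩ := type_prod_degree S i (fun x hx => (hS x hx).1) hdeg (M'.map pstar) k hstar
  rw [Multiset.card_map] at hd2
  have hE := Matrix.charpoly_inv (g : Matrix ι ι K) (Units.isUnit g)
  rw [← Matrix.reverse_charpoly, hχ, rev_type M' h0 k] at hE
  rw [Matrix.coe_units_inv]
  apply eq_of_monic_of_dvd_of_natDegree_le hm2 (Matrix.charpoly_monic _)
  · rw [hE]
    exact (dvd_mul_left _ _).mul_left _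
  · rw [Matrix.charpoly_natDegree_eq_dim, hd2]
    have h3 := congrArg natDegree hχ
    rw [Matrix.charpoly_natDegree_eq_dim, hd1] at h3
    omega

theorem orth_conj_of_charpoly {F : Type u} [Field F] [Fintype F] {ι : Type} [Fintype ι]
    [DecidableEq ι] (𝒬 : QuadraticForm F (ι → F))
    (hnd : (QuadraticMap.polarBilin 𝒬).Nondegenerate) (r : ℕ) (hrF : (r : F) ≠ 0) (hodd : Odd r)
    (A B : ↥(Cfsg.isometryGroup F ⇑𝒬))
    (hA : ((A : GL ι F) : Matrix ι ι F) ^ r = 1) (hB : ((B : GL ι F) : Matrix ι ι F) ^ r = 1)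
    (hc : ((A : GL ι F) : Matrix ι ι F).charpoly = ((B : GL ι F) : Matrix ι ι F).charpoly) :
    IsConj A B := by
  obtain ⟨T, hT⟩ := semi_conj_aux r hrF (Module.finrank F (ι → F)) (ι → F) (ι → F)
    (Matrix.toLin' (A.1 : Matrix ι ι F)) (Matrix.toLin' (B.1 : Matrix ι ι F)) rfl
    (by rw [← Matrix.toLin'_pow, hA, Matrix.toLin'_one]; rfl)
    (by rw [← Matrix.toLin'_pow, hB, Matrix.toLin'_one]; rfl)
    (by rw [Matrix.charpoly_toLin', Matrix.charpoly_toLin', hc])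
  obtain ⟨S, hSQ, hSab⟩ := orth_semi_conj 𝒬 hnd
    (Matrix.toLin' (A.1 : Matrix ι ι F)) (Matrix.toLin' (B.1 : Matrix ι ι F)) r hrF hodd
    (by rw [← Matrix.toLin'_pow, hA, Matrix.toLin'_one]; rfl)
    (by rw [← Matrix.toLin'_pow, hB, Matrix.toLin'_one]; rfl)
    (fun v => by rw [Matrix.toLin'_apply]; exact A.2 v v)
    (fun v => by rw [Matrix.toLin'_apply]; exact B.2 v v) T hT
  have hS1 : LinearMap.toMatrix' S.toLinearMap * LinearMap.toMatrix' S.symm.toLinearMap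
      = 1 := by
    rw [← LinearMap.toMatrix'_comp,
      show S.toLinearMap ∘ₗ S.symm.toLinearMap = LinearMap.id from
        LinearMap.ext (fun v => S.apply_symm_apply v), LinearMap.toMatrix'_id]
  have hS2 : LinearMap.toMatrix' S.symm.toLinearMap * LinearMap.toMatrix' S.toLinearMap
      = 1 := by
    rw [← LinearMap.toMatrix'_comp,
      show S.symm.toLinearMap ∘ₗ S.toLinearMap = LinearMap.id from
        LinearMap.ext (fun v => S.symm_apply_apply v), LinearMap.toMatrix'_id]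
  have hsmem : (⟨_, _, hS1, hS2⟩ : Matrix.GeneralLinearGroup ι F)
      ∈ Cfsg.isometryGroup F ⇑𝒬 := by
    intro u v
    show 𝒬 (Matrix.mulVec (LinearMap.toMatrix' S.toLinearMap) u) = 𝒬 u
    have h1 : Matrix.mulVec (LinearMap.toMatrix' S.toLinearMap) u = S u := by
      rw [← Matrix.toLin'_apply, Matrix.toLin'_toMatrix']
      rfl
    rw [h1, hSQ]
  have hsA : LinearMap.toMatrix' S.toLinearMap * (A.1 : Matrix ι ι F)
      = (B.1 : Matrix ι ι F) * LinearMap.toMatrix' S.toLinearMap := by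
    have h1 : S.toLinearMap ∘ₗ Matrix.toLin' (A.1 : Matrix ι ι F)
        = Matrix.toLin' (B.1 : Matrix ι ι F) ∘ₗ S.toLinearMap :=
      LinearMap.ext hSab
    have h2 := congrArg LinearMap.toMatrix' h1
    rwa [LinearMap.toMatrix'_comp, LinearMap.toMatrix'_comp, LinearMap.toMatrix'_toLin',
      LinearMap.toMatrix'_toLin'] at h2
  refine isConj_iff.2 ⟨⟨_, hsmem⟩, mul_inv_eq_iff_eq_mul.2 ?_⟩
  apply Subtype.ext
  apply Units.ext
  exact hsA

theorem sym_decomp {β : Type*} (S : Finset β) (a : β) (τ : β → β)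
    (hτP : ∀ x ∈ S, x ≠ a → (τ x ∈ S ∧ τ x ≠ a)) (hh : ∀ x ∈ S, x ≠ a → τ (τ x) = x)
    (hne : ∀ x ∈ S, x ≠ a → τ x ≠ x) (M' : Multiset β) (h1 : ∀ x ∈ M', x ∈ S ∧ x ≠ a)
    (hsym : M'.map τ = M') :
    ∃ M₀ : Multiset β, (∀ x ∈ M₀, x ∈ S ∧ x ≠ a) ∧ M' = M₀ + M₀.map τ := by
  classical
  have hPmem : ∀ x, x ∈ S.erase a ↔ x ∈ S ∧ x ≠ a := fun x => by
    rw [Finset.mem_erase]
    tauto
  have hstarP : ∀ x ∈ S.erase a, τ x ∈ S.erase a := by
    intro x hx
    rw [hPmem] at hx ⊢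
    exact hτP x hx.1 hx.2
  have hh' : ∀ x ∈ S.erase a, τ (τ x) = x := by
    intro x hx
    rw [hPmem] at hx
    exact hh x hx.1 hx.2
  have hne' : ∀ x ∈ S.erase a, τ x ≠ x := by
    intro x hx
    rw [hPmem] at hx
    exact hne x hx.1 hx.2
  obtain ⟨P₀, hP₀sub, hP₀card, hP₀⟩ := reps_exist (S.erase a) τ hstarP hh' hne'
  refine ⟨Multiset.filter (fun x => x ∈ P₀) M', fun x hx => h1 x (Multiset.mem_filter.1 hx).1, ?_⟩
  have hsplit := Multiset.filter_add_not (fun x => x ∈ P₀) M'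
  have h2 : Multiset.filter (fun x => ¬ x ∈ P₀) M'
      = (Multiset.filter (fun x => x ∈ P₀) M').map τ := by
    have h3 : Multiset.filter (fun x => ¬ x ∈ P₀) (M'.map τ)
        = (Multiset.filter ((fun x => ¬ x ∈ P₀) ∘ τ) M').map τ :=
      Multiset.filter_map _ _ _
    rw [hsym] at h3
    rw [h3]
    congr 1
    apply Multiset.filter_congr
    intro x hx
    show ¬ τ x ∈ P₀ ↔ x ∈ P₀
    exact (hP₀ x ((hPmem x).2 (h1 x hx))).symm
  rw [← h2, hsplit]

end Cfsg.Agent.Helper15
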