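import Mathlib
import Cfsg.Agent.Helper15.OrthPrime2
import Cfsg.Prelude.Def_JordanBlocks

set_option autoImplicit false

namespace Cfsg.Agent.Helper15
open Matrix

universe u

theorem matrix_eq_zero_of_rank {F : Type u} [Field F] {n : ℕ} (Z : Matrix (Fin n) (Fin n) F)
    (h : Z.rank = 0) : Z = 0 := by
  have h1 : Module.finrank F (LinearMap.range (Matrix.toLin' Z)) = 0 := h
  have h2 : LinearMap.range (Matrix.toLin' Z) = ⊥ := Submodule.finrank_eq_zero.1 h1
  have h3 : Matrix.toLin' Z = 0 := LinearMap.range_eq_bot.1 h2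
  exact Matrix.toLin'.injective (by rw [h3, map_zero])

theorem isConj_of_rank_eq {F : Type u} [Field F] {n : ℕ} (X Y : Matrix (Fin n) (Fin n) F)
    (hX : (X - 1) ^ n = 0) (hY : (Y - 1) ^ n = 0)
    (h : ∀ k, ((X - 1) ^ k).rank = ((Y - 1) ^ k).rank) : IsConj X Y := by
  have hker : ∀ (Z : Matrix (Fin n) (Fin n) F) (k : ℕ),
      Module.finrank F (LinearMap.ker ((Matrix.toLin' (Z - 1)) ^ k)) + ((Z - 1) ^ k).rank
        = n := by
    intro Z k
    rw [← Matrix.toLin'_pow]
    have h1 := LinearMap.finrank_range_add_finrank_ker (Matrix.toLin' ((Z - 1) ^ k))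
    rw [Module.finrank_fin_fun] at h1
    have h2 : ((Z - 1) ^ k).rank
        = Module.finrank F (LinearMap.range (Matrix.toLin' ((Z - 1) ^ k))) := rfl
    omega
  obtain ⟨T, hT⟩ := nil_conj_aux n (Fin n → F) (Fin n → F) (Matrix.toLin' (X - 1))
    (Matrix.toLin' (Y - 1)) (Module.finrank_fin_fun F)
    ⟨n, by rw [← Matrix.toLin'_pow, hX, map_zero]⟩
    ⟨n, by rw [← Matrix.toLin'_pow, hY, map_zero]⟩
    (fun k => by
      have h1 := hker X k
      have h2 := hker Y k
      have h3 := h k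
      omega)
  have hS1 : LinearMap.toMatrix' T.toLinearMap * LinearMap.toMatrix' T.symm.toLinearMap
      = 1 := by
    rw [← LinearMap.toMatrix'_comp,
      show T.toLinearMap ∘ₗ T.symm.toLinearMap = LinearMap.id from
        LinearMap.ext (fun v => T.apply_symm_apply v), LinearMap.toMatrix'_id]
  have hS2 : LinearMap.toMatrix' T.symm.toLinearMap * LinearMap.toMatrix' T.toLinearMap
      = 1 := by
    rw [← LinearMap.toMatrix'_comp,
      show T.symm.toLinearMap ∘ₗ T.toLinearMap = LinearMap.id from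
        LinearMap.ext (fun v => T.symm_apply_apply v), LinearMap.toMatrix'_id]
  have hTX : LinearMap.toMatrix' T.toLinearMap * (X - 1)
      = (Y - 1) * LinearMap.toMatrix' T.toLinearMap := by
    have h1 : T.toLinearMap ∘ₗ Matrix.toLin' (X - 1)
        = Matrix.toLin' (Y - 1) ∘ₗ T.toLinearMap := LinearMap.ext hT
    have h2 := congrArg LinearMap.toMatrix' h1
    rwa [LinearMap.toMatrix'_comp, LinearMap.toMatrix'_comp, LinearMap.toMatrix'_toLin',
      LinearMap.toMatrix'_toLin'] at h2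
  refine ⟨⟨_, _, hS1, hS2⟩, ?_⟩
  show LinearMap.toMatrix' T.toLinearMap * X = Y * LinearMap.toMatrix' T.toLinearMap
  rw [mul_sub, sub_mul, mul_one, one_mul] at hTX
  exact sub_left_injective hTX

theorem jord_orth_iff {F : Type u} [Field F] [Fintype F] (h2 : (2 : F) ≠ 0) {n t : ℕ}
    (d : Fin t → ℕ) (hd : ∀ k, 1 ≤ d k) (hsum : ∑ k, d k = n)
    (hP1 : ∀ k, ((Cfsg.jordanTypeMatrix d F - 1) ^ k).rank = ∑ i, (d i - k))
    (hP3 : ∀ A P : Matrix (Fin n) (Fin n) F, Pᵀ = P → P.det ≠ 0 → Aᵀ * P * A = P →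
      (A - 1) ^ n = 0 → ∀ k, Odd k → Even ((A - 1) ^ k).rank)
    (hP4 : (∀ k, Odd k → Even (∑ i, (d i - k))) → ∀ j, Even j → 0 < j →
      Even (Finset.univ.filter (fun i : Fin t => d i = j)).card)
    (hP6 : (∀ j, Even j → Even ((Finset.univ.val.map d).count j)) →
      ∃ (κ : Type) (_ : Fintype κ) (_ : DecidableEq κ) (A M : Matrix κ κ F), Mᵀ = M ∧
        M.det ≠ 0 ∧ Aᵀ * M * A = M ∧ Fintype.card κ = (Finset.univ.val.map d).sum ∧
        ∀ k, ((A - 1) ^ k).rank = ((Finset.univ.val.map d).map (fun a => a - k)).sum) :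
    (∃ Q : QuadraticForm F (Fin n → F), (QuadraticMap.polarBilin Q).Nondegenerate ∧
      ∃ e : ((k : Fin t) × Fin (d k)) ≃ Fin n, ∃ A : ↥(Cfsg.isometryGroup F ⇑Q),
        IsConj (Matrix.reindex e e (Cfsg.jordanTypeMatrix d F))
          ((A : Matrix.GeneralLinearGroup (Fin n) F) : Matrix (Fin n) (Fin n) F)) ↔
      ∀ j : ℕ, Even j → 0 < j →
        Even (Finset.univ.filter (fun k : Fin t => d k = j)).card := by
  have hre : ∀ (e : ((k : Fin t) × Fin (d k)) ≃ Fin n) (k : ℕ),
      ((Matrix.reindex e e (Cfsg.jordanTypeMatrix d F) - 1) ^ k).rank = ∑ i, (d i - k) := by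
    intro e k
    have h3 : ∀ Z, Matrix.reindex e e Z = Matrix.reindexAlgEquiv F F e Z :=
      fun Z => (Matrix.reindexAlgEquiv_apply F F e Z).symm
    have h1 : (Matrix.reindex e e (Cfsg.jordanTypeMatrix d F) - 1) ^ k
        = Matrix.reindex e e ((Cfsg.jordanTypeMatrix d F - 1) ^ k) := by
      rw [h3, h3, map_pow, map_sub, map_one]
    rw [h1, Matrix.rank_reindex, hP1]
  have hzero : ∑ i, (d i - n) = 0 := by
    apply Finset.sum_eq_zero
    intro i _
    have h1 : d i ≤ ∑ k, d k := Finset.single_le_sum (fun _ _ => Nat.zero_le _) (Finset.mem_univ i)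
    omega
  constructor
  · rintro ⟨Q, hQ, e, A, c, hc⟩
    obtain ⟨Am, hAm⟩ : ∃ Am : Matrix (Fin n) (Fin n) F,
        Am = ((A : Matrix.GeneralLinearGroup (Fin n) F) : Matrix (Fin n) (Fin n) F) := ⟨_, rfl⟩
    obtain ⟨J', hJ'⟩ : ∃ J' : Matrix (Fin n) (Fin n) F,
        J' = Matrix.reindex e e (Cfsg.jordanTypeMatrix d F) := ⟨_, rfl⟩
    have hc' : (c : Matrix (Fin n) (Fin n) F) * J' = Am * (c : Matrix (Fin n) (Fin n) F) := by
      rw [hJ', hAm]
      exact hc
    have hpow : ∀ k, (c : Matrix (Fin n) (Fin n) F) * (J' - 1) ^ k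
        = (Am - 1) ^ k * (c : Matrix (Fin n) (Fin n) F) := by
      intro k
      induction k with
      | zero => rw [pow_zero, pow_zero, mul_one, one_mul]
      | succ k ih =>
        rw [pow_succ, ← mul_assoc, ih, mul_assoc, pow_succ, mul_assoc]
        congr 1
        rw [mul_sub, sub_mul, hc', mul_one, one_mul]
    have hcdet : IsUnit (c : Matrix (Fin n) (Fin n) F).det :=
      (Matrix.isUnit_iff_isUnit_det _).1 c.isUnit
    have hcidet : IsUnit ((c⁻¹ : (Matrix (Fin n) (Fin n) F)ˣ) : Matrix (Fin n) (Fin n) F).det :=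
      (Matrix.isUnit_iff_isUnit_det _).1 (c⁻¹).isUnit
    have hrank : ∀ k, ((Am - 1) ^ k).rank = ∑ i, (d i - k) := by
      intro k
      have h1 : (Am - 1) ^ k = (c : Matrix (Fin n) (Fin n) F) * (J' - 1) ^ k
          * ((c⁻¹ : (Matrix (Fin n) (Fin n) F)ˣ) : Matrix (Fin n) (Fin n) F) := by
        rw [hpow, mul_assoc, Units.mul_inv, mul_one]
      rw [h1, Matrix.rank_mul_eq_left_of_isUnit_det _ _ hcidet,
        Matrix.rank_mul_eq_right_of_isUnit_det _ _ hcdet, hJ', hre]
    have hnil : (Am - 1) ^ n = 0 := matrix_eq_zero_of_rank _ (by rw [hrank, hzero])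
    obtain ⟨P, hPdef⟩ : ∃ P : Matrix (Fin n) (Fin n) F,
        P = LinearMap.BilinForm.toMatrix' (QuadraticMap.polarBilin Q) := ⟨_, rfl⟩
    have hPsymm : Pᵀ = P := by
      rw [hPdef]
      ext a b
      rw [Matrix.transpose_apply, LinearMap.BilinForm.toMatrix'_apply,
        LinearMap.BilinForm.toMatrix'_apply]
      exact QuadraticMap.polar_comm _ _ _
    have hPdet : P.det ≠ 0 := by
      rw [hPdef]
      exact Matrix.nondegenerate_iff_det_ne_zero.1
        (LinearMap.BilinForm.nondegenerate_toMatrix'_iff.2 hQ)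
    have hAP : Amᵀ * P * Am = P := by
      have hcomp : LinearMap.BilinForm.comp (QuadraticMap.polarBilin Q) (Matrix.toLin' Am)
          (Matrix.toLin' Am) = QuadraticMap.polarBilin Q := by
        refine LinearMap.ext fun u => LinearMap.ext fun w => ?_
        exact os_polar_iso Q (Matrix.toLin' Am)
          (fun v => by rw [Matrix.toLin'_apply, hAm]; exact A.2 v v) u w
      have hP' := congrArg LinearMap.BilinForm.toMatrix' hcomp
      rw [LinearMap.BilinForm.toMatrix'_comp, LinearMap.toMatrix'_toLin'] at hP'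
      rw [hPdef]
      exact hP'
    have heven := hP3 Am P hPsymm hPdet hAP hnil
    apply hP4
    intro k hk
    rw [← hrank k]
    exact heven k hk
  · intro hpar
    obtain ⟨κ, hκ1, hκ2, A, M, hMs, hMd, hAM, hcard, hrk⟩ := hP6 (by
      intro j hj
      rcases Nat.eq_zero_or_pos j with h0 | hpos
      · rw [h0, Multiset.count_eq_zero_of_notMem]
        · exact ⟨0, rfl⟩
        · intro hmem
          obtain ⟨i, -, hi⟩ := Multiset.mem_map.1 hmem
          have := hd i
          omega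
      · have h1 := hpar j hj hpos
        have h2' : (Finset.univ.val.map d).count j
            = (Finset.univ.filter (fun k : Fin t => d k = j)).card := by
          rw [Multiset.count_map, Finset.card_def, Finset.filter_val]
          congr 1
          apply Multiset.filter_congr
          intro x _
          exact eq_comm
        rw [h2']
        exact h1)
    have hsum' : (Finset.univ.val.map d).sum = n := by
      rw [← hsum]
      rfl
    rw [hsum'] at hcard
    have hrk' : ∀ k, ((A - 1) ^ k).rank = ∑ i, (d i - k) := by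
      intro k
      rw [hrk k, Multiset.map_map]
      rfl
    obtain ⟨σ⟩ : Nonempty (κ ≃ Fin n) := ⟨Fintype.equivFinOfCardEq hcard⟩
    obtain ⟨e⟩ : Nonempty (((k : Fin t) × Fin (d k)) ≃ Fin n) :=
      ⟨Fintype.equivFinOfCardEq (by
        rw [Fintype.card_sigma]
        simp only [Fintype.card_fin]
        exact hsum)⟩
    obtain ⟨M', hM'⟩ : ∃ M' : Matrix (Fin n) (Fin n) F, M' = Matrix.reindex σ σ M := ⟨_, rfl⟩
    obtain ⟨A', hA'⟩ : ∃ A' : Matrix (Fin n) (Fin n) F, A' = Matrix.reindex σ σ A := ⟨_, rfl⟩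
    have hre2 : ∀ Z, Matrix.reindex σ σ Z = Matrix.reindexAlgEquiv F F σ Z :=
      fun Z => (Matrix.reindexAlgEquiv_apply F F σ Z).symm
    have hM's : M'ᵀ = M' := by
      rw [hM', Matrix.transpose_reindex, hMs]
    have hM'd : M'.det ≠ 0 := by
      rw [hM', Matrix.det_reindex_self]
      exact hMd
    have hA'M : A'ᵀ * M' * A' = M' := by
      rw [hA', hM', Matrix.transpose_reindex, hre2, hre2, hre2, ← map_mul, ← map_mul, hAM]
    have hrkA' : ∀ k, ((A' - 1) ^ k).rank = ∑ i, (d i - k) := by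
      intro k
      have h1 : (A' - 1) ^ k = Matrix.reindex σ σ ((A - 1) ^ k) := by
        rw [hA', hre2, hre2, map_pow, map_sub, map_one]
      rw [h1, Matrix.rank_reindex, hrk']
    have hA'det : A'.det ≠ 0 := by
      intro h0
      have h1 := congrArg Matrix.det hA'M
      rw [Matrix.det_mul, Matrix.det_mul, h0, mul_zero] at h1
      exact hM'd h1.symm
    obtain ⟨Ai, hAi⟩ : ∃ Ai : Matrix (Fin n) (Fin n) F, Ai = A'⁻¹ := ⟨_, rfl⟩
    have hu : IsUnit A'.det := isUnit_iff_ne_zero.2 hA'det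
    have h1 : A' * Ai = 1 := by
      rw [hAi]
      exact Matrix.mul_nonsing_inv A' hu
    have h1' : Ai * A' = 1 := by
      rw [hAi]
      exact Matrix.nonsing_inv_mul A' hu
    have hmem : (⟨A', Ai, h1, h1'⟩ : Matrix.GeneralLinearGroup (Fin n) F)
        ∈ Cfsg.isometryGroup F ⇑(quadOfMatrix M') := by
      intro u v
      exact quadOfMatrix_inv M' A' hA'M u
    refine ⟨quadOfMatrix M', quadOfMatrix_nondeg h2 M' hM's hM'd, e, ⟨_, hmem⟩, ?_⟩
    exact isConj_of_rank_eq _ _
      (matrix_eq_zero_of_rank _ (by rw [hre e n, hzero]))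
      (matrix_eq_zero_of_rank _ (by rw [hrkA' n, hzero]))
      (fun k => by rw [hre e k]; exact (hrkA' k).symm)

end Cfsg.Agent.Helper15
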