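import Mathlib
import Cfsg.Agent.Helper15.JordOrthMain
import Cfsg.Prelude.Def_JordanBlocks
import Cfsg.Prelude.Def_Classical

set_option autoImplicit false

namespace Cfsg.Agent.Helper15
open Matrix

universe u

theorem jord_orth2_iff {F : Type u} [Field F] {m t : ℕ}
    (d : Fin t → ℕ) (hd : ∀ k, 1 ≤ d k) (hsum : ∑ k, d k = 2 * m)
    (hP1 : ∀ k, ((Cfsg.jordanTypeMatrix d F - 1) ^ k).rank = ∑ i, (d i - k))
    (hT1 : ∀ (Q : QuadraticForm F (Fin (2 * m) → F)),
      (QuadraticMap.polarBilin Q).Nondegenerate →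
      ∀ g : Matrix.GeneralLinearGroup (Fin (2 * m)) F, g ∈ Cfsg.isometryGroup F ⇑Q →
      ∀ k, Even k → Even (((g : Matrix (Fin (2 * m)) (Fin (2 * m)) F) - 1) ^ k).rank)
    (hP4 : (∀ k, Even k → Even (∑ i, (d i - k))) → ∀ j, Odd j →
      Even (Finset.univ.filter (fun i : Fin t => d i = j)).card)
    (hS : (∀ j : ℕ, Odd j → Even (Finset.univ.filter (fun k : Fin t => d k = j)).card) →
      ∃ e : ((k : Fin t) × Fin (d k)) ≃ (Fin m ⊕ Fin m),
      ∃ B : Matrix.symplecticGroup (Fin m) F,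
        IsConj (Matrix.reindex e e (Cfsg.jordanTypeMatrix d F))
          (B : Matrix (Fin m ⊕ Fin m) (Fin m ⊕ Fin m) F))
    (hT2 : ∀ (B : Matrix.symplecticGroup (Fin m) F) (τ : (Fin m ⊕ Fin m) ≃ Fin (2 * m)),
      ∃ Q : QuadraticForm F (Fin (2 * m) → F), (QuadraticMap.polarBilin Q).Nondegenerate ∧
        ∃ A : ↥(Cfsg.isometryGroup F ⇑Q),
          ((A : Matrix.GeneralLinearGroup (Fin (2 * m)) F) :
            Matrix (Fin (2 * m)) (Fin (2 * m)) F)
            = Matrix.reindex τ τ (B : Matrix (Fin m ⊕ Fin m) (Fin m ⊕ Fin m) F)) :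
    (∃ Q : QuadraticForm F (Fin (2 * m) → F), (QuadraticMap.polarBilin Q).Nondegenerate ∧
      ∃ e : ((k : Fin t) × Fin (d k)) ≃ Fin (2 * m), ∃ A : ↥(Cfsg.isometryGroup F ⇑Q),
        IsConj (Matrix.reindex e e (Cfsg.jordanTypeMatrix d F))
          ((A : Matrix.GeneralLinearGroup (Fin (2 * m)) F) :
            Matrix (Fin (2 * m)) (Fin (2 * m)) F)) ↔
      ∀ j : ℕ, Odd j → Even (Finset.univ.filter (fun k : Fin t => d k = j)).card := by
  have hre : ∀ (e : ((k : Fin t) × Fin (d k)) ≃ Fin (2 * m)) (k : ℕ),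
      ((Matrix.reindex e e (Cfsg.jordanTypeMatrix d F) - 1) ^ k).rank = ∑ i, (d i - k) := by
    intro e k
    have h3 : ∀ Z, Matrix.reindex e e Z = Matrix.reindexAlgEquiv F F e Z :=
      fun Z => (Matrix.reindexAlgEquiv_apply F F e Z).symm
    have h1 : (Matrix.reindex e e (Cfsg.jordanTypeMatrix d F) - 1) ^ k
        = Matrix.reindex e e ((Cfsg.jordanTypeMatrix d F - 1) ^ k) := by
      rw [h3, h3, map_pow, map_sub, map_one]
    rw [h1, Matrix.rank_reindex, hP1]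
  constructor
  · rintro ⟨Q, hQ, e, A, c, hc⟩
    obtain ⟨Am, hAm⟩ : ∃ Am : Matrix (Fin (2 * m)) (Fin (2 * m)) F,
        Am = ((A : Matrix.GeneralLinearGroup (Fin (2 * m)) F) :
          Matrix (Fin (2 * m)) (Fin (2 * m)) F) := ⟨_, rfl⟩
    obtain ⟨J', hJ'⟩ : ∃ J' : Matrix (Fin (2 * m)) (Fin (2 * m)) F,
        J' = Matrix.reindex e e (Cfsg.jordanTypeMatrix d F) := ⟨_, rfl⟩
    have hc' : (c : Matrix (Fin (2 * m)) (Fin (2 * m)) F) * J'
        = Am * (c : Matrix (Fin (2 * m)) (Fin (2 * m)) F) := by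
      rw [hJ', hAm]
      exact hc
    have hpow : ∀ k, (c : Matrix (Fin (2 * m)) (Fin (2 * m)) F) * (J' - 1) ^ k
        = (Am - 1) ^ k * (c : Matrix (Fin (2 * m)) (Fin (2 * m)) F) := by
      intro k
      induction k with
      | zero => rw [pow_zero, pow_zero, mul_one, one_mul]
      | succ k ih =>
        rw [pow_succ, ← mul_assoc, ih, mul_assoc, pow_succ, mul_assoc]
        congr 1
        rw [mul_sub, sub_mul, hc', mul_one, one_mul]
    have hcdet : IsUnit (c : Matrix (Fin (2 * m)) (Fin (2 * m)) F).det :=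
      (Matrix.isUnit_iff_isUnit_det _).1 c.isUnit
    have hcidet : IsUnit ((c⁻¹ : (Matrix (Fin (2 * m)) (Fin (2 * m)) F)ˣ) :
        Matrix (Fin (2 * m)) (Fin (2 * m)) F).det :=
      (Matrix.isUnit_iff_isUnit_det _).1 (c⁻¹).isUnit
    have hrank : ∀ k, ((Am - 1) ^ k).rank = ∑ i, (d i - k) := by
      intro k
      have h1 : (Am - 1) ^ k = (c : Matrix (Fin (2 * m)) (Fin (2 * m)) F) * (J' - 1) ^ k
          * ((c⁻¹ : (Matrix (Fin (2 * m)) (Fin (2 * m)) F)ˣ) :
            Matrix (Fin (2 * m)) (Fin (2 * m)) F) := by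
        rw [hpow, mul_assoc, Units.mul_inv, mul_one]
      rw [h1, Matrix.rank_mul_eq_left_of_isUnit_det _ _ hcidet,
        Matrix.rank_mul_eq_right_of_isUnit_det _ _ hcdet, hJ', hre]
    have heven := hT1 Q hQ (A : Matrix.GeneralLinearGroup (Fin (2 * m)) F) A.2
    apply hP4
    intro k hk
    rw [← hrank k, hAm]
    exact heven k hk
  · intro hpar
    obtain ⟨e, B, hconj⟩ := hS hpar
    obtain ⟨τ⟩ : Nonempty ((Fin m ⊕ Fin m) ≃ Fin (2 * m)) :=
      ⟨Fintype.equivFinOfCardEq (by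
        rw [Fintype.card_sum, Fintype.card_fin]
        omega)⟩
    obtain ⟨Q, hQ, A, hA⟩ := hT2 B τ
    refine ⟨Q, hQ, e.trans τ, A, ?_⟩
    rw [hA]
    have h1 : IsConj (Matrix.reindex τ τ (Matrix.reindex e e (Cfsg.jordanTypeMatrix d F)))
        (Matrix.reindex τ τ (B : Matrix (Fin m ⊕ Fin m) (Fin m ⊕ Fin m) F)) :=
      MonoidHom.map_isConj
        (Matrix.reindexAlgEquiv F F τ).toRingEquiv.toMulEquiv.toMonoidHom hconj
    exact h1

end Cfsg.Agent.Helper15
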