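import Mathlib
import Cfsg.Prelude.Def_Classical
import Cfsg.Agent.S2585

set_option autoImplicit false

namespace Cfsg.Agent.Helper15
open Matrix

theorem symp_to_orth2 {F : Type*} [Field F] [Fintype F] [CharP F 2] {m : ℕ}
    (B : Matrix.symplecticGroup (Fin m) F) (τ : (Fin m ⊕ Fin m) ≃ Fin (2 * m)) :
    ∃ Q : QuadraticForm F (Fin (2 * m) → F), (QuadraticMap.polarBilin Q).Nondegenerate ∧
      ∃ A : ↥(Cfsg.isometryGroup F ⇑Q),
        ((A : Matrix.GeneralLinearGroup (Fin (2 * m)) F) : Matrix (Fin (2 * m)) (Fin (2 * m)) F)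
          = Matrix.reindex τ τ (B : Matrix (Fin m ⊕ Fin m) (Fin m ⊕ Fin m) F) := by
  classical
  obtain ⟨Q₀, hpol, hinv⟩ := Cfsg.Agent.S2585.result B
  obtain ⟨Q, hQ⟩ : ∃ Q : QuadraticForm F (Fin (2 * m) → F), ∀ v, Q v = Q₀ (v ∘ τ) :=
    ⟨Q₀.comp (LinearEquiv.funCongrLeft F F τ : (Fin (2 * m) → F) →ₗ[F] (Fin m ⊕ Fin m → F)),
      fun v => rfl⟩
  have hpolQ : ∀ x y, QuadraticMap.polarBilin Q x y
      = (x ∘ τ) ⬝ᵥ (Matrix.J (Fin m) F *ᵥ (y ∘ τ)) := by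
    intro x y
    rw [QuadraticMap.polarBilin_apply_apply]
    have h1 : QuadraticMap.polar ⇑Q x y = QuadraticMap.polar ⇑Q₀ (x ∘ τ) (y ∘ τ) := by
      unfold QuadraticMap.polar
      rw [hQ, hQ, hQ]
      rfl
    rw [h1, hpol]
    rfl
  have hleft : ∀ x, (∀ y, QuadraticMap.polarBilin Q x y = 0) → x = 0 := by
    intro x hx
    have h1 : (x ∘ τ) ᵥ* Matrix.J (Fin m) F = 0 := by
      funext j
      have h := hx ((Pi.single j 1 : Fin m ⊕ Fin m → F) ∘ τ.symm)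
      rw [hpolQ] at h
      have h2 : ((Pi.single j 1 : Fin m ⊕ Fin m → F) ∘ τ.symm) ∘ τ = Pi.single j 1 := by
        funext i
        simp
      rw [h2, Matrix.dotProduct_mulVec, dotProduct_single_one] at h
      exact h
    have h3 : x ∘ τ = 0 :=
      Matrix.eq_zero_of_vecMul_eq_zero (Matrix.isUnit_det_J (Fin m) F).ne_zero h1
    funext i
    have h4 := congrFun h3 (τ.symm i)
    simpa using h4
  have hnd : (QuadraticMap.polarBilin Q).Nondegenerate := by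
    refine ⟨hleft, fun y hy => hleft y (fun x => ?_)⟩
    rw [QuadraticMap.polarBilin_apply_apply, QuadraticMap.polar_comm,
      ← QuadraticMap.polarBilin_apply_apply]
    exact hy x
  have hre : ∀ Z, Matrix.reindex τ τ Z = Matrix.reindexAlgEquiv F F τ Z :=
    fun Z => (Matrix.reindexAlgEquiv_apply F F τ Z).symm
  have hBB : (B : Matrix (Fin m ⊕ Fin m) (Fin m ⊕ Fin m) F)
      * ((B⁻¹ : Matrix.symplecticGroup (Fin m) F) : Matrix (Fin m ⊕ Fin m) (Fin m ⊕ Fin m) F)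
        = 1 := by
    rw [← Submonoid.coe_mul, mul_inv_cancel]
    rfl
  have hBB' : ((B⁻¹ : Matrix.symplecticGroup (Fin m) F) :
      Matrix (Fin m ⊕ Fin m) (Fin m ⊕ Fin m) F)
      * (B : Matrix (Fin m ⊕ Fin m) (Fin m ⊕ Fin m) F) = 1 := by
    rw [← Submonoid.coe_mul, inv_mul_cancel]
    rfl
  have h1 : Matrix.reindex τ τ (B : Matrix (Fin m ⊕ Fin m) (Fin m ⊕ Fin m) F)
      * Matrix.reindex τ τ ((B⁻¹ : Matrix.symplecticGroup (Fin m) F) :
        Matrix (Fin m ⊕ Fin m) (Fin m ⊕ Fin m) F) = 1 := by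
    rw [hre, hre, ← map_mul, hBB, map_one]
  have h1' : Matrix.reindex τ τ ((B⁻¹ : Matrix.symplecticGroup (Fin m) F) :
        Matrix (Fin m ⊕ Fin m) (Fin m ⊕ Fin m) F)
      * Matrix.reindex τ τ (B : Matrix (Fin m ⊕ Fin m) (Fin m ⊕ Fin m) F) = 1 := by
    rw [hre, hre, ← map_mul, hBB', map_one]
  have hmem : (⟨_, _, h1, h1'⟩ : Matrix.GeneralLinearGroup (Fin (2 * m)) F)
      ∈ Cfsg.isometryGroup F ⇑Q := by
    intro u v
    show Q ((Matrix.reindex τ τ (B : Matrix (Fin m ⊕ Fin m) (Fin m ⊕ Fin m) F)) *ᵥ u) = Q u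
    rw [hQ, hQ]
    have h2 : ((Matrix.reindex τ τ (B : Matrix (Fin m ⊕ Fin m) (Fin m ⊕ Fin m) F)) *ᵥ u) ∘ τ
        = (B : Matrix (Fin m ⊕ Fin m) (Fin m ⊕ Fin m) F) *ᵥ (u ∘ τ) := by
      rw [Matrix.reindex_apply, Matrix.submatrix_mulVec_equiv]
      funext i
      simp
    rw [h2]
    exact hinv _
  exact ⟨Q, hnd, ⟨_, hmem⟩, rfl⟩

end Cfsg.Agent.Helper15
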