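import Mathlib
import Cfsg.Prelude.Def_JordanBlocks

set_option autoImplicit false
namespace Cfsg.Agent.Helper15
open Matrix

theorem jb_pow_apply {F : Type*} [Field F] (m k : ℕ) (a b : Fin m) :
    ((Cfsg.jordanBlock m F - 1) ^ k) a b = if (a : ℕ) = (b : ℕ) + k then 1 else 0 := by
  induction k generalizing a b with
  | zero => simp [Matrix.one_apply, Fin.ext_iff]
  | succ k ih =>
    rw [pow_succ, Matrix.mul_apply]
    simp only [ih]
    have hN : ∀ c : Fin m, (Cfsg.jordanBlock m F - 1) c b =
        if (c : ℕ) = (b : ℕ) + 1 then 1 else 0 := by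
      intro c
      simp only [Cfsg.jordanBlock, Matrix.sub_apply, Matrix.of_apply, Matrix.one_apply,
        Fin.ext_iff]
      by_cases h : (c : ℕ) = b
      · simp [h]
      · simp [h]
    simp only [hN]
    by_cases h : (a : ℕ) = (b : ℕ) + (k + 1)
    · have hb : (b : ℕ) + 1 < m := by have := a.2; omega
      rw [Finset.sum_eq_single ⟨(b : ℕ) + 1, hb⟩]
      · simp [h]; omega
      · intro c _ hc
        have : (c : ℕ) ≠ (b : ℕ) + 1 := fun h' => hc (Fin.ext h')
        simp [this]
      · intro h'; exact absurd (Finset.mem_univ _) h'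
    · rw [if_neg h]
      apply Finset.sum_eq_zero
      intro c _
      by_cases h1 : (a : ℕ) = (c : ℕ) + k
      · by_cases h2 : (c : ℕ) = (b : ℕ) + 1
        · exfalso; omega
        · simp [h2]
      · simp [h1]

theorem jb_pow_gram {F : Type*} [Field F] (m k : ℕ) :
    ((Cfsg.jordanBlock m F - 1) ^ k)ᵀ * ((Cfsg.jordanBlock m F - 1) ^ k) =
      Matrix.diagonal (fun b : Fin m => if (b : ℕ) + k < m then (1 : F) else 0) := by
  ext a b
  rw [Matrix.mul_apply]
  simp only [Matrix.transpose_apply, jb_pow_apply, Matrix.diagonal_apply]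
  by_cases hab : a = b
  · subst hab
    by_cases h : (a : ℕ) + k < m
    · rw [Finset.sum_eq_single ⟨(a : ℕ) + k, h⟩]
      · simp [h]
      · intro c _ hc
        have : (c : ℕ) ≠ (a : ℕ) + k := fun h' => hc (Fin.ext h')
        simp [this]
      · intro h'; exact absurd (Finset.mem_univ _) h'
    · simp only [if_true, if_neg h]
      apply Finset.sum_eq_zero
      intro c _
      have : (c : ℕ) ≠ (a : ℕ) + k := by have := c.2; omega
      simp [this]
  · rw [if_neg hab]
    apply Finset.sum_eq_zero
    intro c _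
    by_cases h1 : (c : ℕ) = (a : ℕ) + k
    · have : (c : ℕ) ≠ (b : ℕ) + k := by
        intro h2; apply hab; apply Fin.ext; omega
      simp [this]
    · simp [h1]

theorem jb_pow_mul_diag {F : Type*} [Field F] (m k : ℕ) :
    ((Cfsg.jordanBlock m F - 1) ^ k) *
        Matrix.diagonal (fun b : Fin m => if (b : ℕ) + k < m then (1 : F) else 0) =
      (Cfsg.jordanBlock m F - 1) ^ k := by
  ext a b
  rw [Matrix.mul_diagonal, jb_pow_apply]
  by_cases h : (a : ℕ) = (b : ℕ) + k
  · have : (b : ℕ) + k < m := by have := a.2; omega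
    simp [h, this]
  · simp [h]

theorem jordanType_rank {F : Type*} [Field F] {t : ℕ} (d : Fin t → ℕ) (k : ℕ) :
    ((Cfsg.jordanTypeMatrix d F - 1) ^ k).rank = ∑ i, (d i - k) := by
  classical
  have h1 : (Cfsg.jordanTypeMatrix d F - 1) ^ k =
      Matrix.blockDiagonal' (fun i => (Cfsg.jordanBlock (d i) F - 1) ^ k) := by
    have h0 : Cfsg.jordanTypeMatrix d F - 1 =
        Matrix.blockDiagonal' (fun i => Cfsg.jordanBlock (d i) F - 1) := by
      unfold Cfsg.jordanTypeMatrix
      rw [← Matrix.blockDiagonal'_one, ← Matrix.blockDiagonal'_sub]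
      rfl
    rw [h0, ← Matrix.blockDiagonal'_pow]
    rfl
  set w : (Σ i : Fin t, Fin (d i)) → F := fun x => if (x.2 : ℕ) + k < d x.1 then 1 else 0
    with hw
  have hD : Matrix.blockDiagonal' (fun i => Matrix.diagonal
      (fun b : Fin (d i) => if (b : ℕ) + k < d i then (1 : F) else 0)) = Matrix.diagonal w := by
    rw [Matrix.blockDiagonal'_diagonal]
  have h2 : ((Cfsg.jordanTypeMatrix d F - 1) ^ k)ᵀ * ((Cfsg.jordanTypeMatrix d F - 1) ^ k) =
      Matrix.diagonal w := by
    rw [h1, Matrix.blockDiagonal'_transpose, ← Matrix.blockDiagonal'_mul, ← hD]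
    congr 1
    funext i
    exact jb_pow_gram (d i) k
  have h3 : ((Cfsg.jordanTypeMatrix d F - 1) ^ k) * Matrix.diagonal w =
      (Cfsg.jordanTypeMatrix d F - 1) ^ k := by
    rw [h1, ← hD, ← Matrix.blockDiagonal'_mul]
    congr 1
    funext i
    exact jb_pow_mul_diag (d i) k
  have hr : (Matrix.diagonal w).rank = ∑ i, (d i - k) := by
    rw [Matrix.rank_diagonal]
    have hc : Fintype.card {x : (Σ i : Fin t, Fin (d i)) // w x ≠ 0} =
        ∑ x : (Σ i : Fin t, Fin (d i)), if (x.2 : ℕ) + k < d x.1 then 1 else 0 := by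
      rw [Fintype.card_subtype, Finset.card_filter]
      apply Finset.sum_congr rfl
      intro x _
      simp only [hw]
      by_cases h : (x.2 : ℕ) + k < d x.1 <;> simp [h]
    rw [hc, Fintype.sum_sigma]
    apply Finset.sum_congr rfl
    intro i _
    rw [Fin.sum_univ_eq_sum_range (fun b => if b + k < d i then 1 else 0) (d i)]
    rw [← Finset.card_filter]
    have : (Finset.range (d i)).filter (fun b => b + k < d i) = Finset.range (d i - k) := by
      ext b; simp; omega
    rw [this, Finset.card_range]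
  apply le_antisymm
  · calc ((Cfsg.jordanTypeMatrix d F - 1) ^ k).rank
        = (((Cfsg.jordanTypeMatrix d F - 1) ^ k) * Matrix.diagonal w).rank := by rw [h3]
      _ ≤ (Matrix.diagonal w).rank := Matrix.rank_mul_le_right _ _
      _ = _ := hr
  · calc ∑ i, (d i - k) = (Matrix.diagonal w).rank := hr.symm
      _ = (((Cfsg.jordanTypeMatrix d F - 1) ^ k)ᵀ *
            ((Cfsg.jordanTypeMatrix d F - 1) ^ k)).rank := by rw [h2]
      _ ≤ _ := Matrix.rank_mul_le_right _ _

end Cfsg.Agent.Helper15
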