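import Mathlib
import Cfsg.Prelude.Def_JordanBlocks
import Cfsg.Agent.Helper15.JordOrthRank

set_option autoImplicit false
namespace Cfsg.Agent.Helper15
open Matrix

theorem jb_pow_rank {F : Type*} [Field F] (m k : ℕ) :
    ((Cfsg.jordanBlock m F - 1) ^ k).rank = m - k := by
  classical
  set w : Fin m → F := fun b => if (b : ℕ) + k < m then 1 else 0 with hw
  have hr : (Matrix.diagonal w).rank = m - k := by
    rw [Matrix.rank_diagonal]
    have hc : Fintype.card {x : Fin m // w x ≠ 0} =
        ∑ b : Fin m, if (b : ℕ) + k < m then 1 else 0 := by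
      rw [Fintype.card_subtype, Finset.card_filter]
      apply Finset.sum_congr rfl
      intro x _
      simp only [hw]
      by_cases h : (x : ℕ) + k < m <;> simp [h]
    rw [hc, Fin.sum_univ_eq_sum_range (fun b => if b + k < m then 1 else 0) m,
      ← Finset.card_filter]
    have : (Finset.range m).filter (fun b => b + k < m) = Finset.range (m - k) := by
      ext b; simp; omega
    rw [this, Finset.card_range]
  apply le_antisymm
  · calc ((Cfsg.jordanBlock m F - 1) ^ k).rank
        = (((Cfsg.jordanBlock m F - 1) ^ k) * Matrix.diagonal w).rank := by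
          rw [jb_pow_mul_diag]
      _ ≤ (Matrix.diagonal w).rank := Matrix.rank_mul_le_right _ _
      _ = _ := hr
  · calc m - k = (Matrix.diagonal w).rank := hr.symm
      _ = (((Cfsg.jordanBlock m F - 1) ^ k)ᵀ * ((Cfsg.jordanBlock m F - 1) ^ k)).rank := by
          rw [jb_pow_gram]
      _ ≤ _ := Matrix.rank_mul_le_right _ _

theorem sum_shift_right {F : Type*} [Field F] {d : ℕ} (f : Fin d → F) (b : Fin d) :
    ∑ c : Fin d, f c * (if (c : ℕ) = (b : ℕ) + 1 then 1 else 0) =
      if h : (b : ℕ) + 1 < d then f ⟨(b : ℕ) + 1, h⟩ else 0 := by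
  by_cases h : (b : ℕ) + 1 < d
  · rw [dif_pos h, Finset.sum_eq_single ⟨(b : ℕ) + 1, h⟩]
    · simp
    · intro c _ hc
      have : (c : ℕ) ≠ (b : ℕ) + 1 := fun h' => hc (Fin.ext h')
      simp [this]
    · intro h'; exact absurd (Finset.mem_univ _) h'
  · rw [dif_neg h]
    apply Finset.sum_eq_zero
    intro c _
    have : (c : ℕ) ≠ (b : ℕ) + 1 := by have := c.2; omega
    simp [this]

theorem sum_shift_left {F : Type*} [Field F] {d : ℕ} (f : Fin d → F) (a : Fin d) :
    ∑ c : Fin d, (if (c : ℕ) = (a : ℕ) + 1 then 1 else 0) * f c =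
      if h : (a : ℕ) + 1 < d then f ⟨(a : ℕ) + 1, h⟩ else 0 := by
  rw [← sum_shift_right f a]
  apply Finset.sum_congr rfl
  intro c _
  rw [mul_comm]

theorem odd_block_form {F : Type*} [Field F] (h2 : (2 : F) ≠ 0) (d : ℕ) (hd : Odd d) :
    ∃ A M : Matrix (Fin d) (Fin d) F, Mᵀ = M ∧ M.det ≠ 0 ∧ Aᵀ * M * A = M ∧
      ∀ k, ((A - 1) ^ k).rank = d - k := by
  classical
  obtain ⟨m, hm⟩ := hd
  set N : Matrix (Fin d) (Fin d) F := Cfsg.jordanBlock d F - 1 with hNdef
  have hN : ∀ c b : Fin d, N c b = if (c : ℕ) = (b : ℕ) + 1 then 1 else 0 := by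
    intro c b
    have := jb_pow_apply (F := F) d 1 c b
    rwa [pow_one] at this
  have hNd : N ^ d = 0 := by
    ext a b
    rw [hNdef, jb_pow_apply, if_neg (by have := a.2; omega)]
    rfl
  set M : Matrix (Fin d) (Fin d) F :=
    Matrix.of (fun a b : Fin d => if (a : ℕ) + (b : ℕ) + 1 = d then (-1 : F) ^ (a : ℕ) else 0)
    with hMdef
  have hM : ∀ a b : Fin d, M a b = if (a : ℕ) + (b : ℕ) + 1 = d then (-1 : F) ^ (a : ℕ) else 0 :=
    fun a b => rfl
  have hMsymm : Mᵀ = M := by
    ext a b
    rw [Matrix.transpose_apply, hM, hM]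
    by_cases h : (a : ℕ) + (b : ℕ) + 1 = d
    · rw [if_pos h, if_pos (by omega), neg_one_pow_eq_pow_mod_two (n := (b : ℕ)),
        neg_one_pow_eq_pow_mod_two (n := (a : ℕ))]
      have : (b : ℕ) % 2 = (a : ℕ) % 2 := by omega
      rw [this]
    · rw [if_neg h, if_neg (by omega)]
  have hMM : M * M = 1 := by
    ext a c
    rw [Matrix.mul_apply]
    have hb0 : d - 1 - (a : ℕ) < d := by have := a.2; omega
    rw [Finset.sum_eq_single ⟨d - 1 - (a : ℕ), hb0⟩]
    · have hval : ((⟨d - 1 - (a : ℕ), hb0⟩ : Fin d) : ℕ) = d - 1 - (a : ℕ) := rfl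
      rw [hM, hM, hval]
      have ha := a.2
      by_cases hac : a = c
      · subst hac
        rw [if_pos (by omega), if_pos (by omega), Matrix.one_apply_eq, ← pow_add]
        apply Even.neg_one_pow
        exact ⟨m, by omega⟩
      · have hac' : (a : ℕ) ≠ (c : ℕ) := fun h => hac (Fin.ext h)
        rw [if_neg (by omega) (c := (d - 1 - (a : ℕ) + (c : ℕ) + 1 = d)), mul_zero,
          Matrix.one_apply_ne hac]
    · intro b _ hb
      have hb' : (b : ℕ) ≠ d - 1 - (a : ℕ) := fun h => hb (Fin.ext h)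
      rw [hM, if_neg (by omega), zero_mul]
    · intro h'; exact absurd (Finset.mem_univ _) h'
  have hMdet : M.det ≠ 0 := (Matrix.isUnit_det_of_left_inverse hMM).ne_zero
  have hMN : M * N = -(Nᵀ * M) := by
    ext a b
    rw [Matrix.mul_apply, Matrix.neg_apply, Matrix.mul_apply]
    simp only [Matrix.transpose_apply, hN]
    rw [sum_shift_right (fun c => M a c) b, sum_shift_left (fun c => M c b) a]
    have ha := a.2
    have hb := b.2
    by_cases hb1 : (b : ℕ) + 1 < d
    · rw [dif_pos hb1]
      by_cases ha1 : (a : ℕ) + 1 < d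
      · rw [dif_pos ha1]
        simp only [hM, Fin.val_mk]
        by_cases h : (a : ℕ) + (b : ℕ) + 2 = d
        · rw [if_pos (by omega), if_pos (by omega), pow_succ]
          ring
        · rw [if_neg (by omega), if_neg (by omega)]
          simp
      · rw [dif_neg ha1]
        simp only [hM, Fin.val_mk]
        rw [if_neg (by omega)]
        simp
    · rw [dif_neg hb1]
      by_cases ha1 : (a : ℕ) + 1 < d
      · rw [dif_pos ha1]
        simp only [hM, Fin.val_mk]
        rw [if_neg (by omega)]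
        simp
      · rw [dif_neg ha1]
        simp
  set B : Matrix (Fin d) (Fin d) F := ∑ i ∈ Finset.range d, N ^ i with hBdef
  have hB : (1 - N) * B = 1 := by
    rw [hBdef, mul_neg_geom_sum, hNd, sub_zero]
  have hNB : Commute N B := by
    rw [hBdef]
    exact Commute.sum_right _ _ _ (fun i _ => Commute.pow_right (Commute.refl N) i)
  have e1 : (1 + N)ᵀ * M = M * (1 - N) := by
    rw [Matrix.transpose_add, Matrix.transpose_one, add_mul, one_mul, mul_sub, mul_one, hMN]
    abel
  have e2 : Bᵀ * (M * (1 + N)) = M := by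
    have : M * (1 + N) = (1 - N)ᵀ * M := by
      rw [Matrix.transpose_sub, Matrix.transpose_one, sub_mul, one_mul, mul_add, mul_one, hMN]
      abel
    rw [this, ← mul_assoc, ← Matrix.transpose_mul, hB, Matrix.transpose_one, one_mul]
  refine ⟨(1 + N) * B, M, hMsymm, hMdet, ?_, ?_⟩
  · have hcomm : (1 - N) * (1 + N) = (1 + N) * (1 - N) := by noncomm_ring
    calc ((1 + N) * B)ᵀ * M * ((1 + N) * B)
        = Bᵀ * ((1 + N)ᵀ * M) * ((1 + N) * B) := by
          rw [Matrix.transpose_mul]; simp only [mul_assoc]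
      _ = Bᵀ * (M * ((1 - N) * (1 + N))) * B := by
          rw [e1]; simp only [mul_assoc]
      _ = Bᵀ * (M * (1 + N)) * ((1 - N) * B) := by
          rw [hcomm]; simp only [mul_assoc]
      _ = M := by rw [hB, mul_one, e2]
  · intro k
    set C : Matrix (Fin d) (Fin d) F := (2 : F) • B with hCdef
    have hA1 : (1 + N) * B - 1 = N * C := by
      calc (1 + N) * B - 1 = (1 + N) * B - (1 - N) * B := by rw [hB]
        _ = N * C := by
          rw [hCdef, Matrix.mul_smul, two_smul]
          noncomm_ring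
    have hNC : Commute N C := by
      rw [hCdef]
      exact Commute.smul_right hNB 2
    have hBdet : IsUnit B.det := Matrix.isUnit_det_of_left_inverse hB
    have hCdet : IsUnit C.det := by
      rw [hCdef, Matrix.det_smul]
      exact IsUnit.mul (IsUnit.pow _ (isUnit_iff_ne_zero.mpr h2)) hBdet
    have hCk : IsUnit (C ^ k).det := by
      rw [Matrix.det_pow]
      exact IsUnit.pow _ hCdet
    rw [hA1, hNC.mul_pow, Matrix.rank_mul_eq_left_of_isUnit_det _ _ hCk, hNdef, jb_pow_rank]

end Cfsg.Agent.Helper15
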