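import Mathlib
import Cfsg.Agent.Helper15.SympBasis

set_option autoImplicit false

namespace Cfsg.Agent.Helper15
open Matrix

theorem alt_to_symp {F : Type*} [Field F] {m : ℕ}
    (A M : Matrix (Fin m ⊕ Fin m) (Fin m ⊕ Fin m) F) (halt : ∀ v, v ⬝ᵥ M *ᵥ v = 0)
    (hdet : M.det ≠ 0) (hA : Aᵀ * M * A = M) :
    ∃ B : Matrix.symplecticGroup (Fin m) F,
      ∀ k, (((B : Matrix (Fin m ⊕ Fin m) (Fin m ⊕ Fin m) F) - 1) ^ k).rank
        = ((A - 1) ^ k).rank := by
  classical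
  obtain ⟨ω, hω⟩ : ∃ ω : LinearMap.BilinForm F (Fin m ⊕ Fin m → F),
      ∀ v w, ω v w = v ⬝ᵥ M *ᵥ w := ⟨Matrix.toBilin' M, fun v w => Matrix.toBilin'_apply' M v w⟩
  have halt' : ∀ x, ω x x = 0 := fun x => by rw [hω]; exact halt x
  have hnd : ∀ x, (∀ y, ω x y = 0) → x = 0 := by
    intro x hx
    have h1 : x ᵥ* M = 0 := by
      funext j
      have h := hx (Pi.single j 1)
      rw [hω, Matrix.dotProduct_mulVec, dotProduct_single_one] at h
      exact h
    exact Matrix.eq_zero_of_vecMul_eq_zero hdet h1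
  have hfr : Module.finrank F (Fin m ⊕ Fin m → F) = 2 * m := by
    rw [Module.finrank_fintype_fun_eq_card, Fintype.card_sum, Fintype.card_fin]
    omega
  obtain ⟨e, he⟩ := exists_symp_equiv ω halt' hnd hfr
  obtain ⟨C, hC⟩ : ∃ C : Matrix (Fin m ⊕ Fin m) (Fin m ⊕ Fin m) F,
      C = LinearMap.toMatrix' e.toLinearMap := ⟨_, rfl⟩
  obtain ⟨Ci, hCi⟩ : ∃ Ci : Matrix (Fin m ⊕ Fin m) (Fin m ⊕ Fin m) F,
      Ci = LinearMap.toMatrix' e.symm.toLinearMap := ⟨_, rfl⟩
  have hCCi : C * Ci = 1 := by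
    rw [hC, hCi, ← LinearMap.toMatrix'_comp,
      show e.toLinearMap ∘ₗ e.symm.toLinearMap = LinearMap.id from
        LinearMap.ext (fun v => e.apply_symm_apply v), LinearMap.toMatrix'_id]
  have hCiC : Ci * C = 1 := by
    rw [hC, hCi, ← LinearMap.toMatrix'_comp,
      show e.symm.toLinearMap ∘ₗ e.toLinearMap = LinearMap.id from
        LinearMap.ext (fun v => e.symm_apply_apply v), LinearMap.toMatrix'_id]
  have hCv : ∀ v, e v = C *ᵥ v := fun v => by
    rw [hC, LinearMap.toMatrix'_mulVec]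
    rfl
  have hM : M = Cᵀ * Matrix.J (Fin m) F * C := by
    apply Matrix.toBilin'.injective
    refine LinearMap.ext fun v => LinearMap.ext fun w => ?_
    rw [Matrix.toBilin'_apply', Matrix.toBilin'_apply', ← hω, he, hCv, hCv,
      ← Matrix.mulVec_mulVec, ← Matrix.mulVec_mulVec, Matrix.dotProduct_mulVec v,
      Matrix.vecMul_transpose]
  have hB : (C * A * Ci)ᵀ * Matrix.J (Fin m) F * (C * A * Ci) = Matrix.J (Fin m) F := by
    calc (C * A * Ci)ᵀ * Matrix.J (Fin m) F * (C * A * Ci)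
        = Ciᵀ * (Aᵀ * (Cᵀ * Matrix.J (Fin m) F * C) * A) * Ci := by
          simp only [Matrix.transpose_mul, mul_assoc]
      _ = Ciᵀ * (Cᵀ * Matrix.J (Fin m) F * C) * Ci := by rw [← hM, hA]
      _ = (C * Ci)ᵀ * Matrix.J (Fin m) F * (C * Ci) := by
          simp only [Matrix.transpose_mul, mul_assoc]
      _ = Matrix.J (Fin m) F := by rw [hCCi, Matrix.transpose_one, one_mul, mul_one]
  have hCdet : IsUnit C.det := Matrix.isUnit_det_of_right_inverse hCCi
  have hCidet : IsUnit Ci.det := Matrix.isUnit_det_of_left_inverse hCCi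
  have hpow : ∀ k, (C * A * Ci - 1) ^ k = C * (A - 1) ^ k * Ci := by
    intro k
    induction k with
    | zero => rw [pow_zero, pow_zero, mul_one, hCCi]
    | succ k ih =>
      have h1 : Ci * (C * A * Ci - 1) = (A - 1) * Ci := by
        rw [mul_sub, mul_one, ← mul_assoc, ← mul_assoc, hCiC, one_mul, sub_mul, one_mul]
      rw [pow_succ, ih, pow_succ, mul_assoc (C * (A - 1) ^ k) Ci, h1]
      simp only [mul_assoc]
  refine ⟨⟨C * A * Ci, SymplecticGroup.mem_iff'.2 hB⟩, ?_⟩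
  intro k
  show ((C * A * Ci - 1) ^ k).rank = _
  rw [hpow, Matrix.rank_mul_eq_left_of_isUnit_det _ _ hCidet,
    Matrix.rank_mul_eq_right_of_isUnit_det _ _ hCdet]

theorem J_alt {F : Type*} [Field F] (m : ℕ) (v : Fin m ⊕ Fin m → F) :
    v ⬝ᵥ (Matrix.J (Fin m) F) *ᵥ v = 0 := by
  simp only [Matrix.J, dotProduct, Fintype.sum_sum_type, Matrix.mulVec, Matrix.fromBlocks_apply₁₁,
    Matrix.fromBlocks_apply₁₂, Matrix.fromBlocks_apply₂₁, Matrix.fromBlocks_apply₂₂,
    Matrix.zero_apply, Matrix.neg_apply, Matrix.one_apply, zero_mul, Finset.sum_const_zero,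
    zero_add, add_zero, neg_mul, ite_mul, one_mul, Finset.sum_neg_distrib, Finset.sum_ite_eq,
    Finset.mem_univ, if_true]
  simp only [mul_neg, Finset.sum_neg_distrib]
  have : ∑ x, v (Sum.inr x) * v (Sum.inl x) = ∑ x, v (Sum.inl x) * v (Sum.inr x) :=
    Finset.sum_congr rfl (fun x _ => mul_comm _ _)
  rw [this]
  ring

end Cfsg.Agent.Helper15
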