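import Mathlib
import Cfsg.Agent.Helper15.JordOrthMain
import Cfsg.Prelude.Def_JordanBlocks

set_option autoImplicit false

namespace Cfsg.Agent.Helper15
open Matrix

universe u

theorem matrix_eq_zero_of_rank_gen {F : Type u} [Field F] {ι : Type} [Fintype ι] [DecidableEq ι]
    (Z : Matrix ι ι F) (h : Z.rank = 0) : Z = 0 := by
  have h1 : Module.finrank F (LinearMap.range (Matrix.toLin' Z)) = 0 := h
  have h2 : LinearMap.range (Matrix.toLin' Z) = ⊥ := Submodule.finrank_eq_zero.1 h1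
  have h3 : Matrix.toLin' Z = 0 := LinearMap.range_eq_bot.1 h2
  exact Matrix.toLin'.injective (by rw [h3, map_zero])

theorem isConj_of_rank_eq_gen {F : Type u} [Field F] {ι : Type} [Fintype ι] [DecidableEq ι]
    (n : ℕ) (hcard : Fintype.card ι = n) (X Y : Matrix ι ι F)
    (hX : (X - 1) ^ n = 0) (hY : (Y - 1) ^ n = 0)
    (h : ∀ k, ((X - 1) ^ k).rank = ((Y - 1) ^ k).rank) : IsConj X Y := by
  have hfr : Module.finrank F (ι → F) = n := by
    rw [Module.finrank_fintype_fun_eq_card, hcard]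
  have hker : ∀ (Z : Matrix ι ι F) (k : ℕ),
      Module.finrank F (LinearMap.ker ((Matrix.toLin' (Z - 1)) ^ k)) + ((Z - 1) ^ k).rank
        = n := by
    intro Z k
    rw [← Matrix.toLin'_pow]
    have h1 := LinearMap.finrank_range_add_finrank_ker (Matrix.toLin' ((Z - 1) ^ k))
    rw [hfr] at h1
    have h2 : ((Z - 1) ^ k).rank
        = Module.finrank F (LinearMap.range (Matrix.toLin' ((Z - 1) ^ k))) := rfl
    omega
  obtain ⟨T, hT⟩ := nil_conj_aux n (ι → F) (ι → F) (Matrix.toLin' (X - 1))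
    (Matrix.toLin' (Y - 1)) hfr
    ⟨n, by rw [← Matrix.toLin'_pow, hX, map_zero]⟩
    ⟨n, by rw [← Matrix.toLin'_pow, hY, map_zero]⟩
    (fun k => by
      have h1 := hker X k
      have h2 := hker Y k
      have h3 := h k
      omega)
  have hS1 : LinearMap.toMatrix' T.toLinearMap * LinearMap.toMatrix' T.symm.toLinearMap
      = 1 := by
    rw [← LinearMap.toMatrix'_comp,
      show T.toLinearMap ∘ₗ T.symm.toLinearMap = LinearMap.id from
        LinearMap.ext (fun v => T.apply_symm_apply v), LinearMap.toMatrix'_id]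
  have hS2 : LinearMap.toMatrix' T.symm.toLinearMap * LinearMap.toMatrix' T.toLinearMap
      = 1 := by
    rw [← LinearMap.toMatrix'_comp,
      show T.symm.toLinearMap ∘ₗ T.toLinearMap = LinearMap.id from
        LinearMap.ext (fun v => T.symm_apply_apply v), LinearMap.toMatrix'_id]
  have hTX : LinearMap.toMatrix' T.toLinearMap * (X - 1)
      = (Y - 1) * LinearMap.toMatrix' T.toLinearMap := by
    have h1 : T.toLinearMap ∘ₗ Matrix.toLin' (X - 1)
        = Matrix.toLin' (Y - 1) ∘ₗ T.toLinearMap := LinearMap.ext hT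
    have h2 := congrArg LinearMap.toMatrix' h1
    rwa [LinearMap.toMatrix'_comp, LinearMap.toMatrix'_comp, LinearMap.toMatrix'_toLin',
      LinearMap.toMatrix'_toLin'] at h2
  refine ⟨⟨_, _, hS1, hS2⟩, ?_⟩
  show LinearMap.toMatrix' T.toLinearMap * X = Y * LinearMap.toMatrix' T.toLinearMap
  rw [mul_sub, sub_mul, mul_one, one_mul] at hTX
  exact sub_left_injective hTX

theorem jord_symp_iff {F : Type u} [Field F] {m t : ℕ}
    (d : Fin t → ℕ) (hd : ∀ k, 1 ≤ d k) (hsum : ∑ k, d k = 2 * m)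
    (hP1 : ∀ k, ((Cfsg.jordanTypeMatrix d F - 1) ^ k).rank = ∑ i, (d i - k))
    (hJ : ∀ v : Fin m ⊕ Fin m → F, v ⬝ᵥ (Matrix.J (Fin m) F) *ᵥ v = 0)
    (hP3 : ∀ A P : Matrix (Fin m ⊕ Fin m) (Fin m ⊕ Fin m) F, (∀ v, v ⬝ᵥ P *ᵥ v = 0) →
      P.det ≠ 0 → Aᵀ * P * A = P → ∀ k, Even k → Even ((A - 1) ^ k).rank)
    (hP4 : (∀ k, Even k → Even (∑ i, (d i - k))) → ∀ j, Odd j →
      Even (Finset.univ.filter (fun i : Fin t => d i = j)).card)
    (hP6 : (∀ j, Odd j → Even ((Finset.univ.val.map d).count j)) →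
      ∃ (κ : Type) (_ : Fintype κ) (_ : DecidableEq κ) (A M : Matrix κ κ F),
        (∀ v, v ⬝ᵥ M *ᵥ v = 0) ∧
        M.det ≠ 0 ∧ Aᵀ * M * A = M ∧ Fintype.card κ = (Finset.univ.val.map d).sum ∧
        ∀ k, ((A - 1) ^ k).rank = ((Finset.univ.val.map d).map (fun a => a - k)).sum)
    (hP7 : ∀ A M : Matrix (Fin m ⊕ Fin m) (Fin m ⊕ Fin m) F, (∀ v, v ⬝ᵥ M *ᵥ v = 0) →
      M.det ≠ 0 → Aᵀ * M * A = M →
      ∃ B : Matrix.symplecticGroup (Fin m) F,
        ∀ k, (((B : Matrix (Fin m ⊕ Fin m) (Fin m ⊕ Fin m) F) - 1) ^ k).rank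
          = ((A - 1) ^ k).rank) :
    (∃ e : ((k : Fin t) × Fin (d k)) ≃ (Fin m ⊕ Fin m),
      ∃ A : Matrix.symplecticGroup (Fin m) F,
        IsConj (Matrix.reindex e e (Cfsg.jordanTypeMatrix d F))
          (A : Matrix (Fin m ⊕ Fin m) (Fin m ⊕ Fin m) F)) ↔
      ∀ j : ℕ, Odd j → Even (Finset.univ.filter (fun k : Fin t => d k = j)).card := by
  have hre : ∀ (e : ((k : Fin t) × Fin (d k)) ≃ (Fin m ⊕ Fin m)) (k : ℕ),
      ((Matrix.reindex e e (Cfsg.jordanTypeMatrix d F) - 1) ^ k).rank = ∑ i, (d i - k) := by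
    intro e k
    have h3 : ∀ Z, Matrix.reindex e e Z = Matrix.reindexAlgEquiv F F e Z :=
      fun Z => (Matrix.reindexAlgEquiv_apply F F e Z).symm
    have h1 : (Matrix.reindex e e (Cfsg.jordanTypeMatrix d F) - 1) ^ k
        = Matrix.reindex e e ((Cfsg.jordanTypeMatrix d F - 1) ^ k) := by
      rw [h3, h3, map_pow, map_sub, map_one]
    rw [h1, Matrix.rank_reindex, hP1]
  have hzero : ∑ i, (d i - 2 * m) = 0 := by
    apply Finset.sum_eq_zero
    intro i _
    have h1 : d i ≤ ∑ k, d k := Finset.single_le_sum (fun _ _ => Nat.zero_le _) (Finset.mem_univ i)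
    omega
  have hcardι : Fintype.card (Fin m ⊕ Fin m) = 2 * m := by
    rw [Fintype.card_sum, Fintype.card_fin]
    omega
  constructor
  · rintro ⟨e, A, c, hc⟩
    obtain ⟨Am, hAm⟩ : ∃ Am : Matrix (Fin m ⊕ Fin m) (Fin m ⊕ Fin m) F,
        Am = (A : Matrix (Fin m ⊕ Fin m) (Fin m ⊕ Fin m) F) := ⟨_, rfl⟩
    obtain ⟨J', hJ'⟩ : ∃ J' : Matrix (Fin m ⊕ Fin m) (Fin m ⊕ Fin m) F,
        J' = Matrix.reindex e e (Cfsg.jordanTypeMatrix d F) := ⟨_, rfl⟩
    have hc' : (c : Matrix (Fin m ⊕ Fin m) (Fin m ⊕ Fin m) F) * J'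
        = Am * (c : Matrix (Fin m ⊕ Fin m) (Fin m ⊕ Fin m) F) := by
      rw [hJ', hAm]
      exact hc
    have hpow : ∀ k, (c : Matrix (Fin m ⊕ Fin m) (Fin m ⊕ Fin m) F) * (J' - 1) ^ k
        = (Am - 1) ^ k * (c : Matrix (Fin m ⊕ Fin m) (Fin m ⊕ Fin m) F) := by
      intro k
      induction k with
      | zero => rw [pow_zero, pow_zero, mul_one, one_mul]
      | succ k ih =>
        rw [pow_succ, ← mul_assoc, ih, mul_assoc, pow_succ, mul_assoc]
        congr 1
        rw [mul_sub, sub_mul, hc', mul_one, one_mul]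
    have hcdet : IsUnit (c : Matrix (Fin m ⊕ Fin m) (Fin m ⊕ Fin m) F).det :=
      (Matrix.isUnit_iff_isUnit_det _).1 c.isUnit
    have hcidet : IsUnit ((c⁻¹ : (Matrix (Fin m ⊕ Fin m) (Fin m ⊕ Fin m) F)ˣ) :
        Matrix (Fin m ⊕ Fin m) (Fin m ⊕ Fin m) F).det :=
      (Matrix.isUnit_iff_isUnit_det _).1 (c⁻¹).isUnit
    have hrank : ∀ k, ((Am - 1) ^ k).rank = ∑ i, (d i - k) := by
      intro k
      have h1 : (Am - 1) ^ k = (c : Matrix (Fin m ⊕ Fin m) (Fin m ⊕ Fin m) F) * (J' - 1) ^ k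
          * ((c⁻¹ : (Matrix (Fin m ⊕ Fin m) (Fin m ⊕ Fin m) F)ˣ) :
            Matrix (Fin m ⊕ Fin m) (Fin m ⊕ Fin m) F) := by
        rw [hpow, mul_assoc, Units.mul_inv, mul_one]
      rw [h1, Matrix.rank_mul_eq_left_of_isUnit_det _ _ hcidet,
        Matrix.rank_mul_eq_right_of_isUnit_det _ _ hcdet, hJ', hre]
    have hAt : Amᵀ * Matrix.J (Fin m) F * Am = Matrix.J (Fin m) F := by
      rw [hAm]
      exact SymplecticGroup.mem_iff'.1 A.2
    have heven := hP3 Am (Matrix.J (Fin m) F) hJ (Matrix.isUnit_det_J (Fin m) F).ne_zero hAt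
    apply hP4
    intro k hk
    rw [← hrank k]
    exact heven k hk
  · intro hpar
    obtain ⟨κ, hκ1, hκ2, A, M, hMs, hMd, hAM, hcard, hrk⟩ := hP6 (by
      intro j hj
      have h1 := hpar j hj
      have h2' : (Finset.univ.val.map d).count j
          = (Finset.univ.filter (fun k : Fin t => d k = j)).card := by
        rw [Multiset.count_map, Finset.card_def, Finset.filter_val]
        congr 1
        apply Multiset.filter_congr
        intro x _
        exact eq_comm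
      rw [h2']
      exact h1)
    have hsum' : (Finset.univ.val.map d).sum = 2 * m := by
      rw [← hsum]
      rfl
    rw [hsum'] at hcard
    have hrk' : ∀ k, ((A - 1) ^ k).rank = ∑ i, (d i - k) := by
      intro k
      rw [hrk k, Multiset.map_map]
      rfl
    obtain ⟨σ⟩ : Nonempty (κ ≃ (Fin m ⊕ Fin m)) :=
      ⟨Fintype.equivOfCardEq (by rw [hcard, hcardι])⟩
    obtain ⟨e⟩ : Nonempty (((k : Fin t) × Fin (d k)) ≃ (Fin m ⊕ Fin m)) :=
      ⟨Fintype.equivOfCardEq (by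
        rw [Fintype.card_sigma, hcardι]
        simp only [Fintype.card_fin]
        exact hsum)⟩
    obtain ⟨M', hM'⟩ : ∃ M' : Matrix (Fin m ⊕ Fin m) (Fin m ⊕ Fin m) F,
        M' = Matrix.reindex σ σ M := ⟨_, rfl⟩
    obtain ⟨A', hA'⟩ : ∃ A' : Matrix (Fin m ⊕ Fin m) (Fin m ⊕ Fin m) F,
        A' = Matrix.reindex σ σ A := ⟨_, rfl⟩
    have hre2 : ∀ Z, Matrix.reindex σ σ Z = Matrix.reindexAlgEquiv F F σ Z :=
      fun Z => (Matrix.reindexAlgEquiv_apply F F σ Z).symm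
    have hM's : ∀ v, v ⬝ᵥ M' *ᵥ v = 0 := by
      intro v
      rw [hM', Matrix.reindex_apply, Matrix.submatrix_mulVec_equiv, dotProduct_comp_equiv_symm,
        Equiv.symm_symm]
      exact hMs _
    have hM'd : M'.det ≠ 0 := by
      rw [hM', Matrix.det_reindex_self]
      exact hMd
    have hA'M : A'ᵀ * M' * A' = M' := by
      rw [hA', hM', Matrix.transpose_reindex, hre2, hre2, hre2, ← map_mul, ← map_mul, hAM]
    have hrkA' : ∀ k, ((A' - 1) ^ k).rank = ∑ i, (d i - k) := by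
      intro k
      have h1 : (A' - 1) ^ k = Matrix.reindex σ σ ((A - 1) ^ k) := by
        rw [hA', hre2, hre2, map_pow, map_sub, map_one]
      rw [h1, Matrix.rank_reindex, hrk']
    obtain ⟨B, hB⟩ := hP7 A' M' hM's hM'd hA'M
    refine ⟨e, B, ?_⟩
    exact isConj_of_rank_eq_gen (2 * m) hcardι _ _
      (matrix_eq_zero_of_rank_gen _ (by rw [hre e (2 * m), hzero]))
      (matrix_eq_zero_of_rank_gen _ (by rw [hB, hrkA', hzero]))
      (fun k => by rw [hre e k, hB k, hrkA' k])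

end Cfsg.Agent.Helper15
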