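import Mathlib
import Cfsg.Prelude.Def_JordanBlocks
import Cfsg.Agent.Helper15.JordOrthOdd
import Cfsg.Agent.Helper15.JordSympDarboux
import Cfsg.Agent.Helper23.JordOrth

set_option autoImplicit false
namespace Cfsg.Agent.Helper15
open Matrix

theorem pair_block_form_alt {F : Type*} [Field F] (d : ℕ) :
    ∃ A M : Matrix (Fin d ⊕ Fin d) (Fin d ⊕ Fin d) F, (∀ v, v ⬝ᵥ M *ᵥ v = 0) ∧ M.det ≠ 0 ∧
      Aᵀ * M * A = M ∧ ∀ k, ((A - 1) ^ k).rank = (d - k) + (d - k) := by
  classical
  set N : Matrix (Fin d) (Fin d) F := Cfsg.jordanBlock d F - 1 with hNdef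
  have hNd : N ^ d = 0 := by
    ext a b
    rw [hNdef, jb_pow_apply, if_neg (by have := a.2; omega)]
    rfl
  have hnNd : (-N) ^ d = 0 := by rw [neg_pow, hNd, mul_zero]
  set B : Matrix (Fin d) (Fin d) F := ∑ i ∈ Finset.range d, (-N) ^ i with hBdef
  have hBJ : B * (1 + N) = 1 := by
    have : (1 : Matrix (Fin d) (Fin d) F) + N = 1 - (-N) := by rw [sub_neg_eq_add]
    rw [this, hBdef, geom_sum_mul_neg, hnNd, sub_zero]
  have hNB : Commute N B := by
    rw [hBdef]
    exact Commute.sum_right _ _ _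
      (fun i _ => Commute.pow_right (Commute.neg_right (Commute.refl N)) i)
  have hBdet : IsUnit B.det := Matrix.isUnit_det_of_right_inverse hBJ
  have hB1 : B - 1 = (-B) * N := by
    calc B - 1 = B - B * (1 + N) := by rw [hBJ]
      _ = (-B) * N := by noncomm_ring
  refine ⟨fromBlocks (1 + N) 0 0 Bᵀ, Matrix.J (Fin d) F, J_alt d,
    (Matrix.isUnit_det_J (Fin d) F).ne_zero, ?_, ?_⟩
  · have h1 : (1 + N)ᵀ * Bᵀ = 1 := by
      rw [← Matrix.transpose_mul, hBJ, Matrix.transpose_one]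
    rw [Matrix.J, fromBlocks_transpose, fromBlocks_multiply, fromBlocks_multiply]
    simp only [Matrix.transpose_zero, Matrix.transpose_transpose, mul_zero, zero_mul, mul_one,
      one_mul, add_zero, zero_add, mul_neg, neg_mul, neg_zero, h1, hBJ]
  · intro k
    have e : fromBlocks (1 + N) 0 0 Bᵀ - 1 = fromBlocks N 0 0 (B - 1)ᵀ := by
      have e0 : fromBlocks (1 + N) 0 0 Bᵀ - 1 = fromBlocks ((1 + N) - 1) 0 0 (Bᵀ - 1) := by
        ext i j
        rcases i with i | i <;> rcases j with j | j <;> simp [Matrix.one_apply]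
      rw [e0, add_sub_cancel_left, Matrix.transpose_sub, Matrix.transpose_one]
    have hBk : IsUnit ((-B) ^ k).det := by
      rw [Matrix.det_pow, Matrix.det_neg]
      exact IsUnit.pow _ (IsUnit.mul (IsUnit.pow _ (isUnit_one.neg)) hBdet)
    have hcomm : Commute (-B) N := (hNB.symm).neg_left
    rw [e, fromBlocks_diagonal_pow, Helper23.jo_rank_fromBlocks, ← Matrix.transpose_pow,
      Matrix.rank_transpose, hB1, hcomm.mul_pow,
      Matrix.rank_mul_eq_right_of_isUnit_det _ _ hBk, hNdef, jb_pow_rank]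

end Cfsg.Agent.Helper15
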