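import Mathlib

set_option autoImplicit false

namespace Cfsg.Agent.Helper15
open Polynomial

theorem additive_poly_fixed {K : Type*} [Field K] [IsAlgClosed K] (q : ℕ) (hq : 2 ≤ q) (b : ℕ → K)
    (m : ℕ) :
    (∀ j ≤ m, b j = 0) ∨ ∃ (t : K) (c : ℕ → K), t ≠ 0 ∧ c 0 = b 0 * t ^ q ∧
      (∀ i, c (i + 1) = (c i) ^ q + b (i + 1) * t ^ q) ∧ c m = t := by
  classical
  let Dp : ℕ → K[X] := fun i =>
    Nat.rec (C (b 0)) (fun i D => X ^ (q * q - q) * D ^ q + C (b (i + 1))) i
  have hD0 : Dp 0 = C (b 0) := rfl
  have hDs : ∀ i, Dp (i + 1) = X ^ (q * q - q) * (Dp i) ^ q + C (b (i + 1)) := fun i => rfl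
  have hqq : 2 ≤ q * q - q := by
    have : q * 2 ≤ q * q := Nat.mul_le_mul_left q hq
    omega
  have hstep : ∀ i, Dp i ≠ 0 → Dp (i + 1) ≠ 0 := by
    intro i hi h0
    rw [hDs] at h0
    have h1 : X ^ (q * q - q) * (Dp i) ^ q = - C (b (i + 1)) := eq_neg_of_add_eq_zero_left h0
    have h2 := congrArg natDegree h1
    rw [natDegree_neg, natDegree_C, natDegree_mul (pow_ne_zero _ X_ne_zero) (pow_ne_zero _ hi),
      natDegree_X_pow] at h2
    omega
  have hmono : ∀ i, Dp i ≠ 0 → ∀ j, i ≤ j → Dp j ≠ 0 := by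
    intro i hi j hij
    induction j, hij using Nat.le_induction with
    | base => exact hi
    | succ j hj ih => exact hstep j ih
  have hb : ∀ j, b j ≠ 0 → Dp j ≠ 0 := by
    intro j hj
    cases j with
    | zero =>
      rw [hD0]
      exact C_ne_zero.2 hj
    | succ j =>
      rcases eq_or_ne (Dp j) 0 with h | h
      · rw [hDs, h, zero_pow (by omega), mul_zero, zero_add]
        exact C_ne_zero.2 hj
      · exact hstep j h
  rcases eq_or_ne (Dp m) 0 with hDm | hDm
  · left
    intro j hj
    by_contra hbj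
    exact hmono j (hb j hbj) m hj hDm
  · right
    have hnat : (X ^ (q - 1) * Dp m - 1 : K[X]).natDegree ≠ 0 := by
      have h1 : (X ^ (q - 1) * Dp m : K[X]).natDegree = q - 1 + (Dp m).natDegree := by
        rw [natDegree_mul (pow_ne_zero _ X_ne_zero) hDm, natDegree_X_pow]
      rw [natDegree_sub_eq_left_of_natDegree_lt (by rw [natDegree_one, h1]; omega), h1]
      omega
    have hdeg : (X ^ (q - 1) * Dp m - 1 : K[X]).degree ≠ 0 := by
      have := degree_ne_of_natDegree_ne hnat
      exact_mod_cast this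
    obtain ⟨t, ht⟩ := IsAlgClosed.exists_root _ hdeg
    have ht' : t ^ (q - 1) * (Dp m).eval t = 1 := by
      have h1 : (X ^ (q - 1) * Dp m - 1 : K[X]).eval t = 0 := ht
      simp only [eval_sub, eval_mul, eval_pow, eval_X, eval_one] at h1
      exact sub_eq_zero.1 h1
    have ht0 : t ≠ 0 := by
      rintro rfl
      rw [zero_pow (by omega), zero_mul] at ht'
      exact zero_ne_one ht'
    refine ⟨t, fun i => t ^ q * (Dp i).eval t, ht0, ?_, ?_, ?_⟩
    · show t ^ q * (Dp 0).eval t = b 0 * t ^ q
      rw [hD0, eval_C, mul_comm]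
    · intro i
      show t ^ q * (Dp (i + 1)).eval t = (t ^ q * (Dp i).eval t) ^ q + b (i + 1) * t ^ q
      rw [hDs]
      simp only [eval_add, eval_mul, eval_pow, eval_X, eval_C]
      have h1 : t ^ q * t ^ (q * q - q) = (t ^ q) ^ q := by
        rw [← pow_add, ← pow_mul]
        congr 1
        have : q ≤ q * q := Nat.le_mul_self q
        omega
      rw [mul_pow, ← h1]
      ring
    · show t ^ q * (Dp m).eval t = t
      have h1 : t ^ q = t * t ^ (q - 1) := by
        rw [← pow_succ']
        congr 1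
        omega
      rw [h1, mul_assoc, ht', mul_one]

theorem exists_fixed_of_semilinear {K : Type*} [Field K] [IsAlgClosed K] (σ : K →+* K) (q : ℕ)
    (hq : 2 ≤ q) (hσ : ∀ c, σ c = c ^ q) {W : Type*} [AddCommGroup W] [Module K W]
    [FiniteDimensional K W] (T : W →ₛₗ[σ] W) (hT : Function.Injective T) (v₀ : W) (hv₀ : v₀ ≠ 0) :
    ∃ w : W, w ≠ 0 ∧ T w = w := by
  classical
  let e : ℕ → W := fun i => (⇑T)^[i] v₀
  have he_succ : ∀ i, e (i + 1) = T (e i) := fun i => Function.iterate_succ_apply' _ _ _
  have hex : ∃ m, ¬ LinearIndependent K (fun i : Fin (m + 1) => e i) := by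
    refine ⟨Module.finrank K W, fun h => ?_⟩
    have := h.fintype_card_le_finrank
    rw [Fintype.card_fin] at this
    omega
  obtain ⟨m, hm, hmin⟩ : ∃ m, ¬ LinearIndependent K (fun i : Fin (m + 1) => e i) ∧
      ∀ k < m, LinearIndependent K (fun i : Fin (k + 1) => e i) :=
    ⟨Nat.find hex, Nat.find_spec hex, fun k hk => not_not.1 (Nat.find_min hex hk)⟩
  have hm0 : m ≠ 0 := by
    rintro rfl
    apply hm
    have h1 : LinearIndependent K (fun i : Fin 1 => e i) := by
      rw [linearIndependent_unique_iff]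
      exact hv₀
    exact h1
  obtain ⟨m', rfl⟩ : ∃ m', m = m' + 1 := Nat.exists_eq_succ_of_ne_zero hm0
  have hind : LinearIndependent K (fun i : Fin (m' + 1) => e i) := hmin m' (by omega)
  have hmem : e (m' + 1) ∈ Submodule.span K (Set.range (fun i : Fin (m' + 1) => e i)) := by
    by_contra hcon
    apply hm
    rw [linearIndependent_finSucc']
    exact ⟨hind, hcon⟩
  obtain ⟨b, hb⟩ := (Submodule.mem_span_range_iff_exists_fun K).1 hmem
  let b' : ℕ → K := fun i => if h : i < m' + 1 then b ⟨i, h⟩ else 0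
  have hb' : ∑ i ∈ Finset.range (m' + 1), b' i • e i = e (m' + 1) := by
    rw [← hb, ← Fin.sum_univ_eq_sum_range (fun i => b' i • e i) (m' + 1)]
    refine Finset.sum_congr rfl fun i _ => ?_
    simp only [b']
    rw [dif_pos i.2]
  rcases additive_poly_fixed q hq b' m' with hall | ⟨t, c, ht0, hc0, hcs, hcm⟩
  · exfalso
    have h0 : e (m' + 1) = 0 := by
      rw [← hb']
      refine Finset.sum_eq_zero fun i hi => ?_
      rw [hall i (by have := Finset.mem_range.1 hi; omega), zero_smul]
    have h1 : (⇑T)^[m' + 1] v₀ = (⇑T)^[m' + 1] 0 := by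
      have hz : ∀ k, (⇑T)^[k] (0 : W) = 0 := by
        intro k
        induction k with
        | zero => rfl
        | succ k ih => rw [Function.iterate_succ_apply', ih, map_zero]
      rw [hz]
      exact h0
    exact hv₀ (hT.iterate (m' + 1) h1)
  · refine ⟨∑ i : Fin (m' + 1), c i • e i, ?_, ?_⟩
    · intro h0
      have := Fintype.linearIndependent_iff.1 hind (fun i => c i) h0 (Fin.last m')
      rw [Fin.val_last] at this
      exact ht0 (hcm ▸ this)
    · rw [Fin.sum_univ_eq_sum_range (fun i => c i • e i) (m' + 1)]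
      have h1 : T (∑ i ∈ Finset.range (m' + 1), c i • e i)
          = ∑ i ∈ Finset.range m', (c i) ^ q • e (i + 1) + t ^ q • e (m' + 1) := by
        rw [map_sum, Finset.sum_range_succ]
        congr 1
        · refine Finset.sum_congr rfl fun i _ => ?_
          rw [LinearMap.map_smulₛₗ, hσ, he_succ]
        · rw [LinearMap.map_smulₛₗ, hσ, he_succ, hcm]
      have h2 : ∑ i ∈ Finset.range (m' + 1), c i • e i
          = ∑ i ∈ Finset.range m', ((c i) ^ q • e (i + 1) + t ^ q • (b' (i + 1) • e (i + 1)))
            + t ^ q • (b' 0 • e 0) := by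
        rw [Finset.sum_range_succ']
        congr 1
        · refine Finset.sum_congr rfl fun i _ => ?_
          rw [hcs, add_smul, smul_smul, mul_comm]
        · rw [hc0, smul_smul, mul_comm]
      have h3 : e (m' + 1) = ∑ i ∈ Finset.range m', b' (i + 1) • e (i + 1) + b' 0 • e 0 := by
        rw [← hb', Finset.sum_range_succ']
      rw [h1, h2, Finset.sum_add_distrib, ← Finset.smul_sum, add_assoc, ← smul_add, ← h3]

theorem span_fixed_eq_top {K : Type*} [Field K] [IsAlgClosed K] (σ : K →+* K) (q : ℕ)
    (hq : 2 ≤ q) (hσ : ∀ c, σ c = c ^ q) {V : Type*} [AddCommGroup V] [Module K V]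
    [FiniteDimensional K V] (T : V →ₛₗ[σ] V) (hT : Function.Injective T) :
    Submodule.span K {v : V | T v = v} = ⊤ := by
  classical
  have ha : ∀ u ∈ Submodule.span K {v : V | T v = v},
      ∃ u' ∈ Submodule.span K {v : V | T v = v}, T u' = u := by
    intro u hu
    induction hu using Submodule.span_induction with
    | mem x hx => exact ⟨x, Submodule.subset_span hx, hx⟩
    | zero => exact ⟨0, Submodule.zero_mem _, map_zero T⟩
    | add x y _ _ hx hy =>
      obtain ⟨x', hx', hx''⟩ := hx
      obtain ⟨y', hy', hy''⟩ := hy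
      exact ⟨x' + y', Submodule.add_mem _ hx' hy', by rw [map_add, hx'', hy'']⟩
    | smul a x _ hx =>
      obtain ⟨x', hx', hx''⟩ := hx
      obtain ⟨a', ha'⟩ := IsAlgClosed.exists_pow_nat_eq a (by omega : 0 < q)
      exact ⟨a' • x', Submodule.smul_mem _ a' hx', by rw [LinearMap.map_smulₛₗ, hσ, ha', hx'']⟩
  have hb : ∀ u ∈ Submodule.span K {v : V | T v = v}, T u ∈ Submodule.span K {v : V | T v = v} := by
    intro u hu
    induction hu using Submodule.span_induction with
    | mem x hx =>
      have hx' : T x = x := hx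
      rw [hx']
      exact Submodule.subset_span hx
    | zero =>
      rw [map_zero]
      exact Submodule.zero_mem _
    | add x y _ _ hx hy =>
      rw [map_add]
      exact Submodule.add_mem _ hx hy
    | smul a x _ hx =>
      rw [LinearMap.map_smulₛₗ]
      exact Submodule.smul_mem _ _ hx
  have hAS : ∀ c : K, ∃ d : K, d - d ^ q = c := by
    intro c
    have hnat : (X ^ q - X + C c : K[X]).natDegree = q := by
      rw [natDegree_add_C, natDegree_sub_eq_left_of_natDegree_lt (by rw [natDegree_X, natDegree_X_pow]; omega),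
        natDegree_X_pow]
    have hdeg : (X ^ q - X + C c : K[X]).degree ≠ 0 := by
      have := degree_ne_of_natDegree_ne (n := 0) (by rw [hnat]; omega : (X ^ q - X + C c : K[X]).natDegree ≠ 0)
      exact_mod_cast this
    obtain ⟨d, hd⟩ := IsAlgClosed.exists_root _ hdeg
    have h1 : (X ^ q - X + C c : K[X]).eval d = 0 := hd
    simp only [eval_add, eval_sub, eval_pow, eval_X, eval_C] at h1
    exact ⟨d, by linear_combination (-1 : K) * h1⟩
  have hc : ∀ u ∈ Submodule.span K {v : V | T v = v}, ∀ c : K,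
      ∃ u' ∈ Submodule.span K {v : V | T v = v}, u' - T u' = c • u := by
    intro u hu
    induction hu using Submodule.span_induction with
    | mem x hx =>
      intro c
      have hx' : T x = x := hx
      obtain ⟨d, hd⟩ := hAS c
      refine ⟨d • x, Submodule.smul_mem _ d (Submodule.subset_span hx), ?_⟩
      rw [LinearMap.map_smulₛₗ, hσ, hx', ← sub_smul, hd]
    | zero =>
      intro c
      exact ⟨0, Submodule.zero_mem _, by rw [map_zero, sub_zero, smul_zero]⟩
    | add x y _ _ hx hy =>
      intro c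
      obtain ⟨x', hx', hx''⟩ := hx c
      obtain ⟨y', hy', hy''⟩ := hy c
      refine ⟨x' + y', Submodule.add_mem _ hx' hy', ?_⟩
      rw [map_add, smul_add, ← hx'', ← hy'']
      abel
    | smul a x _ hx =>
      intro c
      obtain ⟨x', hx', hx''⟩ := hx (c * a)
      exact ⟨x', hx', by rw [hx'', mul_smul]⟩
  by_contra hne
  have : Nontrivial (V ⧸ Submodule.span K {v : V | T v = v}) :=
    Submodule.Quotient.nontrivial_iff.2 hne
  let Tq : (V ⧸ Submodule.span K {v : V | T v = v}) →ₛₗ[σ] (V ⧸ Submodule.span K {v : V | T v = v}) :=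
    Submodule.mapQ _ _ T (fun u hu => hb u hu)
  have hTq : Function.Injective Tq := by
    rw [injective_iff_map_eq_zero]
    intro z hz
    obtain ⟨v, rfl⟩ := Submodule.Quotient.mk_surjective _ z
    have hz' : Submodule.Quotient.mk (T v) = (0 : V ⧸ Submodule.span K {v : V | T v = v}) := hz
    rw [Submodule.Quotient.mk_eq_zero] at hz'
    obtain ⟨u', hu', hu''⟩ := ha _ hz'
    have := hT hu''
    rw [Submodule.Quotient.mk_eq_zero, ← this]
    exact hu'
  obtain ⟨z₀, hz₀⟩ := exists_ne (0 : V ⧸ Submodule.span K {v : V | T v = v})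
  obtain ⟨z, hz, hTz⟩ := exists_fixed_of_semilinear σ q hq hσ Tq hTq z₀ hz₀
  obtain ⟨w, rfl⟩ := Submodule.Quotient.mk_surjective _ z
  have hTz' : (Submodule.Quotient.mk (T w) : V ⧸ Submodule.span K {v : V | T v = v})
      = Submodule.Quotient.mk w := hTz
  rw [Submodule.Quotient.eq] at hTz'
  obtain ⟨u', hu', hu''⟩ := hc _ hTz' 1
  rw [one_smul] at hu''
  have hfix : T (w + u') = w + u' := by
    rw [map_add]
    rw [sub_eq_sub_iff_add_eq_add] at hu''
    rw [add_comm w u']
    exact hu''.symm
  have hmemU : w + u' ∈ Submodule.span K {v : V | T v = v} := Submodule.subset_span hfix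
  apply hz
  rw [Submodule.Quotient.mk_eq_zero]
  have := Submodule.sub_mem _ hmemU hu'
  rwa [add_sub_cancel_right] at this

theorem lang_steinberg_gl {K : Type*} [Field K] [IsAlgClosed K] (p : ℕ) [Fact p.Prime] [CharP K p]
    (f : ℕ) (hf : 1 ≤ f) (n : ℕ) (g : GL (Fin n) K) :
    ∃ x : GL (Fin n) K, g = x * (Matrix.GeneralLinearGroup.map (iterateFrobenius K p f) x)⁻¹ := by
  classical
  have hp : p.Prime := Fact.out
  have hq : 2 ≤ p ^ f := by
    calc 2 ≤ p := hp.two_le
      _ = p ^ 1 := (pow_one p).symm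
      _ ≤ p ^ f := Nat.pow_le_pow_right hp.pos hf
  have hσ : ∀ c, (iterateFrobenius K p f) c = c ^ (p ^ f) := fun c => iterateFrobenius_def p f c
  let T : (Fin n → K) →ₛₗ[iterateFrobenius K p f] (Fin n → K) :=
    { toFun := fun v => (g : Matrix (Fin n) (Fin n) K).mulVec (fun k => iterateFrobenius K p f (v k))
      map_add' := by
        intro v w
        rw [← Matrix.mulVec_add]
        congr 1
        funext k
        exact map_add (iterateFrobenius K p f) _ _
      map_smul' := by
        intro c v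
        show (g : Matrix (Fin n) (Fin n) K).mulVec (fun k => iterateFrobenius K p f ((c • v) k))
          = iterateFrobenius K p f c • (g : Matrix (Fin n) (Fin n) K).mulVec
              (fun k => iterateFrobenius K p f (v k))
        rw [← Matrix.mulVec_smul]
        congr 1
        funext k
        exact map_mul (iterateFrobenius K p f) _ _ }
  have hTapp : ∀ v, T v = (g : Matrix (Fin n) (Fin n) K).mulVec
      (fun k => iterateFrobenius K p f (v k)) := fun v => rfl
  have hTinj : Function.Injective T := by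
    intro v w hvw
    rw [hTapp, hTapp] at hvw
    have h2 := congrArg ((g⁻¹ : GL (Fin n) K) : Matrix (Fin n) (Fin n) K).mulVec hvw
    rw [Matrix.mulVec_mulVec, Matrix.mulVec_mulVec, ← Units.val_mul, inv_mul_cancel, Units.val_one,
      Matrix.one_mulVec, Matrix.one_mulVec] at h2
    funext k
    exact (iterateFrobenius K p f).injective (congrFun h2 k)
  have hspan := span_fixed_eq_top (iterateFrobenius K p f) (p ^ f) hq hσ T hTinj
  obtain ⟨b, hbsub, hbspan, hbli⟩ := exists_linearIndependent K {v : Fin n → K | T v = v}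
  rw [hspan] at hbspan
  let B : Module.Basis b K (Fin n → K) :=
    Module.Basis.mk hbli (by rw [Subtype.range_coe]; exact hbspan.ge)
  let eqv : Fin n ≃ b := (Pi.basisFun K (Fin n)).indexEquiv B
  have hwli : LinearIndependent K (fun j : Fin n => ((eqv j : b) : Fin n → K)) :=
    hbli.comp eqv eqv.injective
  have hwfix : ∀ j, T ((eqv j : b) : Fin n → K) = ((eqv j : b) : Fin n → K) :=
    fun j => hbsub (eqv j).2
  let xM : Matrix (Fin n) (Fin n) K := Matrix.of fun i j => ((eqv j : b) : Fin n → K) i
  have hxu : IsUnit xM := by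
    rw [← Matrix.linearIndependent_cols_iff_isUnit]
    exact hwli
  refine ⟨hxu.unit, ?_⟩
  rw [eq_mul_inv_iff_mul_eq]
  apply Units.ext
  ext i j
  rw [Units.val_mul]
  have h1 := congrFun (hwfix j) i
  rw [hTapp] at h1
  rw [Matrix.mul_apply]
  exact h1

end Cfsg.Agent.Helper15
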