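import Mathlib
import Cfsg.Agent.Helper15.BlockIso
import Cfsg.Agent.S0287

set_option autoImplicit false

namespace Cfsg.Agent.Helper15

/-- The anisotropic binary quadratic form over the field with two elements. -/
def nForm2 (u : Fin 2 → ZMod 2) : ZMod 2 := u 0 ^ 2 + u 0 * u 1 + u 1 ^ 2

theorem nForm2_eq (u : Fin 2 → ZMod 2) : nForm2 u = if u = 0 then 0 else 1 := by
  have h : ∀ a b : ZMod 2, a ^ 2 + a * b + b ^ 2 = if a = 0 ∧ b = 0 then 0 else 1 := by decide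
  unfold nForm2
  rw [h]
  by_cases hu : u = 0
  · rw [if_pos hu, if_pos]
    rw [hu]
    exact ⟨rfl, rfl⟩
  · rw [if_neg hu, if_neg]
    rintro ⟨h0, h1⟩
    apply hu
    funext i
    fin_cases i
    · exact h0
    · exact h1

theorem nForm2_gl (g : GL (Fin 2) (ZMod 2)) (u : Fin 2 → ZMod 2) :
    nForm2 ((g : Matrix (Fin 2) (Fin 2) (ZMod 2)).mulVec u) = nForm2 u := by
  rw [nForm2_eq, nForm2_eq]
  have h : (g : Matrix (Fin 2) (Fin 2) (ZMod 2)).mulVec u = 0 ↔ u = 0 := by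
    constructor
    · intro h0
      have h1 : ((g⁻¹ : GL (Fin 2) (ZMod 2)) : Matrix (Fin 2) (Fin 2) (ZMod 2)).mulVec
          ((g : Matrix (Fin 2) (Fin 2) (ZMod 2)).mulVec u) = u := by
        rw [Matrix.mulVec_mulVec, ← Units.val_mul, inv_mul_cancel, Units.val_one,
          Matrix.one_mulVec]
      rw [← h1, h0, Matrix.mulVec_zero]
    · intro h0
      rw [h0, Matrix.mulVec_zero]
  by_cases hu : u = 0
  · rw [if_pos hu, if_pos (h.2 hu)]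
  · rw [if_neg hu, if_neg (fun h0 => hu (h.1 h0))]

theorem gl2_two_card : Nat.card (GL (Fin 2) (ZMod 2)) = 6 := by
  rw [Matrix.card_GL_field, ZMod.card, Fin.prod_univ_two]
  rfl

/-- `GL_2(2) ≅ S_3`. -/
theorem gl2_two_equiv_perm : Nonempty (GL (Fin 2) (ZMod 2) ≃* Equiv.Perm (Fin 3)) := by
  classical
  letI inst : MulAction (GL (Fin 2) (ZMod 2)) {v : Fin 2 → ZMod 2 // v ≠ 0} :=
    { smul := fun g v => ⟨(g : Matrix (Fin 2) (Fin 2) (ZMod 2)).mulVec v.1, by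
        intro h0
        have h1 := nForm2_gl g v.1
        rw [h0, nForm2_eq, nForm2_eq, if_pos rfl, if_neg v.2] at h1
        exact zero_ne_one h1⟩
      one_smul := fun v => Subtype.ext (by
        show ((1 : GL (Fin 2) (ZMod 2)) : Matrix (Fin 2) (Fin 2) (ZMod 2)).mulVec v.1 = v.1
        rw [Units.val_one, Matrix.one_mulVec])
      mul_smul := fun g h v => Subtype.ext (by
        show ((g * h : GL (Fin 2) (ZMod 2)) : Matrix (Fin 2) (Fin 2) (ZMod 2)).mulVec v.1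
          = (g : Matrix (Fin 2) (Fin 2) (ZMod 2)).mulVec
            ((h : Matrix (Fin 2) (Fin 2) (ZMod 2)).mulVec v.1)
        rw [Matrix.mulVec_mulVec, Units.val_mul]) }
  have hsm : ∀ (g : GL (Fin 2) (ZMod 2)) (v : {v : Fin 2 → ZMod 2 // v ≠ 0}),
      ((g • v : {v : Fin 2 → ZMod 2 // v ≠ 0}) : Fin 2 → ZMod 2)
        = (g : Matrix (Fin 2) (Fin 2) (ZMod 2)).mulVec v.1 := fun g v => rfl
  have hinj : Function.Injective
      (MulAction.toPermHom (GL (Fin 2) (ZMod 2)) {v : Fin 2 → ZMod 2 // v ≠ 0}) := by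
    intro g h hgh
    apply Units.ext
    ext i j
    have hne : (Pi.single j 1 : Fin 2 → ZMod 2) ≠ 0 := by
      intro h0
      have := congrFun h0 j
      rw [Pi.single_eq_same, Pi.zero_apply] at this
      exact one_ne_zero this
    have h1 := congrArg (fun π : Equiv.Perm {v : Fin 2 → ZMod 2 // v ≠ 0} =>
      ((π ⟨Pi.single j 1, hne⟩ : {v : Fin 2 → ZMod 2 // v ≠ 0}) : Fin 2 → ZMod 2) i) hgh
    simp only [MulAction.toPermHom_apply, MulAction.toPerm_apply, hsm,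
      Matrix.mulVec_single_one] at h1
    exact h1
  have hcardX : Fintype.card {v : Fin 2 → ZMod 2 // v ≠ 0} = 3 := by
    rw [Fintype.card_subtype_compl, Fintype.card_subtype_eq, Fintype.card_fun, ZMod.card,
      Fintype.card_fin]
    rfl
  have hcardP : Nat.card (Equiv.Perm {v : Fin 2 → ZMod 2 // v ≠ 0}) = 6 := by
    rw [Nat.card_eq_fintype_card, Fintype.card_perm, hcardX]
    rfl
  have hbij : Function.Bijective
      (MulAction.toPermHom (GL (Fin 2) (ZMod 2)) {v : Fin 2 → ZMod 2 // v ≠ 0}) :=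
    hinj.bijective_of_nat_card_le (by rw [hcardP, gl2_two_card])
  have e : {v : Fin 2 → ZMod 2 // v ≠ 0} ≃ Fin 3 :=
    Fintype.equivOfCardEq (by rw [hcardX, Fintype.card_fin])
  exact ⟨(MulEquiv.ofBijective _ hbij).trans e.permCongrHom⟩

/-- The base change between the sum of two anisotropic planes and the hyperbolic form. -/
theorem exists_plane_change : ∃ T : GL (Fin 2 ⊕ Fin 2) (ZMod 2), ∀ w : Fin 2 ⊕ Fin 2 → ZMod 2,
    Cfsg.quadFormPlus 2 (ZMod 2) ((T : Matrix (Fin 2 ⊕ Fin 2) (Fin 2 ⊕ Fin 2) (ZMod 2)).mulVec w)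
      = nForm2 (w ∘ Sum.inl) + nForm2 (w ∘ Sum.inr) := by
  have h1 : (Matrix.fromBlocks !![1, 1; 0, 1] !![1, 1; 1, 0] !![1, 0; 0, 1] !![1, 1; 0, 1] :
      Matrix (Fin 2 ⊕ Fin 2) (Fin 2 ⊕ Fin 2) (ZMod 2))
      * Matrix.fromBlocks !![0, 1; 1, 0] !![1, 1; 1, 0] !![1, 1; 1, 0] !![1, 0; 1, 1] = 1 := by
    rw [Matrix.fromBlocks_multiply, ← Matrix.fromBlocks_one]
    congr 1 <;> decide
  have h2 : (Matrix.fromBlocks !![0, 1; 1, 0] !![1, 1; 1, 0] !![1, 1; 1, 0] !![1, 0; 1, 1] :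
      Matrix (Fin 2 ⊕ Fin 2) (Fin 2 ⊕ Fin 2) (ZMod 2))
      * Matrix.fromBlocks !![1, 1; 0, 1] !![1, 1; 1, 0] !![1, 0; 0, 1] !![1, 1; 0, 1] = 1 := by
    rw [Matrix.fromBlocks_multiply, ← Matrix.fromBlocks_one]
    congr 1 <;> decide
  refine ⟨⟨_, _, h1, h2⟩, ?_⟩
  intro w
  have key : ∀ a b c d : ZMod 2, (a + b + c + d) * (a + c + d) + (b + c) * (b + d)
      = (a ^ 2 + a * b + b ^ 2) + (c ^ 2 + c * d + d ^ 2) := by decide
  show Cfsg.quadFormPlus 2 (ZMod 2) ((Matrix.fromBlocks !![1, 1; 0, 1] !![1, 1; 1, 0]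
    !![1, 0; 0, 1] !![1, 1; 0, 1] : Matrix (Fin 2 ⊕ Fin 2) (Fin 2 ⊕ Fin 2) (ZMod 2)).mulVec w) = _
  unfold Cfsg.quadFormPlus nForm2
  rw [Matrix.fromBlocks_mulVec, Fin.sum_univ_two]
  simp only [Sum.elim_inl, Sum.elim_inr, Pi.add_apply, Matrix.mulVec, dotProduct,
    Fin.sum_univ_two, Function.comp_apply]
  have := key (w (Sum.inl 0)) (w (Sum.inl 1)) (w (Sum.inr 0)) (w (Sum.inr 1))
  simp at this ⊢
  linear_combination this

/-- The orthogonal group `O⁺_4(2)` has order 72 and is `S_3 ≀ 2`. -/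
theorem o4plus_two_structure :
    Nat.card ↥(Cfsg.isometryGroup (ZMod 2) (Cfsg.quadFormPlus 2 (ZMod 2))) = 72 ∧
    ∃ (A B : Subgroup ↥(Cfsg.isometryGroup (ZMod 2) (Cfsg.quadFormPlus 2 (ZMod 2)))),
      Nonempty (↥A ≃* Equiv.Perm (Fin 3)) ∧ Nonempty (↥B ≃* Equiv.Perm (Fin 3)) ∧ A ⊓ B = ⊥ ∧
      (∀ a ∈ A, ∀ b ∈ B, a * b = b * a) ∧
      (A ⊔ B).index = 2 ∧ ∃ g : ↥(Cfsg.isometryGroup (ZMod 2) (Cfsg.quadFormPlus 2 (ZMod 2))),
        A.map (MulAut.conj g).toMonoidHom = B := by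
  classical
  have hcardO : Nat.card ↥(Cfsg.isometryGroup (ZMod 2) (Cfsg.quadFormPlus 2 (ZMod 2))) = 72 := by
    rw [Cfsg.Agent.S0287.result (F := ZMod 2) (q := 2) (ZMod.card 2) 2 (by omega)]
    decide
  refine ⟨hcardO, ?_⟩
  obtain ⟨T, hT⟩ := exists_plane_change
  obtain ⟨e₃⟩ := gl2_two_equiv_perm
  -- invariance of the sum of planes under block-diagonal maps and the swap
  have hblock : ∀ (p : GL (Fin 2) (ZMod 2) × GL (Fin 2) (ZMod 2)) (w : Fin 2 ⊕ Fin 2 → ZMod 2),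
      nForm2 (((blockGL (Fin 2) (Fin 2) (ZMod 2) p : GL (Fin 2 ⊕ Fin 2) (ZMod 2)) :
          Matrix (Fin 2 ⊕ Fin 2) (Fin 2 ⊕ Fin 2) (ZMod 2)).mulVec w ∘ Sum.inl)
        + nForm2 (((blockGL (Fin 2) (Fin 2) (ZMod 2) p : GL (Fin 2 ⊕ Fin 2) (ZMod 2)) :
          Matrix (Fin 2 ⊕ Fin 2) (Fin 2 ⊕ Fin 2) (ZMod 2)).mulVec w ∘ Sum.inr)
        = nForm2 (w ∘ Sum.inl) + nForm2 (w ∘ Sum.inr) := by
    intro p w
    rw [blockGL_coe, Matrix.fromBlocks_mulVec]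
    have h1 : (Sum.elim ((p.1 : Matrix (Fin 2) (Fin 2) (ZMod 2)).mulVec (w ∘ Sum.inl)
          + (0 : Matrix (Fin 2) (Fin 2) (ZMod 2)).mulVec (w ∘ Sum.inr))
        ((0 : Matrix (Fin 2) (Fin 2) (ZMod 2)).mulVec (w ∘ Sum.inl)
          + (p.2 : Matrix (Fin 2) (Fin 2) (ZMod 2)).mulVec (w ∘ Sum.inr))) ∘ Sum.inl
        = (p.1 : Matrix (Fin 2) (Fin 2) (ZMod 2)).mulVec (w ∘ Sum.inl) := by
      funext i
      simp
    have h2 : (Sum.elim ((p.1 : Matrix (Fin 2) (Fin 2) (ZMod 2)).mulVec (w ∘ Sum.inl)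
          + (0 : Matrix (Fin 2) (Fin 2) (ZMod 2)).mulVec (w ∘ Sum.inr))
        ((0 : Matrix (Fin 2) (Fin 2) (ZMod 2)).mulVec (w ∘ Sum.inl)
          + (p.2 : Matrix (Fin 2) (Fin 2) (ZMod 2)).mulVec (w ∘ Sum.inr))) ∘ Sum.inr
        = (p.2 : Matrix (Fin 2) (Fin 2) (ZMod 2)).mulVec (w ∘ Sum.inr) := by
      funext i
      simp
    rw [h1, h2, nForm2_gl, nForm2_gl]
  -- conjugates by `T` of isometries of the sum of planes are isometries of the hyperbolic form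
  have hconjmem : ∀ x : GL (Fin 2 ⊕ Fin 2) (ZMod 2),
      (∀ w : Fin 2 ⊕ Fin 2 → ZMod 2,
        nForm2 ((x : Matrix (Fin 2 ⊕ Fin 2) (Fin 2 ⊕ Fin 2) (ZMod 2)).mulVec w ∘ Sum.inl)
          + nForm2 ((x : Matrix (Fin 2 ⊕ Fin 2) (Fin 2 ⊕ Fin 2) (ZMod 2)).mulVec w ∘ Sum.inr)
          = nForm2 (w ∘ Sum.inl) + nForm2 (w ∘ Sum.inr)) →
      T * x * T⁻¹ ∈ Cfsg.isometryGroup (ZMod 2) (Cfsg.quadFormPlus 2 (ZMod 2)) := by
    intro x hx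
    rw [mem_isometryGroup_iff]
    intro u
    have h1 : ((T * x * T⁻¹ : GL (Fin 2 ⊕ Fin 2) (ZMod 2)) :
        Matrix (Fin 2 ⊕ Fin 2) (Fin 2 ⊕ Fin 2) (ZMod 2)).mulVec u
        = (T : Matrix (Fin 2 ⊕ Fin 2) (Fin 2 ⊕ Fin 2) (ZMod 2)).mulVec
          ((x : Matrix (Fin 2 ⊕ Fin 2) (Fin 2 ⊕ Fin 2) (ZMod 2)).mulVec
            (((T⁻¹ : GL (Fin 2 ⊕ Fin 2) (ZMod 2)) :
              Matrix (Fin 2 ⊕ Fin 2) (Fin 2 ⊕ Fin 2) (ZMod 2)).mulVec u)) := by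
      rw [Matrix.mulVec_mulVec, Matrix.mulVec_mulVec, Units.val_mul, Units.val_mul,
        Matrix.mul_assoc]
    have h2 : (T : Matrix (Fin 2 ⊕ Fin 2) (Fin 2 ⊕ Fin 2) (ZMod 2)).mulVec
        (((T⁻¹ : GL (Fin 2 ⊕ Fin 2) (ZMod 2)) :
          Matrix (Fin 2 ⊕ Fin 2) (Fin 2 ⊕ Fin 2) (ZMod 2)).mulVec u) = u := by
      rw [Matrix.mulVec_mulVec, ← Units.val_mul, mul_inv_cancel, Units.val_one,
        Matrix.one_mulVec]
    rw [h1, hT, hx, ← hT, h2]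
  obtain ⟨Ψ, hΨ⟩ : ∃ Ψ : GL (Fin 2) (ZMod 2) × GL (Fin 2) (ZMod 2) →*
      ↥(Cfsg.isometryGroup (ZMod 2) (Cfsg.quadFormPlus 2 (ZMod 2))),
      ∀ p, ((Ψ p : ↥(Cfsg.isometryGroup (ZMod 2) (Cfsg.quadFormPlus 2 (ZMod 2)))) :
        GL (Fin 2 ⊕ Fin 2) (ZMod 2)) = T * blockGL (Fin 2) (Fin 2) (ZMod 2) p * T⁻¹ :=
    ⟨((MulAut.conj T).toMonoidHom.comp (blockGL (Fin 2) (Fin 2) (ZMod 2))).codRestrict _
      (fun p => hconjmem _ (hblock p)), fun p => rfl⟩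
  have hΨinj : Function.Injective Ψ := by
    intro p p' hpp
    have h1 := congrArg (fun z : ↥(Cfsg.isometryGroup (ZMod 2) (Cfsg.quadFormPlus 2 (ZMod 2))) =>
      (z : GL (Fin 2 ⊕ Fin 2) (ZMod 2))) hpp
    simp only [hΨ] at h1
    have h2 : blockGL (Fin 2) (Fin 2) (ZMod 2) p = blockGL (Fin 2) (Fin 2) (ZMod 2) p' :=
      mul_left_cancel (mul_right_cancel h1)
    have h3 := congrArg (fun z : GL (Fin 2 ⊕ Fin 2) (ZMod 2) =>
      (z : Matrix (Fin 2 ⊕ Fin 2) (Fin 2 ⊕ Fin 2) (ZMod 2))) h2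
    simp only [blockGL_coe] at h3
    obtain ⟨h4, -, -, h5⟩ := Matrix.fromBlocks_inj.1 h3
    exact Prod.ext (Units.ext h4) (Units.ext h5)
  -- the swap
  obtain ⟨w₀, hw₀⟩ : ∃ w₀ : GL (Fin 2 ⊕ Fin 2) (ZMod 2),
      (w₀ : Matrix (Fin 2 ⊕ Fin 2) (Fin 2 ⊕ Fin 2) (ZMod 2))
        = Matrix.fromBlocks 0 1 1 0 := by
    have h1 : (Matrix.fromBlocks 0 1 1 0 : Matrix (Fin 2 ⊕ Fin 2) (Fin 2 ⊕ Fin 2) (ZMod 2))
        * Matrix.fromBlocks 0 1 1 0 = 1 := by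
      rw [Matrix.fromBlocks_multiply, ← Matrix.fromBlocks_one]
      simp
    exact ⟨⟨_, _, h1, h1⟩, rfl⟩
  have hswap : ∀ w : Fin 2 ⊕ Fin 2 → ZMod 2,
      nForm2 ((w₀ : Matrix (Fin 2 ⊕ Fin 2) (Fin 2 ⊕ Fin 2) (ZMod 2)).mulVec w ∘ Sum.inl)
        + nForm2 ((w₀ : Matrix (Fin 2 ⊕ Fin 2) (Fin 2 ⊕ Fin 2) (ZMod 2)).mulVec w ∘ Sum.inr)
        = nForm2 (w ∘ Sum.inl) + nForm2 (w ∘ Sum.inr) := by
    intro w
    rw [hw₀, Matrix.fromBlocks_mulVec]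
    have h1 : (Sum.elim ((0 : Matrix (Fin 2) (Fin 2) (ZMod 2)).mulVec (w ∘ Sum.inl)
          + (1 : Matrix (Fin 2) (Fin 2) (ZMod 2)).mulVec (w ∘ Sum.inr))
        ((1 : Matrix (Fin 2) (Fin 2) (ZMod 2)).mulVec (w ∘ Sum.inl)
          + (0 : Matrix (Fin 2) (Fin 2) (ZMod 2)).mulVec (w ∘ Sum.inr))) ∘ Sum.inl
        = w ∘ Sum.inr := by
      funext i
      simp
    have h2 : (Sum.elim ((0 : Matrix (Fin 2) (Fin 2) (ZMod 2)).mulVec (w ∘ Sum.inl)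
          + (1 : Matrix (Fin 2) (Fin 2) (ZMod 2)).mulVec (w ∘ Sum.inr))
        ((1 : Matrix (Fin 2) (Fin 2) (ZMod 2)).mulVec (w ∘ Sum.inl)
          + (0 : Matrix (Fin 2) (Fin 2) (ZMod 2)).mulVec (w ∘ Sum.inr))) ∘ Sum.inr
        = w ∘ Sum.inl := by
      funext i
      simp
    rw [h1, h2, add_comm]
  have hsw : ∀ g h : GL (Fin 2) (ZMod 2),
      w₀ * blockGL (Fin 2) (Fin 2) (ZMod 2) (g, h) = blockGL (Fin 2) (Fin 2) (ZMod 2) (h, g) * w₀ := by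
    intro g h
    apply Units.ext
    rw [Units.val_mul, Units.val_mul, hw₀, blockGL_coe, blockGL_coe, Matrix.fromBlocks_multiply,
      Matrix.fromBlocks_multiply]
    simp
  obtain ⟨g₀, hg₀⟩ : ∃ g₀ : ↥(Cfsg.isometryGroup (ZMod 2) (Cfsg.quadFormPlus 2 (ZMod 2))),
      (g₀ : GL (Fin 2 ⊕ Fin 2) (ZMod 2)) = T * w₀ * T⁻¹ := ⟨⟨_, hconjmem w₀ hswap⟩, rfl⟩
  have hconj : ∀ g h : GL (Fin 2) (ZMod 2), g₀ * Ψ (g, h) * g₀⁻¹ = Ψ (h, g) := by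
    intro g h
    apply Subtype.ext
    show (g₀ : GL (Fin 2 ⊕ Fin 2) (ZMod 2)) * (Ψ (g, h) : GL (Fin 2 ⊕ Fin 2) (ZMod 2))
      * (g₀ : GL (Fin 2 ⊕ Fin 2) (ZMod 2))⁻¹ = (Ψ (h, g) : GL (Fin 2 ⊕ Fin 2) (ZMod 2))
    rw [hg₀, hΨ, hΨ]
    have h1 : T * w₀ * T⁻¹ * (T * blockGL (Fin 2) (Fin 2) (ZMod 2) (g, h) * T⁻¹)
        * (T * w₀ * T⁻¹)⁻¹
        = T * (w₀ * blockGL (Fin 2) (Fin 2) (ZMod 2) (g, h)) * w₀⁻¹ * T⁻¹ := by group
    rw [h1, hsw]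
    group
  refine ⟨(Ψ.comp (MonoidHom.inl _ _)).range, (Ψ.comp (MonoidHom.inr _ _)).range, ?_, ?_, ?_, ?_,
    ?_, g₀, ?_⟩
  · have hinj : Function.Injective (Ψ.comp (MonoidHom.inl (GL (Fin 2) (ZMod 2))
        (GL (Fin 2) (ZMod 2)))) := by
      intro g g' hgg
      have := hΨinj hgg
      exact congrArg Prod.fst this
    exact ⟨(MonoidHom.ofInjective hinj).symm.trans e₃⟩
  · have hinj : Function.Injective (Ψ.comp (MonoidHom.inr (GL (Fin 2) (ZMod 2))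
        (GL (Fin 2) (ZMod 2)))) := by
      intro g g' hgg
      have := hΨinj hgg
      exact congrArg Prod.snd this
    exact ⟨(MonoidHom.ofInjective hinj).symm.trans e₃⟩
  · rw [eq_bot_iff]
    rintro x ⟨⟨g, rfl⟩, ⟨h, hh⟩⟩
    have h1 : ((1 : GL (Fin 2) (ZMod 2)), h) = (g, (1 : GL (Fin 2) (ZMod 2))) := hΨinj hh
    have h2 : g = 1 := (congrArg Prod.fst h1).symm
    rw [Subgroup.mem_bot]
    show Ψ (g, 1) = 1
    rw [h2]
    exact map_one Ψ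
  · rintro _ ⟨g, rfl⟩ _ ⟨h, rfl⟩
    show Ψ (g, 1) * Ψ (1, h) = Ψ (1, h) * Ψ (g, 1)
    rw [← map_mul, ← map_mul]
    congr 1
    exact Prod.ext (by simp) (by simp)
  · have hsup : (Ψ.comp (MonoidHom.inl _ _)).range ⊔ (Ψ.comp (MonoidHom.inr _ _)).range
        = Ψ.range := by
      apply le_antisymm
      · apply sup_le
        · rintro _ ⟨g, rfl⟩
          exact ⟨_, rfl⟩
        · rintro _ ⟨g, rfl⟩
          exact ⟨_, rfl⟩
      · rintro _ ⟨⟨g, h⟩, rfl⟩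
        have h1 : Ψ (g, h) = Ψ (g, 1) * Ψ (1, h) := by
          rw [← map_mul]
          congr 1
          exact Prod.ext (by simp) (by simp)
        rw [h1]
        exact Subgroup.mul_mem_sup ⟨g, rfl⟩ ⟨h, rfl⟩
    rw [hsup]
    have hcard : Nat.card Ψ.range = 36 := by
      rw [← Nat.card_congr (MonoidHom.ofInjective hΨinj).toEquiv, Nat.card_prod, gl2_two_card]
    have h1 := Subgroup.card_mul_index Ψ.range
    rw [hcard, hcardO] at h1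
    omega
  · ext x
    constructor
    · rintro ⟨_, ⟨g, rfl⟩, rfl⟩
      refine ⟨g, ?_⟩
      show Ψ (1, g) = g₀ * Ψ (g, 1) * g₀⁻¹
      rw [hconj]
    · rintro ⟨h, rfl⟩
      refine ⟨Ψ (h, 1), ⟨h, rfl⟩, ?_⟩
      show g₀ * Ψ (h, 1) * g₀⁻¹ = Ψ (1, h)
      rw [hconj]

end Cfsg.Agent.Helper15
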