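import Mathlib
import Cfsg.Agent.Helper15.OrthPrime2

set_option autoImplicit false

namespace Cfsg.Agent.Helper15
open Polynomial Matrix

universe u

theorem orth_prime_class_equiv {F : Type u} [Field F] [Fintype F] {p : ℕ} [Fact p.Prime]
    [CharP F p] (h2 : (2 : F) ≠ 0) {ι : Type} [Fintype ι] [DecidableEq ι]
    (𝒬 : QuadraticForm F (ι → F)) (hnd : (QuadraticMap.polarBilin 𝒬).Nondegenerate)
    (hιodd : Odd (Fintype.card ι))
    (r i : ℕ) (hr : r.Prime) (hr2 : r ≠ 2) (hrp : r ≠ p)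
    (hi : i = orderOf ((Fintype.card F : ℕ) : ZMod r)) (hi0 : 0 < i)
    (S : Finset F[X]) (hX1S : (X - 1 : F[X]) ∈ S)
    (hS : ∀ x ∈ S, x.Monic ∧ Irreducible x ∧ x ∣ X ^ r - 1)
    (hSdeg : ∀ x ∈ S, x ≠ X - 1 → x.natDegree = i)
    (hScomp : ∀ x : F[X], x.Monic → Irreducible x → x ∣ X ^ r - 1 → x ∈ S)
    (hcrit : ∀ y : F[X], y.Monic → y.natDegree = i → y ∣ X ^ r - 1 → ¬ (X - 1 : F[X]) ∣ y →
      y ∈ S) :
    Nat.card {C : ConjClasses ↥(Cfsg.isometryGroup F ⇑𝒬) //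
        ∃ g : ↥(Cfsg.isometryGroup F ⇑𝒬), ConjClasses.mk g = C ∧ orderOf g = r}
      = Nat.card {M' : Multiset F[X] // (∀ x ∈ M', x ∈ S ∧ x ≠ X - 1) ∧
        i * Multiset.card M' ≤ Fintype.card ι ∧ M' ≠ 0 ∧ M'.map pstar = M'} := by
  classical
  have hp : p.Prime := Fact.out
  haveI : Fact r.Prime := ⟨hr⟩
  have hrF : ((r : ℕ) : F) ≠ 0 := by
    intro h0
    have h1 : p ∣ r := (CharP.cast_eq_zero_iff F p r).1 h0
    exact hrp ((Nat.prime_dvd_prime_iff_eq hp hr).1 h1).symm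
  have hrodd : Odd r := hr.odd_of_ne_two hr2
  have hSmi : ∀ x ∈ S, x.Monic ∧ Irreducible x := fun x hx => ⟨(hS x hx).1, (hS x hx).2.1⟩
  have hτP : ∀ x ∈ S, x ≠ X - 1 → (pstar x ∈ S ∧ pstar x ≠ X - 1) :=
    fun x hx hne => pstar_mem S r i hr.ne_zero hS hSdeg hcrit x hx hne
  have hh : ∀ x ∈ S, x ≠ X - 1 → pstar (pstar x) = x :=
    fun x hx _ => pstar_pstar x (hS x hx).1 (coeff_zero_ne_of_dvd r hr.ne_zero x (hS x hx).2.2)
  have hstar : ∀ M' : Multiset F[X], (∀ x ∈ M', x ∈ S ∧ x ≠ X - 1) →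
      ∀ y ∈ M'.map pstar, y ∈ S ∧ y ≠ X - 1 := by
    intro M' hM' y hy
    obtain ⟨x, hx, rfl⟩ := Multiset.mem_map.1 hy
    exact hτP x (hM' x hx).1 (hM' x hx).2
  have hpow : ∀ g : ↥(Cfsg.isometryGroup F ⇑𝒬), orderOf g = r →
      ((g : GL ι F) : Matrix ι ι F) ^ r = 1 := by
    intro g hord
    have hordG : orderOf (g : GL ι F) = r := by
      rw [Subgroup.orderOf_coe]
      exact hord
    rw [← Units.val_pow_eq_pow_val, ← hordG, pow_orderOf_eq_one, Units.val_one]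
  have hex : ∀ C : {C : ConjClasses ↥(Cfsg.isometryGroup F ⇑𝒬) //
        ∃ g : ↥(Cfsg.isometryGroup F ⇑𝒬), ConjClasses.mk g = C ∧ orderOf g = r},
      ∃ M' : Multiset F[X], ((∀ x ∈ M', x ∈ S ∧ x ≠ X - 1) ∧
        i * Multiset.card M' ≤ Fintype.card ι ∧ M' ≠ 0 ∧ M'.map pstar = M') ∧
        ∀ g : ↥(Cfsg.isometryGroup F ⇑𝒬), ConjClasses.mk g = C.1 →
          ((g : GL ι F) : Matrix ι ι F).charpoly
            = M'.prod * (X - 1) ^ (Fintype.card ι - i * Multiset.card M') := by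
    rintro ⟨C, g, hg, hord⟩
    have hgr := hpow g hord
    obtain ⟨M', k, hM', hχ⟩ := type_exists' S r hScomp _ hgr
    have hdeg := type_degree' S i (fun x hx => (hS x hx).1) hSdeg _ M' k hM' hχ
    have hk : k = Fintype.card ι - i * Multiset.card M' := by omega
    have hle : i * Multiset.card M' ≤ Fintype.card ι := by omega
    rw [hk] at hχ
    refine ⟨M', ⟨hM', hle, ?_, ?_⟩, ?_⟩
    · intro h0
      rw [h0, Multiset.prod_zero, one_mul, Multiset.card_zero, mul_zero, Nat.sub_zero] at hχ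
      have h1 : ((g : GL ι F) : Matrix ι ι F).charpoly
          = (((1 : ↥(Cfsg.isometryGroup F ⇑𝒬)) : GL ι F) : Matrix ι ι F).charpoly := by
        rw [hχ, Subgroup.coe_one, Units.val_one, Matrix.charpoly_one]
      have h2' := orth_conj_of_charpoly 𝒬 hnd r hrF hrodd g 1 hgr
        (by rw [Subgroup.coe_one, Units.val_one, one_pow]) h1
      have h3 : g = 1 := isConj_one_left.1 h2'
      rw [h3, orderOf_one] at hord
      exact hr.one_lt.ne hord
    · have h5 := charpoly_inv_type' (g : GL ι F) S r i hr.ne_zero hS hSdeg hcrit M' hM' _ hχ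
      have h6 := orth_charpoly_inv 𝒬 hnd (g : GL ι F) (fun v => g.2 v v)
      rw [h6, hχ] at h5
      exact (type_unique S hSmi M' _ _ _ hM' (hstar M' hM') h5).symm
    · intro g' hg'
      have hconj : IsConj g' g := ConjClasses.mk_eq_mk_iff_isConj.1 (hg'.trans hg.symm)
      have hconjGL : IsConj (g' : GL ι F) (g : GL ι F) :=
        MonoidHom.map_isConj (Cfsg.isometryGroup F ⇑𝒬).subtype hconj
      obtain ⟨c, hc⟩ := isConj_iff.1 hconjGL
      rw [← hχ, ← hc, Units.val_mul, Units.val_mul, Matrix.coe_units_inv,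
        Matrix.charpoly_units_conj]
  choose Ξ hΞ1 hΞ2 using hex
  apply Nat.card_congr
  refine Equiv.ofBijective (fun C => ⟨Ξ C, hΞ1 C⟩) ⟨?_, ?_⟩
  · intro C₁ C₂ h
    have h1 : Ξ C₁ = Ξ C₂ := congrArg Subtype.val h
    obtain ⟨g₁, hg₁, ho₁⟩ := C₁.2
    obtain ⟨g₂, hg₂, ho₂⟩ := C₂.2
    have hχ : ((g₁ : GL ι F) : Matrix ι ι F).charpoly
        = ((g₂ : GL ι F) : Matrix ι ι F).charpoly := by
      rw [hΞ2 C₁ g₁ hg₁, hΞ2 C₂ g₂ hg₂, h1]
    have hconj := orth_conj_of_charpoly 𝒬 hnd r hrF hrodd g₁ g₂ (hpow g₁ ho₁) (hpow g₂ ho₂) hχ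
    apply Subtype.ext
    rw [← hg₁, ← hg₂]
    exact ConjClasses.mk_eq_mk_iff_isConj.2 hconj
  · rintro ⟨M', hM'1, hM'2, hM'3, hM'4⟩
    have hblk : (∃ (κ : Type) (_ : Fintype κ) (_ : DecidableEq κ) (A M : Matrix κ κ F),
        A ^ r = 1 ∧ Mᵀ = M ∧ M.det ≠ 0 ∧ Aᵀ * M * A = M ∧ A.charpoly = M'.prod ∧
        Fintype.card κ = i * Multiset.card M') ∧ Even (i * Multiset.card M') := by
      by_cases hiodd : Odd i
      · have hneτ : ∀ x ∈ S, x ≠ X - 1 → pstar x ≠ x := fun x hx hne =>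
          pstar_ne_of_odd r i hr hr2 hiodd x (hS x hx).1 (hS x hx).2.1 (hS x hx).2.2
            (hSdeg x hx hne) hne
        obtain ⟨M₀, hM₀, hdec⟩ := sym_decomp S (X - 1) pstar hτP hh hneτ M' hM'1 hM'4
        have hM₀ne : M₀ ≠ 0 := by
          intro h0
          rw [h0, Multiset.map_zero, add_zero] at hdec
          exact hM'3 hdec
        have res := orth_pair p S r i hr hX1S hS hSdeg hcrit M₀ hM₀ hM₀ne
        rw [← hdec] at res
        refine ⟨res, ?_⟩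
        rw [hdec, Multiset.card_add, Multiset.card_map]
        exact Even.mul_left ⟨_, rfl⟩ i
      · have hev : Even i := Nat.not_odd_iff_even.1 hiodd
        exact ⟨orth_blocks p S r i hr hr2 hrp hX1S hS hSdeg hcrit
          (fun x hx hne => pstar_self_of_even r i hr hi hev hi0 x (hS x hx).1 (hS x hx).2.1
            (hS x hx).2.2) M' hM'1, Even.mul_right hev _⟩
    obtain ⟨⟨κ, hκ1, hκ2, A₀, M₀, hA₀r, hM₀s, hM₀d, hA₀M, hχ₀, hcardκ⟩, hpar⟩ := hblk
    have hk1 : 1 ≤ Fintype.card ι - i * Multiset.card M' := by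
      rcases hιodd with ⟨a, ha⟩
      rcases hpar with ⟨b, hb⟩
      omega
    obtain ⟨B, hBr, hBQ, hBχ⟩ := embed_isometry_quad h2 𝒬 hnd A₀ M₀ hM₀s hM₀d hA₀M r hA₀r
      (Fintype.card ι - i * Multiset.card M') hk1 (by rw [hcardκ]; omega)
    obtain ⟨k', hk'⟩ : ∃ k', r = k' + 1 := ⟨r - 1, by have := hr.one_lt; omega⟩
    have hBB : B * B ^ k' = 1 := by rw [← pow_succ', ← hk', hBr]
    have hBB' : B ^ k' * B = 1 := by rw [← pow_succ, ← hk', hBr]
    have hmem : (⟨B, B ^ k', hBB, hBB'⟩ : GL ι F) ∈ Cfsg.isometryGroup F ⇑𝒬 := by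
      intro u v
      exact hBQ u
    obtain ⟨G, hG⟩ : ∃ G : ↥(Cfsg.isometryGroup F ⇑𝒬),
        ((G : GL ι F) : Matrix ι ι F) = B := ⟨⟨_, hmem⟩, rfl⟩
    have hGr : G ^ r = 1 := by
      apply Subtype.ext
      apply Units.ext
      rw [Subgroup.coe_pow, Units.val_pow_eq_pow_val, hG, hBr]
      rfl
    have hG1 : G ≠ 1 := by
      intro h1
      have h3 : B = 1 := by
        rw [← hG, h1]
        rfl
      rw [h3, Matrix.charpoly_one, hχ₀] at hBχ
      exact type_ne_pow S hSmi M' hM'1 hM'3 _ _ hBχ.symm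
    have hordG : orderOf G = r := orderOf_eq_prime hGr hG1
    refine ⟨⟨ConjClasses.mk G, G, rfl, hordG⟩, ?_⟩
    apply Subtype.ext
    show Ξ ⟨ConjClasses.mk G, G, rfl, hordG⟩ = M'
    have hk := hΞ2 ⟨ConjClasses.mk G, G, rfl, hordG⟩ G rfl
    rw [hG, hBχ, hχ₀] at hk
    exact type_unique S hSmi _ _ _ _ (hΞ1 _).1 hM'1 hk.symm

theorem orth_odd_prime_order_class_count {F : Type u} [Field F] [Fintype F] {p q : ℕ}
    [Fact p.Prime] [CharP F p] (hF : Fintype.card F = q) (hq : Odd q) (m r i t : ℕ)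
    (hr : r.Prime) (hr2 : r ≠ 2) (hrp : r ≠ p) (hi : i = orderOf (q : ZMod r))
    (ht : t * i = r - 1) :
    Nat.card {C : ConjClasses ↥(Cfsg.isometryGroup F (Cfsg.quadFormOdd m F)) //
        ∃ g : ↥(Cfsg.isometryGroup F (Cfsg.quadFormOdd m F)),
          ConjClasses.mk g = C ∧ orderOf g = r}
      = if Odd i then Nat.choose (m / i + t / 2) (t / 2) - 1
        else Nat.choose ((2 * m + 1) / i + t) t - 1 := by
  classical
  subst hF
  have h2 : (2 : F) ≠ 0 := Cfsg.Agent.S0286.two_ne_zero_of_odd F hq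
  obtain ⟨𝒬, h𝒬, hnd⟩ := Cfsg.Agent.S0286.odd_model F h2 m
  have hQeq : Cfsg.quadFormOdd m F = ⇑𝒬 := funext (fun v => (h𝒬 v).symm)
  rw [hQeq]
  have hi0 : 0 < i := by
    rcases Nat.eq_zero_or_pos i with h | h
    · rw [h, mul_zero] at ht
      have := hr.two_le
      omega
    · exact h
  obtain ⟨S, hScard, hX1S, hS, hSdeg, hScomp⟩ := cyc_factor_set p r hr hrp i t hi ht
  have hcrit : ∀ y : F[X], y.Monic → y.natDegree = i → y ∣ X ^ r - 1 →
      ¬ (X - 1 : F[X]) ∣ y → y ∈ S :=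
    fun y hm hdeg hd hnd' => hScomp y hm (cyc_irred_crit p r hr hrp i hi y hdeg hd hnd') hd
  have hcardι : Fintype.card (Unit ⊕ (Fin m ⊕ Fin m)) = 2 * m + 1 := by
    rw [Fintype.card_sum, Fintype.card_sum, Fintype.card_fin, Fintype.card_unit]
    omega
  rw [orth_prime_class_equiv h2 𝒬 hnd (by rw [hcardι]; exact ⟨m, rfl⟩) r i hr hr2 hrp hi hi0 S
    hX1S hS hSdeg hScomp hcrit, hcardι]
  have hτP : ∀ x ∈ S, x ≠ X - 1 → (pstar x ∈ S ∧ pstar x ≠ X - 1) :=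
    fun x hx hne => pstar_mem S r i hr.ne_zero hS hSdeg hcrit x hx hne
  have hh : ∀ x ∈ S, x ≠ X - 1 → pstar (pstar x) = x :=
    fun x hx _ => pstar_pstar x (hS x hx).1 (coeff_zero_ne_of_dvd r hr.ne_zero x (hS x hx).2.2)
  split_ifs with hodd
  · have hneτ : ∀ x ∈ S, x ≠ X - 1 → pstar x ≠ x := fun x hx hne =>
      pstar_ne_of_odd r i hr hr2 hodd x (hS x hx).1 (hS x hx).2.1 (hS x hx).2.2
        (hSdeg x hx hne) hne
    rw [sym_count_nofix S (X - 1) hX1S pstar t i (2 * m + 1) hi0 hScard hτP hh hneτ,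
      ← Nat.div_div_eq_div_mul]
    have h7 : (2 * m + 1) / 2 = m := by omega
    rw [h7]
  · rw [← card_slack S (X - 1) hX1S t ((2 * m + 1) / i) hScard]
    apply Nat.card_congr
    apply Equiv.subtypeEquivRight
    intro M'
    constructor
    · rintro ⟨h1, h2', h3, -⟩
      exact ⟨h1, by rw [Nat.le_div_iff_mul_le hi0, mul_comm]; exact h2', h3⟩
    · rintro ⟨h1, h2', h3⟩
      refine ⟨h1, by rw [Nat.le_div_iff_mul_le hi0, mul_comm] at h2'; exact h2', h3, ?_⟩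
      have h9 : Multiset.map pstar M' = Multiset.map (fun x => x) M' :=
        Multiset.map_congr rfl (fun x hx => pstar_self_of_even r i hr hi
          (Nat.not_odd_iff_even.1 hodd) hi0 x (hS x (h1 x hx).1).1 (hS x (h1 x hx).1).2.1
          (hS x (h1 x hx).1).2.2)
      rw [h9, Multiset.map_id']

end Cfsg.Agent.Helper15
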