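import Mathlib
import Cfsg.Agent.Helper15.CycQuot

set_option autoImplicit false

namespace Cfsg.Agent.Helper15

/-- `PGL_n(q) / PSL_n(q)` is cyclic of order `gcd(n, q - 1)`. -/
theorem pgl_psl_quot {F : Type*} [Field F] [Fintype F] {q : ℕ} (hF : Fintype.card F = q)
    (n : ℕ) (hn : 1 ≤ n) :
    ∃ g : Matrix.ProjGenLinGroup (Fin n) F →* Multiplicative (ZMod (Nat.gcd n (q - 1))),
      Function.Surjective g ∧ g.ker = (Matrix.ProjectiveSpecialLinearGroup.toPGL :
        Matrix.ProjectiveSpecialLinearGroup (Fin n) F →*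
          Matrix.ProjGenLinGroup (Fin n) F).range := by
  classical
  haveI : Nonempty (Fin n) := ⟨⟨0, hn⟩⟩
  have hcard : Nat.card Fˣ = q - 1 := by
    rw [Nat.card_eq_fintype_card, Fintype.card_units, hF]
  obtain ⟨ψ, hψs, hψk⟩ := cyc_quot (G := Fˣ) n (q - 1) hcard
  have hcen : Subgroup.center (GL (Fin n) F) ≤ (ψ.comp Matrix.GeneralLinearGroup.det).ker := by
    intro z hz
    rw [Matrix.GeneralLinearGroup.center_eq_range_scalar] at hz
    obtain ⟨u, rfl⟩ := hz
    rw [MonoidHom.mem_ker, MonoidHom.comp_apply, hψk]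
    refine ⟨u, ?_⟩
    rw [Matrix.GeneralLinearGroup.det_scalar, Fintype.card_fin]
  obtain ⟨g, hg⟩ : ∃ g : Matrix.ProjGenLinGroup (Fin n) F →*
      Multiplicative (ZMod (Nat.gcd n (q - 1))),
      ∀ A : GL (Fin n) F, g (Matrix.ProjGenLinGroup.mk A) = ψ (Matrix.GeneralLinearGroup.det A) :=
    ⟨QuotientGroup.lift _ (ψ.comp Matrix.GeneralLinearGroup.det) hcen, fun A => rfl⟩
  refine ⟨g, ?_, ?_⟩
  · intro z
    obtain ⟨u, hu⟩ := hψs z
    obtain ⟨A, hA⟩ := Matrix.GeneralLinearGroup.det_surjective (n := Fin n) u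
    exact ⟨Matrix.ProjGenLinGroup.mk A, by rw [hg, hA, hu]⟩
  · ext x
    obtain ⟨A, rfl⟩ := Matrix.ProjGenLinGroup.mk_surjective x
    rw [MonoidHom.mem_ker, hg, hψk, MonoidHom.mem_range]
    constructor
    · rintro ⟨h, hh⟩
      have hdet : (A * (Matrix.GeneralLinearGroup.scalar (Fin n) h)⁻¹ : GL (Fin n) F).det = 1 := by
        rw [map_mul, map_inv, Matrix.GeneralLinearGroup.det_scalar, Fintype.card_fin, hh,
          mul_inv_cancel]
      obtain ⟨s, hs⟩ : ∃ s : Matrix.SpecialLinearGroup (Fin n) F,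
          Matrix.SpecialLinearGroup.toGL s
            = A * (Matrix.GeneralLinearGroup.scalar (Fin n) h)⁻¹ :=
        ⟨⟨((A * (Matrix.GeneralLinearGroup.scalar (Fin n) h)⁻¹ : GL (Fin n) F) :
          Matrix (Fin n) (Fin n) F), congrArg Units.val hdet⟩, Units.ext rfl⟩
      refine ⟨QuotientGroup.mk s, ?_⟩
      show Matrix.ProjGenLinGroup.mk (Matrix.SpecialLinearGroup.toGL s) = _
      rw [Matrix.ProjGenLinGroup.mk_eq_mk_iff]
      exact ⟨h, by rw [hs, inv_mul_cancel_right]⟩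
    · rintro ⟨y, hy⟩
      obtain ⟨s, rfl⟩ := QuotientGroup.mk_surjective y
      have hy' : Matrix.ProjGenLinGroup.mk (Matrix.SpecialLinearGroup.toGL s)
          = Matrix.ProjGenLinGroup.mk A := hy
      rw [Matrix.ProjGenLinGroup.mk_eq_mk_iff] at hy'
      obtain ⟨u, hu⟩ := hy'
      refine ⟨u, ?_⟩
      rw [← hu, map_mul, Matrix.GeneralLinearGroup.det_scalar, Fintype.card_fin]
      have h1 : Matrix.GeneralLinearGroup.det (Matrix.SpecialLinearGroup.toGL s) = 1 :=
        Matrix.SpecialLinearGroup.coeToGL_det s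
      rw [h1, one_mul]

end Cfsg.Agent.Helper15
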