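import Mathlib
import Cfsg.Prelude.Def_ClassicalGeometry
import Cfsg.Agent.Helper15.TransvCent
import Cfsg.Agent.Helper15.SpCard

set_option autoImplicit false

namespace Cfsg.Agent.Helper15

/-- Every transvection of `SL_(n+3)(F)` is `SL`-conjugate to `1 + e₁ e₀ᵀ`. -/
theorem transv_normal_form {F : Type*} [Field F] (n : ℕ)
    (t : Matrix.SpecialLinearGroup (Fin (n + 3)) F)
    (ht : Cfsg.IsTransvection (t : Matrix (Fin (n + 3)) (Fin (n + 3)) F)) :
    ∃ h : Matrix.SpecialLinearGroup (Fin (n + 3)) F,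
      ((h * t * h⁻¹ : Matrix.SpecialLinearGroup (Fin (n + 3)) F) :
        Matrix (Fin (n + 3)) (Fin (n + 3)) F)
          = 1 + Matrix.vecMulVec (Pi.single 1 1) (Pi.single 0 1) := by
  classical
  obtain ⟨hr, hsq⟩ := ht
  obtain ⟨u, φ, hu, hφ, hN⟩ := rank_one_decomp_gen _ hr
  have hT : (t : Matrix (Fin (n + 3)) (Fin (n + 3)) F) = 1 + Matrix.vecMulVec u φ := by
    rw [← hN]
    abel
  have hφu : φ ⬝ᵥ u = 0 := by
    rw [hN, Matrix.vecMulVec_mul_vecMulVec, Matrix.vecMulVec_eq_zero] at hsq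
    rcases hsq with h | h
    · exact absurd h hu
    · rcases smul_eq_zero.1 h with h' | h'
      · exact h'
      · exact absurd h' hφ
  have h01 : (1 : Fin (n + 3)) ≠ 0 := by
    intro h
    have := congrArg Fin.val h
    simp at this
  have h12 : (1 : Fin (n + 3)) ≠ 2 := by
    intro h
    have := congrArg Fin.val h
    simp [Nat.mod_eq_of_lt (show 2 < n + 3 by omega)] at this
  have h02 : (0 : Fin (n + 3)) ≠ 2 := by
    intro h
    have := congrArg Fin.val h
    simp [Nat.mod_eq_of_lt (show 2 < n + 3 by omega)] at this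
  have he1 : (Pi.single 1 1 : Fin (n + 3) → F) ≠ 0 := by
    intro h
    have := congrFun h 1
    simp at this
  have he0 : (Pi.single 0 1 : Fin (n + 3) → F) ≠ 0 := by
    intro h
    have := congrFun h 0
    simp at this
  have he01 : (Pi.single 0 1 : Fin (n + 3) → F) ⬝ᵥ (Pi.single 1 1) = 0 := by
    rw [single_one_dotProduct]
    exact Pi.single_eq_of_ne h01.symm 1
  obtain ⟨g₀, hg1, hg2⟩ := exists_gl_pair u φ (Pi.single 1 1) (Pi.single 0 1) hu hφ hφu he1 he0
    he01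
  obtain ⟨δ, hδ⟩ : ∃ δ : F, δ = (g₀ : Matrix (Fin (n + 3)) (Fin (n + 3)) F).det := ⟨_, rfl⟩
  have hδ0 : δ ≠ 0 := by
    rw [hδ]
    exact (Matrix.GeneralLinearGroup.det g₀).ne_zero
  obtain ⟨D, hD⟩ : ∃ D : Matrix (Fin (n + 3)) (Fin (n + 3)) F,
      D = Matrix.diagonal (fun i => if i = 2 then δ⁻¹ else 1) := ⟨_, rfl⟩
  have hdetD : D.det = δ⁻¹ := by
    rw [hD, Matrix.det_diagonal, Finset.prod_ite_eq' Finset.univ (2 : Fin (n + 3)) (fun _ => δ⁻¹)]
    simp
  have hdetH : (D * (g₀ : Matrix (Fin (n + 3)) (Fin (n + 3)) F)).det = 1 := by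
    rw [Matrix.det_mul, hdetD, ← hδ, inv_mul_cancel₀ hδ0]
  obtain ⟨h, hh⟩ : ∃ h : Matrix.SpecialLinearGroup (Fin (n + 3)) F,
      (h : Matrix (Fin (n + 3)) (Fin (n + 3)) F)
        = D * (g₀ : Matrix (Fin (n + 3)) (Fin (n + 3)) F) := ⟨⟨_, hdetH⟩, rfl⟩
  refine ⟨h, ?_⟩
  have h1 : ((h * t * h⁻¹ : Matrix.SpecialLinearGroup (Fin (n + 3)) F) :
      Matrix (Fin (n + 3)) (Fin (n + 3)) F) * (h : Matrix (Fin (n + 3)) (Fin (n + 3)) F)
        = (h : Matrix (Fin (n + 3)) (Fin (n + 3)) F)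
          * (t : Matrix (Fin (n + 3)) (Fin (n + 3)) F) := by
    rw [← Matrix.SpecialLinearGroup.coe_mul, ← Matrix.SpecialLinearGroup.coe_mul,
      inv_mul_cancel_right]
  have h2 : (1 + Matrix.vecMulVec (Pi.single 1 1 : Fin (n + 3) → F) (Pi.single 0 1))
      * (h : Matrix (Fin (n + 3)) (Fin (n + 3)) F)
        = (h : Matrix (Fin (n + 3)) (Fin (n + 3)) F)
          * (t : Matrix (Fin (n + 3)) (Fin (n + 3)) F) := by
    rw [hT, hh, Matrix.add_mul, Matrix.one_mul, Matrix.mul_add, Matrix.mul_one,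
      Matrix.vecMulVec_mul, Matrix.mul_vecMulVec]
    congr 1
    have h3 : (D * (g₀ : Matrix (Fin (n + 3)) (Fin (n + 3)) F)).mulVec u = Pi.single 1 1 := by
      rw [← Matrix.mulVec_mulVec, hg1, hD, Matrix.diagonal_mulVec_single]
      simp [h12]
    have h4a : Matrix.vecMul (Pi.single 0 1 : Fin (n + 3) → F) D = Pi.single 0 1 := by
      rw [hD]
      funext x
      rw [Matrix.vecMul_diagonal]
      by_cases hx : x = 0
      · simp [hx, h02]
      · simp [hx]
    have h4 : Matrix.vecMul (Pi.single 0 1 : Fin (n + 3) → F)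
        (D * (g₀ : Matrix (Fin (n + 3)) (Fin (n + 3)) F)) = φ := by
      rw [← Matrix.vecMul_vecMul, h4a, hg2]
    rw [h3, h4]
  have h5 : (h : Matrix (Fin (n + 3)) (Fin (n + 3)) F)
      * ((h⁻¹ : Matrix.SpecialLinearGroup (Fin (n + 3)) F) :
        Matrix (Fin (n + 3)) (Fin (n + 3)) F) = 1 := by
    rw [← Matrix.SpecialLinearGroup.coe_mul, mul_inv_cancel, Matrix.SpecialLinearGroup.coe_one]
  calc ((h * t * h⁻¹ : Matrix.SpecialLinearGroup (Fin (n + 3)) F) :
      Matrix (Fin (n + 3)) (Fin (n + 3)) F)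
      = ((h * t * h⁻¹ : Matrix.SpecialLinearGroup (Fin (n + 3)) F) :
        Matrix (Fin (n + 3)) (Fin (n + 3)) F) * ((h : Matrix (Fin (n + 3)) (Fin (n + 3)) F)
          * ((h⁻¹ : Matrix.SpecialLinearGroup (Fin (n + 3)) F) :
            Matrix (Fin (n + 3)) (Fin (n + 3)) F)) := by rw [h5, Matrix.mul_one]
    _ = (1 + Matrix.vecMulVec (Pi.single 1 1 : Fin (n + 3) → F) (Pi.single 0 1))
        * ((h : Matrix (Fin (n + 3)) (Fin (n + 3)) F)
          * ((h⁻¹ : Matrix.SpecialLinearGroup (Fin (n + 3)) F) :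
            Matrix (Fin (n + 3)) (Fin (n + 3)) F)) := by
      rw [← Matrix.mul_assoc, h1, ← h2, Matrix.mul_assoc]
    _ = _ := by rw [h5, Matrix.mul_one]

/-- Any two transvections of `SL_(n+3)(F)` are conjugate in `SL_(n+3)(F)`. -/
theorem transv_conj_sl {F : Type*} [Field F] (n : ℕ)
    (s s' : Matrix.SpecialLinearGroup (Fin (n + 3)) F)
    (hs : Cfsg.IsTransvection (s : Matrix (Fin (n + 3)) (Fin (n + 3)) F))
    (hs' : Cfsg.IsTransvection (s' : Matrix (Fin (n + 3)) (Fin (n + 3)) F)) :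
    ∃ g : Matrix.SpecialLinearGroup (Fin (n + 3)) F, g * s * g⁻¹ = s' := by
  obtain ⟨h, hh⟩ := transv_normal_form n s hs
  obtain ⟨h', hh'⟩ := transv_normal_form n s' hs'
  have h1 : h * s * h⁻¹ = h' * s' * h'⁻¹ := Subtype.ext (by rw [hh, hh'])
  refine ⟨h'⁻¹ * h, ?_⟩
  have h2 : h'⁻¹ * h * s * (h'⁻¹ * h)⁻¹ = h'⁻¹ * (h * s * h⁻¹) * h' := by group
  rw [h2, h1]
  group

/-- An element of order 2 of `PSL_3(4)` lifts to a transvection. -/
theorem psl34_involution_lift {F : Type*} [Field F] [Fintype F] (hF : Fintype.card F = 4)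
    (x : Matrix.ProjectiveSpecialLinearGroup (Fin 3) F) (hx : orderOf x = 2) :
    ∃ s : Matrix.SpecialLinearGroup (Fin 3) F,
      Cfsg.IsTransvection (s : Matrix (Fin 3) (Fin 3) F) ∧ x = QuotientGroup.mk s := by
  classical
  have h2F : (2 : F) = 0 := by
    have h1 := FiniteField.pow_card (2 : F)
    have h3 := FiniteField.pow_card (3 : F)
    rw [hF] at h1 h3
    linear_combination (-11 : F) * h1 + (2 : F) * h3
  obtain ⟨s, rfl⟩ := QuotientGroup.mk_surjective x
  have hx2 : (QuotientGroup.mk s : Matrix.ProjectiveSpecialLinearGroup (Fin 3) F) ^ 2 = 1 := by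
    rw [← hx]
    exact pow_orderOf_eq_one _
  have hx1 : (QuotientGroup.mk s : Matrix.ProjectiveSpecialLinearGroup (Fin 3) F) ≠ 1 := by
    intro h
    rw [h, orderOf_one] at hx
    omega
  have hs2 : s ^ 2 ∈ Subgroup.center (Matrix.SpecialLinearGroup (Fin 3) F) := by
    rw [← QuotientGroup.eq_one_iff]
    exact hx2
  rw [Matrix.SpecialLinearGroup.mem_center_iff] at hs2
  obtain ⟨r, hr3, hr⟩ := hs2
  rw [Fintype.card_fin] at hr3
  have hS2 : (s : Matrix (Fin 3) (Fin 3) F) * (s : Matrix (Fin 3) (Fin 3) F) = r • 1 := by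
    have h1 : ((s ^ 2 : Matrix.SpecialLinearGroup (Fin 3) F) : Matrix (Fin 3) (Fin 3) F)
        = (s : Matrix (Fin 3) (Fin 3) F) * (s : Matrix (Fin 3) (Fin 3) F) := by
      rw [pow_two, Matrix.SpecialLinearGroup.coe_mul]
    rw [← h1, ← hr, Matrix.smul_one_eq_diagonal]
    rfl
  have hzdet : (r • (1 : Matrix (Fin 3) (Fin 3) F)).det = 1 := by
    rw [Matrix.det_smul, Matrix.det_one, mul_one, Fintype.card_fin, hr3]
  obtain ⟨z, hz⟩ : ∃ z : Matrix.SpecialLinearGroup (Fin 3) F,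
      (z : Matrix (Fin 3) (Fin 3) F) = r • 1 := ⟨⟨_, hzdet⟩, rfl⟩
  have hzc : z ∈ Subgroup.center (Matrix.SpecialLinearGroup (Fin 3) F) := by
    rw [Matrix.SpecialLinearGroup.mem_center_iff]
    refine ⟨r, by rw [Fintype.card_fin, hr3], ?_⟩
    rw [hz, Matrix.smul_one_eq_diagonal]
    rfl
  refine ⟨z * s, ?_, ?_⟩
  · have hcoe : ((z * s : Matrix.SpecialLinearGroup (Fin 3) F) : Matrix (Fin 3) (Fin 3) F)
        = r • (s : Matrix (Fin 3) (Fin 3) F) := by
      rw [Matrix.SpecialLinearGroup.coe_mul, hz, Matrix.smul_mul, Matrix.one_mul]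
    obtain ⟨N, hN⟩ : ∃ N : Matrix (Fin 3) (Fin 3) F,
        N = r • (s : Matrix (Fin 3) (Fin 3) F) - 1 := ⟨_, rfl⟩
    have hNN : N * N = 0 := by
      have h1 : (r • (s : Matrix (Fin 3) (Fin 3) F)) * (r • (s : Matrix (Fin 3) (Fin 3) F))
          = 1 := by
        rw [Matrix.smul_mul, Matrix.mul_smul, hS2, smul_smul, smul_smul, ← pow_two, ← pow_succ,
          hr3, one_smul]
      have h2 : (2 : F) • (r • (s : Matrix (Fin 3) (Fin 3) F)) = 0 := by
        rw [h2F, zero_smul]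
      have h3 : (2 : F) • (1 : Matrix (Fin 3) (Fin 3) F) = 0 := by
        rw [h2F, zero_smul]
      rw [hN, Matrix.sub_mul, Matrix.mul_sub, Matrix.mul_sub, h1, Matrix.one_mul, Matrix.mul_one,
        Matrix.one_mul]
      have h4 : (1 : Matrix (Fin 3) (Fin 3) F) - r • (s : Matrix (Fin 3) (Fin 3) F)
          - (r • (s : Matrix (Fin 3) (Fin 3) F) - 1)
          = (2 : F) • (1 : Matrix (Fin 3) (Fin 3) F)
            - (2 : F) • (r • (s : Matrix (Fin 3) (Fin 3) F)) := by
        rw [two_smul, two_smul]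
        abel
      rw [h4, h2, h3, sub_zero]
    have hN0 : N ≠ 0 := by
      intro h0
      apply hx1
      rw [QuotientGroup.eq_one_iff]
      have h1 : r • (s : Matrix (Fin 3) (Fin 3) F) = 1 := by
        rw [hN] at h0
        exact sub_eq_zero.1 h0
      have h2 : z * s = 1 := Subtype.ext (by rw [hcoe, h1]; rfl)
      have h3 : s = z⁻¹ := eq_inv_of_mul_eq_one_right h2
      rw [h3]
      exact Subgroup.inv_mem _ hzc
    have hrk1 : N.rank ≤ 1 := by
      have h1 := Matrix.rank_add_rank_le_card_of_mul_eq_zero hNN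
      rw [Fintype.card_fin] at h1
      omega
    have hrk0 : N.rank ≠ 0 := by
      intro h0
      have h1 : Module.finrank F (LinearMap.range N.mulVecLin) = 0 := h0
      rw [Submodule.finrank_eq_zero] at h1
      apply hN0
      ext i j
      have h2 : N.mulVec (Pi.single j 1) ∈ LinearMap.range N.mulVecLin := ⟨_, rfl⟩
      rw [h1, Submodule.mem_bot] at h2
      have h3 := congrFun h2 i
      have h4 : N.mulVec (Pi.single j 1) i = N i j := by
        simp [Matrix.mulVec]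
      rw [h4] at h3
      exact h3
    constructor
    · rw [hcoe, ← hN]
      omega
    · rw [hcoe, ← hN]
      exact hNN
  · rw [QuotientGroup.mk_mul, (QuotientGroup.eq_one_iff z).2 hzc, one_mul]

/-- Any two elements of order 2 of `PSL_3(4)` are conjugate. -/
theorem psl34_involutions_conj {F : Type*} [Field F] [Fintype F] (hF : Fintype.card F = 4)
    (x y : Matrix.ProjectiveSpecialLinearGroup (Fin 3) F) (hx : orderOf x = 2)
    (hy : orderOf y = 2) : IsConj x y := by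
  obtain ⟨s, hs, rfl⟩ := psl34_involution_lift hF x hx
  obtain ⟨s', hs', rfl⟩ := psl34_involution_lift hF y hy
  obtain ⟨g, hg⟩ := transv_conj_sl 0 s s' hs hs'
  rw [isConj_iff]
  refine ⟨QuotientGroup.mk g, ?_⟩
  rw [← hg]
  rfl

end Cfsg.Agent.Helper15
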