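import Mathlib

set_option autoImplicit false

namespace Cfsg.Agent.Helper15

open Polynomial

/-- An irreducible monic quadratic `ψ` over the field with four elements divides `X ^ 5 - ψ(0)`. -/
theorem quad_dvd_X_pow_five {F : Type*} [Field F] [Fintype F] (hF : Fintype.card F = 4)
    (ψ : F[X]) (hm : ψ.Monic) (hdeg : ψ.natDegree = 2) (hirr : Irreducible ψ) :
    ψ ∣ X ^ 5 - C (ψ.coeff 0) := by
  haveI : Fact (Irreducible ψ) := ⟨hirr⟩
  have hψ0 : ψ ≠ 0 := hm.ne_zero
  haveI : Module.Finite F (AdjoinRoot ψ) := (AdjoinRoot.powerBasis hψ0).finite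
  haveI : Finite (AdjoinRoot ψ) := Module.finite_of_finite F
  have hcard : Nat.card (AdjoinRoot ψ) = 16 := by
    rw [Module.natCard_eq_pow_finrank (K := F), (AdjoinRoot.powerBasis hψ0).finrank,
      AdjoinRoot.powerBasis_dim, hdeg, Nat.card_eq_fintype_card, hF]
    norm_num
  have h1 := FiniteField.algebraMap_norm_eq_pow (K := F) (K' := AdjoinRoot ψ)
    (x := AdjoinRoot.root ψ)
  rw [hcard, Nat.card_eq_fintype_card, hF] at h1
  have h2 : Algebra.norm F (AdjoinRoot.root ψ) = ψ.coeff 0 := by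
    have h3 := Algebra.PowerBasis.norm_gen_eq_coeff_zero_minpoly (AdjoinRoot.powerBasis hψ0)
    rw [AdjoinRoot.minpoly_powerBasis_gen_of_monic hm, AdjoinRoot.powerBasis_dim, hdeg,
      AdjoinRoot.powerBasis_gen] at h3
    rw [h3]
    ring
  rw [h2] at h1
  rw [← AdjoinRoot.mk_eq_zero, map_sub, map_pow, AdjoinRoot.mk_X, AdjoinRoot.mk_C]
  have h4 : (16 - 1) / (4 - 1) = 5 := by norm_num
  rw [h4] at h1
  rw [← h1]
  exact sub_self _

/-- `PSL_3(4)` has no element of order 15. -/
theorem psl34_no_order_fifteen {F : Type*} [Field F] [Fintype F] (hF : Fintype.card F = 4)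
    (g : Matrix.ProjectiveSpecialLinearGroup (Fin 3) F) : orderOf g ≠ 15 := by
  classical
  intro hord
  have h4 : ((4 : ℕ) : F) = 0 := by
    rw [← hF]
    exact Nat.cast_card_eq_zero F
  have h2F : (2 : F) = 0 := by
    have h5 : (2 : F) * 2 = 0 := by
      have : ((4 : ℕ) : F) = 2 * 2 := by norm_num
      rw [← this, h4]
    exact mul_self_eq_zero.1 h5
  have h2X : (2 : F[X]) = 0 := by
    calc (2 : F[X]) = C (2 : F) := (map_ofNat C 2).symm
      _ = 0 := by rw [h2F, map_zero]
  have hcube : ∀ r : F, r ≠ 0 → r ^ 3 = 1 := by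
    intro r hr
    have h5 := FiniteField.pow_card_sub_one_eq_one r hr
    rw [hF] at h5
    exact h5
  obtain ⟨A, rfl⟩ := QuotientGroup.mk_surjective g
  have hg15 : (QuotientGroup.mk A : Matrix.ProjectiveSpecialLinearGroup (Fin 3) F) ^ 15 = 1 := by
    rw [← hord]
    exact pow_orderOf_eq_one _
  have hg3 : (QuotientGroup.mk A : Matrix.ProjectiveSpecialLinearGroup (Fin 3) F) ^ 3 ≠ 1 := by
    intro h
    have h5 := orderOf_dvd_of_pow_eq_one h
    rw [hord] at h5
    omega
  have hg5 : (QuotientGroup.mk A : Matrix.ProjectiveSpecialLinearGroup (Fin 3) F) ^ 5 ≠ 1 := by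
    intro h
    have h5 := orderOf_dvd_of_pow_eq_one h
    rw [hord] at h5
    omega
  have hpow : ∀ k : ℕ, (QuotientGroup.mk A : Matrix.ProjectiveSpecialLinearGroup (Fin 3) F) ^ k = 1
      ↔ A ^ k ∈ Subgroup.center (Matrix.SpecialLinearGroup (Fin 3) F) := by
    intro k
    rw [← QuotientGroup.mk_pow, QuotientGroup.eq_one_iff]
  -- `A ^ 45 = 1`
  obtain ⟨r, hr3, hr⟩ := Matrix.SpecialLinearGroup.mem_center_iff.1 ((hpow 15).1 hg15)
  rw [Fintype.card_fin] at hr3
  have hA45 : A ^ 45 = 1 := by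
    apply Subtype.ext
    have h5 : ((A ^ 15 : Matrix.SpecialLinearGroup (Fin 3) F) : Matrix (Fin 3) (Fin 3) F) ^ 3
        = 1 := by
      rw [← hr, ← map_pow, hr3, map_one]
    have h6 : ((A ^ 45 : Matrix.SpecialLinearGroup (Fin 3) F) : Matrix (Fin 3) (Fin 3) F)
        = ((A ^ 15 : Matrix.SpecialLinearGroup (Fin 3) F) : Matrix (Fin 3) (Fin 3) F) ^ 3 := by
      rw [← Matrix.SpecialLinearGroup.coe_pow, ← pow_mul]
    rw [h6, h5]
    rfl
  -- reductions
  have hcase9 : A ^ 9 = 1 → False := by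
    intro h9
    apply hg3
    have h5 : (QuotientGroup.mk A : Matrix.ProjectiveSpecialLinearGroup (Fin 3) F) ^ 9 = 1 := by
      rw [← QuotientGroup.mk_pow, h9]
      rfl
    have h6 : (QuotientGroup.mk A : Matrix.ProjectiveSpecialLinearGroup (Fin 3) F) ^ 18 = 1 := by
      rw [show 18 = 9 * 2 from rfl, pow_mul, h5, one_pow]
    rw [show 18 = 15 + 3 from rfl, pow_add, hg15, one_mul] at h6
    exact h6
  have hcase3 : A ^ 3 = 1 → False := by
    intro h3
    apply hg3
    rw [← QuotientGroup.mk_pow, h3]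
    rfl
  -- the characteristic polynomial
  obtain ⟨M, hM⟩ : ∃ M : Matrix (Fin 3) (Fin 3) F, M = (A : Matrix (Fin 3) (Fin 3) F) :=
    ⟨_, rfl⟩
  have hMpow : ∀ k : ℕ, M ^ k = ((A ^ k : Matrix.SpecialLinearGroup (Fin 3) F) :
      Matrix (Fin 3) (Fin 3) F) := by
    intro k
    rw [hM, Matrix.SpecialLinearGroup.coe_pow]
  have hχm : M.charpoly.Monic := Matrix.charpoly_monic M
  have hχd : M.charpoly.natDegree = 3 := by
    rw [Matrix.charpoly_natDegree_eq_dim, Fintype.card_fin]
  have hχ0 : M.charpoly.coeff 0 = 1 := by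
    have h5 := Matrix.det_eq_sign_charpoly_coeff M
    rw [hM, A.2, Fintype.card_fin, ← hM] at h5
    linear_combination h5 - h2F
  have haeval : ∀ f : F[X], M.charpoly ∣ f → aeval M f = 0 := by
    rintro f ⟨u, rfl⟩
    rw [map_mul, Matrix.aeval_self_charpoly, zero_mul]
  have hroot0 : ∀ b : F, M.charpoly.IsRoot b → b ≠ 0 := by
    rintro b hb rfl
    rw [IsRoot, ← coeff_zero_eq_eval_zero, hχ0] at hb
    exact one_ne_zero hb
  have hrootdvd : ∀ b : F, M.charpoly.IsRoot b → (X - C b) ∣ (X ^ 3 - 1 : F[X]) := by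
    intro b hb
    rw [dvd_iff_isRoot, IsRoot, eval_sub, eval_pow, eval_X, eval_one, hcube b (hroot0 b hb),
      sub_self]
  have hord_dvd : ∀ k : ℕ, A ^ k = 1 → Nat.gcd k 45 = 3 → False := by
    intro k hk hgcd
    apply hcase3
    have h5 := Nat.dvd_gcd (orderOf_dvd_of_pow_eq_one hk) (orderOf_dvd_of_pow_eq_one hA45)
    rw [hgcd] at h5
    exact orderOf_dvd_iff_pow_eq_one.1 h5
  by_cases hroot : ∃ b, M.charpoly.IsRoot b
  · obtain ⟨b, hb⟩ := hroot
    obtain ⟨ψ, hψ⟩ := dvd_iff_isRoot.2 hb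
    have hb0 := hroot0 b hb
    have hb3 := hcube b hb0
    have hψm : ψ.Monic := by
      apply Monic.of_mul_monic_left (monic_X_sub_C b)
      rw [← hψ]
      exact hχm
    have hψd : ψ.natDegree = 2 := by
      have h5 := congrArg natDegree hψ
      rw [natDegree_mul (X_sub_C_ne_zero b) hψm.ne_zero, natDegree_X_sub_C, hχd] at h5
      omega
    by_cases hroot2 : ∃ b', ψ.IsRoot b'
    · -- three roots
      obtain ⟨b', hb'⟩ := hroot2
      obtain ⟨φ, hφ⟩ := dvd_iff_isRoot.2 hb'
      have hφm : φ.Monic := by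
        apply Monic.of_mul_monic_left (monic_X_sub_C b')
        rw [← hφ]
        exact hψm
      have hφd : φ.natDegree = 1 := by
        have h5 := congrArg natDegree hφ
        rw [natDegree_mul (X_sub_C_ne_zero b') hφm.ne_zero, natDegree_X_sub_C, hψd] at h5
        omega
      obtain ⟨c, hc⟩ : ∃ c, φ = X - C c :=
        ⟨-(φ.coeff 0), by rw [C_neg, sub_neg_eq_add]; exact hφm.eq_X_add_C hφd⟩
      have hχb' : M.charpoly.IsRoot b' := by
        rw [hψ, IsRoot, eval_mul]
        rw [IsRoot] at hb'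
        rw [hb', mul_zero]
      have hχc : M.charpoly.IsRoot c := by
        have h0 : eval c (X - C c) = 0 := by rw [eval_sub, eval_X, eval_C, sub_self]
        rw [IsRoot, hψ, hφ, hc, eval_mul, eval_mul, h0, mul_zero, mul_zero]
      have h1 := hrootdvd b hb
      have h2 := hrootdvd b' hχb'
      have h3 := hrootdvd c hχc
      rw [← hc] at h3
      have h5 : M.charpoly ∣ (X ^ 3 - 1) * ((X ^ 3 - 1) * (X ^ 3 - 1)) := by
        rw [hψ, hφ]
        exact mul_dvd_mul h1 (mul_dvd_mul h2 h3)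
      have h6 : (X ^ 12 - 1 : F[X]) = (X ^ 3 - 1) * ((X ^ 3 - 1) * (X ^ 3 - 1)) * (X ^ 3 - 1) := by
        linear_combination (2 * X ^ 9 - 3 * X ^ 6 + 2 * X ^ 3 - 1 : F[X]) * h2X
      have h7 := haeval _ (Dvd.dvd.mul_right h5 (X ^ 3 - 1))
      rw [← h6, map_sub, map_pow, aeval_X, map_one, sub_eq_zero, hMpow] at h7
      have h8 : A ^ 12 = 1 := Subtype.ext h7
      exact hord_dvd 12 h8 (by norm_num)
    · -- one root and an irreducible quadratic
      push Not at hroot2
      have hirr : Irreducible ψ := by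
        rw [hψm.irreducible_iff_roots_eq_zero_of_degree_le_three (by omega) (by omega)]
        apply Multiset.eq_zero_of_forall_notMem
        intro x hx
        exact hroot2 x ((mem_roots hψm.ne_zero).1 hx)
      obtain ⟨Q, hQ⟩ := quad_dvd_X_pow_five hF ψ hψm hψd hirr
      have hbt : b * ψ.coeff 0 = 1 := by
        have h5 := congrArg (fun p : F[X] => p.coeff 0) hψ
        simp only [mul_coeff_zero, coeff_sub, coeff_X_zero, coeff_C_zero, zero_sub] at h5
        rw [hχ0] at h5
        linear_combination h5 - h2F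
      have ht : ψ.coeff 0 = b ^ 2 := by
        linear_combination (b ^ 2) * hbt - (ψ.coeff 0) * hb3
      have hQb : Q.IsRoot b := by
        have h5 := congrArg (eval b) hQ
        rw [eval_sub, eval_pow, eval_X, eval_C, eval_mul, ht] at h5
        have h6 : b ^ 5 - b ^ 2 = 0 := by linear_combination (b ^ 2) * hb3
        rw [h6] at h5
        rcases mul_eq_zero.1 h5.symm with h7 | h7
        · exact absurd h7 (hroot2 b)
        · exact h7
      obtain ⟨Q', hQ'⟩ := dvd_iff_isRoot.2 hQb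
      have h5 : M.charpoly ∣ X ^ 5 - C (ψ.coeff 0) := by
        refine ⟨Q', ?_⟩
        rw [hQ, hQ', hψ]
        ring
      have h7 := haeval _ h5
      rw [map_sub, map_pow, aeval_X, aeval_C, sub_eq_zero, hMpow] at h7
      apply hg5
      rw [hpow, Matrix.SpecialLinearGroup.mem_center_iff]
      refine ⟨ψ.coeff 0, ?_, ?_⟩
      · rw [Fintype.card_fin]
        apply hcube
        rintro h0
        rw [h0, mul_zero] at hbt
        exact zero_ne_one hbt
      · rw [h7]
        rfl
  · -- irreducible cubic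
    push Not at hroot
    have hirr : Irreducible M.charpoly := by
      rw [hχm.irreducible_iff_roots_eq_zero_of_degree_le_three (by omega) (by omega)]
      apply Multiset.eq_zero_of_forall_notMem
      intro x hx
      exact hroot x ((mem_roots hχm.ne_zero).1 hx)
    have h5 := (hirr.natDegree_dvd_iff_dvd_X_pow_card_pow_sub_X (n := 3)).1 (by rw [hχd])
    rw [Nat.card_eq_fintype_card, hF] at h5
    have h7 := haeval _ h5
    rw [map_sub, map_pow, aeval_X, sub_eq_zero, hMpow] at h7
    have h8 : A ^ 4 ^ 3 = A := Subtype.ext (by rw [h7, hM])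
    have h9 : A ^ 63 = 1 := by
      have h10 : A ^ 63 * A = 1 * A := by
        rw [one_mul, ← pow_succ]
        exact h8
      exact mul_right_cancel h10
    apply hcase9
    have h10 := Nat.dvd_gcd (orderOf_dvd_of_pow_eq_one h9) (orderOf_dvd_of_pow_eq_one hA45)
    rw [show Nat.gcd 63 45 = 9 by norm_num] at h10
    exact orderOf_dvd_iff_pow_eq_one.1 h10

end Cfsg.Agent.Helper15
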