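import Mathlib

set_option autoImplicit false

namespace Cfsg.Agent.Helper15

theorem nil_field_zero {F R : Type*} [Field F] [CommRing R] [Algebra F R] [Nontrivial R] (x : F)
    (h : IsNilpotent (algebraMap F R x)) : x = 0 := by
  by_contra hx
  have h1 : IsUnit (algebraMap F R x) := (IsUnit.mk0 x hx).map _
  exact h1.not_isNilpotent h

/-- Cayley-transform count of the norm-one elements of a finite local algebra with involution. -/
theorem cayley_count {F R : Type*} [Field F] [CommRing R] [Algebra F R] [Nontrivial R] [Finite R]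
    (h2 : (2 : F) ≠ 0) (σ : R →ₐ[F] R)
    (hloc : ∀ r : R, ∃ c : F, IsNilpotent (r - algebraMap F R c)) :
    Nat.card {g : R // g * σ g = 1} = 2 * Nat.card {b : R // σ b = -b} := by
  classical
  have h2R : ¬ IsNilpotent (2 : R) := by
    intro h
    have h' : IsNilpotent (algebraMap F R 2) := by rwa [map_ofNat]
    exact h2 (nil_field_zero 2 h')
  have hadd : ∀ x y : R, IsNilpotent x → IsNilpotent y → IsNilpotent (x + y) := fun x y hx hy =>
    Commute.isNilpotent_add (Commute.all x y) hx hy
  have hmulr : ∀ x y : R, IsNilpotent x → IsNilpotent (x * y) := fun x y hx =>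
    mem_nilradical.1 (Ideal.mul_mem_right _ _ (mem_nilradical.2 hx))
  have hmull : ∀ x y : R, IsNilpotent y → IsNilpotent (x * y) := fun x y hy =>
    mem_nilradical.1 (Ideal.mul_mem_left _ _ (mem_nilradical.2 hy))
  -- skew elements are nilpotent
  have hA : ∀ b : R, σ b = -b → IsNilpotent b := by
    intro b hb
    obtain ⟨c, hc⟩ := hloc b
    have h1 : IsNilpotent (σ (b - algebraMap F R c)) := hc.map σ
    rw [map_sub, AlgHom.commutes, hb] at h1
    have h3 := hadd _ _ hc h1
    have h4 : (b - algebraMap F R c) + (-b - algebraMap F R c) = algebraMap F R (-2 * c) := by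
      rw [map_mul, map_neg, map_ofNat]
      ring
    rw [h4] at h3
    have h5 := nil_field_zero _ h3
    have h6 : c = 0 := by
      rcases mul_eq_zero.1 h5 with h | h
      · exact absurd (neg_eq_zero.1 h) h2
      · exact h
    rw [h6, map_zero, sub_zero] at hc
    exact hc
  -- norm-one elements are plus or minus unipotent
  have hC : ∀ g : R, g * σ g = 1 → IsNilpotent (g - 1) ∨ IsNilpotent (g + 1) := by
    intro g hg
    obtain ⟨c, hc⟩ := hloc g
    have h1 : IsNilpotent (σ (g - algebraMap F R c)) := hc.map σ
    rw [map_sub, AlgHom.commutes] at h1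
    have h3 := hadd _ _ (hmulr _ (σ g) hc) (hmull (algebraMap F R c) _ h1)
    have h4 : (g - algebraMap F R c) * σ g + algebraMap F R c * (σ g - algebraMap F R c)
        = algebraMap F R (1 - c * c) := by
      rw [map_sub, map_mul, map_one]
      linear_combination hg
    rw [h4] at h3
    have h5 := nil_field_zero _ h3
    have h6 : (c - 1) * (c + 1) = 0 := by linear_combination -h5
    rcases mul_eq_zero.1 h6 with h | h
    · left
      have : c = 1 := by linear_combination h
      rw [this, map_one] at hc
      exact hc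
    · right
      have : c = -1 := by linear_combination h
      rw [this, map_neg, map_one, sub_neg_eq_add] at hc
      exact hc
  have hU1 : ∀ g : R, IsNilpotent (g - 1) → (g + 1) * Ring.inverse (g + 1) = 1 := by
    intro g hg
    apply Ring.mul_inverse_cancel
    have h1 : IsUnit (2 : R) := by
      have : IsUnit (algebraMap F R 2) := (IsUnit.mk0 _ h2).map _
      rwa [map_ofNat] at this
    have h3 := IsNilpotent.isUnit_add_left_of_commute hg h1 (Commute.all _ _)
    have h4 : (2 : R) + (g - 1) = g + 1 := by ring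
    rwa [h4] at h3
  have hU2 : ∀ b : R, σ b = -b → (1 - b) * Ring.inverse (1 - b) = 1 := by
    intro b hb
    apply Ring.mul_inverse_cancel
    exact (hA b hb).isUnit_one_sub
  -- step one: the sign
  have hstep1 : Nat.card {g : R // g * σ g = 1}
      = 2 * Nat.card {g : R // g * σ g = 1 ∧ IsNilpotent (g - 1)} := by
    let f : {g : R // g * σ g = 1 ∧ IsNilpotent (g - 1)} × Bool → {g : R // g * σ g = 1} :=
      fun p => if p.2 then ⟨p.1.1, p.1.2.1⟩ else ⟨-p.1.1, by
        rw [map_neg, neg_mul_neg]
        exact p.1.2.1⟩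
    have hne : ∀ g g' : R, IsNilpotent (g - 1) → IsNilpotent (g' - 1) → g ≠ -g' := by
      intro g g' hg hg' h
      rw [h] at hg
      have h1 : IsNilpotent (g' + 1) := by
        have := hg.neg
        have h2 : -(-g' - 1) = g' + 1 := by ring
        rwa [h2] at this
      have h3 := hadd _ _ h1 hg'.neg
      have h4 : g' + 1 + -(g' - 1) = 2 := by ring
      rw [h4] at h3
      exact h2R h3
    have hf : Function.Bijective f := by
      constructor
      · rintro ⟨g, ε⟩ ⟨g', ε'⟩ h
        have hv := congrArg Subtype.val h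
        cases ε <;> cases ε'
        · simp only [f, Bool.false_eq_true, if_false] at hv
          have : g = g' := Subtype.ext (neg_inj.1 hv)
          rw [this]
        · simp only [f, Bool.false_eq_true, if_false, if_true] at hv
          exact absurd hv.symm (hne _ _ g'.2.2 g.2.2)
        · simp only [f, Bool.false_eq_true, if_false, if_true] at hv
          exact absurd hv (hne _ _ g.2.2 g'.2.2)
        · simp only [f, if_true] at hv
          have : g = g' := Subtype.ext hv
          rw [this]
      · intro g
        rcases hC g.1 g.2 with h | h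
        · refine ⟨(⟨g.1, g.2, h⟩, true), ?_⟩
          simp only [f, if_true]
        · refine ⟨(⟨-g.1, ?_, ?_⟩, false), ?_⟩
          · rw [map_neg, neg_mul_neg]
            exact g.2
          · have := h.neg
            have h2 : -(g.1 + 1) = -g.1 - 1 := by ring
            rwa [h2] at this
          · apply Subtype.ext
            simp only [f, Bool.false_eq_true, if_false, neg_neg]
    rw [← Nat.card_congr (Equiv.ofBijective f hf), Nat.card_prod, Nat.card_eq_fintype_card (α := Bool),
      Fintype.card_bool, mul_comm]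
  -- step two: the Cayley transform
  have hstep2 : Nat.card {g : R // g * σ g = 1 ∧ IsNilpotent (g - 1)}
      = Nat.card {b : R // σ b = -b} := by
    have hφ : ∀ g : R, g * σ g = 1 → IsNilpotent (g - 1) →
        σ ((g - 1) * Ring.inverse (g + 1)) = -((g - 1) * Ring.inverse (g + 1)) := by
      intro g hg hn
      have hw := hU1 g hn
      obtain ⟨w, hwdef⟩ : ∃ w, w = Ring.inverse (g + 1) := ⟨_, rfl⟩
      rw [← hwdef] at hw ⊢
      have hσw : (σ g + 1) * σ w = 1 := by
        have := congrArg σ hw
        rwa [map_mul, map_add, map_one] at this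
      have h1 : σ w = g * w := by
        apply left_inv_eq_right_inv (a := σ g + 1)
        · rw [mul_comm]; exact hσw
        · linear_combination w * hg + hw
      rw [map_mul, map_sub, map_one, h1]
      linear_combination w * hg
    have hψ1 : ∀ b : R, σ b = -b →
        ((1 + b) * Ring.inverse (1 - b)) * σ ((1 + b) * Ring.inverse (1 - b)) = 1 := by
      intro b hb
      have hz := hU2 b hb
      obtain ⟨z, hzdef⟩ : ∃ z, z = Ring.inverse (1 - b) := ⟨_, rfl⟩
      rw [← hzdef] at hz ⊢
      have hσz : (1 + b) * σ z = 1 := by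
        have := congrArg σ hz
        rwa [map_mul, map_sub, map_one, hb, sub_neg_eq_add] at this
      rw [map_mul, map_add, map_one, hb]
      linear_combination ((1 + b) * σ z) * hz + hσz
    have hψ2 : ∀ b : R, σ b = -b → IsNilpotent ((1 + b) * Ring.inverse (1 - b) - 1) := by
      intro b hb
      have hz := hU2 b hb
      obtain ⟨z, hzdef⟩ : ∃ z, z = Ring.inverse (1 - b) := ⟨_, rfl⟩
      rw [← hzdef] at hz ⊢
      have h1 : (1 + b) * z - 1 = b * (2 * z) := by linear_combination hz
      rw [h1]
      exact hmulr _ _ (hA b hb)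
    let φ : {g : R // g * σ g = 1 ∧ IsNilpotent (g - 1)} → {b : R // σ b = -b} :=
      fun g => ⟨(g.1 - 1) * Ring.inverse (g.1 + 1), hφ g.1 g.2.1 g.2.2⟩
    let ψ : {b : R // σ b = -b} → {g : R // g * σ g = 1 ∧ IsNilpotent (g - 1)} :=
      fun b => ⟨(1 + b.1) * Ring.inverse (1 - b.1), hψ1 b.1 b.2, hψ2 b.1 b.2⟩
    have hl : ∀ g, ψ (φ g) = g := by
      intro g
      apply Subtype.ext
      show (1 + (g.1 - 1) * Ring.inverse (g.1 + 1))
        * Ring.inverse (1 - (g.1 - 1) * Ring.inverse (g.1 + 1)) = g.1
      have hw := hU1 g.1 g.2.2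
      have hz := hU2 _ (hφ g.1 g.2.1 g.2.2)
      obtain ⟨w, hwdef⟩ : ∃ w, w = Ring.inverse (g.1 + 1) := ⟨_, rfl⟩
      rw [← hwdef] at hw hz ⊢
      obtain ⟨z, hzdef⟩ : ∃ z, z = Ring.inverse (1 - (g.1 - 1) * w) := ⟨_, rfl⟩
      rw [← hzdef] at hz ⊢
      linear_combination (g.1 * z - z) * hw + g.1 * hz
    have hr : ∀ b, φ (ψ b) = b := by
      intro b
      apply Subtype.ext
      show ((1 + b.1) * Ring.inverse (1 - b.1) - 1)
        * Ring.inverse ((1 + b.1) * Ring.inverse (1 - b.1) + 1) = b.1
      have hz := hU2 b.1 b.2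
      have hw := hU1 _ (hψ2 b.1 b.2)
      obtain ⟨z, hzdef⟩ : ∃ z, z = Ring.inverse (1 - b.1) := ⟨_, rfl⟩
      rw [← hzdef] at hw hz ⊢
      obtain ⟨w, hwdef⟩ : ∃ w, w = Ring.inverse ((1 + b.1) * z + 1) := ⟨_, rfl⟩
      rw [← hwdef] at hw ⊢
      linear_combination b.1 * hw + (b.1 * w + w) * hz
    exact Nat.card_congr ⟨φ, ψ, hl, hr⟩
  rw [hstep1, hstep2]

end Cfsg.Agent.Helper15
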