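import Mathlib
import Cfsg.Agent.Helper15.SpRegUnip1

set_option autoImplicit false

namespace Cfsg.Agent.Helper15

/-- Square roots of fixed unipotent elements in a finite algebra with an algebra map. -/
theorem cayley_sqrt {F R : Type*} [Field F] [CommRing R] [Algebra F R] [Nontrivial R] [Finite R]
    (h2 : (2 : F) ≠ 0) (σ : R →ₐ[F] R) (a : R) (ha : σ a = a) (hn : IsNilpotent (a - 1)) :
    ∃ z : R, σ z = z ∧ z * z = a ∧ IsNilpotent (z - 1) := by
  classical
  have hadd : ∀ x y : R, IsNilpotent x → IsNilpotent y → IsNilpotent (x + y) := fun x y hx hy =>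
    Commute.isNilpotent_add (Commute.all x y) hx hy
  have hmulr : ∀ x y : R, IsNilpotent x → IsNilpotent (x * y) := fun x y hx =>
    mem_nilradical.1 (Ideal.mul_mem_right _ _ (mem_nilradical.2 hx))
  have h2u : IsUnit (2 : R) := by
    have : IsUnit (algebraMap F R 2) := (IsUnit.mk0 _ h2).map _
    rwa [map_ofNat] at this
  let sq : {x : R // σ x = x ∧ IsNilpotent (x - 1)} → {x : R // σ x = x ∧ IsNilpotent (x - 1)} :=
    fun x => ⟨x.1 * x.1, by rw [map_mul, x.2.1], by
      have h1 : x.1 * x.1 - 1 = (x.1 - 1) * (x.1 + 1) := by ring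
      rw [h1]
      exact hmulr _ _ x.2.2⟩
  have hinj : Function.Injective sq := by
    intro x y h
    have h1 : x.1 * x.1 = y.1 * y.1 := congrArg Subtype.val h
    have h3 : (x.1 - y.1) * (x.1 + y.1) = 0 := by linear_combination h1
    have h4 : IsUnit (x.1 + y.1) := by
      have h5 := IsNilpotent.isUnit_add_left_of_commute (hadd _ _ x.2.2 y.2.2) h2u
        (Commute.all _ _)
      have h6 : (2 : R) + (x.1 - 1 + (y.1 - 1)) = x.1 + y.1 := by ring
      rwa [h6] at h5
    exact Subtype.ext (sub_eq_zero.1 (h4.mul_left_eq_zero.1 h3))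
  obtain ⟨z, hz⟩ := (Finite.injective_iff_surjective.1 hinj) ⟨a, ha, hn⟩
  exact ⟨z.1, z.2.1, congrArg Subtype.val hz, z.2.2⟩

/-- Fixed units are scalar multiples of norms. -/
theorem cayley_norm_decomp {F R : Type*} [Field F] [CommRing R] [Algebra F R] [Nontrivial R]
    [Finite R] (h2 : (2 : F) ≠ 0) (σ : R →ₐ[F] R)
    (hloc : ∀ r : R, ∃ c : F, IsNilpotent (r - algebraMap F R c))
    (a : R) (ha : σ a = a) (hu : IsUnit a) :
    ∃ (c : F) (z : R), c ≠ 0 ∧ IsUnit z ∧ a = algebraMap F R c * (z * σ z) := by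
  obtain ⟨c, hc⟩ := hloc a
  have hc0 : c ≠ 0 := by
    intro h
    rw [h, map_zero, sub_zero] at hc
    exact hu.not_isNilpotent hc
  have hcc : algebraMap F R c⁻¹ * algebraMap F R c = 1 := by
    rw [← map_mul, inv_mul_cancel₀ hc0, map_one]
  have h1 : σ (algebraMap F R c⁻¹ * a) = algebraMap F R c⁻¹ * a := by
    rw [map_mul, AlgHom.commutes, ha]
  have h3 : IsNilpotent (algebraMap F R c⁻¹ * a - 1) := by
    have h4 : algebraMap F R c⁻¹ * a - 1 = algebraMap F R c⁻¹ * (a - algebraMap F R c) := by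
      linear_combination hcc
    rw [h4]
    exact mem_nilradical.1 (Ideal.mul_mem_left _ _ (mem_nilradical.2 hc))
  obtain ⟨z, hz1, hz2, hz3⟩ := cayley_sqrt h2 σ _ h1 h3
  refine ⟨c, z, hc0, ?_, ?_⟩
  · have h5 := hz3.isUnit_one_add
    have h6 : 1 + (z - 1) = z := by ring
    rwa [h6] at h5
  · rw [hz1, hz2]
    linear_combination (-a) * hcc

theorem nonsquare_dichotomy {F : Type*} [Field F] [Fintype F] (h2 : (2 : F) ≠ 0) :
    ∃ c : F, c ≠ 0 ∧ ¬ IsSquare c ∧ ∀ x : F, x ≠ 0 →
      (∃ d, d ≠ 0 ∧ x = d * d) ∨ (∃ d, d ≠ 0 ∧ x = c * (d * d)) := by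
  classical
  have hchar : ringChar F ≠ 2 := by
    intro h
    have h1 := CharP.cast_eq_zero F (ringChar F)
    rw [h] at h1
    exact h2 (by exact_mod_cast h1)
  obtain ⟨c, hc⟩ := FiniteField.exists_nonsquare hchar
  have hc0 : c ≠ 0 := by
    intro h
    rw [h] at hc
    exact hc ⟨0, by rw [mul_zero]⟩
  refine ⟨c, hc0, hc, ?_⟩
  intro x hx
  by_cases hsq : IsSquare x
  · left
    obtain ⟨d, hd⟩ := hsq
    refine ⟨d, ?_, hd⟩
    intro h
    rw [h, mul_zero] at hd
    exact hx hd
  · right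
    have h1 : IsSquare (x * c) := by
      rw [← quadraticChar_one_iff_isSquare (mul_ne_zero hx hc0), map_mul,
        quadraticChar_neg_one_iff_not_isSquare.2 hsq,
        quadraticChar_neg_one_iff_not_isSquare.2 hc]
      norm_num
    obtain ⟨e, he⟩ := h1
    have he0 : e ≠ 0 := by
      intro h
      rw [h, mul_zero] at he
      exact mul_ne_zero hx hc0 he
    refine ⟨e / c, div_ne_zero he0 hc0, ?_⟩
    field_simp
    linear_combination he

end Cfsg.Agent.Helper15
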