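import Mathlib
import Cfsg.Agent.Helper15.SpRegClass1

set_option autoImplicit false

namespace Cfsg.Agent.Helper15

open Matrix

section

variable {F : Type*} [Field F] {n : ℕ}

/-- Conjugacy from bases with the same diagonal action. -/
theorem conj_of_bases_diag {ι : Type*} (A A' : Matrix (Fin n) (Fin n) F)
    (β β' : Module.Basis ι F (Fin n → F)) (ε : ι → F)
    (hA : ∀ i, A *ᵥ β i = ε i • β i) (hA' : ∀ i, A' *ᵥ β' i = ε i • β' i) :
    ∃ P P' : Matrix (Fin n) (Fin n) F, P * P' = 1 ∧ P' * P = 1 ∧ P * A = A' * P := by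
  classical
  obtain ⟨T, hTdef⟩ : ∃ T : (Fin n → F) ≃ₗ[F] (Fin n → F), T = β.equiv β' (Equiv.refl ι) :=
    ⟨_, rfl⟩
  have hT : ∀ i, T (β i) = β' i := by
    intro i
    rw [hTdef, Module.Basis.equiv_apply, Equiv.refl_apply]
  have h1 : LinearMap.toMatrix' (T : (Fin n → F) →ₗ[F] (Fin n → F))
      * LinearMap.toMatrix' (T.symm : (Fin n → F) →ₗ[F] (Fin n → F)) = 1 := by
    rw [← LinearMap.toMatrix'_comp, LinearEquiv.comp_coe, LinearEquiv.symm_trans_self,
      LinearEquiv.refl_toLinearMap, LinearMap.toMatrix'_id]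
  refine ⟨_, _, h1, mul_eq_one_comm.1 h1, ?_⟩
  apply Matrix.toLin'.injective
  rw [Matrix.toLin'_mul, Matrix.toLin'_mul, Matrix.toLin'_toMatrix']
  apply β.ext
  intro i
  rw [LinearMap.comp_apply, LinearMap.comp_apply, Matrix.toLin'_apply, Matrix.toLin'_apply, hA,
    LinearEquiv.coe_coe, map_smul, hT, hA']

/-- Conjugacy from bases with the same quadratic action. -/
theorem conj_of_bases_quad {ι : Type*} (c : F) (A A' : Matrix (Fin n) (Fin n) F)
    (β β' : Module.Basis (Fin 2 × ι) F (Fin n → F))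
    (hA0 : ∀ j, A *ᵥ β (0, j) = β (1, j)) (hA1 : ∀ j, A *ᵥ β (1, j) = c • β (0, j))
    (hA'0 : ∀ j, A' *ᵥ β' (0, j) = β' (1, j)) (hA'1 : ∀ j, A' *ᵥ β' (1, j) = c • β' (0, j)) :
    ∃ P P' : Matrix (Fin n) (Fin n) F, P * P' = 1 ∧ P' * P = 1 ∧ P * A = A' * P := by
  classical
  obtain ⟨T, hTdef⟩ : ∃ T : (Fin n → F) ≃ₗ[F] (Fin n → F),
      T = β.equiv β' (Equiv.refl (Fin 2 × ι)) := ⟨_, rfl⟩
  have hT : ∀ i, T (β i) = β' i := by
    intro i
    rw [hTdef, Module.Basis.equiv_apply, Equiv.refl_apply]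
  have h1 : LinearMap.toMatrix' (T : (Fin n → F) →ₗ[F] (Fin n → F))
      * LinearMap.toMatrix' (T.symm : (Fin n → F) →ₗ[F] (Fin n → F)) = 1 := by
    rw [← LinearMap.toMatrix'_comp, LinearEquiv.comp_coe, LinearEquiv.symm_trans_self,
      LinearEquiv.refl_toLinearMap, LinearMap.toMatrix'_id]
  refine ⟨_, _, h1, mul_eq_one_comm.1 h1, ?_⟩
  apply Matrix.toLin'.injective
  rw [Matrix.toLin'_mul, Matrix.toLin'_mul, Matrix.toLin'_toMatrix']
  apply β.ext
  rintro ⟨i, j⟩
  rw [LinearMap.comp_apply, LinearMap.comp_apply, Matrix.toLin'_apply, Matrix.toLin'_apply,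
    LinearEquiv.coe_coe]
  fin_cases i
  · show T (A *ᵥ β (0, j)) = A' *ᵥ T (β (0, j))
    rw [hA0, hT, hT, hA'0]
  · show T (A *ᵥ β (1, j)) = A' *ᵥ T (β (1, j))
    rw [hA1, map_smul, hT, hT, hA'1]

theorem rank_conj_eq (P P' A B : Matrix (Fin n) (Fin n) F) (hPP' : P * P' = 1)
    (h : P * A = B * P) : A.rank = B.rank := by
  have hu : IsUnit P.det :=
    (Matrix.isUnit_iff_isUnit_det _).1 ⟨⟨P, P', hPP', mul_eq_one_comm.1 hPP'⟩, rfl⟩
  rw [← Matrix.rank_mul_eq_right_of_isUnit_det P A hu, h,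
    Matrix.rank_mul_eq_left_of_isUnit_det P B hu]

theorem fin_card_lt (n k : ℕ) (hk : k ≤ n) : Fintype.card {i : Fin n // (i : ℕ) < k} = k := by
  have e : {i : Fin n // (i : ℕ) < k} ≃ Fin k :=
    { toFun := fun i => ⟨i.1.1, i.2⟩
      invFun := fun j => ⟨⟨j.1, lt_of_lt_of_le j.2 hk⟩, j.2⟩
      left_inv := fun i => rfl
      right_inv := fun j => rfl }
  exact (Fintype.card_congr e).trans (Fintype.card_fin k)

/-- The diagonal involution with `k` entries equal to `-1`. -/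
def Dk (F : Type*) [Field F] (n k : ℕ) : Matrix (Fin n) (Fin n) F :=
  Matrix.diagonal (fun i => if (i : ℕ) < k then -1 else 1)

theorem Dk_mul_self (n k : ℕ) : Dk F n k * Dk F n k = 1 := by
  unfold Dk
  rw [Matrix.diagonal_mul_diagonal, ← Matrix.diagonal_one]
  congr 1
  funext i
  by_cases h : (i : ℕ) < k
  · rw [if_pos h, neg_mul_neg, one_mul]
  · rw [if_neg h, mul_one]

theorem Dk_mulVec_single (n k : ℕ) (j : Fin n) :
    Dk F n k *ᵥ Pi.single j (1 : F)
      = (if (j : ℕ) < k then (-1 : F) else 1) • Pi.single j (1 : F) := by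
  unfold Dk
  rw [Matrix.diagonal_mulVec_single, mul_one]
  funext x
  by_cases hx : x = j
  · subst hx
    rw [Pi.single_eq_same, Pi.smul_apply, Pi.single_eq_same, smul_eq_mul, mul_one]
  · rw [Pi.single_eq_of_ne hx, Pi.smul_apply, Pi.single_eq_of_ne hx, smul_zero]

theorem one_sub_Dk_rank (h2 : (2 : F) ≠ 0) (n k : ℕ) (hk : k ≤ n) :
    (1 - Dk F n k).rank = k := by
  classical
  have h1 : 1 - Dk F n k = Matrix.diagonal (fun i : Fin n => if (i : ℕ) < k then (2 : F) else 0) := by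
    unfold Dk
    rw [← Matrix.diagonal_one, Matrix.diagonal_sub]
    congr 1
    funext i
    by_cases h : (i : ℕ) < k
    · rw [if_pos h, if_pos h]
      norm_num
    · rw [if_neg h, if_neg h, sub_self]
  have h3 : ∀ i : Fin n, ((if (i : ℕ) < k then (2 : F) else 0) ≠ 0) ↔ (i : ℕ) < k := by
    intro i
    by_cases h : (i : ℕ) < k
    · rw [if_pos h]
      exact ⟨fun _ => h, fun _ => h2⟩
    · rw [if_neg h]
      exact ⟨fun h0 => absurd rfl h0, fun h0 => absurd h0 h⟩
  rw [h1, Matrix.rank_diagonal, Fintype.card_congr (Equiv.subtypeEquivRight h3), fin_card_lt n k hk]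

theorem one_add_Dk_rank (h2 : (2 : F) ≠ 0) (n k : ℕ) (hk : k ≤ n) :
    (1 + Dk F n k).rank = n - k := by
  classical
  have h1 : 1 + Dk F n k = Matrix.diagonal (fun i : Fin n => if (i : ℕ) < k then (0 : F) else 2) := by
    unfold Dk
    rw [← Matrix.diagonal_one, Matrix.diagonal_add]
    congr 1
    funext i
    by_cases h : (i : ℕ) < k
    · rw [if_pos h, if_pos h, add_neg_cancel]
    · rw [if_neg h, if_neg h]
      norm_num
  have h3 : ∀ i : Fin n, ((if (i : ℕ) < k then (0 : F) else 2) ≠ 0) ↔ ¬ (i : ℕ) < k := by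
    intro i
    by_cases h : (i : ℕ) < k
    · rw [if_pos h]
      exact ⟨fun h0 => absurd rfl h0, fun h0 => absurd h h0⟩
    · rw [if_neg h]
      exact ⟨fun _ => h, fun _ => h2⟩
  rw [h1, Matrix.rank_diagonal, Fintype.card_congr (Equiv.subtypeEquivRight h3),
    Fintype.card_subtype_compl, Fintype.card_fin, fin_card_lt n k hk]

/-- An involutory matrix in odd characteristic is diagonalizable. -/
theorem invol_diag (h2 : (2 : F) ≠ 0) (g : Matrix (Fin n) (Fin n) F) (hg : g * g = 1) :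
    ∃ k, k ≤ n ∧ ∃ P P' : Matrix (Fin n) (Fin n) F, P * P' = 1 ∧ P' * P = 1 ∧
      P * g = Dk F n k * P := by
  classical
  obtain ⟨f, hfdef⟩ : ∃ f : (Fin n → F) →ₗ[F] (Fin n → F), f = Matrix.toLin' g := ⟨_, rfl⟩
  have hfv : ∀ v, f v = g *ᵥ v := by
    intro v
    rw [hfdef, Matrix.toLin'_apply]
  have hff : ∀ v, f (f v) = v := by
    intro v
    rw [hfv, hfv, Matrix.mulVec_mulVec, hg, Matrix.one_mulVec]
  obtain ⟨Vm, hVm⟩ : ∃ Vm : Submodule F (Fin n → F), Vm = LinearMap.ker (f + LinearMap.id) :=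
    ⟨_, rfl⟩
  obtain ⟨Vp, hVp⟩ : ∃ Vp : Submodule F (Fin n → F), Vp = LinearMap.ker (f - LinearMap.id) :=
    ⟨_, rfl⟩
  have hmem_m : ∀ v, v ∈ Vm ↔ f v = -v := by
    intro v
    rw [hVm, LinearMap.mem_ker, LinearMap.add_apply, LinearMap.id_apply, add_eq_zero_iff_eq_neg]
  have hmem_p : ∀ v, v ∈ Vp ↔ f v = v := by
    intro v
    rw [hVp, LinearMap.mem_ker, LinearMap.sub_apply, LinearMap.id_apply, sub_eq_zero]
  have hcompl : IsCompl Vm Vp := by
    constructor
    · rw [Submodule.disjoint_def]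
      intro v hm hp
      rw [hmem_m] at hm
      rw [hmem_p] at hp
      have h4 : v = -v := hp.symm.trans hm
      have h3 : (2 : F) • v = 0 := by
        calc (2 : F) • v = v + v := two_smul F v
          _ = -v + v := by rw [← h4]
          _ = 0 := neg_add_cancel v
      exact (smul_eq_zero.1 h3).resolve_left h2
    · rw [codisjoint_iff, eq_top_iff]
      intro v _
      have hv : v = (2 : F)⁻¹ • (v - f v) + (2 : F)⁻¹ • (v + f v) := by
        rw [← smul_add]
        have h5 : v - f v + (v + f v) = (2 : F) • v := by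
          rw [two_smul]
          abel
        rw [h5, smul_smul, inv_mul_cancel₀ h2, one_smul]
      rw [hv]
      apply Submodule.add_mem_sup
      · apply Submodule.smul_mem
        rw [hmem_m, map_sub, hff]
        abel
      · apply Submodule.smul_mem
        rw [hmem_p, map_add, hff]
        abel
  obtain ⟨k, ⟨bm⟩⟩ : ∃ k, Nonempty (Module.Basis (Fin k) F Vm) := ⟨_, ⟨Module.finBasis F Vm⟩⟩
  obtain ⟨k', ⟨bp⟩⟩ : ∃ k', Nonempty (Module.Basis (Fin k') F Vp) := ⟨_, ⟨Module.finBasis F Vp⟩⟩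
  have hkk : k + k' = n := by
    have h6 := Submodule.finrank_add_eq_of_isCompl hcompl
    rw [Module.finrank_eq_card_basis bm, Module.finrank_eq_card_basis bp, Fintype.card_fin,
      Fintype.card_fin, Module.finrank_fin_fun] at h6
    exact h6
  obtain ⟨β, hβl, hβr⟩ : ∃ β : Module.Basis (Fin k ⊕ Fin k') F (Fin n → F),
      (∀ i, β (Sum.inl i) ∈ Vm) ∧ (∀ i, β (Sum.inr i) ∈ Vp) := by
    refine ⟨(bm.prod bp).map (Submodule.prodEquivOfIsCompl Vm Vp hcompl), fun i => ?_, fun i => ?_⟩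
    · rw [Module.Basis.map_apply, Submodule.coe_prodEquivOfIsCompl',
        Module.Basis.prod_apply_inl_fst, Module.Basis.prod_apply_inl_snd, Submodule.coe_zero,
        add_zero]
      exact (bm i).2
    · rw [Module.Basis.map_apply, Submodule.coe_prodEquivOfIsCompl',
        Module.Basis.prod_apply_inr_fst, Module.Basis.prod_apply_inr_snd, Submodule.coe_zero,
        zero_add]
      exact (bp i).2
  obtain ⟨σ, hσl, hσr⟩ : ∃ σ : Fin k ⊕ Fin k' ≃ Fin n,
      (∀ i, ((σ (Sum.inl i) : Fin n) : ℕ) = i) ∧ (∀ i, ((σ (Sum.inr i) : Fin n) : ℕ) = k + i) :=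
    ⟨finSumFinEquiv.trans (finCongr hkk), fun i => rfl, fun i => rfl⟩
  obtain ⟨β', hβ'⟩ : ∃ β' : Module.Basis (Fin k ⊕ Fin k') F (Fin n → F),
      ∀ s, β' s = Pi.single (σ s) 1 := by
    refine ⟨(Pi.basisFun F (Fin n)).reindex σ.symm, fun s => ?_⟩
    rw [Module.Basis.reindex_apply, Equiv.symm_symm, Pi.basisFun_apply]
  refine ⟨k, by omega, ?_⟩
  apply conj_of_bases_diag g (Dk F n k) β β' (Sum.elim (fun _ => -1) (fun _ => 1))
  · rintro (i | i)
    · rw [Sum.elim_inl, neg_one_smul, ← hfv]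
      exact (hmem_m _).1 (hβl i)
    · rw [Sum.elim_inr, one_smul, ← hfv]
      exact (hmem_p _).1 (hβr i)
  · rintro (i | i)
    · rw [hβ', Dk_mulVec_single, hσl, if_pos i.2, Sum.elim_inl]
    · rw [hβ', Dk_mulVec_single, hσr, if_neg (by omega), Sum.elim_inr]

end

end Cfsg.Agent.Helper15
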