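import Mathlib
import Cfsg.Agent.Helper15.RegUnipClass
import Cfsg.Agent.Helper15.SpRegUnip1

set_option autoImplicit false

namespace Cfsg.Agent.Helper15

open Matrix

/-- Cyclic structure of a regular nilpotent matrix: powers are independent and span the
commutant. -/
theorem cyc_mat {F : Type*} [Field F] {ι : Type*} [Fintype ι] [DecidableEq ι] (n : ℕ)
    (hn : 1 ≤ n) (hcard : Fintype.card ι = n) (T : Matrix ι ι F) (hnil : T ^ n = 0)
    (hreg : T.rank = n - 1) :
    (∀ a : Fin n → F, ∑ i, a i • T ^ (i : ℕ) = 0 → a = 0) ∧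
    (∀ g : Matrix ι ι F, g * T = T * g → ∃ a : Fin n → F, g = ∑ i, a i • T ^ (i : ℕ)) := by
  classical
  have hfin : Module.finrank F (ι → F) = n := by
    rw [Module.finrank_fintype_fun_eq_card F, hcard]
  have hk : Module.finrank F (LinearMap.ker (Matrix.toLin' T)) ≤ 1 := by
    rw [Matrix.toLin'_apply']
    exact finrank_ker_mulVecLin_le_one' T (by rw [hcard]; exact hreg)
  have hfn : (Matrix.toLin' T) ^ n = 0 := by
    rw [← Matrix.toLin'_pow, hnil, map_zero]
  obtain ⟨v, hv⟩ : ∃ v : ι → F, ((Matrix.toLin' T) ^ (n - 1)) v ≠ 0 := by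
    by_contra hcon
    push Not at hcon
    have h1 : LinearMap.ker ((Matrix.toLin' T) ^ (n - 1)) = ⊤ := by
      rw [LinearMap.ker_eq_top]
      exact LinearMap.ext hcon
    have h2 := finrank_ker_pow_le (Matrix.toLin' T) (n - 1)
    rw [h1, finrank_top, hfin] at h2
    have h4 : (n - 1) * Module.finrank F (LinearMap.ker (Matrix.toLin' T)) ≤ (n - 1) * 1 :=
      Nat.mul_le_mul_left _ hk
    omega
  obtain ⟨b, hb⟩ := cyclic_nilpotent_basis (Matrix.toLin' T) n hn hfin hfn v hv
  have hli := cyclic_nilpotent_indep (Matrix.toLin' T) n hfn v hv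
  constructor
  · intro a ha
    have h1 := congrArg (fun M => Matrix.toLin' M v) ha
    simp only [map_sum, map_smul, Matrix.toLin'_pow, LinearMap.sum_apply, LinearMap.smul_apply,
      map_zero, LinearMap.zero_apply] at h1
    funext i
    exact Fintype.linearIndependent_iff.1 hli a h1 i
  · intro g hg
    have hc : Matrix.toLin' g * Matrix.toLin' T = Matrix.toLin' T * Matrix.toLin' g := by
      rw [Module.End.mul_eq_comp, Module.End.mul_eq_comp, ← Matrix.toLin'_mul, ← Matrix.toLin'_mul,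
        hg]
    let α : Fin n → F := fun i => b.repr (Matrix.toLin' g v) i
    have hcv : Matrix.toLin' g v = ∑ i, α i • ((Matrix.toLin' T) ^ (i : ℕ)) v := by
      conv_lhs => rw [← b.sum_repr (Matrix.toLin' g v)]
      refine Finset.sum_congr rfl fun i _ => ?_
      rw [hb]
    have hcomm : ∀ j : ℕ, Matrix.toLin' g * (Matrix.toLin' T) ^ j
        = (Matrix.toLin' T) ^ j * Matrix.toLin' g := fun j => (Commute.pow_right hc j)
    have hcP : Matrix.toLin' g = ∑ i, α i • (Matrix.toLin' T) ^ (i : ℕ) := by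
      apply b.ext
      intro j
      rw [hb, ← Module.End.mul_apply, hcomm, Module.End.mul_apply, hcv, map_sum,
        LinearMap.sum_apply]
      refine Finset.sum_congr rfl fun i _ => ?_
      rw [map_smul, LinearMap.smul_apply, ← Module.End.mul_apply, ← Module.End.mul_apply,
        ← pow_add, ← pow_add, add_comm]
    refine ⟨α, ?_⟩
    apply Matrix.toLin'.injective
    rw [hcP, map_sum]
    refine Finset.sum_congr rfl fun i _ => ?_
    rw [map_smul, Matrix.toLin'_pow]

section dagger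

variable {F : Type*} [Field F] {m : ℕ}

/-- The symplectic adjoint. -/
def dg (g : Matrix (Fin m ⊕ Fin m) (Fin m ⊕ Fin m) F) : Matrix (Fin m ⊕ Fin m) (Fin m ⊕ Fin m) F :=
  -(J (Fin m) F * gᵀ * J (Fin m) F)

theorem dg_add (g h : Matrix (Fin m ⊕ Fin m) (Fin m ⊕ Fin m) F) : dg (g + h) = dg g + dg h := by
  unfold dg
  rw [Matrix.transpose_add, Matrix.mul_add, Matrix.add_mul, neg_add]

theorem dg_neg (g : Matrix (Fin m ⊕ Fin m) (Fin m ⊕ Fin m) F) : dg (-g) = -dg g := by
  unfold dg
  rw [Matrix.transpose_neg, Matrix.mul_neg, Matrix.neg_mul]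

theorem dg_sub (g h : Matrix (Fin m ⊕ Fin m) (Fin m ⊕ Fin m) F) : dg (g - h) = dg g - dg h := by
  rw [sub_eq_add_neg, dg_add, dg_neg, ← sub_eq_add_neg]

theorem dg_smul (c : F) (g : Matrix (Fin m ⊕ Fin m) (Fin m ⊕ Fin m) F) :
    dg (c • g) = c • dg g := by
  unfold dg
  rw [Matrix.transpose_smul, Matrix.mul_smul, Matrix.smul_mul, smul_neg]

theorem dg_zero : dg (0 : Matrix (Fin m ⊕ Fin m) (Fin m ⊕ Fin m) F) = 0 := by
  unfold dg
  rw [Matrix.transpose_zero, Matrix.mul_zero, Matrix.zero_mul, neg_zero]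

theorem dg_one : dg (1 : Matrix (Fin m ⊕ Fin m) (Fin m ⊕ Fin m) F) = 1 := by
  unfold dg
  rw [Matrix.transpose_one, Matrix.mul_one, J_squared, neg_neg]

theorem dg_mul (g h : Matrix (Fin m ⊕ Fin m) (Fin m ⊕ Fin m) F) : dg (g * h) = dg h * dg g := by
  unfold dg
  rw [Matrix.transpose_mul, neg_mul_neg]
  have h1 : J (Fin m) F * hᵀ * J (Fin m) F * (J (Fin m) F * gᵀ * J (Fin m) F)
      = J (Fin m) F * hᵀ * (J (Fin m) F * J (Fin m) F) * (gᵀ * J (Fin m) F) := by
    simp only [Matrix.mul_assoc]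
  rw [h1, J_squared]
  simp only [Matrix.mul_neg, Matrix.mul_one, Matrix.neg_mul, Matrix.mul_assoc]

theorem dg_dg (g : Matrix (Fin m ⊕ Fin m) (Fin m ⊕ Fin m) F) : dg (dg g) = g := by
  unfold dg
  rw [Matrix.transpose_neg, Matrix.transpose_mul, Matrix.transpose_mul, Matrix.transpose_transpose,
    J_transpose]
  have h1 : J (Fin m) F * -(-J (Fin m) F * (g * -J (Fin m) F)) * J (Fin m) F
      = -((J (Fin m) F * J (Fin m) F) * g * (J (Fin m) F * J (Fin m) F)) := by
    simp only [Matrix.mul_assoc, Matrix.mul_neg, Matrix.neg_mul, neg_neg]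
  rw [h1, J_squared]
  simp

theorem dg_pow (g : Matrix (Fin m ⊕ Fin m) (Fin m ⊕ Fin m) F) (k : ℕ) :
    dg (g ^ k) = dg g ^ k := by
  induction k with
  | zero => rw [pow_zero, pow_zero, dg_one]
  | succ k ih => rw [pow_succ, dg_mul, ih, pow_succ']

theorem dg_sum {α : Type*} (s : Finset α)
    (f : α → Matrix (Fin m ⊕ Fin m) (Fin m ⊕ Fin m) F) :
    dg (∑ i ∈ s, f i) = ∑ i ∈ s, dg (f i) := by
  classical
  induction s using Finset.induction_on with
  | empty => rw [Finset.sum_empty, Finset.sum_empty, dg_zero]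
  | insert a s ha ih => rw [Finset.sum_insert ha, Finset.sum_insert ha, dg_add, ih]

theorem mem_symp_iff_dg (g : Matrix (Fin m ⊕ Fin m) (Fin m ⊕ Fin m) F) :
    g ∈ Matrix.symplecticGroup (Fin m) F ↔ g * dg g = 1 := by
  rw [SymplecticGroup.mem_iff]
  unfold dg
  constructor
  · intro h
    rw [Matrix.mul_neg, ← Matrix.mul_assoc, ← Matrix.mul_assoc, h, J_squared, neg_neg]
  · intro h
    have h1 : g * J (Fin m) F * gᵀ * (J (Fin m) F * J (Fin m) F) = -J (Fin m) F := by
      have := congrArg (fun M => -(M * J (Fin m) F)) h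
      simp only [Matrix.one_mul, Matrix.mul_neg, Matrix.neg_mul, neg_neg] at this
      rw [← this]
      simp only [Matrix.mul_assoc]
    rw [J_squared, Matrix.mul_neg, Matrix.mul_one] at h1
    exact neg_inj.1 h1

end dagger

end Cfsg.Agent.Helper15
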