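import Mathlib
import Cfsg.Agent.Helper15.SpRegUnip2

set_option autoImplicit false

namespace Cfsg.Agent.Helper15

open Matrix
open scoped IsMulCommutative

theorem two_ne_zero_of_card_odd {F : Type*} [Field F] [Fintype F] {q : ℕ}
    (hF : Fintype.card F = q) (hq : Odd q) : (2 : F) ≠ 0 := by
  intro h2
  have h1 : addOrderOf (1 : F) ∣ 2 := addOrderOf_dvd_of_nsmul_eq_zero (by
    rw [nsmul_eq_mul, mul_one]
    exact_mod_cast h2)
  have h3 : addOrderOf (1 : F) ≠ 1 := by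
    rw [Ne, AddMonoid.addOrderOf_eq_one_iff]
    exact one_ne_zero
  have h4 : addOrderOf (1 : F) = 2 := by
    rcases (Nat.dvd_prime Nat.prime_two).1 h1 with h | h
    · exact absurd h h3
    · exact h
  have h5 : 2 ∣ Fintype.card F := h4 ▸ addOrderOf_dvd_card
  rw [hF] at h5
  exact (Nat.not_even_iff_odd.2 hq) (even_iff_two_dvd.2 h5)

section

variable {F : Type*} [Field F] {m : ℕ}

/-- The algebra generated by a single matrix. -/
abbrev AdjT (T : Matrix (Fin m ⊕ Fin m) (Fin m ⊕ Fin m) F) :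
    Subalgebra F (Matrix (Fin m ⊕ Fin m) (Fin m ⊕ Fin m) F) :=
  Algebra.adjoin F {T}

theorem adj_loc (T : Matrix (Fin m ⊕ Fin m) (Fin m ⊕ Fin m) F) (n : ℕ) (hT : T ^ n = 0) :
    ∀ r : AdjT T, ∃ c : F, IsNilpotent (r - algebraMap F (AdjT T) c) := by
  rintro ⟨x, hx⟩
  induction hx using Algebra.adjoin_induction with
  | mem x hx =>
    refine ⟨0, ?_⟩
    rw [map_zero, sub_zero]
    refine ⟨n, Subtype.ext ?_⟩
    rw [Set.mem_singleton_iff] at hx
    show x ^ n = 0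
    rw [hx, hT]
  | algebraMap r =>
    refine ⟨r, ?_⟩
    have h1 : (⟨algebraMap F (Matrix (Fin m ⊕ Fin m) (Fin m ⊕ Fin m) F) r,
        Subalgebra.algebraMap_mem _ r⟩ : AdjT T) = algebraMap F (AdjT T) r := rfl
    rw [h1, sub_self]
    exact IsNilpotent.zero
  | add x y hx hy ihx ihy =>
    obtain ⟨c, hc⟩ := ihx
    obtain ⟨d, hd⟩ := ihy
    refine ⟨c + d, ?_⟩
    have h1 : (⟨x + y, add_mem hx hy⟩ : AdjT T) - algebraMap F (AdjT T) (c + d)
        = ((⟨x, hx⟩ : AdjT T) - algebraMap F (AdjT T) c)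
          + ((⟨y, hy⟩ : AdjT T) - algebraMap F (AdjT T) d) := by
      rw [map_add]
      have h2 : (⟨x + y, add_mem hx hy⟩ : AdjT T) = ⟨x, hx⟩ + ⟨y, hy⟩ := rfl
      rw [h2]
      ring
    rw [h1]
    exact Commute.isNilpotent_add (Commute.all _ _) hc hd
  | mul x y hx hy ihx ihy =>
    obtain ⟨c, hc⟩ := ihx
    obtain ⟨d, hd⟩ := ihy
    refine ⟨c * d, ?_⟩
    have h1 : (⟨x * y, mul_mem hx hy⟩ : AdjT T) - algebraMap F (AdjT T) (c * d)
        = ((⟨x, hx⟩ : AdjT T) - algebraMap F (AdjT T) c) * ⟨y, hy⟩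
          + algebraMap F (AdjT T) c * ((⟨y, hy⟩ : AdjT T) - algebraMap F (AdjT T) d) := by
      rw [map_mul]
      have h2 : (⟨x * y, mul_mem hx hy⟩ : AdjT T) = ⟨x, hx⟩ * ⟨y, hy⟩ := rfl
      rw [h2]
      ring
    rw [h1]
    refine Commute.isNilpotent_add (Commute.all _ _) ?_ ?_
    · exact mem_nilradical.1 (Ideal.mul_mem_right _ _ (mem_nilradical.2 hc))
    · exact mem_nilradical.1 (Ideal.mul_mem_left _ _ (mem_nilradical.2 hd))

theorem dg_mem_adj (T : Matrix (Fin m ⊕ Fin m) (Fin m ⊕ Fin m) F) (hdgT : dg T = -T) :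
    ∀ x ∈ AdjT T, dg x ∈ AdjT T := by
  intro x hx
  induction hx using Algebra.adjoin_induction with
  | mem x hx =>
    rw [Set.mem_singleton_iff] at hx
    rw [hx, hdgT]
    exact neg_mem (Algebra.subset_adjoin (Set.mem_singleton T))
  | algebraMap r =>
    rw [Algebra.algebraMap_eq_smul_one, dg_smul, dg_one, ← Algebra.algebraMap_eq_smul_one]
    exact Subalgebra.algebraMap_mem _ r
  | add x y hx hy ihx ihy =>
    rw [dg_add]
    exact add_mem ihx ihy
  | mul x y hx hy ihx ihy =>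
    rw [dg_mul]
    exact mul_mem ihy ihx

/-- The adjoint as an algebra map of the generated algebra. -/
noncomputable def dgAlg (T : Matrix (Fin m ⊕ Fin m) (Fin m ⊕ Fin m) F) (hdgT : dg T = -T) :
    AdjT T →ₐ[F] AdjT T where
  toFun r := ⟨dg r.1, dg_mem_adj T hdgT r.1 r.2⟩
  map_one' := Subtype.ext dg_one
  map_mul' a b := Subtype.ext (by
    show dg (a.1 * b.1) = dg a.1 * dg b.1
    rw [dg_mul]
    exact congrArg Subtype.val (mul_comm (⟨dg b.1, dg_mem_adj T hdgT b.1 b.2⟩ : AdjT T)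
      ⟨dg a.1, dg_mem_adj T hdgT a.1 a.2⟩))
  map_zero' := Subtype.ext dg_zero
  map_add' a b := Subtype.ext (dg_add _ _)
  commutes' c := Subtype.ext (by
    show dg (algebraMap F _ c) = algebraMap F _ c
    rw [Algebra.algebraMap_eq_smul_one, dg_smul, dg_one])

theorem dgAlg_coe (T : Matrix (Fin m ⊕ Fin m) (Fin m ⊕ Fin m) F) (hdgT : dg T = -T)
    (r : AdjT T) : ((dgAlg T hdgT r : AdjT T) : Matrix (Fin m ⊕ Fin m) (Fin m ⊕ Fin m) F)
      = dg r.1 := rfl

end

end Cfsg.Agent.Helper15
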