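import Mathlib
import Cfsg.Agent.Helper15.SpRegUnip3

set_option autoImplicit false

namespace Cfsg.Agent.Helper15

open Matrix
open scoped IsMulCommutative

theorem evenZero_card {F : Type*} [Field F] [Fintype F] {q : ℕ} (hF : Fintype.card F = q)
    (m : ℕ) :
    Nat.card {c : Fin (2 * m) → F // ∀ i : Fin (2 * m), Even (i : ℕ) → c i = 0} = q ^ m := by
  classical
  have e : {c : Fin (2 * m) → F // ∀ i : Fin (2 * m), Even (i : ℕ) → c i = 0} ≃ (Fin m → F) :=
    { toFun := fun c j => c.1 ⟨2 * j.1 + 1, by have := j.2; omega⟩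
      invFun := fun d => ⟨fun i => if Even (i : ℕ) then 0
        else d ⟨i.1 / 2, by have := i.2; omega⟩, fun i hi => if_pos hi⟩
      left_inv := by
        intro c
        apply Subtype.ext
        funext i
        show (if Even (i : ℕ) then 0 else c.1 ⟨2 * (i.1 / 2) + 1, _⟩) = c.1 i
        by_cases hi : Even (i : ℕ)
        · rw [if_pos hi, c.2 i hi]
        · rw [if_neg hi]
          have h1 := Nat.odd_iff.1 (Nat.not_even_iff_odd.1 hi)
          have h3 : 2 * (i.1 / 2) + 1 = i.1 := by omega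
          exact congrArg c.1 (Fin.ext h3)
      right_inv := by
        intro d
        funext j
        show (if Even (2 * j.1 + 1) then 0 else d ⟨(2 * j.1 + 1) / 2, _⟩) = d j
        rw [if_neg (by rw [Nat.not_even_iff_odd]; exact ⟨j.1, rfl⟩)]
        have h3 : (2 * j.1 + 1) / 2 = j.1 := by omega
        exact congrArg d (Fin.ext h3) }
  rw [Nat.card_congr e, Nat.card_fun, Nat.card_fin, Nat.card_eq_fintype_card, hF]

theorem sp_regunip_centralizer_card {F : Type*} [Field F] [Fintype F] {q : ℕ}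
    (hF : Fintype.card F = q) (hq : Odd q) {m : ℕ} (hm : 1 ≤ m)
    (u : Matrix.symplecticGroup (Fin m) F)
    (hnil : ((u : Matrix (Fin m ⊕ Fin m) (Fin m ⊕ Fin m) F) - 1) ^ (2 * m) = 0)
    (hreg : ((u : Matrix (Fin m ⊕ Fin m) (Fin m ⊕ Fin m) F) - 1).rank = 2 * m - 1) :
    Nat.card ↥(Subgroup.centralizer ({u} : Set ↥(Matrix.symplecticGroup (Fin m) F)))
      = 2 * q ^ m := by
  classical
  have h2 : (2 : F) ≠ 0 := two_ne_zero_of_card_odd hF hq
  obtain ⟨U, hUdef⟩ : ∃ U : Matrix (Fin m ⊕ Fin m) (Fin m ⊕ Fin m) F,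
      U = (u : Matrix (Fin m ⊕ Fin m) (Fin m ⊕ Fin m) F) := ⟨_, rfl⟩
  rw [← hUdef] at hnil hreg
  have hUU' : U * dg U = 1 := (mem_symp_iff_dg U).1 (hUdef ▸ u.2)
  have hU'U : dg U * U = 1 := mul_eq_one_comm.1 hUU'
  obtain ⟨T, hTdef⟩ : ∃ T : Matrix (Fin m ⊕ Fin m) (Fin m ⊕ Fin m) F, T = U - dg U := ⟨_, rfl⟩
  have hdgT : dg T = -T := by
    rw [hTdef, dg_sub, dg_dg, neg_sub]
  have hTfac : T = (U - 1) * ((U + 1) * dg U) := by
    rw [hTdef, add_mul, hUU', one_mul, sub_mul, mul_add, mul_one, hUU', one_mul]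
    abel
  have hcUU' : Commute U (dg U) := hUU'.trans hU'U.symm
  have hcomm : Commute (U - 1) ((U + 1) * dg U) :=
    (((Commute.refl U).add_right (Commute.one_right U)).mul_right hcUU').sub_left
      (Commute.one_left _)
  have hTnil : T ^ (2 * m) = 0 := by rw [hTfac, hcomm.mul_pow, hnil, zero_mul]
  have hWunit : IsUnit ((U + 1) * dg U) := by
    apply IsUnit.mul
    · have h1 : U + 1 = (2 : F) • (1 : Matrix (Fin m ⊕ Fin m) (Fin m ⊕ Fin m) F) + (U - 1) := by
        rw [two_smul]; abel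
      rw [h1]
      apply IsNilpotent.isUnit_add_left_of_commute ⟨2 * m, hnil⟩
      · have h3 : IsUnit (algebraMap F (Matrix (Fin m ⊕ Fin m) (Fin m ⊕ Fin m) F) 2) :=
          (IsUnit.mk0 _ h2).map _
        rwa [Algebra.algebraMap_eq_smul_one] at h3
      · exact Commute.smul_right (Commute.one_right _) _
    · exact ⟨⟨dg U, U, hU'U, hUU'⟩, rfl⟩
  have hTrank : T.rank = 2 * m - 1 := by
    rw [hTfac, Matrix.rank_mul_eq_left_of_isUnit_det _ _
      ((Matrix.isUnit_iff_isUnit_det _).1 hWunit)]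
    exact hreg
  have hcard : Fintype.card (Fin m ⊕ Fin m) = 2 * m := by
    rw [Fintype.card_sum, Fintype.card_fin, two_mul]
  obtain ⟨hindep, hspan⟩ := cyc_mat (2 * m) (by omega) hcard T hTnil hTrank
  have hUT : Commute U T := by
    rw [hTdef]
    exact (Commute.refl U).sub_right hcUU'
  have : Nonempty (Fin m ⊕ Fin m) := ⟨Sum.inl ⟨0, hm⟩⟩
  have : Nontrivial (AdjT T) := ⟨⟨0, 1, fun h => zero_ne_one (congrArg Subtype.val h)⟩⟩
  have key := cayley_count h2 (dgAlg T hdgT) (adj_loc T (2 * m) hTnil)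
  have hΨmem : ∀ c : Fin (2 * m) → F, ∑ i, c i • T ^ (i : ℕ) ∈ AdjT T := by
    intro c
    exact sum_mem fun i _ => Subalgebra.smul_mem _
      (pow_mem (Algebra.subset_adjoin (Set.mem_singleton T)) _) _
  -- the centraliser as the norm-one elements
  have hE1 : Nat.card ↥(Subgroup.centralizer ({u} : Set ↥(Matrix.symplecticGroup (Fin m) F)))
      = Nat.card {g : AdjT T // g * dgAlg T hdgT g = 1} := by
    have hmem1 : ∀ x : ↥(Subgroup.centralizer ({u} : Set ↥(Matrix.symplecticGroup (Fin m) F))),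
        (x.1.1) ∈ AdjT T := by
      intro x
      have h1 := Subgroup.mem_centralizer_iff.1 x.2 u (Set.mem_singleton u)
      have h3 : U * x.1.1 = x.1.1 * U := by
        rw [hUdef]
        exact congrArg Subtype.val h1
      have h4 : x.1.1 * dg U = dg U * x.1.1 := by
        calc x.1.1 * dg U = dg U * (U * x.1.1) * dg U := by
              rw [← mul_assoc, hU'U, one_mul]
          _ = dg U * (x.1.1 * U) * dg U := by rw [h3]
          _ = dg U * x.1.1 := by rw [mul_assoc, mul_assoc, hUU', mul_one]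
      have h5 : x.1.1 * T = T * x.1.1 := by
        rw [hTdef, mul_sub, sub_mul, h3, h4]
      obtain ⟨a, ha⟩ := hspan _ h5
      rw [ha]
      exact hΨmem a
    have hmem2 : ∀ x : ↥(Subgroup.centralizer ({u} : Set ↥(Matrix.symplecticGroup (Fin m) F))),
        (⟨x.1.1, hmem1 x⟩ : AdjT T) * dgAlg T hdgT ⟨x.1.1, hmem1 x⟩ = 1 := by
      intro x
      apply Subtype.ext
      show x.1.1 * dg x.1.1 = 1
      exact (mem_symp_iff_dg _).1 x.1.2
    have hmem3 : ∀ g : {g : AdjT T // g * dgAlg T hdgT g = 1},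
        g.1.1 ∈ Matrix.symplecticGroup (Fin m) F := by
      intro g
      rw [mem_symp_iff_dg]
      exact congrArg Subtype.val g.2
    have hmem4 : ∀ g : {g : AdjT T // g * dgAlg T hdgT g = 1},
        (⟨g.1.1, hmem3 g⟩ : ↥(Matrix.symplecticGroup (Fin m) F))
          ∈ Subgroup.centralizer ({u} : Set ↥(Matrix.symplecticGroup (Fin m) F)) := by
      intro g
      rw [Subgroup.mem_centralizer_iff]
      intro h hh
      rw [Set.mem_singleton_iff] at hh
      rw [hh]
      apply Subtype.ext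
      show (u : Matrix (Fin m ⊕ Fin m) (Fin m ⊕ Fin m) F) * g.1.1
        = g.1.1 * (u : Matrix (Fin m ⊕ Fin m) (Fin m ⊕ Fin m) F)
      rw [← hUdef]
      exact (Algebra.commute_of_mem_adjoin_of_forall_mem_commute g.1.2 (fun b hb => by
        rw [Set.mem_singleton_iff] at hb
        rw [hb]
        exact hUT)).eq
    exact Nat.card_congr ⟨fun x => ⟨⟨x.1.1, hmem1 x⟩, hmem2 x⟩,
      fun g => ⟨⟨g.1.1, hmem3 g⟩, hmem4 g⟩, fun _ => rfl, fun _ => rfl⟩
  -- the skew elements
  have hE2 : Nat.card {b : AdjT T // dgAlg T hdgT b = -b} = q ^ m := by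
    have hΨskew : ∀ c : {c : Fin (2 * m) → F // ∀ i : Fin (2 * m), Even (i : ℕ) → c i = 0},
        dgAlg T hdgT ⟨∑ i, c.1 i • T ^ (i : ℕ), hΨmem c.1⟩
          = -⟨∑ i, c.1 i • T ^ (i : ℕ), hΨmem c.1⟩ := by
      intro c
      apply Subtype.ext
      show dg (∑ i, c.1 i • T ^ (i : ℕ)) = -(∑ i, c.1 i • T ^ (i : ℕ))
      rw [dg_sum, ← Finset.sum_neg_distrib]
      refine Finset.sum_congr rfl fun i _ => ?_
      rw [dg_smul, dg_pow, hdgT]
      by_cases hi : Even (i : ℕ)
      · rw [c.2 i hi, zero_smul, zero_smul, neg_zero]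
      · rw [Odd.neg_pow (Nat.not_even_iff_odd.1 hi), smul_neg]
    let Ψ : {c : Fin (2 * m) → F // ∀ i : Fin (2 * m), Even (i : ℕ) → c i = 0}
        → {b : AdjT T // dgAlg T hdgT b = -b} :=
      fun c => ⟨⟨∑ i, c.1 i • T ^ (i : ℕ), hΨmem c.1⟩, hΨskew c⟩
    have hΨ : Function.Bijective Ψ := by
      constructor
      · intro c c' h
        have h1 : ∑ i, c.1 i • T ^ (i : ℕ) = ∑ i, c'.1 i • T ^ (i : ℕ) :=
          congrArg (fun b : {b : AdjT T // dgAlg T hdgT b = -b} => b.1.1) h
        have h3 : ∑ i, (c.1 - c'.1) i • T ^ (i : ℕ) = 0 := by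
          simp only [Pi.sub_apply, sub_smul, Finset.sum_sub_distrib]
          rw [h1, sub_self]
        exact Subtype.ext (sub_eq_zero.1 (hindep _ h3))
      · intro b
        have hbT : b.1.1 * T = T * b.1.1 := by
          have := mul_comm b.1 (⟨T, Algebra.subset_adjoin (Set.mem_singleton T)⟩ : AdjT T)
          exact congrArg Subtype.val this
        obtain ⟨a, ha⟩ := hspan b.1.1 hbT
        have hb' : dg b.1.1 = -b.1.1 := congrArg Subtype.val b.2
        rw [ha, dg_sum] at hb'
        have h3 : ∑ i : Fin (2 * m), (if Even (i : ℕ) then 2 * a i else 0) • T ^ (i : ℕ)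
            = 0 := by
          have h4 : ∑ i, dg (a i • T ^ (i : ℕ)) + ∑ i, a i • T ^ (i : ℕ) = 0 := by
            rw [hb']
            exact neg_add_cancel _
          rw [← h4, ← Finset.sum_add_distrib]
          refine Finset.sum_congr rfl fun i _ => ?_
          rw [dg_smul, dg_pow, hdgT]
          by_cases hi : Even (i : ℕ)
          · rw [if_pos hi, Even.neg_pow hi, two_mul, add_smul]
          · rw [if_neg hi, Odd.neg_pow (Nat.not_even_iff_odd.1 hi), smul_neg, zero_smul,
              neg_add_cancel]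
        have h5 := hindep _ h3
        have ha0 : ∀ i : Fin (2 * m), Even (i : ℕ) → a i = 0 := by
          intro i hi
          have h6 := congrFun h5 i
          simp only [if_pos hi, Pi.zero_apply] at h6
          rcases mul_eq_zero.1 h6 with h | h
          · exact absurd h h2
          · exact h
        refine ⟨⟨a, ha0⟩, ?_⟩
        apply Subtype.ext
        apply Subtype.ext
        exact ha.symm
    rw [← Nat.card_congr (Equiv.ofBijective Ψ hΨ)]
    exact evenZero_card hF m
  rw [hE1, key, hE2]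

end Cfsg.Agent.Helper15
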