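import Mathlib
import Cfsg.Agent.Helper15.SpRegUnip4

set_option autoImplicit false

namespace Cfsg.Agent.Helper15

open Matrix

section

variable {F : Type*} [Field F] {m : ℕ}

/-- A regular nilpotent element of the symplectic Lie algebra. -/
def spNil (m : ℕ) (F : Type*) [Field F] (l : Fin m) :
    Matrix (Fin m ⊕ Fin m) (Fin m ⊕ Fin m) F :=
  Matrix.fromBlocks (shiftMat m F) 0 (Matrix.single l l 1) (-(shiftMat m F)ᵀ)

theorem spNil_dg (l : Fin m) : dg (spNil m F l) = -spNil m F l := by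
  unfold dg spNil
  rw [Matrix.J, Matrix.fromBlocks_transpose, Matrix.fromBlocks_multiply,
    Matrix.fromBlocks_multiply]
  simp

theorem fromBlocks_lower_pow (A C D : Matrix (Fin m) (Fin m) F) (k : ℕ) :
    ∃ C' : Matrix (Fin m) (Fin m) F,
      (Matrix.fromBlocks A 0 C D) ^ k = Matrix.fromBlocks (A ^ k) 0 C' (D ^ k) := by
  induction k with
  | zero => exact ⟨0, by rw [pow_zero, pow_zero, pow_zero, Matrix.fromBlocks_one]⟩
  | succ k ih =>
    obtain ⟨C', hC'⟩ := ih
    refine ⟨C' * A + D ^ k * C, ?_⟩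
    rw [pow_succ, hC', Matrix.fromBlocks_multiply, pow_succ, pow_succ]
    simp

theorem spNil_pow (l : Fin m) : spNil m F l ^ (2 * m) = 0 := by
  obtain ⟨C', hC'⟩ := fromBlocks_lower_pow (shiftMat m F) (Matrix.single l l 1)
    (-(shiftMat m F)ᵀ) m
  have h1 : (-(shiftMat m F)ᵀ) ^ m = 0 := by
    rw [neg_pow, ← Matrix.transpose_pow, shiftMat_pow_self, Matrix.transpose_zero, mul_zero]
  rw [shiftMat_pow_self, h1] at hC'
  unfold spNil
  rw [two_mul, pow_add, hC', Matrix.fromBlocks_multiply]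
  simp

theorem spNil_rank (l : Fin m) (hl : (l : ℕ) + 1 = m) : (spNil m F l).rank = 2 * m - 1 := by
  classical
  have hm : 0 < m := by omega
  have h1 := LinearMap.finrank_range_add_finrank_ker (Matrix.mulVecLin (spNil m F l))
  rw [Module.finrank_fintype_fun_eq_card F, Fintype.card_sum, Fintype.card_fin] at h1
  have h2 : (spNil m F l).rank
      = Module.finrank F (LinearMap.range (Matrix.mulVecLin (spNil m F l))) := rfl
  have hLmul : ∀ (x : Fin m → F) (j : Fin m) (hj : (j : ℕ) + 1 < m),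
      (shiftMat m F *ᵥ x) ⟨(j : ℕ) + 1, hj⟩ = x j := by
    intro x j hj
    rw [Matrix.mulVec, dotProduct, Finset.sum_eq_single j]
    · rw [shiftMat_apply, if_pos rfl, one_mul]
    · intro b _ hb
      rw [shiftMat_apply, if_neg (fun h' => hb (Fin.ext (by simpa using h'))), zero_mul]
    · intro h
      exact absurd (Finset.mem_univ _) h
  have hLTmul : ∀ (y : Fin m → F) (i : Fin m),
      ((shiftMat m F)ᵀ *ᵥ y) i = if h : (i : ℕ) + 1 < m then y ⟨(i : ℕ) + 1, h⟩ else 0 := by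
    intro y i
    rw [Matrix.mulVec, dotProduct]
    by_cases h : (i : ℕ) + 1 < m
    · rw [dif_pos h, Finset.sum_eq_single (⟨(i : ℕ) + 1, h⟩ : Fin m)]
      · rw [Matrix.transpose_apply, shiftMat_apply, if_pos rfl, one_mul]
      · intro b _ hb
        rw [Matrix.transpose_apply, shiftMat_apply,
          if_neg (fun h' => hb (Fin.ext (by simpa using h'.symm))), zero_mul]
      · intro h'
        exact absurd (Finset.mem_univ _) h'
    · rw [dif_neg h]
      refine Finset.sum_eq_zero fun b _ => ?_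
      rw [Matrix.transpose_apply, shiftMat_apply, if_neg (by have := b.2; omega), zero_mul]
  have hker : LinearMap.ker (Matrix.mulVecLin (spNil m F l))
      = Submodule.span F {(Pi.single (Sum.inr (⟨0, hm⟩ : Fin m)) (1 : F) :
          Fin m ⊕ Fin m → F)} := by
    apply le_antisymm
    · intro v hv
      rw [LinearMap.mem_ker, Matrix.mulVecLin_apply] at hv
      unfold spNil at hv
      rw [Matrix.fromBlocks_mulVec] at hv
      have e1 : ∀ i : Fin m, (shiftMat m F *ᵥ (v ∘ Sum.inl)) i = 0 := by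
        intro i
        have := congrFun hv (Sum.inl i)
        simpa using this
      have e2 : ∀ i : Fin m, (Matrix.single l l (1 : F) *ᵥ (v ∘ Sum.inl)) i
          - ((shiftMat m F)ᵀ *ᵥ (v ∘ Sum.inr)) i = 0 := by
        intro i
        have := congrFun hv (Sum.inr i)
        simp only [Sum.elim_inr, Pi.add_apply, Matrix.neg_mulVec, Pi.neg_apply,
          Pi.zero_apply] at this
        rw [sub_eq_add_neg]
        exact this
      have hx1 : ∀ j : Fin m, (j : ℕ) + 1 < m → v (Sum.inl j) = 0 := by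
        intro j hj
        have := e1 ⟨(j : ℕ) + 1, hj⟩
        rw [hLmul] at this
        exact this
      have hx2 : v (Sum.inl l) = 0 := by
        have := e2 l
        rw [hLTmul, dif_neg (by omega), Matrix.single_mulVec, Function.update_self, one_mul,
          sub_zero] at this
        exact this
      have hx : ∀ j : Fin m, v (Sum.inl j) = 0 := by
        intro j
        by_cases hj : (j : ℕ) + 1 < m
        · exact hx1 j hj
        · have : j = l := Fin.ext (by have := j.2; omega)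
          rw [this]
          exact hx2
      have hy : ∀ j : Fin m, (j : ℕ) ≠ 0 → v (Sum.inr j) = 0 := by
        intro j hj
        have hj' : (j : ℕ) - 1 + 1 < m := by have := j.2; omega
        have h3 := e2 ⟨(j : ℕ) - 1, by have := j.2; omega⟩
        rw [hLTmul, dif_pos hj', Matrix.single_mulVec, Function.update_of_ne (by
          intro h'
          have := congrArg Fin.val h'
          simp only at this
          omega), Pi.zero_apply, zero_sub, neg_eq_zero] at h3
        have h4 : (⟨(j : ℕ) - 1 + 1, hj'⟩ : Fin m) = j := Fin.ext (by simp only; omega)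
        rw [h4] at h3
        exact h3
      rw [Submodule.mem_span_singleton]
      refine ⟨v (Sum.inr ⟨0, hm⟩), ?_⟩
      funext a
      rw [Pi.smul_apply, smul_eq_mul]
      rcases a with i | j
      · rw [Pi.single_eq_of_ne (by simp), mul_zero, hx i]
      · by_cases hj : (j : ℕ) = 0
        · have : j = ⟨0, hm⟩ := Fin.ext hj
          rw [this, Pi.single_eq_same, mul_one]
        · rw [Pi.single_eq_of_ne (by
            intro h'
            exact hj (congrArg Fin.val (Sum.inr.inj h'))), mul_zero, hy j hj]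
    · rw [Submodule.span_singleton_le_iff_mem, LinearMap.mem_ker, Matrix.mulVecLin_apply,
        Matrix.mulVec_single_one]
      funext a
      rw [Matrix.col_apply]
      unfold spNil
      rcases a with i | j
      · rw [Matrix.fromBlocks_apply₁₂]
        rfl
      · rw [Matrix.fromBlocks_apply₂₂, Matrix.neg_apply, Matrix.transpose_apply, shiftMat_apply,
          if_neg (by simp), neg_zero]
        rfl
  have hne : (Pi.single (Sum.inr (⟨0, hm⟩ : Fin m)) (1 : F) : Fin m ⊕ Fin m → F) ≠ 0 := by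
    intro h0
    have := congrFun h0 (Sum.inr ⟨0, hm⟩)
    rw [Pi.single_eq_same, Pi.zero_apply] at this
    exact one_ne_zero this
  rw [hker, finrank_span_singleton hne] at h1
  omega

/-- A regular unipotent element exists in the symplectic group in odd characteristic. -/
theorem exists_sp_regunip (h2 : (2 : F) ≠ 0) (hm : 1 ≤ m) :
    ∃ U : Matrix (Fin m ⊕ Fin m) (Fin m ⊕ Fin m) F, U * dg U = 1 ∧
      (U - 1) ^ (2 * m) = 0 ∧ (U - 1).rank = 2 * m - 1 := by
  classical
  obtain ⟨T, hTdef⟩ : ∃ T : Matrix (Fin m ⊕ Fin m) (Fin m ⊕ Fin m) F,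
      T = spNil m F ⟨m - 1, by omega⟩ := ⟨_, rfl⟩
  have hT1 : dg T = -T := by rw [hTdef]; exact spNil_dg _
  have hT2 : T ^ (2 * m) = 0 := by rw [hTdef]; exact spNil_pow _
  have hT3 : T.rank = 2 * m - 1 := by
    rw [hTdef]
    exact spNil_rank _ (by simp only; omega)
  have hTn : IsNilpotent T := ⟨2 * m, hT2⟩
  obtain ⟨wP, hwP⟩ := hTn.isUnit_one_add
  obtain ⟨wQ, hwQ⟩ := hTn.isUnit_one_sub
  have hPQ : Commute (wP : Matrix (Fin m ⊕ Fin m) (Fin m ⊕ Fin m) F)
      (wQ : Matrix (Fin m ⊕ Fin m) (Fin m ⊕ Fin m) F) := by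
    rw [hwP, hwQ]
    exact (Commute.one_left (1 - T)).add_left ((Commute.one_right T).sub_right (Commute.refl T))
  have hPQu : Commute wP wQ := Commute.units_of_val hPQ
  have hdgP : dg (wP : Matrix (Fin m ⊕ Fin m) (Fin m ⊕ Fin m) F)
      = (wQ : Matrix (Fin m ⊕ Fin m) (Fin m ⊕ Fin m) F) := by
    rw [hwP, hwQ, dg_add, dg_one, hT1, sub_eq_add_neg]
  have hdgQ : dg (wQ : Matrix (Fin m ⊕ Fin m) (Fin m ⊕ Fin m) F)
      = (wP : Matrix (Fin m ⊕ Fin m) (Fin m ⊕ Fin m) F) := by
    rw [← hdgP, dg_dg]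
  have hdgQ' : dg ((wQ⁻¹ : (Matrix (Fin m ⊕ Fin m) (Fin m ⊕ Fin m) F)ˣ) :
      Matrix (Fin m ⊕ Fin m) (Fin m ⊕ Fin m) F)
      = ((wP⁻¹ : (Matrix (Fin m ⊕ Fin m) (Fin m ⊕ Fin m) F)ˣ) :
      Matrix (Fin m ⊕ Fin m) (Fin m ⊕ Fin m) F) := by
    apply Units.eq_inv_of_mul_eq_one_left
    rw [← hdgQ, ← dg_mul, Units.inv_mul, dg_one]
  refine ⟨(wP : Matrix (Fin m ⊕ Fin m) (Fin m ⊕ Fin m) F)
    * ((wQ⁻¹ : (Matrix (Fin m ⊕ Fin m) (Fin m ⊕ Fin m) F)ˣ) :
      Matrix (Fin m ⊕ Fin m) (Fin m ⊕ Fin m) F), ?_, ?_⟩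
  · rw [dg_mul, hdgQ', hdgP]
    have h1 : wP * wQ⁻¹ * (wP⁻¹ * wQ) = 1 := by
      rw [(hPQu.inv_right).eq]
      group
    have h3 := congrArg Units.val h1
    simpa only [Units.val_mul, Units.val_one] using h3
  · have h1 : (wP : Matrix (Fin m ⊕ Fin m) (Fin m ⊕ Fin m) F)
        * ((wQ⁻¹ : (Matrix (Fin m ⊕ Fin m) (Fin m ⊕ Fin m) F)ˣ) :
          Matrix (Fin m ⊕ Fin m) (Fin m ⊕ Fin m) F) - 1
        = T * (((2 : F) • (1 : Matrix (Fin m ⊕ Fin m) (Fin m ⊕ Fin m) F))
          * ((wQ⁻¹ : (Matrix (Fin m ⊕ Fin m) (Fin m ⊕ Fin m) F)ˣ) :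
          Matrix (Fin m ⊕ Fin m) (Fin m ⊕ Fin m) F)) := by
      have h3 : (1 : Matrix (Fin m ⊕ Fin m) (Fin m ⊕ Fin m) F)
          = (wQ : Matrix (Fin m ⊕ Fin m) (Fin m ⊕ Fin m) F)
            * ((wQ⁻¹ : (Matrix (Fin m ⊕ Fin m) (Fin m ⊕ Fin m) F)ˣ) :
            Matrix (Fin m ⊕ Fin m) (Fin m ⊕ Fin m) F) := by
        rw [Units.mul_inv]
      conv_lhs => rw [h3]
      rw [← sub_mul, hwP, hwQ, ← mul_assoc]
      congr 1
      rw [mul_smul_comm, mul_one, two_smul]
      abel
    have hc : Commute T ((wQ⁻¹ : (Matrix (Fin m ⊕ Fin m) (Fin m ⊕ Fin m) F)ˣ) :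
          Matrix (Fin m ⊕ Fin m) (Fin m ⊕ Fin m) F) := by
      apply Commute.units_inv_right
      rw [hwQ]
      exact (Commute.one_right T).sub_right (Commute.refl T)
    have hc2 : Commute T (((2 : F) • (1 : Matrix (Fin m ⊕ Fin m) (Fin m ⊕ Fin m) F))
          * ((wQ⁻¹ : (Matrix (Fin m ⊕ Fin m) (Fin m ⊕ Fin m) F)ˣ) :
          Matrix (Fin m ⊕ Fin m) (Fin m ⊕ Fin m) F)) :=
      (Commute.smul_right (Commute.one_right T) _).mul_right hc
    have hunit : IsUnit (((2 : F) • (1 : Matrix (Fin m ⊕ Fin m) (Fin m ⊕ Fin m) F))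
          * ((wQ⁻¹ : (Matrix (Fin m ⊕ Fin m) (Fin m ⊕ Fin m) F)ˣ) :
          Matrix (Fin m ⊕ Fin m) (Fin m ⊕ Fin m) F)) := by
      apply IsUnit.mul
      · have h3 : IsUnit (algebraMap F (Matrix (Fin m ⊕ Fin m) (Fin m ⊕ Fin m) F) 2) :=
          (IsUnit.mk0 _ h2).map _
        rwa [Algebra.algebraMap_eq_smul_one] at h3
      · exact (wQ⁻¹).isUnit
    rw [h1]
    constructor
    · rw [hc2.mul_pow, hT2, zero_mul]
    · rw [Matrix.rank_mul_eq_left_of_isUnit_det _ _ ((Matrix.isUnit_iff_isUnit_det _).1 hunit)]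
      exact hT3

end

end Cfsg.Agent.Helper15
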