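import Mathlib
import Cfsg.Agent.Helper15.SpRegClass1
import Cfsg.Agent.Helper15.SpRegClass2

set_option autoImplicit false

namespace Cfsg.Agent.Helper15

open Matrix

theorem regnil_cyclic_vec {F : Type*} [Field F] {ι : Type*} [Fintype ι] [DecidableEq ι] (n : ℕ)
    (hcard : Fintype.card ι = n) (T : Matrix ι ι F) (hreg : T.rank = n - 1) (hn : 1 ≤ n) :
    ∃ v : ι → F, ((Matrix.toLin' T) ^ (n - 1)) v ≠ 0 := by
  classical
  have hfin : Module.finrank F (ι → F) = n := by
    rw [Module.finrank_fintype_fun_eq_card F, hcard]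
  have hk : Module.finrank F (LinearMap.ker (Matrix.toLin' T)) ≤ 1 := by
    rw [Matrix.toLin'_apply']
    exact finrank_ker_mulVecLin_le_one' T (by rw [hcard]; exact hreg)
  by_contra hcon
  push Not at hcon
  have h1 : LinearMap.ker ((Matrix.toLin' T) ^ (n - 1)) = ⊤ := by
    rw [LinearMap.ker_eq_top]
    exact LinearMap.ext hcon
  have h2 := finrank_ker_pow_le (Matrix.toLin' T) (n - 1)
  rw [h1, finrank_top, hfin] at h2
  have h4 : (n - 1) * Module.finrank F (LinearMap.ker (Matrix.toLin' T)) ≤ (n - 1) * 1 :=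
    Nat.mul_le_mul_left _ hk
  omega

/-- Two regular nilpotent matrices are conjugate. -/
theorem regnil_conj {F : Type*} [Field F] {ι : Type*} [Fintype ι] [DecidableEq ι] (n : ℕ)
    (hn : 1 ≤ n) (hcard : Fintype.card ι = n) (N₀ N : Matrix ι ι F) (h₀nil : N₀ ^ n = 0)
    (h₀reg : N₀.rank = n - 1) (hnil : N ^ n = 0) (hreg : N.rank = n - 1) :
    ∃ h h' : Matrix ι ι F, h * h' = 1 ∧ h' * h = 1 ∧ h * N₀ = N * h := by
  classical
  obtain ⟨v₀, hv₀⟩ := regnil_cyclic_vec n hcard N₀ h₀reg hn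
  obtain ⟨v, hv⟩ := regnil_cyclic_vec n hcard N hreg hn
  have hfin : Module.finrank F (ι → F) = n := by
    rw [Module.finrank_fintype_fun_eq_card F, hcard]
  obtain ⟨g, hg⟩ := cyclic_nilpotent_conj (Matrix.toLin' N₀) (Matrix.toLin' N) n hn hfin
    (by rw [← Matrix.toLin'_pow, h₀nil, map_zero]) (by rw [← Matrix.toLin'_pow, hnil, map_zero])
    v₀ v hv₀ hv
  have h1 : LinearMap.toMatrix' (g : (ι → F) →ₗ[F] (ι → F))
      * LinearMap.toMatrix' (g.symm : (ι → F) →ₗ[F] (ι → F)) = 1 := by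
    rw [← LinearMap.toMatrix'_comp]
    have : (g : (ι → F) →ₗ[F] (ι → F)) ∘ₗ (g.symm : (ι → F) →ₗ[F] (ι → F)) = LinearMap.id :=
      LinearMap.ext fun x => by simp
    rw [this, LinearMap.toMatrix'_id]
  refine ⟨LinearMap.toMatrix' (g : (ι → F) →ₗ[F] (ι → F)),
    LinearMap.toMatrix' (g.symm : (ι → F) →ₗ[F] (ι → F)), h1, mul_eq_one_comm.1 h1, ?_⟩
  apply Matrix.toLin'.injective
  rw [Matrix.toLin'_mul, Matrix.toLin'_mul, Matrix.toLin'_toMatrix']
  exact LinearMap.ext fun x => hg x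

section

variable {F : Type*} [Field F] {m : ℕ}

theorem sp_regunip_T (h2 : (2 : F) ≠ 0) (U : Matrix (Fin m ⊕ Fin m) (Fin m ⊕ Fin m) F)
    (hUU' : U * dg U = 1) (hnil : (U - 1) ^ (2 * m) = 0) (hreg : (U - 1).rank = 2 * m - 1) :
    dg (U - dg U) = -(U - dg U) ∧ (U - dg U) ^ (2 * m) = 0 ∧ (U - dg U).rank = 2 * m - 1 := by
  have hU'U : dg U * U = 1 := mul_eq_one_comm.1 hUU'
  refine ⟨by rw [dg_sub, dg_dg, neg_sub], ?_⟩
  have hTfac : U - dg U = (U - 1) * ((U + 1) * dg U) := by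
    rw [add_mul, hUU', one_mul, sub_mul, mul_add, mul_one, hUU', one_mul]
    abel
  have hcUU' : Commute U (dg U) := hUU'.trans hU'U.symm
  have hcomm : Commute (U - 1) ((U + 1) * dg U) :=
    (((Commute.refl U).add_right (Commute.one_right U)).mul_right hcUU').sub_left
      (Commute.one_left _)
  have hWunit : IsUnit ((U + 1) * dg U) := by
    apply IsUnit.mul
    · have h1 : U + 1 = (2 : F) • (1 : Matrix (Fin m ⊕ Fin m) (Fin m ⊕ Fin m) F) + (U - 1) := by
        rw [two_smul]; abel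
      rw [h1]
      apply IsNilpotent.isUnit_add_left_of_commute ⟨2 * m, hnil⟩
      · have h3 : IsUnit (algebraMap F (Matrix (Fin m ⊕ Fin m) (Fin m ⊕ Fin m) F) 2) :=
          (IsUnit.mk0 _ h2).map _
        rwa [Algebra.algebraMap_eq_smul_one] at h3
      · exact Commute.smul_right (Commute.one_right _) _
    · exact ⟨⟨dg U, U, hU'U, hUU'⟩, rfl⟩
  constructor
  · rw [hTfac, hcomm.mul_pow, hnil, zero_mul]
  · rw [hTfac, Matrix.rank_mul_eq_left_of_isUnit_det _ _
      ((Matrix.isUnit_iff_isUnit_det _).1 hWunit)]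
    exact hreg

/-- A similitude of the symplectic form. -/
def simil (m : ℕ) {F : Type*} [Field F] (s : F) : Matrix (Fin m ⊕ Fin m) (Fin m ⊕ Fin m) F :=
  Matrix.fromBlocks (s • (1 : Matrix (Fin m) (Fin m) F)) 0 0 1

theorem simil_mul (s t : F) : simil m s * simil m t = simil m (s * t) := by
  unfold simil
  rw [Matrix.fromBlocks_multiply]
  simp [smul_smul, mul_comm]

theorem simil_one : simil m (1 : F) = 1 := by
  unfold simil
  rw [one_smul, Matrix.fromBlocks_one]

theorem simil_dg (s : F) : dg (simil m s)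
    = Matrix.fromBlocks (1 : Matrix (Fin m) (Fin m) F) 0 0 (s • (1 : Matrix (Fin m) (Fin m) F)) := by
  unfold dg simil
  rw [Matrix.J, Matrix.fromBlocks_transpose, Matrix.fromBlocks_multiply,
    Matrix.fromBlocks_multiply, Matrix.fromBlocks_neg]
  simp

theorem smul_one_blocks (s : F) : (s • (1 : Matrix (Fin m ⊕ Fin m) (Fin m ⊕ Fin m) F))
    = Matrix.fromBlocks (s • (1 : Matrix (Fin m) (Fin m) F)) 0 0
      (s • (1 : Matrix (Fin m) (Fin m) F)) := by
  rw [← Matrix.fromBlocks_one, Matrix.fromBlocks_smul, smul_zero]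

theorem simil_dg_mul (s : F) : dg (simil m s) * simil m s
    = s • (1 : Matrix (Fin m ⊕ Fin m) (Fin m ⊕ Fin m) F) := by
  rw [simil_dg, smul_one_blocks]
  unfold simil
  rw [Matrix.fromBlocks_multiply]
  simp

theorem simil_mul_dg (s : F) : simil m s * dg (simil m s)
    = s • (1 : Matrix (Fin m ⊕ Fin m) (Fin m ⊕ Fin m) F) := by
  rw [simil_dg, smul_one_blocks]
  unfold simil
  rw [Matrix.fromBlocks_multiply]
  simp

end

end Cfsg.Agent.Helper15
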