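import Mathlib
import Cfsg.Agent.Helper15.Pgl1
import Cfsg.Agent.Helper15.SpRegClass3

set_option autoImplicit false

namespace Cfsg.Agent.Helper15

open Matrix
open scoped IsMulCommutative

universe u

/-- A quadratic extension acting on the space through a matrix whose square is a nonsquare
scalar. -/
theorem exists_quad_module {F : Type u} [Field F] {n : ℕ} (c : F) (hc : ¬ IsSquare c)
    (M : Matrix (Fin n) (Fin n) F) (hM : M * M = c • 1) :
    ∃ (L : Type u) (_ : Field L) (_ : Algebra F L) (_ : Module L (Fin n → F))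
      (_ : IsScalarTower F L (Fin n → F)) (θ : L) (b : Module.Basis (Fin 2) F L),
      b 0 = 1 ∧ b 1 = θ ∧ θ * θ = algebraMap F L c ∧ ∀ v : Fin n → F, θ • v = M *ᵥ v := by
  classical
  obtain ⟨f, hfdef⟩ : ∃ f : Polynomial F, f = Polynomial.X ^ 2 - Polynomial.C c := ⟨_, rfl⟩
  have hdeg : f.natDegree = 2 := by
    rw [hfdef]
    exact Polynomial.natDegree_X_pow_sub_C
  have hirr : Irreducible f := by
    apply Polynomial.irreducible_of_degree_le_three_of_not_isRoot
    · rw [hdeg]
      decide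
    · intro a ha
      apply hc
      rw [hfdef, Polynomial.IsRoot.def, Polynomial.eval_sub, Polynomial.eval_pow,
        Polynomial.eval_X, Polynomial.eval_C] at ha
      exact ⟨a, by linear_combination -ha⟩
  haveI : Fact (Irreducible f) := ⟨hirr⟩
  have hf0 : f ≠ 0 := hirr.ne_zero
  let R : Subalgebra F (Matrix (Fin n) (Fin n) F) := Algebra.adjoin F {M}
  let xR : R := ⟨M, Algebra.subset_adjoin (Set.mem_singleton M)⟩
  have hxR : f.eval₂ (algebraMap F R) xR = 0 := by
    rw [hfdef, Polynomial.eval₂_sub, Polynomial.eval₂_pow, Polynomial.eval₂_X, Polynomial.eval₂_C]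
    apply Subtype.ext
    show M ^ 2 - algebraMap F (Matrix (Fin n) (Fin n) F) c = 0
    rw [pow_two, hM, Algebra.algebraMap_eq_smul_one, sub_self]
  let ψ : AdjoinRoot f →+* R := AdjoinRoot.lift (algebraMap F R) xR hxR
  have hψroot : ψ (AdjoinRoot.root f) = xR := AdjoinRoot.lift_root hxR
  have hψof : ∀ a : F, ψ (algebraMap F (AdjoinRoot f) a) = algebraMap F R a := by
    intro a
    rw [AdjoinRoot.algebraMap_eq]
    exact AdjoinRoot.lift_of hxR
  letI : Module (AdjoinRoot f) (Fin n → F) :=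
    { smul := fun c v => (ψ c).1 *ᵥ v
      one_smul := fun v => by
        show (ψ 1).1 *ᵥ v = v
        rw [map_one]
        exact Matrix.one_mulVec v
      mul_smul := fun c d v => by
        show (ψ (c * d)).1 *ᵥ v = (ψ c).1 *ᵥ ((ψ d).1 *ᵥ v)
        rw [map_mul, Matrix.mulVec_mulVec]
        rfl
      smul_zero := fun c => Matrix.mulVec_zero _
      smul_add := fun c u v => Matrix.mulVec_add _ u v
      add_smul := fun c d v => by
        show (ψ (c + d)).1 *ᵥ v = (ψ c).1 *ᵥ v + (ψ d).1 *ᵥ v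
        rw [map_add]
        exact Matrix.add_mulVec _ _ v
      zero_smul := fun v => by
        show (ψ 0).1 *ᵥ v = 0
        rw [map_zero]
        exact Matrix.zero_mulVec v }
  have hsm : ∀ (c : AdjoinRoot f) (v : Fin n → F), c • v = (ψ c).1 *ᵥ v := fun c v => rfl
  haveI : IsScalarTower F (AdjoinRoot f) (Fin n → F) := by
    apply IsScalarTower.of_algebraMap_smul
    intro r v
    rw [hsm, hψof]
    show (algebraMap F (Matrix (Fin n) (Fin n) F) r) *ᵥ v = r • v
    rw [Algebra.algebraMap_eq_smul_one, Matrix.smul_mulVec, Matrix.one_mulVec]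
  have hdim : (AdjoinRoot.powerBasis hf0).dim = 2 := by
    rw [AdjoinRoot.powerBasis_dim, hdeg]
  obtain ⟨b, hb⟩ : ∃ b : Module.Basis (Fin 2) F (AdjoinRoot f),
      ∀ i : Fin 2, b i = AdjoinRoot.root f ^ (i : ℕ) := by
    refine ⟨(AdjoinRoot.powerBasis hf0).basis.reindex (finCongr hdim), fun i => ?_⟩
    rw [Module.Basis.reindex_apply, PowerBasis.basis_eq_pow, AdjoinRoot.powerBasis_gen]
    rfl
  refine ⟨AdjoinRoot f, inferInstance, inferInstance, inferInstance, inferInstance,
    AdjoinRoot.root f, b, ?_, ?_, ?_, ?_⟩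
  · rw [hb]
    exact pow_zero _
  · rw [hb]
    exact pow_one _
  · have h : Polynomial.eval₂ (AdjoinRoot.of f) (AdjoinRoot.root f)
        (Polynomial.X ^ 2 - Polynomial.C c) = 0 := by
      rw [← hfdef]
      exact AdjoinRoot.eval₂_root f
    rw [Polynomial.eval₂_sub, Polynomial.eval₂_pow, Polynomial.eval₂_X,
      Polynomial.eval₂_C] at h
    rw [AdjoinRoot.algebraMap_eq]
    linear_combination h
  · intro v
    rw [hsm, hψroot]

/-- A basis adapted to a matrix whose square is a nonsquare scalar. -/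
theorem quad_basis {F : Type*} [Field F] {n : ℕ} (c : F) (hc : ¬ IsSquare c)
    (M : Matrix (Fin n) (Fin n) F) (hM : M * M = c • 1) :
    ∃ m, n = 2 * m ∧ ∃ β : Module.Basis (Fin 2 × Fin m) F (Fin n → F),
      (∀ j, M *ᵥ β (0, j) = β (1, j)) ∧ (∀ j, M *ᵥ β (1, j) = c • β (0, j)) := by
  classical
  obtain ⟨L, _, _, _, _, θ, b, hb0, hb1, hθ, hθv⟩ := exists_quad_module c hc M hM
  haveI : Module.Finite L (Fin n → F) := Module.Finite.of_restrictScalars_finite F L _
  obtain ⟨m, ⟨cL⟩⟩ : ∃ m, Nonempty (Module.Basis (Fin m) L (Fin n → F)) :=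
    ⟨_, ⟨Module.finBasis L (Fin n → F)⟩⟩
  have hβ : ∀ ij : Fin 2 × Fin m, (b.smulTower cL) ij = b ij.1 • cL ij.2 :=
    fun ij => Module.Basis.smulTower_apply b cL ij
  refine ⟨m, ?_, b.smulTower cL, ?_, ?_⟩
  · have h1 := Module.finrank_eq_card_basis (b.smulTower cL)
    rw [Module.finrank_fin_fun, Fintype.card_prod, Fintype.card_fin, Fintype.card_fin] at h1
    exact h1
  · intro j
    rw [hβ, hβ]
    show M *ᵥ (b 0 • cL j) = b 1 • cL j
    rw [hb0, hb1, one_smul, hθv]
  · intro j
    rw [hβ, hβ]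
    show M *ᵥ (b 1 • cL j) = c • (b 0 • cL j)
    rw [hb0, hb1, one_smul, ← hθv, ← mul_smul, hθ, algebraMap_smul]

/-- A matrix with prescribed scalar square in even dimension. -/
theorem quad_rep {F : Type*} [Field F] {n : ℕ} (hn : Even n) (c : F) :
    ∃ r : Matrix (Fin n) (Fin n) F, r * r = c • 1 := by
  classical
  obtain ⟨m, hm⟩ := hn
  obtain ⟨A, hAdef⟩ : ∃ A : Matrix (Fin m ⊕ Fin m) (Fin m ⊕ Fin m) F,
      A = Matrix.fromBlocks 0 (c • 1) 1 0 := ⟨_, rfl⟩
  have hAA : A * A = c • 1 := by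
    rw [hAdef, Matrix.fromBlocks_multiply, smul_one_blocks]
    congr 1
    · rw [zero_mul, mul_one, zero_add]
    · rw [zero_mul, mul_zero, add_zero]
    · rw [zero_mul, mul_zero, add_zero]
    · rw [one_mul, zero_mul, add_zero]
  let e : Fin m ⊕ Fin m ≃ Fin n := finSumFinEquiv.trans (finCongr hm.symm)
  refine ⟨A.submatrix e.symm e.symm, ?_⟩
  have h1 : (c • (1 : Matrix (Fin m ⊕ Fin m) (Fin m ⊕ Fin m) F)).submatrix e.symm e.symm
      = c • 1 := by
    ext i j
    rw [Matrix.submatrix_apply, Matrix.smul_apply, Matrix.smul_apply, Matrix.one_apply,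
      Matrix.one_apply]
    by_cases h : i = j
    · rw [if_pos h, if_pos (congrArg e.symm h)]
    · rw [if_neg h, if_neg (fun h' => h (e.symm.injective h'))]
  rw [Matrix.submatrix_mul_equiv, hAA, h1]

end Cfsg.Agent.Helper15
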