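import Mathlib
import Cfsg.Agent.Helper15.Pgl2
import Cfsg.Agent.Helper15.SpRegUnip3

set_option autoImplicit false

namespace Cfsg.Agent.Helper15

open Matrix

section

variable {F : Type*} [Field F] {n : ℕ}

/-- Conjugacy of matrices up to a nonzero scalar. -/
def PConj (A B : Matrix (Fin n) (Fin n) F) : Prop :=
  ∃ (P P' : Matrix (Fin n) (Fin n) F) (ζ : F), P * P' = 1 ∧ P' * P = 1 ∧ ζ ≠ 0 ∧
    P * A = ζ • (B * P)

theorem PConj.symm {A B : Matrix (Fin n) (Fin n) F} (h : PConj A B) : PConj B A := by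
  obtain ⟨P, P', ζ, h1, h2, hζ, h3⟩ := h
  refine ⟨P', P, ζ⁻¹, h2, h1, inv_ne_zero hζ, ?_⟩
  calc P' * B = P' * (B * P) * P' := by rw [mul_assoc, mul_assoc, h1, mul_one]
    _ = ζ⁻¹ • (P' * (ζ • (B * P)) * P') := by
        rw [Matrix.mul_smul, Matrix.smul_mul, smul_smul, inv_mul_cancel₀ hζ, one_smul]
    _ = ζ⁻¹ • (P' * (P * A) * P') := by rw [h3]
    _ = ζ⁻¹ • (A * P') := by rw [← mul_assoc, h2, one_mul]

theorem smul_one_inj [Nonempty (Fin n)] (a b : F)
    (h : a • (1 : Matrix (Fin n) (Fin n) F) = b • 1) : a = b := by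
  obtain ⟨i⟩ := ‹Nonempty (Fin n)›
  have h1 := congrFun (congrFun h i) i
  rw [Matrix.smul_apply, Matrix.smul_apply, Matrix.one_apply_eq, smul_eq_mul, smul_eq_mul,
    mul_one, mul_one] at h1
  exact h1

theorem pconj_sq [Nonempty (Fin n)] {A B : Matrix (Fin n) (Fin n) F} (a b : F)
    (hA : A * A = a • 1) (hB : B * B = b • 1) (P P' : Matrix (Fin n) (Fin n) F) (ζ : F)
    (hPP' : P * P' = 1) (hPA : P * A = ζ • (B * P)) : a = ζ * ζ * b := by
  have h5 : P * (A * A) = (ζ * ζ) • ((B * B) * P) := by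
    calc P * (A * A) = (P * A) * A := by rw [mul_assoc]
      _ = (ζ • (B * P)) * A := by rw [hPA]
      _ = ζ • (B * (P * A)) := by rw [Matrix.smul_mul, mul_assoc]
      _ = ζ • (B * (ζ • (B * P))) := by rw [hPA]
      _ = (ζ * ζ) • ((B * B) * P) := by rw [Matrix.mul_smul, smul_smul, mul_assoc]
  rw [hA, hB, Matrix.mul_smul, mul_one, Matrix.smul_mul, one_mul, smul_smul] at h5
  have h6 : a • (P * P') = (ζ * ζ * b) • (P * P') := by
    rw [← Matrix.smul_mul, h5, Matrix.smul_mul]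
  rw [hPP'] at h6
  exact smul_one_inj _ _ h6

theorem Dk_apply_self (n k : ℕ) (i : Fin n) :
    Dk F n k i i = if (i : ℕ) < k then -1 else 1 := by
  unfold Dk
  rw [Matrix.diagonal_apply_eq]

theorem Dk_zero (n : ℕ) : Dk F n 0 = 1 := by
  unfold Dk
  rw [← Matrix.diagonal_one]
  congr 1

theorem pgl_mk_eq_one (g : GL (Fin n) F) :
    ((g : GL (Fin n) F ⧸ Subgroup.center (GL (Fin n) F)) = 1)
      ↔ ∃ a : F, (g : Matrix (Fin n) (Fin n) F) = a • 1 := by
  rw [QuotientGroup.eq_one_iff, Matrix.GeneralLinearGroup.mem_center_iff_val_mem_range_scalar]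
  constructor
  · rintro ⟨a, ha⟩
    refine ⟨a, ?_⟩
    rw [← ha, Matrix.scalar_apply, Matrix.smul_one_eq_diagonal]
  · rintro ⟨a, ha⟩
    refine ⟨a, ?_⟩
    rw [ha, Matrix.scalar_apply, Matrix.smul_one_eq_diagonal]

theorem pgl_order_two (g : GL (Fin n) F) :
    orderOf (g : GL (Fin n) F ⧸ Subgroup.center (GL (Fin n) F)) = 2 ↔
      (∃ c : F, (g : Matrix (Fin n) (Fin n) F) * (g : Matrix (Fin n) (Fin n) F) = c • 1)
        ∧ ¬ ∃ a : F, (g : Matrix (Fin n) (Fin n) F) = a • 1 := by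
  haveI : Fact (Nat.Prime 2) := ⟨Nat.prime_two⟩
  rw [orderOf_eq_prime_iff, ← pgl_mk_eq_one g, ← QuotientGroup.mk_pow, pgl_mk_eq_one (g ^ 2),
    pow_two, Units.val_mul]

theorem pgl_isConj (hn : 1 ≤ n) (g g' : GL (Fin n) F) :
    IsConj (g : GL (Fin n) F ⧸ Subgroup.center (GL (Fin n) F))
        (g' : GL (Fin n) F ⧸ Subgroup.center (GL (Fin n) F))
      ↔ PConj (g : Matrix (Fin n) (Fin n) F) (g' : Matrix (Fin n) (Fin n) F) := by
  haveI : Nonempty (Fin n) := ⟨⟨0, hn⟩⟩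
  rw [isConj_iff]
  constructor
  · rintro ⟨c, hc⟩
    obtain ⟨h, rfl⟩ := QuotientGroup.mk_surjective c
    have h1 : ((h * g * h⁻¹ : GL (Fin n) F) : GL (Fin n) F ⧸ Subgroup.center (GL (Fin n) F))
        = (g' : GL (Fin n) F ⧸ Subgroup.center (GL (Fin n) F)) := hc
    rw [QuotientGroup.eq, Matrix.GeneralLinearGroup.mem_center_iff_val_mem_range_scalar] at h1
    obtain ⟨a, ha⟩ := h1
    rw [Matrix.scalar_apply, ← Matrix.smul_one_eq_diagonal] at ha
    have ha0 : a ≠ 0 := by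
      rintro rfl
      rw [zero_smul] at ha
      have hu : IsUnit (0 : Matrix (Fin n) (Fin n) F) := by
        rw [ha]
        exact Units.isUnit _
      exact not_isUnit_zero hu
    have h2 : (g' : Matrix (Fin n) (Fin n) F)
        = a • ((h : Matrix (Fin n) (Fin n) F) * g * (h⁻¹ : GL (Fin n) F)) := by
      have h3 : (g' : GL (Fin n) F) = (h * g * h⁻¹) * ((h * g * h⁻¹)⁻¹ * g') := by group
      have h4 := congrArg Units.val h3
      rw [Units.val_mul, ← ha, Matrix.mul_smul, mul_one, Units.val_mul, Units.val_mul] at h4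
      exact h4
    refine ⟨(h : Matrix (Fin n) (Fin n) F), ((h⁻¹ : GL (Fin n) F) : Matrix (Fin n) (Fin n) F),
      a⁻¹, ?_, ?_, inv_ne_zero ha0, ?_⟩
    · rw [← Units.val_mul, mul_inv_cancel, Units.val_one]
    · rw [← Units.val_mul, inv_mul_cancel, Units.val_one]
    · rw [h2, Matrix.smul_mul, smul_smul, inv_mul_cancel₀ ha0, one_smul, mul_assoc, mul_assoc,
        ← Units.val_mul h⁻¹ h, inv_mul_cancel, Units.val_one, mul_one]
  · rintro ⟨P, P', ζ, h1, h2, hζ, h3⟩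
    let h : GL (Fin n) F := ⟨P, P', h1, h2⟩
    let z : GL (Fin n) F := ⟨ζ • 1, ζ⁻¹ • 1,
      by rw [smul_mul_smul_comm, mul_inv_cancel₀ hζ, one_smul, mul_one],
      by rw [smul_mul_smul_comm, inv_mul_cancel₀ hζ, one_smul, mul_one]⟩
    have hz : (z : GL (Fin n) F ⧸ Subgroup.center (GL (Fin n) F)) = 1 :=
      (pgl_mk_eq_one z).2 ⟨ζ, rfl⟩
    have h4 : h * g * h⁻¹ = g' * z := by
      rw [mul_inv_eq_iff_eq_mul]
      apply Units.ext
      rw [Units.val_mul, Units.val_mul, Units.val_mul]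
      show P * (g : Matrix (Fin n) (Fin n) F)
        = (g' : Matrix (Fin n) (Fin n) F) * (ζ • (1 : Matrix (Fin n) (Fin n) F)) * P
      rw [h3, Matrix.mul_smul, mul_one, Matrix.smul_mul]
    refine ⟨(h : GL (Fin n) F ⧸ Subgroup.center (GL (Fin n) F)), ?_⟩
    have h5 : ((h * g * h⁻¹ : GL (Fin n) F) : GL (Fin n) F ⧸ Subgroup.center (GL (Fin n) F))
        = ((g' * z : GL (Fin n) F) : GL (Fin n) F ⧸ Subgroup.center (GL (Fin n) F)) := by
      rw [h4]
    rw [QuotientGroup.mk_mul _ g' z, hz, mul_one] at h5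
    exact h5

end

set_option maxHeartbeats 1600000 in
theorem pgl_involution_class_count {F : Type*} [Field F] [Fintype F] {q : ℕ}
    (hF : Fintype.card F = q) (hq : Odd q) {n : ℕ} (hn : 2 ≤ n) :
    Nat.card {C : ConjClasses (GL (Fin n) F ⧸ Subgroup.center (GL (Fin n) F)) //
      ∃ g : GL (Fin n) F ⧸ Subgroup.center (GL (Fin n) F),
        ConjClasses.mk g = C ∧ orderOf g = 2} = n / 2 + (if Even n then 1 else 0) := by
  classical
  haveI : Nonempty (Fin n) := ⟨⟨0, by omega⟩⟩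
  have h2 : (2 : F) ≠ 0 := two_ne_zero_of_card_odd hF hq
  obtain ⟨c₀, hc₀0, hc₀ns, hdich⟩ := nonsquare_dichotomy h2
  obtain ⟨r₀, hr₀⟩ : ∃ r₀ : Matrix (Fin n) (Fin n) F, Even n → r₀ * r₀ = c₀ • 1 := by
    by_cases he : Even n
    · obtain ⟨r, hr⟩ := quad_rep he c₀
      exact ⟨r, fun _ => hr⟩
    · exact ⟨1, fun h => absurd h he⟩
  obtain ⟨repM, hrepM0, hrepM1⟩ : ∃ repM : ℕ → Matrix (Fin n) (Fin n) F,
      repM 0 = r₀ ∧ ∀ j, 1 ≤ j → repM j = Dk F n j :=
    ⟨fun j => if j = 0 then r₀ else Dk F n j, if_pos rfl, fun j hj => if_neg (by omega)⟩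
  obtain ⟨J, hJ⟩ : ∃ J : Finset ℕ, ∀ j, j ∈ J ↔ (1 ≤ j ∧ j ≤ n / 2) ∨ (j = 0 ∧ Even n) := by
    refine ⟨(Finset.range (n / 2 + 1)).filter (fun j => 1 ≤ j ∨ Even n), fun j => ?_⟩
    rw [Finset.mem_filter, Finset.mem_range]
    constructor
    · rintro ⟨h1, h3 | h3⟩
      · exact Or.inl ⟨h3, by omega⟩
      · by_cases hj : j = 0
        · exact Or.inr ⟨hj, h3⟩
        · exact Or.inl ⟨by omega, by omega⟩
    · rintro (⟨h1, h3⟩ | ⟨h1, h3⟩)
      · exact ⟨by omega, Or.inl h1⟩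
      · exact ⟨by omega, Or.inr h3⟩
  have hJcard : J.card = n / 2 + (if Even n then 1 else 0) := by
    by_cases he : Even n
    · have h1 : J = Finset.range (n / 2 + 1) := by
        ext j
        rw [hJ, Finset.mem_range]
        constructor
        · rintro (⟨h1, h3⟩ | ⟨h1, h3⟩) <;> omega
        · intro h
          by_cases hj : j = 0
          · exact Or.inr ⟨hj, he⟩
          · exact Or.inl ⟨by omega, by omega⟩
      rw [h1, Finset.card_range, if_pos he]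
    · have h1 : J = Finset.Icc 1 (n / 2) := by
        ext j
        rw [hJ, Finset.mem_Icc]
        constructor
        · rintro (⟨h1, h3⟩ | ⟨h1, h3⟩)
          · exact ⟨h1, h3⟩
          · exact absurd h3 he
        · rintro ⟨h1, h3⟩
          exact Or.inl ⟨h1, h3⟩
      rw [h1, Nat.card_Icc, if_neg he]
      omega
  have hR1 : ∀ j ∈ J, ∃ c : F, c ≠ 0 ∧ repM j * repM j = c • 1 := by
    intro j hj
    rcases (hJ j).1 hj with ⟨h1, h3⟩ | ⟨h1, h3⟩
    · refine ⟨1, one_ne_zero, ?_⟩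
      rw [hrepM1 j h1, Dk_mul_self, one_smul]
    · refine ⟨c₀, hc₀0, ?_⟩
      rw [h1, hrepM0]
      exact hr₀ h3
  obtain ⟨i0, hi0⟩ : ∃ i0 : Fin n, (i0 : ℕ) = 0 := ⟨⟨0, by omega⟩, rfl⟩
  obtain ⟨i1, hi1⟩ : ∃ i1 : Fin n, (i1 : ℕ) = n - 1 := ⟨⟨n - 1, by omega⟩, rfl⟩
  have hR2 : ∀ j ∈ J, ¬ ∃ a : F, repM j = a • 1 := by
    intro j hj
    rintro ⟨a, ha⟩
    rcases (hJ j).1 hj with ⟨h1, h3⟩ | ⟨h1, h3⟩
    · rw [hrepM1 j h1] at ha
      have e0 := congrFun (congrFun ha i0) i0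
      have e1 := congrFun (congrFun ha i1) i1
      rw [Dk_apply_self, Matrix.smul_apply, Matrix.one_apply_eq, smul_eq_mul, mul_one] at e0 e1
      rw [hi0, if_pos (by omega)] at e0
      rw [hi1, if_neg (by omega)] at e1
      apply h2
      linear_combination e1 - e0
    · rw [h1, hrepM0] at ha
      apply hc₀ns
      refine ⟨a, ?_⟩
      have h4 := hr₀ h3
      rw [ha, smul_mul_smul_comm, mul_one] at h4
      exact (smul_one_inj _ _ h4).symm
  have hR3 : ∀ j ∈ J, ∀ j' ∈ J, PConj (repM j) (repM j') → j = j' := by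
    rintro j hj j' hj' ⟨P, P', ζ, hPP', hP'P, hζ, hPA⟩
    rcases (hJ j).1 hj with ⟨h1, h3⟩ | ⟨h1, h3⟩ <;>
      rcases (hJ j').1 hj' with ⟨h1', h3'⟩ | ⟨h1', h3'⟩
    · rw [hrepM1 j h1, hrepM1 j' h1'] at hPA
      have hsq := pconj_sq (1 : F) 1 (by rw [Dk_mul_self, one_smul]) (by rw [Dk_mul_self, one_smul])
        P P' ζ hPP' hPA
      have hz : (ζ - 1) * (ζ + 1) = 0 := by linear_combination -hsq
      rcases mul_eq_zero.1 hz with hz1 | hz1
      · have hζ1 : ζ = 1 := sub_eq_zero.1 hz1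
        rw [hζ1, one_smul] at hPA
        have h5 := rank_conj_eq P P' (1 - Dk F n j) (1 - Dk F n j') hPP'
          (by rw [mul_sub, sub_mul, mul_one, one_mul, hPA])
        rw [one_sub_Dk_rank h2 n j (by omega), one_sub_Dk_rank h2 n j' (by omega)] at h5
        exact h5
      · have hζ1 : ζ = -1 := eq_neg_of_add_eq_zero_left hz1
        rw [hζ1, neg_one_smul] at hPA
        have h5 := rank_conj_eq P P' (1 - Dk F n j) (1 + Dk F n j') hPP'
          (by rw [mul_sub, add_mul, mul_one, one_mul, hPA, sub_neg_eq_add])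
        rw [one_sub_Dk_rank h2 n j (by omega), one_add_Dk_rank h2 n j' (by omega)] at h5
        omega
    · exfalso
      rw [hrepM1 j h1, h1', hrepM0] at hPA
      have hsq := pconj_sq (1 : F) c₀ (by rw [Dk_mul_self, one_smul]) (hr₀ h3') P P' ζ hPP' hPA
      apply hc₀ns
      refine ⟨ζ⁻¹, ?_⟩
      field_simp
      linear_combination -hsq
    · exfalso
      rw [h1, hrepM0, hrepM1 j' h1'] at hPA
      have hsq := pconj_sq c₀ (1 : F) (hr₀ h3) (by rw [Dk_mul_self, one_smul]) P P' ζ hPP' hPA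
      apply hc₀ns
      exact ⟨ζ, by rw [hsq, mul_one]⟩
    · rw [h1, h1']
  have hR4 : ∀ (M : Matrix (Fin n) (Fin n) F) (c : F), c ≠ 0 → M * M = c • 1 →
      (¬ ∃ a : F, M = a • 1) → ∃ j ∈ J, PConj (repM j) M := by
    intro M c hc hMM hMns
    rcases hdich c hc with ⟨d, hd0, hcd⟩ | ⟨d, hd0, hcd⟩
    · have hg : (d⁻¹ • M) * (d⁻¹ • M) = 1 := by
        rw [smul_mul_smul_comm, hMM, smul_smul, hcd]
        have h5 : d⁻¹ * d⁻¹ * (d * d) = 1 := by field_simp
        rw [h5, one_smul]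
      have hg' : (-(d⁻¹ • M)) * (-(d⁻¹ • M)) = 1 := by rw [neg_mul_neg, hg]
      obtain ⟨k, hk, P, P', hPP', hP'P, hP⟩ := invol_diag h2 _ hg
      obtain ⟨k₂, hk₂, P₂, P₂', hPP₂', hP₂'P, hP₂⟩ := invol_diag h2 _ hg'
      have hr1 : (1 - d⁻¹ • M).rank = k := by
        rw [rank_conj_eq P P' (1 - d⁻¹ • M) (1 - Dk F n k) hPP'
          (by rw [mul_sub, sub_mul, mul_one, one_mul, hP]), one_sub_Dk_rank h2 n k hk]
      have hr2 : (1 - d⁻¹ • M).rank = n - k₂ := by
        rw [rank_conj_eq P₂ P₂' (1 - d⁻¹ • M) (1 + Dk F n k₂) hPP₂'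
          (by rw [mul_sub, add_mul, mul_one, one_mul, ← hP₂, mul_neg, sub_eq_add_neg]),
          one_add_Dk_rank h2 n k₂ hk₂]
      have hk0 : k ≠ 0 := by
        rintro rfl
        rw [Dk_zero, one_mul] at hP
        have h7 : d⁻¹ • M = 1 := by
          calc d⁻¹ • M = P' * (P * (d⁻¹ • M)) := by rw [← mul_assoc, hP'P, one_mul]
            _ = 1 := by rw [hP, hP'P]
        apply hMns
        refine ⟨d, ?_⟩
        calc M = d • (d⁻¹ • M) := by rw [smul_smul, mul_inv_cancel₀ hd0, one_smul]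
          _ = d • 1 := by rw [h7]
      have hk₂0 : k₂ ≠ 0 := by
        rintro rfl
        rw [Dk_zero, one_mul] at hP₂
        have h7 : -(d⁻¹ • M) = 1 := by
          calc -(d⁻¹ • M) = P₂' * (P₂ * (-(d⁻¹ • M))) := by rw [← mul_assoc, hP₂'P, one_mul]
            _ = 1 := by rw [hP₂, hP₂'P]
        apply hMns
        refine ⟨-d, ?_⟩
        calc M = (-d) • (-(d⁻¹ • M)) := by
              rw [smul_neg, neg_smul, neg_neg, smul_smul, mul_inv_cancel₀ hd0, one_smul]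
          _ = (-d) • 1 := by rw [h7]
      have hsum : k + k₂ = n := by omega
      by_cases hkle : k ≤ n / 2
      · refine ⟨k, (hJ k).2 (Or.inl ⟨by omega, hkle⟩), ?_⟩
        rw [hrepM1 k (by omega)]
        apply PConj.symm
        refine ⟨P, P', d, hPP', hP'P, hd0, ?_⟩
        calc P * M = d • (P * (d⁻¹ • M)) := by
              rw [Matrix.mul_smul, smul_smul, mul_inv_cancel₀ hd0, one_smul]
          _ = d • (Dk F n k * P) := by rw [hP]
      · refine ⟨k₂, (hJ k₂).2 (Or.inl ⟨by omega, by omega⟩), ?_⟩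
        rw [hrepM1 k₂ (by omega)]
        apply PConj.symm
        refine ⟨P₂, P₂', -d, hPP₂', hP₂'P, neg_ne_zero.2 hd0, ?_⟩
        calc P₂ * M = (-d) • (P₂ * (-(d⁻¹ • M))) := by
              rw [mul_neg, smul_neg, neg_smul, neg_neg, Matrix.mul_smul, smul_smul,
                mul_inv_cancel₀ hd0, one_smul]
          _ = (-d) • (Dk F n k₂ * P₂) := by rw [hP₂]
    · have hM1 : (d⁻¹ • M) * (d⁻¹ • M) = c₀ • 1 := by
        rw [smul_mul_smul_comm, hMM, smul_smul, hcd]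
        have h5 : d⁻¹ * d⁻¹ * (c₀ * (d * d)) = c₀ := by field_simp
        rw [h5]
      obtain ⟨m, hnm, β, hβ0, hβ1⟩ := quad_basis c₀ hc₀ns _ hM1
      have he : Even n := ⟨m, by omega⟩
      obtain ⟨m', hnm', β', hβ'0, hβ'1⟩ := quad_basis c₀ hc₀ns r₀ (hr₀ he)
      obtain rfl : m = m' := by omega
      obtain ⟨P, P', hPP', hP'P, hP⟩ :=
        conj_of_bases_quad c₀ r₀ (d⁻¹ • M) β' β hβ'0 hβ'1 hβ0 hβ1
      refine ⟨0, (hJ 0).2 (Or.inr ⟨rfl, he⟩), ?_⟩
      rw [hrepM0]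
      refine ⟨P, P', d⁻¹, hPP', hP'P, inv_ne_zero hd0, ?_⟩
      rw [hP, Matrix.smul_mul]
  have hex : ∀ j, ∃ g : GL (Fin n) F, j ∈ J → (g : Matrix (Fin n) (Fin n) F) = repM j := by
    intro j
    by_cases hj : j ∈ J
    · obtain ⟨c, hc0, hc⟩ := hR1 j hj
      refine ⟨⟨repM j, c⁻¹ • repM j, ?_, ?_⟩, fun _ => rfl⟩
      · rw [Matrix.mul_smul, hc, smul_smul, inv_mul_cancel₀ hc0, one_smul]
      · rw [Matrix.smul_mul, hc, smul_smul, inv_mul_cancel₀ hc0, one_smul]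
    · exact ⟨1, fun h => absurd h hj⟩
  choose repG hrepG using hex
  let Φ : ↥J → {C : ConjClasses (GL (Fin n) F ⧸ Subgroup.center (GL (Fin n) F)) //
      ∃ g : GL (Fin n) F ⧸ Subgroup.center (GL (Fin n) F),
        ConjClasses.mk g = C ∧ orderOf g = 2} :=
    fun j => ⟨ConjClasses.mk (repG j.1 : GL (Fin n) F ⧸ Subgroup.center (GL (Fin n) F)),
      (repG j.1 : GL (Fin n) F ⧸ Subgroup.center (GL (Fin n) F)), rfl,
      (pgl_order_two _).2 ⟨by
        obtain ⟨c, -, hc⟩ := hR1 j.1 j.2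
        exact ⟨c, by rw [hrepG j.1 j.2]; exact hc⟩, by
        rw [hrepG j.1 j.2]
        exact hR2 j.1 j.2⟩⟩
  have hΦ : Function.Bijective Φ := by
    constructor
    · intro j j' h
      have h1 : ConjClasses.mk (repG j.1 : GL (Fin n) F ⧸ Subgroup.center (GL (Fin n) F))
          = ConjClasses.mk (repG j'.1 : GL (Fin n) F ⧸ Subgroup.center (GL (Fin n) F)) :=
        congrArg Subtype.val h
      rw [ConjClasses.mk_eq_mk_iff_isConj, pgl_isConj (by omega), hrepG j.1 j.2,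
        hrepG j'.1 j'.2] at h1
      exact Subtype.ext (hR3 j.1 j.2 j'.1 j'.2 h1)
    · rintro ⟨C, x, rfl, hx⟩
      obtain ⟨g, rfl⟩ := QuotientGroup.mk_surjective x
      obtain ⟨⟨c, hc⟩, hns⟩ := (pgl_order_two g).1 hx
      have hc0 : c ≠ 0 := by
        rintro rfl
        rw [zero_smul] at hc
        have hu : IsUnit ((g : Matrix (Fin n) (Fin n) F) * (g : Matrix (Fin n) (Fin n) F)) :=
          (Units.isUnit g).mul (Units.isUnit g)
        rw [hc] at hu
        exact not_isUnit_zero hu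
      obtain ⟨j, hj, hconj⟩ := hR4 _ c hc0 hc hns
      refine ⟨⟨j, hj⟩, Subtype.ext ?_⟩
      show ConjClasses.mk (repG j : GL (Fin n) F ⧸ Subgroup.center (GL (Fin n) F))
        = ConjClasses.mk (g : GL (Fin n) F ⧸ Subgroup.center (GL (Fin n) F))
      rw [ConjClasses.mk_eq_mk_iff_isConj, pgl_isConj (by omega), hrepG j hj]
      exact hconj
  rw [← Nat.card_congr (Equiv.ofBijective Φ hΦ), Nat.card_eq_fintype_card, Fintype.card_coe,
    hJcard]

end Cfsg.Agent.Helper15
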