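import Mathlib
import Cfsg.Agent.Helper15.SpSemi4

set_option autoImplicit false

namespace Cfsg.Agent.Helper15
open Polynomial Matrix

universe u

theorem sp_charpoly_reverse {F : Type u} [Field F] {n : ℕ}
    (A : Matrix (Fin n ⊕ Fin n) (Fin n ⊕ Fin n) F)
    (hA : A ∈ Matrix.symplecticGroup (Fin n) F) : A.charpoly.reverse = A.charpoly := by
  classical
  rw [Matrix.reverse_charpoly]
  have hJ := SymplecticGroup.mem_iff'.1 hA
  have hdet : A.det = 1 := SymplecticGroup.det_eq_one hA
  have h1 : (A.map C)ᵀ * (Matrix.J (Fin n) F).map C * A.map C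
      = (Matrix.J (Fin n) F).map (C : F →+* F[X]) := by
    rw [← Matrix.transpose_map, ← Matrix.map_mul, ← Matrix.map_mul, hJ]
  have hcm : A.charmatrix = (X : F[X]) • (1 : Matrix (Fin n ⊕ Fin n) (Fin n ⊕ Fin n) F[X])
      - A.map C := by
    rw [Matrix.charmatrix, Matrix.scalar_apply, ← Matrix.smul_one_eq_diagonal]
    rfl
  have key : (A.charmatrix)ᵀ * (Matrix.J (Fin n) F).map C * A.map C
      = -((Matrix.J (Fin n) F).map (C : F →+* F[X])
        * (1 - (X : F[X]) • A.map (C : F →+* F[X]))) := by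
    rw [hcm, Matrix.transpose_sub, Matrix.transpose_smul, Matrix.transpose_one, Matrix.sub_mul,
      Matrix.sub_mul, h1, Matrix.smul_mul, Matrix.one_mul, Matrix.smul_mul, Matrix.mul_sub,
      Matrix.mul_one, Matrix.mul_smul]
    abel
  have hd := congrArg Matrix.det key
  rw [Matrix.det_mul, Matrix.det_mul, Matrix.det_transpose, Matrix.det_neg, Matrix.det_mul,
    Fintype.card_sum, Fintype.card_fin, Even.neg_one_pow ⟨n, rfl⟩, one_mul] at hd
  have hdA : (A.map (C : F →+* F[X])).det = 1 := by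
    have := RingHom.map_det (C : F →+* F[X]) A
    rw [hdet, map_one] at this
    exact this.symm
  have hdJ : ((Matrix.J (Fin n) F).map (C : F →+* F[X])).det
      * ((Matrix.J (Fin n) F).map (C : F →+* F[X])).det = 1 := by
    have := RingHom.map_det (C : F →+* F[X]) (Matrix.J (Fin n) F)
    have h2 : ((Matrix.J (Fin n) F).map (C : F →+* F[X])).det = C (Matrix.J (Fin n) F).det :=
      this.symm
    rw [h2, ← map_mul, Matrix.J_det_mul_J_det, map_one]
  rw [hdA, mul_one] at hd
  have hcp : A.charpoly = A.charmatrix.det := rfl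
  have hcr : A.charpolyRev = (1 - (X : F[X]) • A.map (C : F →+* F[X])).det := rfl
  rw [hcp, hcr]
  linear_combination (-((Matrix.J (Fin n) F).map (C : F →+* F[X])).det) * hd
    + (A.charmatrix.det - (1 - (X : F[X]) • A.map (C : F →+* F[X])).det) * hdJ

theorem sp_charpoly_natDegree {F : Type u} [Field F] {n : ℕ}
    (A : Matrix (Fin n ⊕ Fin n) (Fin n ⊕ Fin n) F) : A.charpoly.natDegree = 2 * n := by
  rw [Matrix.charpoly_natDegree_eq_dim, Fintype.card_sum, Fintype.card_fin]
  ring

theorem charpoly_pow_card_pow {F : Type u} [Field F] [Fintype F] {ι : Type*} [Fintype ι]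
    [DecidableEq ι] (M : Matrix ι ι F) (j : ℕ) :
    (M ^ (Fintype.card F ^ j)).charpoly = M.charpoly := by
  induction j with
  | zero => rw [pow_zero, pow_one]
  | succ j ih => rw [pow_succ, pow_mul, FiniteField.Matrix.charpoly_pow_card, ih]

theorem sp_semisimple_part {F : Type u} [Field F] [Fintype F] (p : ℕ) [Fact p.Prime] [CharP F p]
    {n : ℕ} (g : Matrix.symplecticGroup (Fin n) F) :
    ∃ h : Matrix.symplecticGroup (Fin n) F, (orderOf h).Coprime p ∧
      (h : Matrix (Fin n ⊕ Fin n) (Fin n ⊕ Fin n) F).charpoly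
        = (g : Matrix (Fin n ⊕ Fin n) (Fin n ⊕ Fin n) F).charpoly := by
  classical
  have hp : p.Prime := Fact.out
  obtain ⟨e₀, -, hq⟩ := FiniteField.card F p
  have ho : orderOf g ≠ 0 := (orderOf_pos g).ne'
  obtain ⟨v, m', hm', hom⟩ := Nat.exists_eq_pow_mul_and_not_dvd ho p hp.ne_one
  have hcop : Nat.Coprime m' p := ((Nat.Prime.coprime_iff_not_dvd hp).2 hm').symm
  refine ⟨g ^ (Fintype.card F ^ v), ?_, ?_⟩
  · have e1 : Fintype.card F ^ v = p ^ v * p ^ ((e₀ : ℕ) * v - v) := by
      rw [hq, ← pow_mul, ← pow_add]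
      congr 1
      have := Nat.le_mul_of_pos_left v e₀.pos
      omega
    rw [e1, pow_mul]
    have e2 : orderOf (g ^ (p ^ v)) = m' := by
      rw [orderOf_pow_of_dvd (pow_ne_zero _ hp.ne_zero) (by rw [hom]; exact dvd_mul_right _ _),
        hom, Nat.mul_div_cancel_left _ (pow_pos hp.pos _)]
    have e3 : (orderOf (g ^ (p ^ v))).Coprime (p ^ ((e₀ : ℕ) * v - v)) := by
      rw [e2]
      exact Nat.Coprime.pow_right _ hcop
    rw [e3.orderOf_pow, e2]
    exact hcop
  · rw [SubmonoidClass.coe_pow]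
    exact charpoly_pow_card_pow _ v

end Cfsg.Agent.Helper15
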