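import Mathlib
import Cfsg.Agent.Helper15.SpCount1
import Cfsg.Agent.Helper15.SympBasis

set_option autoImplicit false

namespace Cfsg.Agent.Helper15
open Polynomial Matrix

universe u

theorem palin_model {F : Type u} [Field F] (n : ℕ) (hn : 1 ≤ n) (f : F[X]) (hf : f.Monic)
    (hdeg : f.natDegree = 2 * n) (hrev : f.reverse = f) :
    ∃ (B : LinearMap.BilinForm F (AdjoinRoot f)),
      (∀ a, B a a = 0) ∧ (∀ a, (∀ b, B a b = 0) → a = 0) ∧
      (∀ a b, B (AdjoinRoot.root f * a) (AdjoinRoot.root f * b) = B a b) := by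
  classical
  have hf0 : f.coeff 0 = 1 := by
    have h := Polynomial.coeff_zero_reverse f
    rw [hrev] at h
    rw [h]
    exact hf.leadingCoeff
  have hdegf : f.degree = ((2 * n : ℕ) : WithBot ℕ) := by
    rw [Polynomial.degree_eq_natDegree hf.ne_zero, hdeg]
  have h2 : AdjoinRoot.mk f (divX f) * AdjoinRoot.root f + 1 = 0 := by
    have h3 := congrArg (AdjoinRoot.mk f) (Polynomial.divX_mul_X_add f)
    rw [hf0, map_add, map_mul, AdjoinRoot.mk_X, Polynomial.C_1, map_one, AdjoinRoot.mk_self]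
      at h3
    exact h3
  obtain ⟨y, hy⟩ : ∃ y : AdjoinRoot f, y = AdjoinRoot.mk f (-divX f) := ⟨_, rfl⟩
  have hxy : AdjoinRoot.root f * y = 1 := by
    rw [hy, map_neg]
    linear_combination (-1 : AdjoinRoot f) * h2
  have hyx : y * AdjoinRoot.root f = 1 := by rw [mul_comm]; exact hxy
  have hpow1 : ∀ a b : ℕ, AdjoinRoot.root f ^ (a + b) * y ^ b = AdjoinRoot.root f ^ a := by
    intro a b
    rw [pow_add, mul_assoc, ← mul_pow, hxy, one_pow, mul_one]
  have hpow2 : ∀ b : ℕ, AdjoinRoot.root f ^ b * y ^ b = 1 := by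
    intro b
    rw [← mul_pow, hxy, one_pow]
  have h5 : f.eval₂ (AdjoinRoot.of f) y = 0 := by
    letI : Invertible (AdjoinRoot.root f) := ⟨y, hyx, hxy⟩
    have h4 := Polynomial.eval₂_reverse_mul_pow (AdjoinRoot.of f) (AdjoinRoot.root f) f
    rw [hrev, AdjoinRoot.eval₂_root] at h4
    have h4' : f.eval₂ (AdjoinRoot.of f) y * AdjoinRoot.root f ^ f.natDegree = 0 := h4
    have h6 : f.eval₂ (AdjoinRoot.of f) y * AdjoinRoot.root f ^ f.natDegree * y ^ f.natDegree
        = 0 := by rw [h4', zero_mul]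
    rw [mul_assoc, hpow2, mul_one] at h6
    exact h6
  obtain ⟨σ, hσx⟩ : ∃ σ : AdjoinRoot f →ₐ[F] AdjoinRoot f, σ (AdjoinRoot.root f) = y :=
    ⟨AdjoinRoot.liftAlgHom f (Algebra.ofId F (AdjoinRoot f)) y h5,
      AdjoinRoot.liftAlgHom_root _ _ _ _⟩
  have hσy : σ y = AdjoinRoot.root f := by
    have h7 : y * σ y = 1 := by
      have h70 := congrArg σ hxy
      rw [map_mul, hσx, map_one] at h70
      exact h70
    calc σ y = (AdjoinRoot.root f * y) * σ y := by rw [hxy, one_mul]
      _ = AdjoinRoot.root f * (y * σ y) := mul_assoc _ _ _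
      _ = AdjoinRoot.root f := by rw [h7, mul_one]
  have hσσ : ∀ a, σ (σ a) = a := by
    have h8 : σ.comp σ = AlgHom.id F (AdjoinRoot f) := by
      apply AdjoinRoot.algHom_ext
      rw [AlgHom.comp_apply, hσx, hσy]
      rfl
    intro a
    exact DFunLike.congr_fun h8 a
  obtain ⟨lam, hlam⟩ : ∃ lam : AdjoinRoot f →ₗ[F] F,
      ∀ r : F[X], r.degree < f.degree → lam (AdjoinRoot.mk f r) = r.coeff (2 * n - 1) := by
    refine ⟨(Polynomial.lcoeff F (2 * n - 1)).comp (AdjoinRoot.modByMonicHom hf), ?_⟩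
    intro r hr
    show ((AdjoinRoot.modByMonicHom hf) (AdjoinRoot.mk f r)).coeff (2 * n - 1) = _
    rw [AdjoinRoot.modByMonicHom_mk, (Polynomial.modByMonic_eq_self_iff hf).2 hr]
  have hl1 : ∀ k, k < 2 * n → lam (AdjoinRoot.root f ^ k) = if 2 * n - 1 = k then 1 else 0 := by
    intro k hk
    have h9 : AdjoinRoot.root f ^ k = AdjoinRoot.mk f (X ^ k) := by
      rw [map_pow, AdjoinRoot.mk_X]
    rw [h9, hlam _ (by rw [Polynomial.degree_X_pow, hdegf]; exact_mod_cast hk),
      Polynomial.coeff_X_pow]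
  have hl2 : lam y = -1 := by
    rw [hy, hlam _ (by rw [Polynomial.degree_neg]; exact Polynomial.degree_divX_lt hf.ne_zero),
      Polynomial.coeff_neg, Polynomial.coeff_divX]
    have h10 : 2 * n - 1 + 1 = f.natDegree := by omega
    rw [h10, hf.coeff_natDegree]
  have hl3 : ∀ a : AdjoinRoot f, (∀ c, lam (a * c) = 0) → a = 0 := by
    intro a ha
    by_contra hne
    obtain ⟨g₀, rfl⟩ := AdjoinRoot.mk_surjective a
    have hr1 : AdjoinRoot.mk f (g₀ %ₘ f) = AdjoinRoot.mk f g₀ := by
      have := AdjoinRoot.mk_leftInverse hf (AdjoinRoot.mk f g₀)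
      rw [AdjoinRoot.modByMonicHom_mk] at this
      exact this
    have hr2 : g₀ %ₘ f ≠ 0 := by
      intro h0
      rw [h0, map_zero] at hr1
      exact hne hr1.symm
    have hr3 : (g₀ %ₘ f).degree < f.degree := Polynomial.degree_modByMonic_lt g₀ hf
    have hr4 : (g₀ %ₘ f).natDegree < 2 * n := by
      have := (Polynomial.natDegree_lt_natDegree_iff hr2).2 hr3
      omega
    have h11 := ha (AdjoinRoot.root f ^ (2 * n - 1 - (g₀ %ₘ f).natDegree))
    have h12 : AdjoinRoot.mk f g₀ * AdjoinRoot.root f ^ (2 * n - 1 - (g₀ %ₘ f).natDegree)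
        = AdjoinRoot.mk f ((g₀ %ₘ f) * X ^ (2 * n - 1 - (g₀ %ₘ f).natDegree)) := by
      rw [map_mul, map_pow, AdjoinRoot.mk_X, hr1]
    have h13 : ((g₀ %ₘ f) * X ^ (2 * n - 1 - (g₀ %ₘ f).natDegree)).degree < f.degree := by
      rw [Polynomial.degree_mul, Polynomial.degree_X_pow, hdegf,
        Polynomial.degree_eq_natDegree hr2]
      have : (g₀ %ₘ f).natDegree + (2 * n - 1 - (g₀ %ₘ f).natDegree) < 2 * n := by omega
      exact_mod_cast this
    rw [h12, hlam _ h13] at h11
    have h14 : 2 * n - 1 - (2 * n - 1 - (g₀ %ₘ f).natDegree) = (g₀ %ₘ f).natDegree := by omega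
    rw [Polynomial.coeff_mul_X_pow', if_pos (by omega), h14] at h11
    exact hr2 (Polynomial.leadingCoeff_eq_zero.1 h11)
  have hu : AdjoinRoot.root f ^ (n - 1) * y ^ (n - 1) = 1 := hpow2 (n - 1)
  have ht1 : lam (AdjoinRoot.root f ^ (n - 1)) = 0 := by
    rw [hl1 _ (by omega), if_neg (by omega)]
  have ht2 : ∀ a, lam (AdjoinRoot.root f ^ (n - 1) * σ a)
      = - lam (AdjoinRoot.root f ^ (n - 1) * a) := by
    have hΦ : (lam.comp ((LinearMap.mulLeft F (AdjoinRoot.root f ^ (n - 1))).comp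
          (σ.toLinearMap.comp (LinearMap.mulRight F (y ^ (n - 1))))))
        + (lam.comp ((LinearMap.mulLeft F (AdjoinRoot.root f ^ (n - 1))).comp
          (LinearMap.mulRight F (y ^ (n - 1))))) = 0 := by
      apply (AdjoinRoot.powerBasis hf.ne_zero).basis.ext
      intro i
      have hi : (i : ℕ) < 2 * n := by
        have h := i.2
        have hd : (AdjoinRoot.powerBasis hf.ne_zero).dim = 2 * n := by
          rw [AdjoinRoot.powerBasis_dim, hdeg]
        omega
      rw [PowerBasis.coe_basis, AdjoinRoot.powerBasis_gen]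
      show lam (AdjoinRoot.root f ^ (n - 1) * σ (AdjoinRoot.root f ^ (i : ℕ) * y ^ (n - 1)))
        + lam (AdjoinRoot.root f ^ (n - 1) * (AdjoinRoot.root f ^ (i : ℕ) * y ^ (n - 1))) = 0
      have e1 : AdjoinRoot.root f ^ (n - 1) * (AdjoinRoot.root f ^ (i : ℕ) * y ^ (n - 1))
          = AdjoinRoot.root f ^ (i : ℕ) := by
        rw [mul_left_comm, hu, mul_one]
      have e2 : AdjoinRoot.root f ^ (n - 1) * σ (AdjoinRoot.root f ^ (i : ℕ) * y ^ (n - 1))
          = AdjoinRoot.root f ^ (2 * n - 2) * y ^ (i : ℕ) := by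
        rw [map_mul, map_pow, map_pow, hσx, hσy]
        have e8 : n - 1 + (n - 1) = 2 * n - 2 := by omega
        rw [← e8, pow_add]
        ring
      rw [e1, e2, hl1 _ hi]
      by_cases hik : (i : ℕ) = 2 * n - 1
      · have e3 : AdjoinRoot.root f ^ (2 * n - 2) * y ^ (i : ℕ) = y := by
          have e4 : (i : ℕ) = (2 * n - 2) + 1 := by omega
          rw [e4, pow_succ, ← mul_assoc, hpow2, one_mul]
        rw [e3, hl2, if_pos hik.symm]
        ring
      · have e3 : AdjoinRoot.root f ^ (2 * n - 2) * y ^ (i : ℕ)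
            = AdjoinRoot.root f ^ (2 * n - 2 - (i : ℕ)) := by
          have e4 : 2 * n - 2 = (2 * n - 2 - (i : ℕ)) + (i : ℕ) := by omega
          conv_lhs => rw [e4]
          exact hpow1 _ _
        rw [e3, hl1 _ (by omega), if_neg (by omega), if_neg (fun h => hik h.symm), add_zero]
    intro a
    have h15 := DFunLike.congr_fun hΦ (a * AdjoinRoot.root f ^ (n - 1))
    have h16 : a * AdjoinRoot.root f ^ (n - 1) * y ^ (n - 1) = a := by
      rw [mul_assoc, hu, mul_one]
    have h17 : lam (AdjoinRoot.root f ^ (n - 1)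
          * σ (a * AdjoinRoot.root f ^ (n - 1) * y ^ (n - 1)))
        + lam (AdjoinRoot.root f ^ (n - 1) * (a * AdjoinRoot.root f ^ (n - 1) * y ^ (n - 1)))
        = 0 := h15
    rw [h16] at h17
    exact eq_neg_of_add_eq_zero_left h17
  obtain ⟨B, hB⟩ : ∃ B : LinearMap.BilinForm F (AdjoinRoot f),
      ∀ a b, B a b = lam (AdjoinRoot.root f ^ (n - 1) * a * σ b) :=
    ⟨LinearMap.mk₂ F (fun a b => lam (AdjoinRoot.root f ^ (n - 1) * a * σ b))
      (by intro a₁ a₂ b; rw [mul_add, add_mul, map_add])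
      (by intro c a b; rw [mul_smul_comm, smul_mul_assoc, map_smul])
      (by intro a b₁ b₂; rw [map_add, mul_add, map_add])
      (by intro c a b; rw [map_smul, mul_smul_comm, map_smul]),
      fun a b => rfl⟩
  have hskew : ∀ a b, B b a = - B a b := by
    intro a b
    rw [hB, hB]
    have e5 : AdjoinRoot.root f ^ (n - 1) * b * σ a
        = AdjoinRoot.root f ^ (n - 1) * σ (a * σ b) := by
      rw [map_mul, hσσ]
      ring
    rw [e5, ht2, mul_assoc]
  have hpk : ∀ k : ℕ, B (AdjoinRoot.root f ^ k) (AdjoinRoot.root f ^ k) = 0 := by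
    intro k
    rw [hB, map_pow, hσx, mul_assoc, hpow2, mul_one, ht1]
  have hadd : ∀ a b, B a a = 0 → B b b = 0 → B (a + b) (a + b) = 0 := by
    intro a b ha hb
    simp only [map_add, LinearMap.add_apply]
    rw [ha, hb, hskew a b]
    ring
  have hsmul : ∀ (c : F) a, B a a = 0 → B (c • a) (c • a) = 0 := by
    intro c a ha
    simp only [map_smul, LinearMap.smul_apply]
    rw [ha, smul_zero, smul_zero]
  have halt : ∀ a, B a a = 0 := by
    intro a
    induction a using AdjoinRoot.induction_on with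
    | ih r =>
      induction r using Polynomial.induction_on' with
      | add p q hp hq =>
        rw [map_add]
        exact hadd _ _ hp hq
      | monomial k c =>
        have e6 : AdjoinRoot.mk f (monomial k c) = c • AdjoinRoot.root f ^ k := by
          rw [← Polynomial.C_mul_X_pow_eq_monomial, map_mul, map_pow, AdjoinRoot.mk_X,
            AdjoinRoot.mk_C, Algebra.smul_def]
          rfl
        rw [e6]
        exact hsmul _ _ (hpk k)
  refine ⟨B, halt, ?_, ?_⟩
  · intro a ha
    have h18 : AdjoinRoot.root f ^ (n - 1) * a = 0 := by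
      apply hl3
      intro c
      have := ha (σ c)
      rw [hB, hσσ] at this
      exact this
    calc a = (AdjoinRoot.root f ^ (n - 1) * y ^ (n - 1)) * a := by rw [hu, one_mul]
      _ = y ^ (n - 1) * (AdjoinRoot.root f ^ (n - 1) * a) := by ring
      _ = 0 := by rw [h18, mul_zero]
  · intro a b
    rw [hB, hB, map_mul σ, hσx]
    have e7 : AdjoinRoot.root f ^ (n - 1) * (AdjoinRoot.root f * a) * (y * σ b)
        = (AdjoinRoot.root f * y) * (AdjoinRoot.root f ^ (n - 1) * a * σ b) := by ring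
    rw [e7, hxy, one_mul]

theorem palin_sp_exists {F : Type u} [Field F] (n : ℕ) (hn : 1 ≤ n) (f : F[X]) (hf : f.Monic)
    (hdeg : f.natDegree = 2 * n) (hrev : f.reverse = f) :
    ∃ g : Matrix.symplecticGroup (Fin n) F,
      (g : Matrix (Fin n ⊕ Fin n) (Fin n ⊕ Fin n) F).charpoly = f := by
  classical
  haveI : Module.Finite F (AdjoinRoot f) := hf.finite_adjoinRoot
  obtain ⟨B, halt, hnd, hiso⟩ := palin_model n hn f hf hdeg hrev
  have hfin : Module.finrank F (AdjoinRoot f) = 2 * n := by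
    rw [(AdjoinRoot.powerBasis hf.ne_zero).finrank, AdjoinRoot.powerBasis_dim, hdeg]
  obtain ⟨e, he⟩ := exists_symp_equiv B halt hnd hfin
  have he' : ∀ v w, spFormS n F (e v) (e w) = B v w := fun v w => by rw [spFormS_apply, he]
  obtain ⟨G, hG, hGc⟩ : ∃ G : (Fin n ⊕ Fin n → F) →ₗ[F] (Fin n ⊕ Fin n → F),
      (∀ v, G (e v) = e (AdjoinRoot.root f * v)) ∧ G.charpoly = f := by
    refine ⟨e.conj (Algebra.lmul F (AdjoinRoot f) (AdjoinRoot.root f)), fun v => ?_, ?_⟩
    · rw [LinearEquiv.conj_apply]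
      simp
    · rw [LinearEquiv.charpoly_conj]
      have h5 := _root_.charpoly_leftMulMatrix (AdjoinRoot.powerBasis hf.ne_zero)
      rw [AdjoinRoot.minpoly_powerBasis_gen_of_monic hf, Algebra.leftMulMatrix_apply,
        LinearMap.charpoly_toMatrix] at h5
      exact h5
  have hGiso : ∀ u w, spFormS n F (G u) (G w) = spFormS n F u w := by
    intro u w
    obtain ⟨u, rfl⟩ := e.surjective u
    obtain ⟨w, rfl⟩ := e.surjective w
    rw [hG, hG, he', he', hiso]
  have hcol : ∀ k : Fin n ⊕ Fin n,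
      (fun i => LinearMap.toMatrix' G i k) = G (Pi.single k 1) := by
    intro k
    funext i
    rw [LinearMap.toMatrix'_apply]
  have hcol1 : ∀ k : Fin n ⊕ Fin n,
      (fun i => (1 : Matrix (Fin n ⊕ Fin n) (Fin n ⊕ Fin n) F) i k) = Pi.single k 1 := by
    intro k
    funext i
    rw [Matrix.one_apply, Pi.single_apply]
  have hmem : LinearMap.toMatrix' G ∈ Matrix.symplecticGroup (Fin n) F := by
    rw [mem_sp_iff_colsS]
    intro k l
    rw [hcol, hcol, hGiso]
    have h1 := (mem_sp_iff_colsS n (1 : Matrix (Fin n ⊕ Fin n) (Fin n ⊕ Fin n) F)).1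
      (one_mem _) k l
    rw [hcol1, hcol1] at h1
    exact h1
  refine ⟨⟨_, hmem⟩, ?_⟩
  show (LinearMap.toMatrix' G).charpoly = f
  rw [← hGc, ← Matrix.charpoly_toLin', Matrix.toLin'_toMatrix']

end Cfsg.Agent.Helper15
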