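import Mathlib
import Cfsg.Agent.Helper15.SpCount2

set_option autoImplicit false

namespace Cfsg.Agent.Helper15
open Polynomial Matrix

universe u

noncomputable def palA {F : Type u} [Field F] {n : ℕ} (c : Fin n → F) (k : Fin (2 * n)) : F :=
  if k.val = 0 then 1
  else if k.val ≤ n then (if h : k.val - 1 < n then c ⟨k.val - 1, h⟩ else 0)
  else (if h : 2 * n - k.val - 1 < n then c ⟨2 * n - k.val - 1, h⟩ else 0)

noncomputable def palPoly {F : Type u} [Field F] {n : ℕ} (c : Fin n → F) : F[X] :=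
  polyOf (palA c)

theorem palPoly_monic {F : Type u} [Field F] {n : ℕ} (c : Fin n → F) : (palPoly c).Monic :=
  polyOf_monic _

theorem palPoly_natDegree {F : Type u} [Field F] {n : ℕ} (c : Fin n → F) :
    (palPoly c).natDegree = 2 * n := polyOf_natDegree _

theorem palPoly_coeff {F : Type u} [Field F] {n : ℕ} (c : Fin n → F) (k : ℕ) (hk : k < 2 * n) :
    (palPoly c).coeff k = palA c ⟨k, hk⟩ := polyOf_coeff (palA c) ⟨k, hk⟩

theorem palPoly_coeff_top {F : Type u} [Field F] {n : ℕ} (c : Fin n → F) :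
    (palPoly c).coeff (2 * n) = 1 := by
  have h := (palPoly_monic c).coeff_natDegree
  rw [palPoly_natDegree] at h
  exact h

theorem palA_low {F : Type u} [Field F] {n : ℕ} (c : Fin n → F) (k : Fin (2 * n))
    (h0 : k.val ≠ 0) (h1 : k.val ≤ n) (h : k.val - 1 < n) : palA c k = c ⟨k.val - 1, h⟩ := by
  unfold palA
  rw [if_neg h0, if_pos h1, dif_pos h]

theorem palA_high {F : Type u} [Field F] {n : ℕ} (c : Fin n → F) (k : Fin (2 * n))
    (h0 : k.val ≠ 0) (h1 : ¬ k.val ≤ n) (h : 2 * n - k.val - 1 < n) :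
    palA c k = c ⟨2 * n - k.val - 1, h⟩ := by
  unfold palA
  rw [if_neg h0, if_neg h1, dif_pos h]

theorem palPoly_coeff_symm {F : Type u} [Field F] {n : ℕ} (c : Fin n → F) (k : ℕ)
    (hk : k ≤ 2 * n) : (palPoly c).coeff (2 * n - k) = (palPoly c).coeff k := by
  rcases Nat.eq_zero_or_pos k with rfl | hk0
  · rw [Nat.sub_zero, palPoly_coeff_top]
    rcases Nat.eq_zero_or_pos n with rfl | hn
    · exact (palPoly_coeff_top c).symm
    · rw [palPoly_coeff c 0 (by omega)]
      unfold palA
      rw [if_pos rfl]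
  · rcases Nat.lt_or_ge k (2 * n) with hlt | hge
    · rw [palPoly_coeff c k hlt, palPoly_coeff c (2 * n - k) (by omega)]
      rcases lt_trichotomy k n with h1 | h1 | h1
      · rw [palA_high c ⟨2 * n - k, by omega⟩ (by show 2 * n - k ≠ 0; omega)
          (by show ¬ 2 * n - k ≤ n; omega) (by show 2 * n - (2 * n - k) - 1 < n; omega),
          palA_low c ⟨k, hlt⟩ (by show k ≠ 0; omega) (by show k ≤ n; omega)
          (by show k - 1 < n; omega)]
        congr 1
        apply Fin.ext
        show 2 * n - (2 * n - k) - 1 = k - 1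
        omega
      · congr 1
        apply Fin.ext
        show 2 * n - k = k
        omega
      · rw [palA_low c ⟨2 * n - k, by omega⟩ (by show 2 * n - k ≠ 0; omega)
          (by show 2 * n - k ≤ n; omega) (by show 2 * n - k - 1 < n; omega),
          palA_high c ⟨k, hlt⟩ (by show k ≠ 0; omega) (by show ¬ k ≤ n; omega)
          (by show 2 * n - k - 1 < n; omega)]
    · have e : k = 2 * n := by omega
      subst e
      rw [Nat.sub_self, palPoly_coeff_top, palPoly_coeff c 0 (by omega)]
      unfold palA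
      rw [if_pos rfl]

theorem palPoly_reverse {F : Type u} [Field F] {n : ℕ} (c : Fin n → F) :
    (palPoly c).reverse = palPoly c := by
  ext k
  rcases Nat.lt_or_ge (2 * n) k with hk | hk
  · rw [coeff_eq_zero_of_natDegree_lt, coeff_eq_zero_of_natDegree_lt]
    · rw [palPoly_natDegree]; exact hk
    · have := Polynomial.reverse_natDegree_le (palPoly c)
      rw [palPoly_natDegree] at this
      omega
  · rw [Polynomial.coeff_reverse, palPoly_natDegree, Polynomial.revAt_le hk,
      palPoly_coeff_symm c k hk]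

theorem palPoly_coeff_succ {F : Type u} [Field F] {n : ℕ} (c : Fin n → F) (i : Fin n) :
    (palPoly c).coeff (i.val + 1) = c i := by
  have hi := i.2
  rw [palPoly_coeff c (i.val + 1) (by omega)]
  unfold palA
  simp only
  rw [if_neg (by omega), if_pos (by omega), dif_pos (by omega)]
  congr 1

theorem palPoly_injective {F : Type u} [Field F] {n : ℕ} {c c' : Fin n → F}
    (h : palPoly c = palPoly c') : c = c' := by
  funext i
  rw [← palPoly_coeff_succ c i, ← palPoly_coeff_succ c' i, h]

theorem palPoly_of_sp {F : Type u} [Field F] {n : ℕ}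
    (A : Matrix (Fin n ⊕ Fin n) (Fin n ⊕ Fin n) F)
    (hA : A ∈ Matrix.symplecticGroup (Fin n) F) :
    palPoly (fun i : Fin n => A.charpoly.coeff (i.val + 1)) = A.charpoly := by
  have hrev := sp_charpoly_reverse A hA
  have hd := sp_charpoly_natDegree A
  have hsymm : ∀ k, k ≤ 2 * n → A.charpoly.coeff (2 * n - k) = A.charpoly.coeff k := by
    intro k hk
    conv_rhs => rw [← hrev]
    rw [Polynomial.coeff_reverse, hd, Polynomial.revAt_le hk]
  have htop : A.charpoly.coeff (2 * n) = 1 := by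
    have h := (Matrix.charpoly_monic A).coeff_natDegree
    rw [hd] at h
    exact h
  apply monic_ext_low _ _ (palPoly_monic _) (Matrix.charpoly_monic A) (palPoly_natDegree _) hd
  intro k
  have hk := k.2
  rw [palPoly_coeff _ k.val hk]
  unfold palA
  simp only
  by_cases h0 : k.val = 0
  · rw [if_pos h0, h0, ← htop]
    have := hsymm 0 (by omega)
    rw [Nat.sub_zero] at this
    exact this
  · rw [if_neg h0]
    by_cases h1 : k.val ≤ n
    · rw [if_pos h1, dif_pos (by omega)]
      show A.charpoly.coeff (k.val - 1 + 1) = _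
      congr 1
      omega
    · rw [if_neg h1, dif_pos (by omega)]
      show A.charpoly.coeff (2 * n - k.val - 1 + 1) = _
      have e : 2 * n - k.val - 1 + 1 = 2 * n - k.val := by omega
      rw [e, hsymm k.val (by omega)]

theorem palin_sp_exists' {F : Type u} [Field F] (n : ℕ) (f : F[X]) (hf : f.Monic)
    (hdeg : f.natDegree = 2 * n) (hrev : f.reverse = f) :
    ∃ g : Matrix.symplecticGroup (Fin n) F,
      (g : Matrix (Fin n ⊕ Fin n) (Fin n ⊕ Fin n) F).charpoly = f := by
  rcases Nat.eq_zero_or_pos n with rfl | hn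
  · refine ⟨1, ?_⟩
    have h1 : f = 1 := Polynomial.eq_one_of_monic_natDegree_zero hf (by rw [hdeg])
    rw [h1]
    apply Polynomial.eq_one_of_monic_natDegree_zero (Matrix.charpoly_monic _)
    rw [sp_charpoly_natDegree]
  · exact palin_sp_exists n hn f hf hdeg hrev

theorem sp_charpoly_of_isConj {F : Type u} [Field F] {n : ℕ}
    (a b : Matrix.symplecticGroup (Fin n) F) (h : IsConj a b) :
    (a : Matrix (Fin n ⊕ Fin n) (Fin n ⊕ Fin n) F).charpoly
      = (b : Matrix (Fin n ⊕ Fin n) (Fin n ⊕ Fin n) F).charpoly := by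
  obtain ⟨c, hc⟩ := isConj_iff.1 h
  have hb : (b : Matrix (Fin n ⊕ Fin n) (Fin n ⊕ Fin n) F)
      = (c : Matrix (Fin n ⊕ Fin n) (Fin n ⊕ Fin n) F)
        * (a : Matrix (Fin n ⊕ Fin n) (Fin n ⊕ Fin n) F)
        * ((c⁻¹ : Matrix.symplecticGroup (Fin n) F) :
          Matrix (Fin n ⊕ Fin n) (Fin n ⊕ Fin n) F) := (congrArg Subtype.val hc).symm
  have hci1 : ((c⁻¹ : Matrix.symplecticGroup (Fin n) F) :
      Matrix (Fin n ⊕ Fin n) (Fin n ⊕ Fin n) F)
      * (c : Matrix (Fin n ⊕ Fin n) (Fin n ⊕ Fin n) F) = 1 :=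
    congrArg Subtype.val (inv_mul_cancel c)
  rw [hb, Matrix.charpoly_mul_comm, ← Matrix.mul_assoc, hci1, Matrix.one_mul]

theorem sp_semisimple_class_count {F : Type u} [Field F] [Fintype F] (p : ℕ) [Fact p.Prime]
    [CharP F p] (n : ℕ) :
    Nat.card {c : ConjClasses (Matrix.symplecticGroup (Fin n) F) //
      ∃ g : Matrix.symplecticGroup (Fin n) F, ConjClasses.mk g = c ∧ (orderOf g).Coprime p}
      = Fintype.card F ^ n := by
  classical
  have hex : ∀ c : Fin n → F, ∃ h : Matrix.symplecticGroup (Fin n) F,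
      (orderOf h).Coprime p ∧
        (h : Matrix (Fin n ⊕ Fin n) (Fin n ⊕ Fin n) F).charpoly = palPoly c := by
    intro c
    obtain ⟨g, hg⟩ := palin_sp_exists' n (palPoly c) (palPoly_monic c) (palPoly_natDegree c)
      (palPoly_reverse c)
    obtain ⟨h, hh1, hh2⟩ := sp_semisimple_part p g
    exact ⟨h, hh1, hh2.trans hg⟩
  choose rep hrep1 hrep2 using hex
  obtain ⟨Θ, hΘ⟩ : ∃ Θ : (Fin n → F) → {c : ConjClasses (Matrix.symplecticGroup (Fin n) F) //
      ∃ g : Matrix.symplecticGroup (Fin n) F, ConjClasses.mk g = c ∧ (orderOf g).Coprime p},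
      ∀ c, (Θ c).1 = ConjClasses.mk (rep c) :=
    ⟨fun c => ⟨ConjClasses.mk (rep c), rep c, rfl, hrep1 c⟩, fun c => rfl⟩
  have hinj : Function.Injective Θ := by
    intro c c' h
    have h1 : ConjClasses.mk (rep c) = ConjClasses.mk (rep c') := by rw [← hΘ, ← hΘ, h]
    have h3 := sp_charpoly_of_isConj _ _ (ConjClasses.mk_eq_mk_iff_isConj.1 h1)
    rw [hrep2, hrep2] at h3
    exact palPoly_injective h3
  have hsurj : Function.Surjective Θ := by
    rintro ⟨C, g, rfl, hg⟩
    refine ⟨fun i => (g : Matrix (Fin n ⊕ Fin n) (Fin n ⊕ Fin n) F).charpoly.coeff (i.val + 1),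
      ?_⟩
    apply Subtype.ext
    rw [hΘ]
    apply ConjClasses.mk_eq_mk_iff_isConj.2
    apply sp_conj_of_charpoly p n _ _ (hrep1 _) hg
    rw [hrep2]
    exact palPoly_of_sp _ g.2
  rw [← Nat.card_congr (Equiv.ofBijective Θ ⟨hinj, hsurj⟩), Nat.card_eq_fintype_card,
    Fintype.card_fun, Fintype.card_fin]

end Cfsg.Agent.Helper15
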