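import Mathlib
import Cfsg.Agent.Helper15.PrimeCount4
import Cfsg.Agent.Helper15.SpCount3

set_option autoImplicit false

namespace Cfsg.Agent.Helper15
open Polynomial

universe u

theorem pal_count_even {F : Type u} [Field F] (S : Finset F[X]) (r i t m : ℕ) (hr : r ≠ 0)
    (hi0 : 0 < i) (hev : Even i)
    (hScard : S.card = t + 1) (hX1S : (X - 1 : F[X]) ∈ S)
    (hS : ∀ x ∈ S, x.Monic ∧ Irreducible x ∧ x ∣ X ^ r - 1)
    (hself : ∀ x ∈ S, pstar x = x) :
    Nat.card {M' : Multiset F[X] // (∀ x ∈ M', x ∈ S ∧ x ≠ X - 1) ∧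
        i * Multiset.card M' ≤ 2 * m ∧ M' ≠ 0 ∧
        (M'.prod * (X - 1) ^ (2 * m - i * Multiset.card M')).reverse
          = M'.prod * (X - 1) ^ (2 * m - i * Multiset.card M')}
      = (2 * m / i + t).choose t - 1 := by
  rw [← card_slack S (X - 1) hX1S t (2 * m / i) hScard]
  apply Nat.card_congr
  apply Equiv.subtypeEquivRight
  intro M'
  constructor
  · rintro ⟨h1, h2, h3, _⟩
    refine ⟨h1, ?_, h3⟩
    rw [Nat.le_div_iff_mul_le hi0, mul_comm]
    exact h2
  · rintro ⟨h1, h2, h3⟩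
    have h2' : i * Multiset.card M' ≤ 2 * m := by
      have h5 := (Nat.le_div_iff_mul_le hi0).1 h2
      rwa [mul_comm] at h5
    refine ⟨h1, h2', h3, ?_⟩
    apply sym_imp_pal S r hr hS M' h1
    · obtain ⟨c, hc⟩ := hev
      have h6 : i * Multiset.card M' = 2 * (c * Multiset.card M') := by
        rw [hc]
        ring
      exact ⟨m - c * Multiset.card M', by omega⟩
    · rw [Multiset.map_congr rfl (fun x hx => hself x (h1 x hx).1), Multiset.map_id']

theorem pal_count_odd {F : Type u} [Field F] (S : Finset F[X]) (r i t m : ℕ) (hr : r ≠ 0)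
    (hi0 : 0 < i)
    (hScard : S.card = t + 1) (hX1S : (X - 1 : F[X]) ∈ S)
    (hS : ∀ x ∈ S, x.Monic ∧ Irreducible x ∧ x ∣ X ^ r - 1)
    (hdeg : ∀ x ∈ S, x ≠ X - 1 → x.natDegree = i)
    (hcrit : ∀ y : F[X], y.Monic → y.natDegree = i → y ∣ X ^ r - 1 → ¬ (X - 1 : F[X]) ∣ y →
      y ∈ S)
    (hnofix : ∀ x ∈ S, x ≠ X - 1 → pstar x ≠ x) :
    Nat.card {M' : Multiset F[X] // (∀ x ∈ M', x ∈ S ∧ x ≠ X - 1) ∧
        i * Multiset.card M' ≤ 2 * m ∧ M' ≠ 0 ∧
        (M'.prod * (X - 1) ^ (2 * m - i * Multiset.card M')).reverse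
          = M'.prod * (X - 1) ^ (2 * m - i * Multiset.card M')}
      = (m / i + t / 2).choose (t / 2) - 1 := by
  classical
  have hPmem : ∀ x, x ∈ S.erase (X - 1) ↔ x ∈ S ∧ x ≠ X - 1 := fun x => by
    rw [Finset.mem_erase]
    tauto
  have hPcard : (S.erase (X - 1)).card = t := by
    rw [Finset.card_erase_of_mem hX1S, hScard]
    rfl
  have hstarP : ∀ x ∈ S.erase (X - 1 : F[X]), pstar x ∈ S.erase (X - 1 : F[X]) := by
    intro x hx
    rw [hPmem] at hx ⊢
    exact pstar_mem S r i hr hS hdeg hcrit x hx.1 hx.2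
  have hh : ∀ x ∈ S.erase (X - 1 : F[X]), pstar (pstar x) = x := by
    intro x hx
    rw [hPmem] at hx
    exact pstar_pstar x (hS x hx.1).1 (coeff_zero_ne_of_dvd r hr x (hS x hx.1).2.2)
  have hne : ∀ x ∈ S.erase (X - 1 : F[X]), pstar x ≠ x := by
    intro x hx
    rw [hPmem] at hx
    exact hnofix x hx.1 hx.2
  obtain ⟨P₀, hP₀sub, hP₀card, hP₀⟩ := reps_exist (S.erase (X - 1)) pstar hstarP hh hne
  have hX1P₀ : (X - 1 : F[X]) ∉ P₀ := fun h => by
    have h1 := hP₀sub h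
    rw [hPmem] at h1
    exact h1.2 rfl
  have hS₀card : (insert (X - 1 : F[X]) P₀).card = t / 2 + 1 := by
    rw [Finset.card_insert_of_notMem hX1P₀]
    omega
  rw [← card_slack (insert (X - 1 : F[X]) P₀) (X - 1) (Finset.mem_insert_self _ _) (t / 2) (m / i)
    hS₀card]
  have hmemP₀ : ∀ x, (x ∈ insert (X - 1 : F[X]) P₀ ∧ x ≠ X - 1) ↔ x ∈ P₀ := by
    intro x
    rw [Finset.mem_insert]
    constructor
    · rintro ⟨h | h, h'⟩
      · exact absurd h h'
      · exact h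
    · intro h
      exact ⟨Or.inr h, fun h' => hX1P₀ (h' ▸ h)⟩
  have hdecomp : ∀ M' : Multiset F[X], (∀ x ∈ M', x ∈ S ∧ x ≠ X - 1) → M'.map pstar = M' →
      M' = Multiset.filter (fun x => x ∈ P₀) M'
        + (Multiset.filter (fun x => x ∈ P₀) M').map pstar := by
    intro M' h1 hsym
    have hsplit := Multiset.filter_add_not (fun x => x ∈ P₀) M'
    have h2 : Multiset.filter (fun x => ¬ x ∈ P₀) M'
        = (Multiset.filter (fun x => x ∈ P₀) M').map pstar := by
      have h3 : Multiset.filter (fun x => ¬ x ∈ P₀) (M'.map pstar)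
          = (Multiset.filter ((fun x => ¬ x ∈ P₀) ∘ pstar) M').map pstar :=
        Multiset.filter_map _ _ _
      rw [hsym] at h3
      rw [h3]
      congr 1
      apply Multiset.filter_congr
      intro x hx
      show ¬ pstar x ∈ P₀ ↔ x ∈ P₀
      exact (hP₀ x ((hPmem x).2 (h1 x hx))).symm
    rw [← h2, hsplit]
  have hΘ : ∀ M' : {M' : Multiset F[X] // (∀ x ∈ M', x ∈ S ∧ x ≠ X - 1) ∧
        i * Multiset.card M' ≤ 2 * m ∧ M' ≠ 0 ∧
        (M'.prod * (X - 1) ^ (2 * m - i * Multiset.card M')).reverse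
          = M'.prod * (X - 1) ^ (2 * m - i * Multiset.card M')},
      (∀ x ∈ Multiset.filter (fun x => x ∈ P₀) M'.1,
          x ∈ insert (X - 1 : F[X]) P₀ ∧ x ≠ X - 1) ∧
        Multiset.card (Multiset.filter (fun x => x ∈ P₀) M'.1) ≤ m / i ∧
        Multiset.filter (fun x => x ∈ P₀) M'.1 ≠ 0 := by
    rintro ⟨M', h1, h2, h3, h4⟩
    have hsym := pal_imp_sym S r i hr hS hdeg hcrit M' h1 _ h4
    have hd := hdecomp M' h1 hsym
    have hcard : Multiset.card M'
        = 2 * Multiset.card (Multiset.filter (fun x => x ∈ P₀) M') := by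
      conv_lhs => rw [hd]
      rw [Multiset.card_add, Multiset.card_map]
      ring
    refine ⟨fun x hx => (hmemP₀ x).2 (Multiset.mem_filter.1 hx).2, ?_, ?_⟩
    · rw [Nat.le_div_iff_mul_le hi0]
      rw [hcard] at h2
      have h7 : i * (2 * Multiset.card (Multiset.filter (fun x => x ∈ P₀) M'))
          = 2 * (Multiset.card (Multiset.filter (fun x => x ∈ P₀) M') * i) := by ring
      show Multiset.card (Multiset.filter (fun x => x ∈ P₀) M') * i ≤ m
      omega
    · intro h0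
      apply h3
      rw [hd]
      show Multiset.filter (fun x => x ∈ P₀) M'
        + (Multiset.filter (fun x => x ∈ P₀) M').map pstar = 0
      have h0' : Multiset.filter (fun x => x ∈ P₀) M' = 0 := h0
      rw [h0', Multiset.map_zero, add_zero]
  apply Nat.card_congr
  refine Equiv.ofBijective (fun M' => ⟨Multiset.filter (fun x => x ∈ P₀) M'.1, hΘ M'⟩) ⟨?_, ?_⟩
  · rintro ⟨M₁, h1, h2, h3, h4⟩ ⟨M₂, h1', h2', h3', h4'⟩ heq
    have h5 : Multiset.filter (fun x => x ∈ P₀) M₁ = Multiset.filter (fun x => x ∈ P₀) M₂ :=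
      congrArg Subtype.val heq
    apply Subtype.ext
    show M₁ = M₂
    calc M₁ = Multiset.filter (fun x => x ∈ P₀) M₁
          + (Multiset.filter (fun x => x ∈ P₀) M₁).map pstar :=
        hdecomp M₁ h1 (pal_imp_sym S r i hr hS hdeg hcrit M₁ h1 _ h4)
      _ = Multiset.filter (fun x => x ∈ P₀) M₂
          + (Multiset.filter (fun x => x ∈ P₀) M₂).map pstar := by rw [h5]
      _ = M₂ := (hdecomp M₂ h1' (pal_imp_sym S r i hr hS hdeg hcrit M₂ h1' _ h4')).symm
  · rintro ⟨M₀, hM1, hM2, hM3⟩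
    have hM₀P₀ : ∀ x ∈ M₀, x ∈ P₀ := fun x hx => (hmemP₀ x).1 (hM1 x hx)
    have hM₀S : ∀ x ∈ M₀, x ∈ S ∧ x ≠ X - 1 :=
      fun x hx => (hPmem x).1 (hP₀sub (hM₀P₀ x hx))
    have hel : ∀ x ∈ M₀ + M₀.map pstar, x ∈ S ∧ x ≠ X - 1 := by
      intro x hx
      rcases Multiset.mem_add.1 hx with h | h
      · exact hM₀S x h
      · obtain ⟨y, hy, rfl⟩ := Multiset.mem_map.1 h
        exact pstar_mem S r i hr hS hdeg hcrit y (hM₀S y hy).1 (hM₀S y hy).2
    have hcard : Multiset.card (M₀ + M₀.map pstar) = 2 * Multiset.card M₀ := by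
      rw [Multiset.card_add, Multiset.card_map]
      ring
    have hle : i * Multiset.card (M₀ + M₀.map pstar) ≤ 2 * m := by
      rw [hcard]
      have h5 := (Nat.le_div_iff_mul_le hi0).1 hM2
      have h6 : i * (2 * Multiset.card M₀) = 2 * (Multiset.card M₀ * i) := by ring
      omega
    have hne0 : M₀ + M₀.map pstar ≠ 0 := by
      intro h0
      obtain ⟨x, hx⟩ := Multiset.exists_mem_of_ne_zero hM3
      have h7 : x ∈ M₀ + M₀.map pstar := Multiset.mem_add.2 (Or.inl hx)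
      rw [h0] at h7
      exact Multiset.notMem_zero x h7
    have h6 : Multiset.map (pstar ∘ pstar) M₀ = M₀ := by
      have h9 : Multiset.map (pstar ∘ pstar) M₀ = Multiset.map (fun x => x) M₀ :=
        Multiset.map_congr rfl (fun x hx => hh x (hP₀sub (hM₀P₀ x hx)))
      rw [h9, Multiset.map_id']
    have hsym : (M₀ + M₀.map pstar).map pstar = M₀ + M₀.map pstar := by
      rw [Multiset.map_add, Multiset.map_map, h6, add_comm]
    have hkev : Even (2 * m - i * Multiset.card (M₀ + M₀.map pstar)) := by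
      rw [hcard]
      have h8 : i * (2 * Multiset.card M₀) = 2 * (i * Multiset.card M₀) := by ring
      exact ⟨m - i * Multiset.card M₀, by omega⟩
    have hpal := sym_imp_pal S r hr hS _ hel _ hkev hsym
    have hnil : ∀ y ∈ M₀.map pstar, ¬ y ∈ P₀ := by
      intro y hy
      obtain ⟨x, hx, rfl⟩ := Multiset.mem_map.1 hy
      exact (hP₀ x (hP₀sub (hM₀P₀ x hx))).1 (hM₀P₀ x hx)
    refine ⟨⟨M₀ + M₀.map pstar, hel, hle, hne0, hpal⟩, ?_⟩
    apply Subtype.ext
    show Multiset.filter (fun x => x ∈ P₀) (M₀ + M₀.map pstar) = M₀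
    rw [Multiset.filter_add, Multiset.filter_eq_self.2 hM₀P₀, Multiset.filter_eq_nil.2 hnil,
      add_zero]

theorem sp_prime_class_equiv {F : Type u} [Field F] [Fintype F] (p : ℕ) [Fact p.Prime]
    [CharP F p] (m r i : ℕ) (hr : r.Prime) (hrp : r ≠ p) (S : Finset F[X])
    (hX1S : (X - 1 : F[X]) ∈ S)
    (hS : ∀ x ∈ S, x.Monic ∧ Irreducible x ∧ x ∣ X ^ r - 1)
    (hSdeg : ∀ x ∈ S, x ≠ X - 1 → x.natDegree = i)
    (hScomp : ∀ x : F[X], x.Monic → Irreducible x → x ∣ X ^ r - 1 → x ∈ S) :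
    Nat.card {C : ConjClasses (Matrix.symplecticGroup (Fin m) F) //
        ∃ g : Matrix.symplecticGroup (Fin m) F, ConjClasses.mk g = C ∧ orderOf g = r}
      = Nat.card {M' : Multiset F[X] // (∀ x ∈ M', x ∈ S ∧ x ≠ X - 1) ∧
        i * Multiset.card M' ≤ 2 * m ∧ M' ≠ 0 ∧
        (M'.prod * (X - 1) ^ (2 * m - i * Multiset.card M')).reverse
          = M'.prod * (X - 1) ^ (2 * m - i * Multiset.card M')} := by
  classical
  haveI : Fact r.Prime := ⟨hr⟩
  have hcop : r.Coprime p := (Nat.coprime_primes hr (Fact.out)).2 hrp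
  have hcardι : Fintype.card (Fin m ⊕ Fin m) = 2 * m := by
    rw [Fintype.card_sum, Fintype.card_fin]
    ring
  have hex : ∀ C : {C : ConjClasses (Matrix.symplecticGroup (Fin m) F) //
        ∃ g : Matrix.symplecticGroup (Fin m) F, ConjClasses.mk g = C ∧ orderOf g = r},
      ∃ M' : Multiset F[X], ((∀ x ∈ M', x ∈ S ∧ x ≠ X - 1) ∧
        i * Multiset.card M' ≤ 2 * m ∧ M' ≠ 0 ∧
        (M'.prod * (X - 1) ^ (2 * m - i * Multiset.card M')).reverse
          = M'.prod * (X - 1) ^ (2 * m - i * Multiset.card M')) ∧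
        ∀ g : Matrix.symplecticGroup (Fin m) F, ConjClasses.mk g = C.1 →
          (g : Matrix (Fin m ⊕ Fin m) (Fin m ⊕ Fin m) F).charpoly
            = M'.prod * (X - 1) ^ (2 * m - i * Multiset.card M') := by
    rintro ⟨C, g, hg, hord⟩
    have hgr : (g : Matrix (Fin m ⊕ Fin m) (Fin m ⊕ Fin m) F) ^ r = 1 := by
      rw [← SubmonoidClass.coe_pow, ← hord, pow_orderOf_eq_one]
      rfl
    obtain ⟨M', k, hM', hχ⟩ := type_exists' S r hScomp
      (g : Matrix (Fin m ⊕ Fin m) (Fin m ⊕ Fin m) F) hgr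
    have hdeg := type_degree' S i (fun x hx => (hS x hx).1) hSdeg _ M' k hM' hχ
    rw [hcardι] at hdeg
    have hk : k = 2 * m - i * Multiset.card M' := by omega
    have hle : i * Multiset.card M' ≤ 2 * m := by omega
    rw [hk] at hχ
    refine ⟨M', ⟨hM', hle, ?_, ?_⟩, ?_⟩
    · intro h0
      rw [h0, Multiset.prod_zero, one_mul, Multiset.card_zero, mul_zero, Nat.sub_zero] at hχ
      have h1 : (g : Matrix (Fin m ⊕ Fin m) (Fin m ⊕ Fin m) F).charpoly
          = ((1 : Matrix.symplecticGroup (Fin m) F) :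
            Matrix (Fin m ⊕ Fin m) (Fin m ⊕ Fin m) F).charpoly := by
        rw [hχ]
        show _ = (1 : Matrix (Fin m ⊕ Fin m) (Fin m ⊕ Fin m) F).charpoly
        rw [Matrix.charpoly_one, hcardι]
      have h2 := sp_conj_of_charpoly p m g 1 (by rw [hord]; exact hcop)
        (by rw [orderOf_one]; exact Nat.coprime_one_left p) h1
      have h3 : g = 1 := isConj_one_left.1 h2
      rw [h3, orderOf_one] at hord
      exact hr.one_lt.ne hord
    · rw [← hχ]
      exact sp_charpoly_reverse _ g.2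
    · intro g' hg'
      have hconj : IsConj g' g := ConjClasses.mk_eq_mk_iff_isConj.1 (hg'.trans hg.symm)
      rw [sp_charpoly_of_isConj g' g hconj, hχ]
  choose Ξ hΞ1 hΞ2 using hex
  apply Nat.card_congr
  refine Equiv.ofBijective (fun C => ⟨Ξ C, hΞ1 C⟩) ⟨?_, ?_⟩
  · intro C₁ C₂ h
    have h1 : Ξ C₁ = Ξ C₂ := congrArg Subtype.val h
    obtain ⟨g₁, hg₁, ho₁⟩ := C₁.2
    obtain ⟨g₂, hg₂, ho₂⟩ := C₂.2
    have hχ : (g₁ : Matrix (Fin m ⊕ Fin m) (Fin m ⊕ Fin m) F).charpoly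
        = (g₂ : Matrix (Fin m ⊕ Fin m) (Fin m ⊕ Fin m) F).charpoly := by
      rw [hΞ2 C₁ g₁ hg₁, hΞ2 C₂ g₂ hg₂, h1]
    have hconj := sp_conj_of_charpoly p m g₁ g₂ (by rw [ho₁]; exact hcop)
      (by rw [ho₂]; exact hcop) hχ
    apply Subtype.ext
    rw [← hg₁, ← hg₂]
    exact ConjClasses.mk_eq_mk_iff_isConj.2 hconj
  · rintro ⟨M', hM'1, hM'2, hM'3, hM'4⟩
    obtain ⟨hfm, hfdeg⟩ := type_prod_degree S i (fun x hx => (hS x hx).1) hSdeg M'
      (2 * m - i * Multiset.card M') hM'1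
    obtain ⟨g₀, hg₀⟩ := palin_sp_exists' m _ hfm (by rw [hfdeg]; omega) hM'4
    obtain ⟨h, hh1, hh2⟩ := sp_semisimple_part p g₀
    rw [hg₀] at hh2
    have heF : ((orderOf h : ℕ) : F) ≠ 0 := by
      intro h0
      have h1 : (p : ℕ) ∣ orderOf h := (CharP.cast_eq_zero_iff F p _).1 h0
      exact (Nat.Prime.coprime_iff_not_dvd (Fact.out)).1 hh1.symm h1
    have hAe : (h : Matrix (Fin m ⊕ Fin m) (Fin m ⊕ Fin m) F) ^ orderOf h = 1 := by
      rw [← SubmonoidClass.coe_pow, pow_orderOf_eq_one]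
      rfl
    have hAr : (h : Matrix (Fin m ⊕ Fin m) (Fin m ⊕ Fin m) F) ^ r = 1 := by
      apply semi_pow_of_charpoly _ (orderOf h) heF hAe r
        (Multiset.card M' + (2 * m - i * Multiset.card M'))
      rw [hh2]
      exact type_dvd_pow S r hX1S (fun x hx => (hS x hx).2.2) M' (fun x hx => (hM'1 x hx).1) _
    have hhr : h ^ r = 1 := by
      apply Subtype.ext
      rw [SubmonoidClass.coe_pow, hAr]
      rfl
    have hh1' : h ≠ 1 := by
      intro h1
      rw [h1] at hh2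
      have h2 : ((1 : Matrix.symplecticGroup (Fin m) F) :
          Matrix (Fin m ⊕ Fin m) (Fin m ⊕ Fin m) F).charpoly = (X - 1) ^ (2 * m) := by
        show (1 : Matrix (Fin m ⊕ Fin m) (Fin m ⊕ Fin m) F).charpoly = _
        rw [Matrix.charpoly_one, hcardι]
      rw [h2] at hh2
      exact type_ne_pow S (fun x hx => ⟨(hS x hx).1, (hS x hx).2.1⟩) M' hM'1 hM'3 _ _ hh2.symm
    have hord : orderOf h = r := orderOf_eq_prime hhr hh1'
    refine ⟨⟨ConjClasses.mk h, h, rfl, hord⟩, ?_⟩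
    apply Subtype.ext
    show Ξ ⟨ConjClasses.mk h, h, rfl, hord⟩ = M'
    have hk := hΞ2 ⟨ConjClasses.mk h, h, rfl, hord⟩ h rfl
    exact type_unique S (fun x hx => ⟨(hS x hx).1, (hS x hx).2.1⟩) _ _ _ _ (hΞ1 _).1 hM'1
      (hk.symm.trans hh2)

theorem sp_prime_order_class_count {F : Type u} [Field F] [Fintype F] {p q : ℕ} [Fact p.Prime]
    [CharP F p] (hF : Fintype.card F = q) (m r i t : ℕ) (hr : r.Prime) (hr2 : r ≠ 2)
    (hrp : r ≠ p) (hi : i = orderOf (q : ZMod r)) (ht : t * i = r - 1) :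
    Nat.card {C : ConjClasses (Matrix.symplecticGroup (Fin m) F) //
        ∃ g : Matrix.symplecticGroup (Fin m) F, ConjClasses.mk g = C ∧ orderOf g = r}
      = if Odd i then Nat.choose (m / i + t / 2) (t / 2) - 1
        else Nat.choose (2 * m / i + t) t - 1 := by
  classical
  subst hF
  obtain ⟨S, hScard, hX1S, hS, hSdeg, hScomp⟩ := cyc_factor_set p r hr hrp i t hi ht
  have hi0 : 0 < i := by
    rcases Nat.eq_zero_or_pos i with h | h
    · rw [h, mul_zero] at ht
      have := hr.two_le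
      omega
    · exact h
  have hcrit : ∀ y : F[X], y.Monic → y.natDegree = i → y ∣ X ^ r - 1 →
      ¬ (X - 1 : F[X]) ∣ y → y ∈ S :=
    fun y hm hdeg hd hnd => hScomp y hm (cyc_irred_crit p r hr hrp i hi y hdeg hd hnd) hd
  rw [sp_prime_class_equiv p m r i hr hrp S hX1S hS hSdeg hScomp]
  split_ifs with hodd
  · exact pal_count_odd S r i t m hr.ne_zero hi0 hScard hX1S hS hSdeg hcrit
      (fun x hx hne => pstar_ne_of_odd r i hr hr2 hodd x (hS x hx).1 (hS x hx).2.1
        (hS x hx).2.2 (hSdeg x hx hne) hne)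
  · have hev : Even i := Nat.not_odd_iff_even.1 hodd
    exact pal_count_even S r i t m hr.ne_zero hi0 hev hScard hX1S hS
      (fun x hx => pstar_self_of_even r i hr hi hev hi0 x (hS x hx).1 (hS x hx).2.1
        (hS x hx).2.2)

end Cfsg.Agent.Helper15
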