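import Mathlib
import Cfsg.Agent.Helper15.QuadClass

set_option autoImplicit false

namespace Cfsg.Agent.Helper15

theorem det_alt_odd {R : Type*} [CommRing R] {ι : Type*} [Fintype ι] [DecidableEq ι]
    (hn : Odd (Fintype.card ι))
    (A : Matrix ι ι R) (hA : ∀ i j, A j i = -A i j) (h0 : ∀ i, A i i = 0) :
    A.det = 0 := by
  classical
  rw [Matrix.det_apply]
  apply Finset.sum_involution (fun σ _ => σ⁻¹)
  · intro σ _
    have h1 : ∏ i, A (σ⁻¹ i) i = ∏ i, A i (σ i) := by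
      rw [← Equiv.prod_comp σ]
      refine Finset.prod_congr rfl fun i _ => ?_
      simp
    have h2 : ∏ i, A i (σ i) = -∏ i, A (σ i) i := by
      have h3 : ∀ i, A i (σ i) = -A (σ i) i := fun i => hA _ _
      simp only [h3]
      rw [Finset.prod_neg, Finset.card_univ, hn.neg_one_pow]
      ring
    rw [Equiv.Perm.sign_inv, h1, h2]
    simp
  · intro σ _ hne hinv
    apply hne
    obtain ⟨f, hf⟩ : ∃ f : Function.End ι, f = ⇑σ := ⟨_, rfl⟩
    have hsq : f ^ 2 ^ 1 = 1 := by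
      have h1 : σ * σ = 1 := by
        nth_rewrite 1 [← hinv]
        exact inv_mul_cancel σ
      funext x
      have h2 := congrArg (fun τ : Equiv.Perm ι => τ x) h1
      rw [pow_one, pow_two, hf]
      exact h2
    have hfix := Equiv.Perm.card_fixedPoints_modEq (p := 2) (n := 1) (hp := ⟨Nat.prime_two⟩) hsq
    have hne' : Nonempty (Function.fixedPoints f) := by
      by_contra hemp
      rw [not_nonempty_iff] at hemp
      have h3 : Fintype.card ι % 2 = 1 := Nat.odd_iff.1 hn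
      have h5 : ∀ (inst : Fintype (Function.fixedPoints f)),
          @Fintype.card (Function.fixedPoints f) inst = 0 := fun inst =>
        @Fintype.card_eq_zero _ inst hemp
      rw [h5] at hfix
      have h4 : Fintype.card ι % 2 = 0 % 2 := hfix
      omega
    obtain ⟨⟨x, hx⟩⟩ := hne'
    have hx' : σ x = x := by
      have hx2 : f x = x := hx
      rw [hf] at hx2
      exact hx2
    have h5 : ∏ i, A (σ i) i = 0 := by
      apply Finset.prod_eq_zero (Finset.mem_univ x)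
      rw [hx', h0]
    rw [h5, smul_zero]
  · intro σ _
    exact inv_inv σ
  · intro σ _
    exact Finset.mem_univ _

theorem two_ne_zero_of_odd_nondeg {F V : Type*} [Field F] [AddCommGroup V] [Module F V]
    [FiniteDimensional F V] (hodd : Odd (Module.finrank F V)) (Q : QuadraticForm F V)
    (hQ : (QuadraticMap.polarBilin Q).Nondegenerate) : (2 : F) ≠ 0 := by
  classical
  intro h2
  have hdet := (LinearMap.BilinForm.nondegenerate_iff_det_ne_zero (Module.finBasis F V)).1 hQ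
  apply hdet
  apply det_alt_odd
  · rw [Fintype.card_fin]
    exact hodd
  · intro i j
    rw [LinearMap.BilinForm.toMatrix_apply, LinearMap.BilinForm.toMatrix_apply]
    show QuadraticMap.polar ⇑Q _ _ = -QuadraticMap.polar ⇑Q _ _
    rw [QuadraticMap.polar_comm]
    have h3 : ∀ x : F, x = -x := fun x => by linear_combination x * h2
    exact h3 _
  · intro i
    rw [LinearMap.BilinForm.toMatrix_apply]
    show QuadraticMap.polar ⇑Q _ _ = 0
    rw [QuadraticMap.polar_self]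
    simp [h2]

theorem gram_det_change {F : Type*} [Field F] {k : ℕ} {V : Type*} [AddCommGroup V]
    [Module F V] (B : LinearMap.BilinForm F V)
    (β γ : Module.Basis (Fin (k + 1)) F V) (d : F)
    (hG : ∀ i j, B (γ i) (γ j) = if i = j then (if i = Fin.last k then d else 1) else 0) :
    ∃ c : F, c ≠ 0 ∧ d = c * c * (LinearMap.BilinForm.toMatrix β B).det := by
  classical
  have h3 : LinearMap.BilinForm.toMatrix γ B
      = Matrix.diagonal (fun i => if i = Fin.last k then d else 1) := by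
    ext i j
    rw [LinearMap.BilinForm.toMatrix_apply, Matrix.diagonal_apply]
    exact hG i j
  have h4 := congrArg Matrix.det (LinearMap.BilinForm.toMatrix_mul_basis_toMatrix β γ B)
  rw [h3, Matrix.det_diagonal, Matrix.det_mul, Matrix.det_mul, Matrix.det_transpose] at h4
  simp only [Finset.prod_ite_eq', Finset.mem_univ, if_true] at h4
  refine ⟨(β.toMatrix ⇑γ).det, ?_, ?_⟩
  · rw [← Module.Basis.det_apply]
    exact (Module.Basis.isUnit_det _ _).ne_zero
  · rw [← h4]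
    ring

theorem det_toMatrix_reindex {F : Type*} [Field F] {ι κ : Type*} [Fintype ι] [DecidableEq ι]
    [Fintype κ] [DecidableEq κ] {V : Type*} [AddCommGroup V]
    [Module F V] (β : Module.Basis ι F V) (B : LinearMap.BilinForm F V) (e : ι ≃ κ) :
    (LinearMap.BilinForm.toMatrix (β.reindex e) B).det
      = (LinearMap.BilinForm.toMatrix β B).det := by
  have h3 : LinearMap.BilinForm.toMatrix (β.reindex e) B
      = Matrix.reindex e e (LinearMap.BilinForm.toMatrix β B) := by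
    ext i j
    simp [LinearMap.BilinForm.toMatrix_apply]
  rw [h3, Matrix.det_reindex_self]

theorem bilin_isometric_fin {F : Type*} [Field F] [Fintype F] (h2 : (2 : F) ≠ 0) {n : ℕ}
    {V₁ V₂ : Type*} [AddCommGroup V₁] [Module F V₁] [AddCommGroup V₂] [Module F V₂]
    (β₁ : Module.Basis (Fin n) F V₁) (β₂ : Module.Basis (Fin n) F V₂)
    (B₁ : LinearMap.BilinForm F V₁) (B₂ : LinearMap.BilinForm F V₂)
    (hS₁ : B₁.IsSymm) (hS₂ : B₂.IsSymm) (hN₁ : B₁.Nondegenerate) (hN₂ : B₂.Nondegenerate)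
    (hsq : IsSquare ((LinearMap.BilinForm.toMatrix β₁ B₁).det
      * (LinearMap.BilinForm.toMatrix β₂ B₂).det)) :
    ∃ g : V₁ ≃ₗ[F] V₂, ∀ u v, B₂ (g u) (g v) = B₁ u v := by
  classical
  have hfd₁ : FiniteDimensional F V₁ := Module.Finite.of_basis β₁
  have hfd₂ : FiniteDimensional F V₂ := Module.Finite.of_basis β₂
  suffices hmain : ∃ g : V₁ ≃ₗ[F] V₂, LinearMap.BilinForm.comp B₂
      (g : V₁ →ₗ[F] V₂) (g : V₁ →ₗ[F] V₂) = B₁ by
    obtain ⟨g, hg⟩ := hmain
    refine ⟨g, fun u v => ?_⟩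
    have h3 := congrArg (fun B : LinearMap.BilinForm F V₁ => B u v) hg
    exact h3
  rcases n with _ | k
  · refine ⟨β₁.equiv β₂ (Equiv.refl _), ?_⟩
    apply LinearMap.BilinForm.ext_basis β₁
    intro i
    exact i.elim0
  have hfin₁ : Module.finrank F V₁ = k + 1 := by
    rw [Module.finrank_eq_card_basis β₁, Fintype.card_fin]
  have hfin₂ : Module.finrank F V₂ = k + 1 := by
    rw [Module.finrank_eq_card_basis β₂, Fintype.card_fin]
  obtain ⟨b₁, d₁, hd₁, G₁⟩ := exists_normal_family h2 k hfin₁ B₁ hS₁ hN₁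
  obtain ⟨b₂, d₂, hd₂, G₂⟩ := exists_normal_family h2 k hfin₂ B₂ hS₂ hN₂
  have hw : ∀ d : F, d ≠ 0 → ∀ i : Fin (k + 1), (if i = Fin.last k then d else 1) ≠ 0 := by
    intro d hd i
    split_ifs
    · exact hd
    · exact one_ne_zero
  obtain ⟨γ₁, hγ₁⟩ := orth_family_basis hfin₁ B₁ b₁
    (fun i => if i = Fin.last k then d₁ else 1) (hw d₁ hd₁) G₁
  obtain ⟨γ₂, hγ₂⟩ := orth_family_basis hfin₂ B₂ b₂
    (fun i => if i = Fin.last k then d₂ else 1) (hw d₂ hd₂) G₂
  obtain ⟨c₁, hc₁, e₁⟩ := gram_det_change B₁ β₁ γ₁ d₁ (by rw [hγ₁]; exact G₁)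
  obtain ⟨c₂, hc₂, e₂⟩ := gram_det_change B₂ β₂ γ₂ d₂ (by rw [hγ₂]; exact G₂)
  obtain ⟨r, hr⟩ := hsq
  obtain ⟨D₁, hD₁⟩ : ∃ D₁ : F, D₁ = (LinearMap.BilinForm.toMatrix β₁ B₁).det := ⟨_, rfl⟩
  obtain ⟨D₂, hD₂⟩ : ∃ D₂ : F, D₂ = (LinearMap.BilinForm.toMatrix β₂ B₂).det := ⟨_, rfl⟩
  rw [← hD₁] at e₁ hr
  rw [← hD₂] at e₂ hr
  obtain ⟨e, he⟩ : ∃ e : F, e * e * d₂ = d₁ := by
    refine ⟨c₁ * c₂ * r / d₂, ?_⟩
    have h3 : c₁ * c₂ * r / d₂ * (c₁ * c₂ * r / d₂) * d₂ = (c₁ * c₂ * r) * (c₁ * c₂ * r) / d₂ := by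
      field_simp
    rw [h3, div_eq_iff hd₂, e₁, e₂]
    linear_combination (-(c₁ * c₁ * c₂ * c₂)) * hr
  have he0 : e ≠ 0 := by
    rintro rfl
    apply hd₁
    rw [← he]
    ring
  obtain ⟨γ₂', hγ₂'def⟩ : ∃ γ₂' : Module.Basis (Fin (k + 1)) F V₂,
      γ₂' = γ₂.unitsSMul (fun i => if i = Fin.last k then Units.mk0 e he0 else 1) := ⟨_, rfl⟩
  have hγ₂' : ∀ i, γ₂' i = (if i = Fin.last k then e else 1) • b₂ i := by
    intro i
    rw [hγ₂'def, Module.Basis.unitsSMul_apply, hγ₂]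
    split_ifs <;> simp [Units.smul_def]
  obtain ⟨g, hgdef⟩ : ∃ g : V₁ ≃ₗ[F] V₂, g = γ₁.equiv γ₂' (Equiv.refl _) := ⟨_, rfl⟩
  have hg : ∀ i, g (γ₁ i) = γ₂' i := fun i => by
    rw [hgdef, Module.Basis.equiv_apply, Equiv.refl_apply]
  refine ⟨g, ?_⟩
  apply LinearMap.BilinForm.ext_basis γ₁
  intro i j
  rw [LinearMap.BilinForm.comp_apply]
  show B₂ (g (γ₁ i)) (g (γ₁ j)) = _
  rw [hg, hg, hγ₂', hγ₂', hγ₁, G₁]
  simp only [map_smul, LinearMap.smul_apply, smul_eq_mul, G₂]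
  by_cases hij : i = j
  · subst hij
    by_cases hl : i = Fin.last k
    · simp only [hl, if_true]
      linear_combination he
    · simp [hl]
  · simp [hij]

theorem bilin_isometric {F : Type*} [Field F] [Fintype F] (h2 : (2 : F) ≠ 0)
    {ι₁ ι₂ : Type*} [Fintype ι₁] [DecidableEq ι₁] [Fintype ι₂] [DecidableEq ι₂]
    (hcard : Fintype.card ι₁ = Fintype.card ι₂)
    {V₁ V₂ : Type*} [AddCommGroup V₁] [Module F V₁] [AddCommGroup V₂] [Module F V₂]
    (β₁ : Module.Basis ι₁ F V₁) (β₂ : Module.Basis ι₂ F V₂)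
    (B₁ : LinearMap.BilinForm F V₁) (B₂ : LinearMap.BilinForm F V₂)
    (hS₁ : B₁.IsSymm) (hS₂ : B₂.IsSymm) (hN₁ : B₁.Nondegenerate) (hN₂ : B₂.Nondegenerate)
    (hsq : IsSquare ((LinearMap.BilinForm.toMatrix β₁ B₁).det
      * (LinearMap.BilinForm.toMatrix β₂ B₂).det)) :
    ∃ g : V₁ ≃ₗ[F] V₂, ∀ u v, B₂ (g u) (g v) = B₁ u v := by
  classical
  have e₁ : ι₁ ≃ Fin (Fintype.card ι₁) := Fintype.equivFin ι₁
  have e₂ : ι₂ ≃ Fin (Fintype.card ι₁) := Fintype.equivFinOfCardEq hcard.symm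
  apply bilin_isometric_fin h2 (β₁.reindex e₁) (β₂.reindex e₂) B₁ B₂ hS₁ hS₂ hN₁ hN₂
  rw [det_toMatrix_reindex, det_toMatrix_reindex]
  exact hsq

end Cfsg.Agent.Helper15
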