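import Mathlib
import Cfsg.Prelude.Def_Classical

set_option autoImplicit false

namespace Cfsg.Agent.Helper15

theorem exists_realize {F K : Type*} [Field F] [Field K] [Algebra F K] {ι κ : Type*}
    [Fintype ι] [DecidableEq ι] [Fintype κ] [DecidableEq κ] (e : (ι → K) ≃ₗ[F] (κ → F)) :
    ∃ Ψ : Matrix ι ι K →* Matrix κ κ F, Function.Injective Ψ ∧
      ∀ A v, (Ψ A).mulVec (e v) = e (A.mulVec v) := by
  have key : ∀ A : Matrix ι ι K, ∃ M : Matrix κ κ F,
      ∀ x, M.mulVec x = e (A.mulVec (e.symm x)) := by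
    intro A
    refine ⟨LinearMap.toMatrix' ((e : (ι → K) →ₗ[F] (κ → F)) ∘ₗ
      ((Matrix.toLin' A).restrictScalars F) ∘ₗ (e.symm : (κ → F) →ₗ[F] (ι → K))), fun x => ?_⟩
    rw [LinearMap.toMatrix'_mulVec]
    simp
  choose Ψ hΨ using key
  have hone : Ψ 1 = 1 := by
    apply Matrix.mulVec_injective
    funext x
    rw [hΨ, Matrix.one_mulVec, Matrix.one_mulVec, LinearEquiv.apply_symm_apply]
  have hmul : ∀ A B, Ψ (A * B) = Ψ A * Ψ B := by
    intro A B
    apply Matrix.mulVec_injective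
    funext x
    rw [hΨ, ← Matrix.mulVec_mulVec, ← Matrix.mulVec_mulVec, hΨ, hΨ,
      LinearEquiv.symm_apply_apply]
  refine ⟨⟨⟨Ψ, hone⟩, hmul⟩, ?_, ?_⟩
  · intro A B hAB
    apply Matrix.mulVec_injective
    funext v
    have h1 : (Ψ A).mulVec (e v) = (Ψ B).mulVec (e v) := by
      have h2 : Ψ A = Ψ B := hAB
      rw [h2]
    rw [hΨ, hΨ, LinearEquiv.symm_apply_apply] at h1
    exact e.injective h1
  · intro A v
    show (Ψ A).mulVec (e v) = _
    rw [hΨ, LinearEquiv.symm_apply_apply]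

theorem embed_isometry {F K : Type*} [Field F] [Field K] [Algebra F K] {ι : Type*} {κ : Type}
    [Fintype ι] [DecidableEq ι] [Fintype κ] [DecidableEq κ] {H : Type*} [Group H]
    (ρ : H →* Matrix ι ι K) (hρ : Function.Injective ρ)
    (e : (ι → K) ≃ₗ[F] (κ → F)) (Q' : (κ → F) → F)
    (hpres : ∀ h v, Q' (e ((ρ h).mulVec v)) = Q' (e v)) :
    ∃ φ : H →* ↥(Cfsg.isometryGroup F Q'), Function.Injective φ := by
  obtain ⟨Ψ, hΨi, hΨ⟩ := exists_realize e
  obtain ⟨φ₀, hφ₀⟩ : ∃ φ₀ : H →* Matrix.GeneralLinearGroup κ F,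
      ∀ h, ((φ₀ h : Matrix.GeneralLinearGroup κ F) : Matrix κ κ F) = Ψ (ρ h) :=
    ⟨(Units.map (Ψ.comp ρ)).comp (toUnits (G := H)).toMonoidHom, fun h => rfl⟩
  have hmem : ∀ h, φ₀ h ∈ Cfsg.isometryGroup F Q' := by
    intro h u v
    show Q' (((φ₀ h : Matrix.GeneralLinearGroup κ F) : Matrix κ κ F).mulVec u) = Q' u
    rw [hφ₀]
    have hu : u = e (e.symm u) := (e.apply_symm_apply u).symm
    rw [hu, hΨ, hpres]
  refine ⟨φ₀.codRestrict _ hmem, ?_⟩
  intro h h' hh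
  apply hρ
  apply hΨi
  have h1 := congrArg (fun x : ↥(Cfsg.isometryGroup F Q') =>
    ((x : Matrix.GeneralLinearGroup κ F) : Matrix κ κ F)) hh
  have h2 : ((φ₀ h : Matrix.GeneralLinearGroup κ F) : Matrix κ κ F)
      = ((φ₀ h' : Matrix.GeneralLinearGroup κ F) : Matrix κ κ F) := h1
  rw [hφ₀, hφ₀] at h2
  exact h2

theorem embed_symplectic {F K : Type*} [Field F] [Field K] [Algebra F K] {ι l : Type*}
    [Fintype ι] [DecidableEq ι] [Fintype l] [DecidableEq l] {H : Type*} [Monoid H]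
    (ρ : H →* Matrix ι ι K) (hρ : Function.Injective ρ)
    (e : (ι → K) ≃ₗ[F] (l ⊕ l → F))
    (hpres : ∀ h v w, e ((ρ h).mulVec v) ⬝ᵥ (Matrix.J l F).mulVec (e ((ρ h).mulVec w))
      = e v ⬝ᵥ (Matrix.J l F).mulVec (e w)) :
    ∃ φ : H →* ↥(Matrix.symplecticGroup l F), Function.Injective φ := by
  obtain ⟨Ψ, hΨi, hΨ⟩ := exists_realize e
  have hmem : ∀ h, (Ψ.comp ρ) h ∈ Matrix.symplecticGroup l F := by
    intro h
    show Ψ (ρ h) ∈ Matrix.symplecticGroup l F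
    rw [SymplecticGroup.mem_iff']
    apply Matrix.toBilin'.injective
    apply LinearMap.ext₂
    intro x y
    rw [Matrix.toBilin'_apply', Matrix.toBilin'_apply']
    have h1 : x ⬝ᵥ ((Ψ (ρ h)).transpose * Matrix.J l F * Ψ (ρ h)).mulVec y
        = ((Ψ (ρ h)).mulVec x) ⬝ᵥ (Matrix.J l F).mulVec ((Ψ (ρ h)).mulVec y) := by
      rw [← Matrix.mulVec_mulVec, ← Matrix.mulVec_mulVec, Matrix.dotProduct_mulVec,
        Matrix.vecMul_transpose]
    rw [h1]
    have hx : x = e (e.symm x) := (e.apply_symm_apply x).symm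
    have hy : y = e (e.symm y) := (e.apply_symm_apply y).symm
    rw [hx, hy, hΨ, hΨ, hpres]
  refine ⟨(Ψ.comp ρ).codRestrict (Matrix.symplecticGroup l F) hmem, ?_⟩
  intro h h' hh
  apply hρ
  apply hΨi
  have h1 := congrArg (fun x : ↥(Matrix.symplecticGroup l F) => (x : Matrix (l ⊕ l) (l ⊕ l) F)) hh
  exact h1

end Cfsg.Agent.Helper15
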