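import Mathlib
import Cfsg.Agent.Helper15.TransvCent

set_option autoImplicit false

namespace Cfsg.Agent.Helper15

theorem gl_zmod2_det (n : ℕ) (y : GL (Fin n) (ZMod 2)) :
    (y : Matrix (Fin n) (Fin n) (ZMod 2)).det = 1 := by
  have h0 : ((Matrix.GeneralLinearGroup.det y : (ZMod 2)ˣ) : ZMod 2) ≠ 0 := Units.ne_zero _
  rw [Matrix.GeneralLinearGroup.val_det_apply] at h0
  revert h0
  generalize (y : Matrix (Fin n) (Fin n) (ZMod 2)).det = d
  revert d
  decide

theorem sl_gl_centralizer_card {F : Type*} [Field F] {n : ℕ}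
    (hdet : ∀ y : GL (Fin n) F, (y : Matrix (Fin n) (Fin n) F).det = 1)
    (s : Matrix.SpecialLinearGroup (Fin n) F) :
    Nat.card (Subgroup.centralizer ({s} : Set (Matrix.SpecialLinearGroup (Fin n) F)))
      = Nat.card (Subgroup.centralizer
        ({Matrix.SpecialLinearGroup.toGL s} : Set (GL (Fin n) F))) := by
  have hmem : ∀ x : Matrix.SpecialLinearGroup (Fin n) F,
      x ∈ Subgroup.centralizer ({s} : Set (Matrix.SpecialLinearGroup (Fin n) F))
        ↔ Matrix.SpecialLinearGroup.toGL x ∈ Subgroup.centralizer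
          ({Matrix.SpecialLinearGroup.toGL s} : Set (GL (Fin n) F)) := by
    intro x
    rw [Subgroup.mem_centralizer_singleton_iff, Subgroup.mem_centralizer_singleton_iff,
      ← map_mul, ← map_mul]
    constructor
    · intro h
      rw [h]
    · intro h
      exact Matrix.SpecialLinearGroup.toGL_injective h
  apply Nat.card_eq_of_bijective
    (fun x : Subgroup.centralizer ({s} : Set (Matrix.SpecialLinearGroup (Fin n) F)) =>
      (⟨Matrix.SpecialLinearGroup.toGL x.1, (hmem x.1).1 x.2⟩ :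
        Subgroup.centralizer ({Matrix.SpecialLinearGroup.toGL s} : Set (GL (Fin n) F))))
  constructor
  · intro x x' hxx
    apply Subtype.ext
    exact Matrix.SpecialLinearGroup.toGL_injective (congrArg Subtype.val hxx)
  · intro y
    obtain ⟨x, hx⟩ : ∃ x : Matrix.SpecialLinearGroup (Fin n) F,
        Matrix.SpecialLinearGroup.toGL x = y.1 :=
      ⟨⟨(y.1 : Matrix (Fin n) (Fin n) F), hdet y.1⟩, Units.ext rfl⟩
    refine ⟨⟨x, (hmem x).2 (by rw [hx]; exact y.2)⟩, ?_⟩
    apply Subtype.ext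
    exact hx

theorem sl52_transvection_centralizer (s : Matrix.SpecialLinearGroup (Fin 5) (ZMod 2))
    (hs : (s : Matrix (Fin 5) (Fin 5) (ZMod 2)) = Matrix.transvection 0 1 1) :
    Nat.card (Subgroup.centralizer ({s} : Set (Matrix.SpecialLinearGroup (Fin 5) (ZMod 2))))
      = 21504 := by
  classical
  obtain ⟨t, ht⟩ : ∃ t : GL (Fin 5) (ZMod 2), t = Matrix.SpecialLinearGroup.toGL s := ⟨_, rfl⟩
  have hcoe : (t : Matrix (Fin 5) (Fin 5) (ZMod 2)) = (s : Matrix (Fin 5) (Fin 5) (ZMod 2)) := by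
    rw [ht]
    rfl
  have hN : (t : Matrix (Fin 5) (Fin 5) (ZMod 2)) - 1
      = Matrix.vecMulVec (Pi.single 0 1) (Pi.single 1 1) := by
    rw [hcoe, hs, Matrix.transvection, add_sub_cancel_left]
    ext i j
    rw [Matrix.vecMulVec_apply, Matrix.single_apply, Pi.single_apply, Pi.single_apply]
    by_cases hi : i = 0 <;> by_cases hj : j = 1 <;> simp [hi, hj, eq_comm]
  have hsq : ((t : Matrix (Fin 5) (Fin 5) (ZMod 2)) - 1)
      * ((t : Matrix (Fin 5) (Fin 5) (ZMod 2)) - 1) = 0 := by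
    rw [hN, Matrix.vecMulVec_mul_vecMulVec, single_one_dotProduct]
    have h10 : (Pi.single (0 : Fin 5) (1 : ZMod 2) : Fin 5 → ZMod 2) 1 = 0 := by decide
    rw [h10, zero_smul, Matrix.vecMulVec_zero]
  have hN0 : (t : Matrix (Fin 5) (Fin 5) (ZMod 2)) - 1 ≠ 0 := by
    rw [hN]
    intro h
    have h1 := congrFun (congrFun h 0) 1
    rw [Matrix.vecMulVec_apply] at h1
    revert h1
    decide
  have hr : ((t : Matrix (Fin 5) (Fin 5) (ZMod 2)) - 1).rank = 1 := by
    have hle : ((t : Matrix (Fin 5) (Fin 5) (ZMod 2)) - 1).rank ≤ 1 := by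
      rw [hN]
      exact Matrix.rank_vecMulVec_le _ _
    have hrk0 : ((t : Matrix (Fin 5) (Fin 5) (ZMod 2)) - 1).rank ≠ 0 := by
      intro h0
      have h1 : Module.finrank (ZMod 2) (LinearMap.range
          ((t : Matrix (Fin 5) (Fin 5) (ZMod 2)) - 1).mulVecLin) = 0 := h0
      rw [Submodule.finrank_eq_zero] at h1
      apply hN0
      ext i j
      have h2 : ((t : Matrix (Fin 5) (Fin 5) (ZMod 2)) - 1).mulVec (Pi.single j 1)
          ∈ LinearMap.range ((t : Matrix (Fin 5) (Fin 5) (ZMod 2)) - 1).mulVecLin := ⟨_, rfl⟩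
      rw [h1, Submodule.mem_bot] at h2
      have h3 := congrFun h2 i
      have h4 : ((t : Matrix (Fin 5) (Fin 5) (ZMod 2)) - 1).mulVec (Pi.single j 1) i
          = ((t : Matrix (Fin 5) (Fin 5) (ZMod 2)) - 1) i j := by
        simp [Matrix.mulVec]
      rw [h4] at h3
      exact h3
    omega
  have h5 : (2 : ℕ) ≤ 5 := by omega
  have hc : Fintype.card (ZMod 2) = 2 := ZMod.card 2
  have h1 := gl_transvection_centralizer_card hc h5 t hr hsq
  have h2 := sl_gl_centralizer_card (gl_zmod2_det 5) s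
  rw [← ht] at h2
  rw [h2, h1]
  have h3 : ∏ i : Fin (5 - 2), (2 ^ (5 - 2) - 2 ^ (i : ℕ)) = 168 := by
    show ∏ i : Fin 3, (2 ^ 3 - 2 ^ (i : ℕ)) = 168
    rw [Fin.prod_univ_three]
    norm_num
  rw [h3]
  norm_num

end Cfsg.Agent.Helper15
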