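import Mathlib
import Cfsg.Agent.Helper2.SLGen

set_option autoImplicit false

namespace Cfsg.Agent.Helper15

open scoped commutatorElement Pointwise

theorem comm_mul_central_left {G : Type*} [Group G] (a c z : G) (hz : ∀ x, x * z = z * x) :
    ⁅a * z, c⁆ = ⁅a, c⁆ := by
  rw [commutatorElement_def, commutatorElement_def, mul_inv_rev, mul_assoc a z c, ← hz c,
    ← mul_assoc a c z, mul_assoc (a * c) z, ← mul_assoc z z⁻¹, mul_inv_cancel, one_mul]

theorem comm_mul_central_right {G : Type*} [Group G] (a c z : G) (hz : ∀ x, x * z = z * x) :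
    ⁅a, c * z⁆ = ⁅a, c⁆ := by
  have h1 : ⁅a, c * z⁆ = (⁅c * z, a⁆)⁻¹ := (commutatorElement_inv _ _).symm
  rw [h1, comm_mul_central_left c a z hz, commutatorElement_inv]

theorem exists_sl_conj {F : Type*} [Field F] {n : ℕ} (g : GL (Fin n) F)
    (s : Matrix.SpecialLinearGroup (Fin n) F) :
    ∃ s' : Matrix.SpecialLinearGroup (Fin n) F,
      Matrix.SpecialLinearGroup.toGL s' = g * Matrix.SpecialLinearGroup.toGL s * g⁻¹ := by
  have hdet : Matrix.GeneralLinearGroup.det (g * Matrix.SpecialLinearGroup.toGL s * g⁻¹) = 1 := by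
    rw [map_mul, map_mul, map_inv, mul_comm, ← mul_assoc, inv_mul_cancel, one_mul]
    exact Matrix.SpecialLinearGroup.coeToGL_det s
  exact ⟨⟨((g * Matrix.SpecialLinearGroup.toGL s * g⁻¹ : GL (Fin n) F) :
    Matrix (Fin n) (Fin n) F), congrArg Units.val hdet⟩, Units.ext rfl⟩

/-- A subgroup of `GL_n(F)` normalised by a perfect `SL_n(F)` with simple central quotient
is scalar or contains `SL_n(F)`. -/
theorem sl_normalized_dichotomy {F : Type*} [Field F] {n : ℕ}
    (hperf : commutator (Matrix.SpecialLinearGroup (Fin n) F) = ⊤)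
    (hsimple : IsSimpleGroup (Matrix.ProjectiveSpecialLinearGroup (Fin n) F))
    (G : Subgroup (GL (Fin n) F))
    (hG : ∀ s : Matrix.SpecialLinearGroup (Fin n) F, ∀ g ∈ G,
      (Matrix.SpecialLinearGroup.toGL s) * g * (Matrix.SpecialLinearGroup.toGL s)⁻¹ ∈ G) :
    (∀ g ∈ G, ∃ c : F, (g : Matrix (Fin n) (Fin n) F) = c • (1 : Matrix (Fin n) (Fin n) F)) ∨
      (Matrix.SpecialLinearGroup.toGL :
        Matrix.SpecialLinearGroup (Fin n) F →* GL (Fin n) F).range ≤ G := by
  classical
  obtain ⟨N, hNdef⟩ : ∃ N : Subgroup (Matrix.SpecialLinearGroup (Fin n) F),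
      N = G.comap Matrix.SpecialLinearGroup.toGL := ⟨_, rfl⟩
  have hNmem : ∀ s, s ∈ N ↔ Matrix.SpecialLinearGroup.toGL s ∈ G := by
    intro s
    rw [hNdef]
    rfl
  have hN : N.Normal := by
    refine ⟨fun x hx s => ?_⟩
    rw [hNmem, map_mul, map_mul, map_inv]
    exact hG s _ ((hNmem x).1 hx)
  have hNbar : (N.map (QuotientGroup.mk'
      (Subgroup.center (Matrix.SpecialLinearGroup (Fin n) F)))).Normal :=
    Subgroup.Normal.map hN _ (QuotientGroup.mk'_surjective _)
  rcases hNbar.eq_bot_or_eq_top with h | h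
  · left
    have hNc : N ≤ Subgroup.center (Matrix.SpecialLinearGroup (Fin n) F) := by
      rw [Subgroup.map_eq_bot_iff, QuotientGroup.ker_mk'] at h
      exact h
    intro g hg
    -- conjugation by `g` moves `s` by a central element
    have hcent : ∀ s : Matrix.SpecialLinearGroup (Fin n) F, ∃ ζ : GL (Fin n) F,
        (∀ y : GL (Fin n) F, y * ζ = ζ * y) ∧
        g * Matrix.SpecialLinearGroup.toGL s * g⁻¹ = Matrix.SpecialLinearGroup.toGL s * ζ := by
      intro s
      obtain ⟨β, hβ⟩ := exists_sl_conj g s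
      have h1 : s⁻¹ * β ∈ N := by
        rw [hNmem, map_mul, map_inv, hβ]
        have h2 := hG s⁻¹ g hg
        have h3 : (Matrix.SpecialLinearGroup.toGL s)⁻¹
            * (g * Matrix.SpecialLinearGroup.toGL s * g⁻¹)
            = (Matrix.SpecialLinearGroup.toGL s⁻¹ * g * (Matrix.SpecialLinearGroup.toGL s⁻¹)⁻¹)
              * g⁻¹ := by
          rw [map_inv, inv_inv]
          group
        rw [h3]
        exact G.mul_mem h2 (G.inv_mem hg)
      have h4 := hNc h1
      refine ⟨Matrix.SpecialLinearGroup.toGL (s⁻¹ * β), ?_, ?_⟩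
      · intro y
        obtain ⟨r, -, hr⟩ := Matrix.SpecialLinearGroup.mem_center_iff.1 h4
        apply Units.ext
        show (y : Matrix (Fin n) (Fin n) F)
            * ((s⁻¹ * β : Matrix.SpecialLinearGroup (Fin n) F) : Matrix (Fin n) (Fin n) F)
          = ((s⁻¹ * β : Matrix.SpecialLinearGroup (Fin n) F) : Matrix (Fin n) (Fin n) F)
            * (y : Matrix (Fin n) (Fin n) F)
        rw [← hr]
        exact ((Matrix.scalar_commute r (fun r' => Commute.all r r')) _).eq.symm
      · rw [map_mul, map_inv, hβ]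
        group
    have hT : commutator (Matrix.SpecialLinearGroup (Fin n) F)
        ≤ (Subgroup.centralizer {g}).comap Matrix.SpecialLinearGroup.toGL := by
      rw [commutator_def, Subgroup.commutator_le]
      intro s _ t _
      show Matrix.SpecialLinearGroup.toGL ⁅s, t⁆ ∈ Subgroup.centralizer {g}
      rw [Subgroup.mem_centralizer_iff]
      intro x hx
      rw [Set.mem_singleton_iff] at hx
      rw [hx]
      obtain ⟨ζs, hζs, hs⟩ := hcent s
      obtain ⟨ζt, hζt, ht⟩ := hcent t
      have h1 : g * Matrix.SpecialLinearGroup.toGL ⁅s, t⁆ * g⁻¹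
          = Matrix.SpecialLinearGroup.toGL ⁅s, t⁆ := by
        have h2 := map_commutatorElement (MulAut.conj g) (Matrix.SpecialLinearGroup.toGL s)
          (Matrix.SpecialLinearGroup.toGL t)
        rw [MulAut.conj_apply, MulAut.conj_apply, MulAut.conj_apply, hs, ht,
          comm_mul_central_left _ _ _ hζs, comm_mul_central_right _ _ _ hζt] at h2
        rw [map_commutatorElement]
        exact h2
      have h3 : g * Matrix.SpecialLinearGroup.toGL ⁅s, t⁆
          = g * Matrix.SpecialLinearGroup.toGL ⁅s, t⁆ * g⁻¹ * g := by group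
      rw [h3, h1]
    rw [hperf] at hT
    have hcomm : ∀ s : Matrix.SpecialLinearGroup (Fin n) F,
        g * Matrix.SpecialLinearGroup.toGL s = Matrix.SpecialLinearGroup.toGL s * g := by
      intro s
      have h1 : Matrix.SpecialLinearGroup.toGL s ∈ Subgroup.centralizer {g} :=
        hT (Subgroup.mem_top s)
      rw [Subgroup.mem_centralizer_iff] at h1
      exact h1 g (Set.mem_singleton g)
    have hscal : (g : Matrix (Fin n) (Fin n) F) ∈ Set.range (Matrix.scalar (Fin n)) := by
      apply Matrix.mem_range_scalar_of_commute_transvectionStruct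
      intro t
      have h1 := congrArg (fun x : GL (Fin n) F => (x : Matrix (Fin n) (Fin n) F))
        (hcomm t.toSpecialLinearGroup)
      exact h1.symm
    obtain ⟨c, hc⟩ := hscal
    refine ⟨c, ?_⟩
    rw [← hc, Matrix.smul_one_eq_diagonal]
    rfl
  · right
    have hsup : N ⊔ Subgroup.center (Matrix.SpecialLinearGroup (Fin n) F) = ⊤ := by
      have h1 := Subgroup.comap_map_eq (QuotientGroup.mk'
        (Subgroup.center (Matrix.SpecialLinearGroup (Fin n) F))) N
      rw [h, Subgroup.comap_top, QuotientGroup.ker_mk'] at h1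
      exact h1.symm
    have hcomm : commutator (Matrix.SpecialLinearGroup (Fin n) F) ≤ N := by
      rw [commutator_def, Subgroup.commutator_le]
      intro s _ t _
      have hs : s ∈ N ⊔ Subgroup.center (Matrix.SpecialLinearGroup (Fin n) F) := by
        rw [hsup]
        exact Subgroup.mem_top s
      have ht : t ∈ N ⊔ Subgroup.center (Matrix.SpecialLinearGroup (Fin n) F) := by
        rw [hsup]
        exact Subgroup.mem_top t
      have hs' : s ∈ ((N : Set (Matrix.SpecialLinearGroup (Fin n) F))
          * ((Subgroup.center (Matrix.SpecialLinearGroup (Fin n) F) :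
            Subgroup (Matrix.SpecialLinearGroup (Fin n) F)) :
            Set (Matrix.SpecialLinearGroup (Fin n) F))) := by
        rw [← Subgroup.mul_normal]
        exact hs
      have ht' : t ∈ ((N : Set (Matrix.SpecialLinearGroup (Fin n) F))
          * ((Subgroup.center (Matrix.SpecialLinearGroup (Fin n) F) :
            Subgroup (Matrix.SpecialLinearGroup (Fin n) F)) :
            Set (Matrix.SpecialLinearGroup (Fin n) F))) := by
        rw [← Subgroup.mul_normal]
        exact ht
      obtain ⟨y₁, hy₁, z₁, hz₁, rfl⟩ := Set.mem_mul.1 hs'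
      obtain ⟨y₂, hy₂, z₂, hz₂, rfl⟩ := Set.mem_mul.1 ht'
      rw [comm_mul_central_left _ _ _ (Subgroup.mem_center_iff.1 hz₁),
        comm_mul_central_right _ _ _ (Subgroup.mem_center_iff.1 hz₂), commutatorElement_def]
      exact N.mul_mem (N.mul_mem (N.mul_mem hy₁ hy₂) (N.inv_mem hy₁)) (N.inv_mem hy₂)
    rw [hperf] at hcomm
    rintro _ ⟨s, rfl⟩
    exact (hNmem s).1 (hcomm (Subgroup.mem_top s))

theorem sl_normalized {F : Type*} [Field F] [Fintype F] (n : ℕ) (hn : 1 ≤ n)
    (hex : ¬ (n = 2 ∧ Fintype.card F ≤ 3)) (G : Subgroup (GL (Fin n) F))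
    (hG : ∀ s : Matrix.SpecialLinearGroup (Fin n) F, ∀ g ∈ G,
      (Matrix.SpecialLinearGroup.toGL s) * g * (Matrix.SpecialLinearGroup.toGL s)⁻¹ ∈ G) :
    (∀ g ∈ G, ∃ c : F, (g : Matrix (Fin n) (Fin n) F) = c • (1 : Matrix (Fin n) (Fin n) F)) ∨
      (Matrix.SpecialLinearGroup.toGL :
        Matrix.SpecialLinearGroup (Fin n) F →* GL (Fin n) F).range ≤ G := by
  classical
  rcases Nat.lt_or_ge n 3 with h3 | h3
  · rcases Nat.lt_or_ge n 2 with h2 | h2
    · -- n = 1
      have h1 : n = 1 := by omega
      subst h1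
      left
      intro g _
      refine ⟨(g : Matrix (Fin 1) (Fin 1) F) 0 0, ?_⟩
      ext i j
      rw [Matrix.smul_apply, smul_eq_mul, Subsingleton.elim i 0, Subsingleton.elim j 0,
        Matrix.one_apply_eq, mul_one]
    · -- n = 2
      have h2' : n = 2 := by omega
      subst h2'
      have hF : 4 ≤ Fintype.card F := by
        by_contra hcon
        exact hex ⟨rfl, by omega⟩
      have hex2 : ∃ a : F, a ≠ 0 ∧ a ^ 2 ≠ 1 := by
        have hlt : ({0, 1, -1} : Finset F).card < (Finset.univ : Finset F).card := by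
          rw [Finset.card_univ]
          calc ({0, 1, -1} : Finset F).card ≤ 3 := Finset.card_le_three
            _ < Fintype.card F := by omega
        obtain ⟨a, -, ha⟩ := Finset.exists_mem_notMem_of_card_lt_card hlt
        rw [Finset.mem_insert, Finset.mem_insert, Finset.mem_singleton] at ha
        push Not at ha
        refine ⟨a, ha.1, ?_⟩
        intro hsq
        have h3 : (a - 1) * (a + 1) = 0 := by linear_combination hsq
        rcases mul_eq_zero.1 h3 with h | h
        · exact ha.2.1 (sub_eq_zero.1 h)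
        · exact ha.2.2 (eq_neg_of_add_eq_zero_left h)
      obtain ⟨a, ha, hasq⟩ := hex2
      exact sl_normalized_dichotomy (Matrix.SL2.commutator_eq_top ha hasq)
        (Matrix.ProjectiveSpecialLinearGroup.rank_two_simple
          (by rw [Nat.card_eq_fintype_card]; exact hF)) G hG
  · exact sl_normalized_dichotomy
      (Cfsg.Agent.Helper2.SL_commutator_eq_top (by rw [Fintype.card_fin]; exact h3))
      (Cfsg.Agent.Helper2.PSL_simple_of_three_le (by rw [Fintype.card_fin]; exact h3)) G hG

end Cfsg.Agent.Helper15
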