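import Mathlib
import Cfsg.Agent.Helper15.SUCenter
import Cfsg.Agent.Helper15.FieldEmb

set_option autoImplicit false

namespace Cfsg.Agent.Helper15

/-- The twisted alternating form on `F^2`. -/
def twForm (q : ℕ) {F : Type*} [Field F] (x y : Fin 2 → F) : F := x 0 * y 1 ^ q - x 1 * y 0 ^ q

theorem mulVec_two {F : Type*} [Field F] (M : Matrix (Fin 2) (Fin 2) F) (x : Fin 2 → F) :
    M.mulVec x 0 = M 0 0 * x 0 + M 0 1 * x 1 ∧ M.mulVec x 1 = M 1 0 * x 0 + M 1 1 * x 1 := by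
  constructor <;> simp [Matrix.mulVec, dotProduct, Fin.sum_univ_two]

theorem tw_mulVec_iff {F : Type*} [Field F] [Fintype F] {q : ℕ} (hF : Fintype.card F = q ^ 2)
    (M : Matrix (Fin 2) (Fin 2) F) :
    (∀ x y, twForm q (M.mulVec x) (M.mulVec y) = twForm q x y) ↔
      (M 0 0 * M 1 0 ^ q - M 1 0 * M 0 0 ^ q = 0 ∧ M 0 0 * M 1 1 ^ q - M 1 0 * M 0 1 ^ q = 1 ∧
        M 0 1 * M 1 0 ^ q - M 1 1 * M 0 0 ^ q = -1 ∧ M 0 1 * M 1 1 ^ q - M 1 1 * M 0 1 ^ q = 0) := by
  classical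
  have hq := two_le_of_card_sq hF
  obtain ⟨φ, hφ⟩ := exists_frob hF
  have hq0 : q ≠ 0 := by omega
  constructor
  · intro h
    have hcol : ∀ j : Fin 2, M.mulVec (Pi.single j 1) = fun r => M r j := by
      intro j
      rw [Matrix.mulVec_single_one]
      rfl
    refine ⟨?_, ?_, ?_, ?_⟩
    · have h1 := h (Pi.single 0 1) (Pi.single 0 1)
      rw [hcol] at h1
      unfold twForm at h1
      simpa [hq0] using h1
    · have h1 := h (Pi.single 0 1) (Pi.single 1 1)
      rw [hcol, hcol] at h1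
      unfold twForm at h1
      simpa [hq0] using h1
    · have h1 := h (Pi.single 1 1) (Pi.single 0 1)
      rw [hcol, hcol] at h1
      unfold twForm at h1
      simpa [hq0] using h1
    · have h1 := h (Pi.single 1 1) (Pi.single 1 1)
      rw [hcol] at h1
      unfold twForm at h1
      simpa [hq0] using h1
  · rintro ⟨h1, h2, h3, h4⟩ x y
    unfold twForm
    rw [(mulVec_two M x).1, (mulVec_two M x).2, (mulVec_two M y).1, (mulVec_two M y).2]
    have e1 : (M 1 0 * y 0 + M 1 1 * y 1) ^ q = M 1 0 ^ q * y 0 ^ q + M 1 1 ^ q * y 1 ^ q := by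
      rw [← hφ, map_add, map_mul, map_mul, hφ, hφ, hφ, hφ]
    have e2 : (M 0 0 * y 0 + M 0 1 * y 1) ^ q = M 0 0 ^ q * y 0 ^ q + M 0 1 ^ q * y 1 ^ q := by
      rw [← hφ, map_add, map_mul, map_mul, hφ, hφ, hφ, hφ]
    rw [e1, e2]
    linear_combination (x 0 * y 0 ^ q) * h1 + (x 0 * y 1 ^ q) * h2 + (x 1 * y 0 ^ q) * h3
      + (x 1 * y 1 ^ q) * h4

theorem tw_fixed_of {F : Type*} [Field F] [Fintype F] {q : ℕ} (hF : Fintype.card F = q ^ 2)
    (M : Matrix (Fin 2) (Fin 2) F) (hdet : M.det = 1)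
    (h : ∀ x y, twForm q (M.mulVec x) (M.mulVec y) = twForm q x y) :
    ∀ i j, M i j ^ q = M i j := by
  obtain ⟨φ, hφ⟩ := exists_frob hF
  obtain ⟨h1, h2, h3, h4⟩ := (tw_mulVec_iff hF M).1 h
  rw [Matrix.det_fin_two] at hdet
  have hD : M 0 0 ^ q * M 1 1 ^ q - M 0 1 ^ q * M 1 0 ^ q = 1 := by
    have h5 := congrArg φ hdet
    rw [map_sub, map_mul, map_mul, map_one, hφ, hφ, hφ, hφ] at h5
    exact h5
  intro i j
  fin_cases i <;> fin_cases j
  · show M 0 0 ^ q = M 0 0
    linear_combination (-(M 0 0 ^ q)) * h2 + M 0 0 * hD + M 0 1 ^ q * h1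
  · show M 0 1 ^ q = M 0 1
    linear_combination (M 0 1 ^ q) * h3 + M 0 1 * hD - M 0 0 ^ q * h4
  · show M 1 0 ^ q = M 1 0
    linear_combination (-(M 1 0 ^ q)) * h2 + M 1 0 * hD + M 1 1 ^ q * h1
  · show M 1 1 ^ q = M 1 1
    linear_combination (M 1 1 ^ q) * h3 + M 1 1 * hD - M 1 0 ^ q * h4

theorem tw_of_fixed {F : Type*} [Field F] [Fintype F] {q : ℕ} (hF : Fintype.card F = q ^ 2)
    (M : Matrix (Fin 2) (Fin 2) F) (hdet : M.det = 1) (hfix : ∀ i j, M i j ^ q = M i j) :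
    ∀ x y, twForm q (M.mulVec x) (M.mulVec y) = twForm q x y := by
  rw [tw_mulVec_iff hF]
  rw [Matrix.det_fin_two] at hdet
  rw [hfix, hfix, hfix, hfix]
  refine ⟨by ring, by linear_combination hdet, by linear_combination (-1 : F) * hdet, by ring⟩

/-- The fixed field of `x ↦ x ^ q` is the image of the field with `q` elements. -/
theorem fixed_iff_range {F K : Type*} [Field F] [Fintype F] [Field K] [Fintype K] {q : ℕ}
    (hF : Fintype.card F = q ^ 2) (hK : Fintype.card K = q) (ι : K →+* F) (x : F) :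
    x ^ q = x ↔ ∃ k : K, ι k = x := by
  classical
  have hq := two_le_of_card_sq hF
  constructor
  · intro hx
    have hsub : Finset.univ.image ι ⊆ Finset.univ.filter (fun x : F => x ^ q = x) := by
      intro y hy
      rw [Finset.mem_image] at hy
      obtain ⟨k, -, rfl⟩ := hy
      rw [Finset.mem_filter]
      refine ⟨Finset.mem_univ _, ?_⟩
      rw [← map_pow, ← hK, FiniteField.pow_card]
    have hcard : (Finset.univ.filter (fun x : F => x ^ q = x)).card ≤ (Finset.univ.image ι).card := by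
      rw [Finset.card_image_of_injective _ ι.injective, Finset.card_univ, hK]
      have h2 : Finset.univ.filter (fun x : F => x ^ q = x) ⊆ insert 0
          (Finset.univ.filter (fun c : F => c ≠ 0 ∧ c ^ (q - 1) = 1)) := by
        intro c hc
        rw [Finset.mem_filter] at hc
        rw [Finset.mem_insert, Finset.mem_filter]
        rcases (fixed_iff (by omega) c).1 hc.2 with h | h
        · exact Or.inl h
        · by_cases h0 : c = 0
          · exact Or.inl h0
          · exact Or.inr ⟨Finset.mem_univ _, h0, h⟩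
      calc (Finset.univ.filter (fun x : F => x ^ q = x)).card ≤ _ := Finset.card_le_card h2
        _ ≤ (Finset.univ.filter (fun c : F => c ≠ 0 ∧ c ^ (q - 1) = 1)).card + 1 :=
          Finset.card_insert_le _ _
        _ = q := by rw [(norm_fiber_card hF).2]; omega
    have heq := Finset.eq_of_subset_of_card_le hsub hcard
    have hx' : x ∈ Finset.univ.image ι := by
      rw [heq, Finset.mem_filter]
      exact ⟨Finset.mem_univ _, hx⟩
    rw [Finset.mem_image] at hx'
    obtain ⟨k, -, hk⟩ := hx'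
    exact ⟨k, hk⟩
  · rintro ⟨k, rfl⟩
    rw [← map_pow, ← hK, FiniteField.pow_card]

/-- An isotropic basis of the Hermitian plane with skew Gram matrix. -/
theorem exists_iso_basis {F : Type*} [Field F] [Fintype F] {q : ℕ} (hF : Fintype.card F = q ^ 2) :
    ∃ (ε : F) (P : Matrix (Fin 2) (Fin 2) F), ε ≠ 0 ∧ IsUnit P.det ∧
      ∀ x y, Cfsg.hermForm 2 F q (P.mulVec x) (P.mulVec y) = ε * twForm q x y := by
  classical
  have hq := two_le_of_card_sq hF
  have hh := hermForm_isHerm hF 2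
  obtain ⟨φ, hφ⟩ := exists_frob hF
  obtain ⟨ε, hε0, hε⟩ := exists_skew hF
  obtain ⟨μ, hμ0, hμ⟩ := exists_norm_neg_one hF
  obtain ⟨l, hl1, hl2⟩ := exists_norm_one_sq_ne hF
  have hc0 : 1 - l ^ q ≠ 0 := by
    intro h
    have h1 : l ^ q = 1 := (sub_eq_zero.1 h).symm
    have h2 := pow_card_sq hF l
    rw [h1, one_pow] at h2
    apply hl2
    rw [← h2, one_pow]
  obtain ⟨e, he⟩ : ∃ e : Fin 2 → F, e = ![1, μ] := ⟨_, rfl⟩
  obtain ⟨f₀, hf₀⟩ : ∃ f₀ : Fin 2 → F, f₀ = ![1, l * μ] := ⟨_, rfl⟩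
  obtain ⟨t, ht⟩ : ∃ t : F, t = (ε / (1 - l ^ q)) ^ q := ⟨_, rfl⟩
  have htq : t ^ q = ε / (1 - l ^ q) := by rw [ht, pow_card_sq hF]
  have hee : Cfsg.hermForm 2 F q e e = 0 := by
    rw [hermForm_self_eq, Fin.sum_univ_two, he]
    simp only [Matrix.cons_val_zero, Matrix.cons_val_one]
    rw [one_pow, hμ]
    ring
  have hff₀ : Cfsg.hermForm 2 F q f₀ f₀ = 0 := by
    rw [hermForm_self_eq, Fin.sum_univ_two, hf₀]
    simp only [Matrix.cons_val_zero, Matrix.cons_val_one]
    rw [one_pow, mul_pow, hμ, hl1]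
    ring
  have hef₀ : Cfsg.hermForm 2 F q e f₀ = 1 - l ^ q := by
    unfold Cfsg.hermForm
    rw [Fin.sum_univ_two, he, hf₀]
    simp only [Matrix.cons_val_zero, Matrix.cons_val_one]
    rw [one_pow, mul_pow]
    have h1 : μ * (l ^ q * μ ^ q) = l ^ q * μ ^ (q + 1) := by ring
    rw [h1, hμ]
    ring
  obtain ⟨f, hf⟩ : ∃ f : Fin 2 → F, f = t • f₀ := ⟨_, rfl⟩
  have hff : Cfsg.hermForm 2 F q f f = 0 := by
    rw [hf, hh.smul_left, hh.smul_right, hff₀, mul_zero, mul_zero]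
  have hef : Cfsg.hermForm 2 F q e f = ε := by
    rw [hf, hh.smul_right, hef₀, htq, div_mul_cancel₀ _ hc0]
  have hfe : Cfsg.hermForm 2 F q f e = -ε := by
    rw [hh.conj e f, hef, hε]
  obtain ⟨P, hP⟩ : ∃ P : Matrix (Fin 2) (Fin 2) F, P = Matrix.of (fun i j => ![e i, f i] j) :=
    ⟨_, rfl⟩
  have hPv : ∀ x : Fin 2 → F, P.mulVec x = x 0 • e + x 1 • f := by
    intro x
    funext i
    rw [hP]
    simp [Matrix.mulVec, dotProduct, Fin.sum_univ_two]
    ring
  have hH : ∀ x y, Cfsg.hermForm 2 F q (P.mulVec x) (P.mulVec y) = ε * twForm q x y := by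
    intro x y
    rw [hPv, hPv, hh.add_left, hh.add_right hF, hh.add_right hF, hh.smul_left, hh.smul_left,
      hh.smul_left, hh.smul_left, hh.smul_right, hh.smul_right, hh.smul_right, hh.smul_right,
      hee, hff, hef, hfe]
    unfold twForm
    ring
  refine ⟨ε, P, hε0, ?_, hH⟩
  rw [← Matrix.isUnit_iff_isUnit_det, ← Matrix.mulVec_injective_iff_isUnit]
  have hq0 : q ≠ 0 := by omega
  have hzero : ∀ x : Fin 2 → F, P.mulVec x = 0 → x = 0 := by
    intro x hx
    have h0 : ∀ y, ε * twForm q x y = 0 := by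
      intro y
      rw [← hH, hx]
      have h1 := hh.smul_left 0 0 (P.mulVec y)
      rw [zero_smul, zero_mul] at h1
      exact h1
    have h1 := (mul_eq_zero.1 (h0 ![0, 1])).resolve_left hε0
    have h2 := (mul_eq_zero.1 (h0 ![1, 0])).resolve_left hε0
    unfold twForm at h1 h2
    simp [hq0] at h1 h2
    funext i
    fin_cases i
    · exact h1
    · exact h2
  intro x x' hxx
  have h1 : P.mulVec (x - x') = 0 := by
    rw [Matrix.mulVec_sub, hxx, sub_self]
  exact sub_eq_zero.1 (hzero _ h1)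

/-- `SU_2(q) ≅ SL_2(q)`. -/
theorem su2_equiv_sl2 {F K : Type*} [Field F] [Fintype F] [Field K] [Fintype K] {q : ℕ}
    (hF : Fintype.card F = q ^ 2) (hK : Fintype.card K = q) :
    Nonempty (Cfsg.SU 2 F q ≃* Matrix.SpecialLinearGroup (Fin 2) K) := by
  classical
  have hq := two_le_of_card_sq hF
  obtain ⟨ι⟩ := exists_ringHom_of_card_sq (F := K) (K := F) (by rw [hF, hK])
  obtain ⟨ε, P, hε0, hPdet, hH⟩ := exists_iso_basis hF
  have hinv : P⁻¹ * P = 1 := Matrix.nonsing_inv_mul P hPdet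
  have hinv' : P * P⁻¹ = 1 := Matrix.mul_nonsing_inv P hPdet
  have key : ∀ X Y : Matrix (Fin 2) (Fin 2) F, (P * X * P⁻¹) * (P * Y * P⁻¹) = P * (X * Y) * P⁻¹ := by
    intro X Y
    calc (P * X * P⁻¹) * (P * Y * P⁻¹) = P * X * (P⁻¹ * P) * Y * P⁻¹ := by
          simp only [Matrix.mul_assoc]
      _ = P * (X * Y) * P⁻¹ := by rw [hinv, Matrix.mul_one, Matrix.mul_assoc P X Y]
  have hdetc : ∀ X : Matrix (Fin 2) (Fin 2) F, (P * X * P⁻¹).det = X.det := by
    intro X
    rw [Matrix.det_mul, Matrix.det_mul, mul_comm, ← mul_assoc, ← Matrix.det_mul, hinv,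
      Matrix.det_one, one_mul]
  have hdet : ∀ s : Matrix.SpecialLinearGroup (Fin 2) K,
      (P * ι.mapMatrix (s : Matrix (Fin 2) (Fin 2) K) * P⁻¹).det = 1 := by
    intro s
    rw [hdetc, ← RingHom.map_det, s.2, map_one]
  have hιfix : ∀ (s : Matrix (Fin 2) (Fin 2) K) (i j : Fin 2),
      (ι.mapMatrix s) i j ^ q = (ι.mapMatrix s) i j := by
    intro s i j
    rw [RingHom.mapMatrix_apply, Matrix.map_apply]
    exact (fixed_iff_range hF hK ι _).2 ⟨_, rfl⟩
  -- conjugates by P of twisted isometries are unitary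
  have hmemc : ∀ X : Matrix (Fin 2) (Fin 2) F,
      (∀ x y, twForm q (X.mulVec x) (X.mulVec y) = twForm q x y) →
      ∀ u v, Cfsg.hermForm 2 F q ((P * X * P⁻¹).mulVec u) ((P * X * P⁻¹).mulVec v)
        = Cfsg.hermForm 2 F q u v := by
    intro X hX u v
    have h1 : ∀ w : Fin 2 → F, (P * X * P⁻¹).mulVec w = P.mulVec (X.mulVec (P⁻¹.mulVec w)) := by
      intro w
      rw [Matrix.mulVec_mulVec, Matrix.mulVec_mulVec, Matrix.mul_assoc]
    have h2 : ∀ w : Fin 2 → F, P.mulVec (P⁻¹.mulVec w) = w := by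
      intro w
      rw [Matrix.mulVec_mulVec, hinv', Matrix.one_mulVec]
    rw [h1, h1, hH, hX, ← hH, h2, h2]
  have hmem : ∀ s : Matrix.SpecialLinearGroup (Fin 2) K,
      (⟨P * ι.mapMatrix (s : Matrix (Fin 2) (Fin 2) K) * P⁻¹, hdet s⟩ :
        Matrix.SpecialLinearGroup (Fin 2) F) ∈ Cfsg.SU 2 F q := by
    intro s
    refine (mem_SU_iff 2 q _).2 ?_
    apply hmemc
    apply tw_of_fixed hF
    · rw [← RingHom.map_det, s.2, map_one]
    · exact hιfix _
  obtain ⟨Ψ, hΨ⟩ : ∃ Ψ : Matrix.SpecialLinearGroup (Fin 2) K →* Cfsg.SU 2 F q,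
      ∀ s, (((Ψ s : Cfsg.SU 2 F q) : Matrix.SpecialLinearGroup (Fin 2) F) :
        Matrix (Fin 2) (Fin 2) F) = P * ι.mapMatrix (s : Matrix (Fin 2) (Fin 2) K) * P⁻¹ := by
    refine ⟨MonoidHom.mk' (fun s => ⟨⟨_, hdet s⟩, hmem s⟩) ?_, fun s => rfl⟩
    intro a b
    apply Subtype.ext
    apply Subtype.ext
    show P * ι.mapMatrix ((a * b : Matrix.SpecialLinearGroup (Fin 2) K) :
        Matrix (Fin 2) (Fin 2) K) * P⁻¹
      = (P * ι.mapMatrix (a : Matrix (Fin 2) (Fin 2) K) * P⁻¹)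
        * (P * ι.mapMatrix (b : Matrix (Fin 2) (Fin 2) K) * P⁻¹)
    rw [key, Matrix.SpecialLinearGroup.coe_mul, map_mul]
  have hcancel : ∀ X Y : Matrix (Fin 2) (Fin 2) F, P * X * P⁻¹ = P * Y * P⁻¹ → X = Y := by
    intro X Y h
    have h1 : P⁻¹ * (P * X * P⁻¹) * P = P⁻¹ * (P * Y * P⁻¹) * P := by rw [h]
    simp only [Matrix.mul_assoc] at h1
    rw [hinv, Matrix.mul_one, Matrix.mul_one, ← Matrix.mul_assoc, ← Matrix.mul_assoc, hinv,
      Matrix.one_mul, Matrix.one_mul] at h1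
    exact h1
  have hbij : Function.Bijective Ψ := by
    constructor
    · intro s s' hss
      have h1 := congrArg (fun z : Cfsg.SU 2 F q =>
        ((z : Matrix.SpecialLinearGroup (Fin 2) F) : Matrix (Fin 2) (Fin 2) F)) hss
      simp only [hΨ] at h1
      have h2 := hcancel _ _ h1
      apply Subtype.ext
      ext i j
      have h3 := congrFun (congrFun h2 i) j
      rw [RingHom.mapMatrix_apply, RingHom.mapMatrix_apply, Matrix.map_apply, Matrix.map_apply]
        at h3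
      exact ι.injective h3
    · intro g
      obtain ⟨G, hG⟩ : ∃ G : Matrix (Fin 2) (Fin 2) F,
          G = ((g : Matrix.SpecialLinearGroup (Fin 2) F) : Matrix (Fin 2) (Fin 2) F) := ⟨_, rfl⟩
      have hGdet : G.det = 1 := by
        rw [hG]
        exact g.1.2
      have hGu : ∀ u v, Cfsg.hermForm 2 F q (G.mulVec u) (G.mulVec v)
          = Cfsg.hermForm 2 F q u v := by
        rw [hG]
        exact (mem_SU_iff 2 q g.1).1 g.2
      obtain ⟨M, hM⟩ : ∃ M : Matrix (Fin 2) (Fin 2) F, M = P⁻¹ * G * P := ⟨_, rfl⟩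
      have hPM : P * M = G * P := by
        rw [hM, ← Matrix.mul_assoc, ← Matrix.mul_assoc, hinv', Matrix.one_mul]
      have hMdet : M.det = 1 := by
        rw [hM, Matrix.det_mul, Matrix.det_mul, mul_comm, ← mul_assoc, ← Matrix.det_mul, hinv',
          Matrix.det_one, one_mul, hGdet]
      have hMtw : ∀ x y, twForm q (M.mulVec x) (M.mulVec y) = twForm q x y := by
        intro x y
        apply mul_left_cancel₀ hε0
        rw [← hH, ← hH, Matrix.mulVec_mulVec, Matrix.mulVec_mulVec, hPM, ← Matrix.mulVec_mulVec,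
          ← Matrix.mulVec_mulVec, hGu]
      have hMfix := tw_fixed_of hF M hMdet hMtw
      choose k hk using fun i j => (fixed_iff_range hF hK ι (M i j)).1 (hMfix i j)
      have hkM : ι.mapMatrix (Matrix.of k) = M := by
        ext i j
        rw [RingHom.mapMatrix_apply, Matrix.map_apply, Matrix.of_apply, hk]
      have hkdet : (Matrix.of k : Matrix (Fin 2) (Fin 2) K).det = 1 := by
        apply ι.injective
        rw [RingHom.map_det, hkM, hMdet, map_one]
      obtain ⟨s, hs⟩ : ∃ s : Matrix.SpecialLinearGroup (Fin 2) K,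
          (s : Matrix (Fin 2) (Fin 2) K) = Matrix.of k := ⟨⟨_, hkdet⟩, rfl⟩
      refine ⟨s, ?_⟩
      apply Subtype.ext
      apply Subtype.ext
      rw [hΨ, hs, hkM, hPM, Matrix.mul_assoc, hinv', Matrix.mul_one, hG]
  exact ⟨(MulEquiv.ofBijective Ψ hbij).symm⟩

end Cfsg.Agent.Helper15
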