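import Mathlib
import Cfsg.Prelude.Def_SporadicB
import Cfsg.Agent.Helper15.PSU3

set_option autoImplicit false

namespace Cfsg.Agent.Helper15

open scoped MatrixGroups

/-- A matrix `M` with `M - 1` of rank one and determinant one satisfies `(M - 1)^2 = 0`. -/
theorem rank_one_det_one_sq {K : Type*} [Field K] {n : ℕ} (M : Matrix (Fin n) (Fin n) K)
    (hrank : (M - 1).rank = 1) (hdet : M.det = 1) : (M - 1) * (M - 1) = 0 := by
  classical
  have h1 : Module.finrank K (LinearMap.range (M - 1).mulVecLin) = 1 := hrank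
  obtain ⟨v, hv0, hv⟩ := finrank_eq_one_iff'.1 h1
  have h2 : ∀ j : Fin n, ∃ c : K, c • (v : Fin n → K) = (M - 1).mulVec (Pi.single j 1) := by
    intro j
    obtain ⟨c, hc⟩ := hv ⟨(M - 1).mulVec (Pi.single j 1), ⟨Pi.single j 1, rfl⟩⟩
    exact ⟨c, congrArg Subtype.val hc⟩
  choose φ hφ using h2
  have hN : M - 1 = Matrix.vecMulVec (v : Fin n → K) φ := by
    ext i j
    have h3 := congrFun (hφ j) i
    rw [Matrix.mulVec_single_one] at h3
    rw [Matrix.vecMulVec_apply]
    rw [Pi.smul_apply, smul_eq_mul] at h3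
    rw [mul_comm]
    exact h3.symm
  have hdet3 : (1 + Matrix.vecMulVec (v : Fin n → K) φ).det = 1 + φ ⬝ᵥ (v : Fin n → K) := by
    rw [Matrix.vecMulVec_eq (Fin 1)]
    exact Matrix.det_one_add_replicateCol_mul_replicateRow _ _
  have hM : M = 1 + Matrix.vecMulVec (v : Fin n → K) φ := by
    rw [← hN]
    abel
  have hdet2 : φ ⬝ᵥ (v : Fin n → K) = 0 := by
    rw [hM, hdet3] at hdet
    linear_combination hdet
  rw [hN, Matrix.vecMulVec_mul_vecMulVec, hdet2, zero_smul]
  ext i j
  simp [Matrix.vecMulVec_apply]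

theorem rank_transv_sub_one {K : Type*} [Field K] [Fintype K] {q : ℕ}
    (hK : Fintype.card K = q ^ 2) (n : ℕ) (M : Matrix (Fin n) (Fin n) K) (u : Fin n → K)
    (hu0 : u ≠ 0) (hM : ∀ x, M.mulVec x = x + Cfsg.hermForm n K q x u • u) :
    (M - 1).rank = 1 := by
  classical
  have hh := hermForm_isHerm hK n
  have hq := two_le_of_card_sq hK
  have hq1 : 1 ≤ q := by omega
  have hN : ∀ x, (M - 1).mulVec x = Cfsg.hermForm n K q x u • u := by
    intro x
    rw [Matrix.sub_mulVec, Matrix.one_mulVec, hM, add_sub_cancel_left]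
  have hrange : LinearMap.range (M - 1).mulVecLin = Submodule.span K {u} := by
    apply le_antisymm
    · rintro _ ⟨x, rfl⟩
      rw [Matrix.mulVecLin_apply, hN]
      exact Submodule.smul_mem _ _ (Submodule.mem_span_singleton_self u)
    · rw [Submodule.span_singleton_le_iff_mem]
      obtain ⟨x₀, hx₀⟩ : ∃ x₀, Cfsg.hermForm n K q x₀ u ≠ 0 := by
        by_contra hcon
        push Not at hcon
        exact hu0 (hh.right_nondeg hq1 u hcon)
      refine ⟨(Cfsg.hermForm n K q x₀ u)⁻¹ • x₀, ?_⟩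
      rw [Matrix.mulVecLin_apply, hN, hh.smul_left, inv_mul_cancel₀ hx₀, one_smul]
  show Module.finrank K (LinearMap.range (M - 1).mulVecLin) = 1
  rw [hrange]
  exact finrank_span_singleton hu0

theorem f4_two {K : Type*} [Field K] [Fintype K] (hK : Fintype.card K = 2 ^ 2) :
    (2 : K) = 0 := by
  have h1 : ((2 ^ 2 : ℕ) : K) = 0 := by
    rw [← hK]
    exact FiniteField.cast_card_eq_zero K
  have h3 : (2 : K) ^ 2 = 0 := by exact_mod_cast h1
  exact (pow_eq_zero_iff two_ne_zero).1 h3

theorem f4_cube {K : Type*} [Field K] [Fintype K] (hK : Fintype.card K = 2 ^ 2) (c : K)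
    (hc : c ≠ 0) : c ^ 3 = 1 := by
  have h1 := FiniteField.pow_card_sub_one_eq_one c hc
  have h3 : Fintype.card K - 1 = 3 := by
    rw [hK]
    norm_num
  rw [h3] at h1
  exact h1

theorem su2_rank_one_iff {K : Type*} [Field K] [Fintype K] (hK : Fintype.card K = 2 ^ 2)
    (n : ℕ) (A : ↥(Cfsg.SU n K 2)) :
    (((A : Matrix.SpecialLinearGroup (Fin n) K) : Matrix (Fin n) (Fin n) K) - 1).rank = 1
      ↔ ∃ u : Fin n → K, u ≠ 0 ∧ Cfsg.hermForm n K 2 u u = 0
        ∧ ∀ x, suAct A x = x + Cfsg.hermForm n K 2 x u • u := by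
  have h2 := f4_two hK
  constructor
  · intro hrank
    have hsq := rank_one_det_one_sq _ hrank A.1.2
    obtain ⟨a, u, ha0, ha, hu0, huu, hx⟩ := herm_transvection_form hK n _ hrank hsq
      ((mem_SU_iff n 2 A.1).1 A.2)
    have ha1 : a * (a - 1) = 0 := by linear_combination ha - a * h2
    have ha2 : a = 1 := by
      rcases mul_eq_zero.1 ha1 with h | h
      · exact absurd h ha0
      · exact sub_eq_zero.1 h
    refine ⟨u, hu0, huu, fun x => ?_⟩
    have h3 := hx x
    rw [ha2, one_mul] at h3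
    exact h3
  · rintro ⟨u, hu0, huu, hx⟩
    exact rank_transv_sub_one hK n _ u hu0 hx

theorem tv_sq {K : Type*} [Field K] [Fintype K] (hK : Fintype.card K = 2 ^ 2) (n : ℕ)
    (A : ↥(Cfsg.SU n K 2)) (u : Fin n → K) (huu : Cfsg.hermForm n K 2 u u = 0)
    (hA : ∀ x, suAct A x = x + Cfsg.hermForm n K 2 x u • u) : A * A = 1 := by
  have hh := hermForm_isHerm hK n
  have h2 := f4_two hK
  apply su_ext
  intro x
  rw [suAct_one, suAct_mul, hA x, hA (x + Cfsg.hermForm n K 2 x u • u), hh.add_left,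
    hh.smul_left, huu, mul_zero, add_zero, add_assoc, ← add_smul]
  have h3 : Cfsg.hermForm n K 2 x u + Cfsg.hermForm n K 2 x u = 0 := by
    linear_combination (Cfsg.hermForm n K 2 x u) * h2
  rw [h3, zero_smul, add_zero]

theorem tv_conj {K : Type*} [Field K] {n q : ℕ}
    (g B : ↥(Cfsg.SU n K q)) (v : Fin n → K)
    (hB : ∀ x, suAct B x = x + Cfsg.hermForm n K q x v • v) :
    ∀ x, suAct (g * B * g⁻¹) x = x + Cfsg.hermForm n K q x (suAct g v) • suAct g v := by
  intro x
  have h1 : Cfsg.hermForm n K q (suAct g⁻¹ x) v = Cfsg.hermForm n K q x (suAct g v) := by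
    rw [← suAct_pres g, suAct_inv_right]
  rw [suAct_mul, suAct_mul, hB, suAct_add, suAct_smul, suAct_inv_right, h1]

theorem tv_comm {K : Type*} [Field K] [Fintype K] {q : ℕ} (hK : Fintype.card K = q ^ 2)
    (n : ℕ) (A B : ↥(Cfsg.SU n K q)) (u v : Fin n → K)
    (hA : ∀ x, suAct A x = x + Cfsg.hermForm n K q x u • u)
    (hB : ∀ x, suAct B x = x + Cfsg.hermForm n K q x v • v)
    (huv : Cfsg.hermForm n K q u v = 0) : A * B = B * A := by
  have hh := hermForm_isHerm hK n
  have hq := two_le_of_card_sq hK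
  have hvu : Cfsg.hermForm n K q v u = 0 := hh.swap_zero (by omega) _ _ huv
  apply su_ext
  intro x
  rw [suAct_mul, suAct_mul, hB x, hA x, hA, hB, hh.add_left, hh.add_left, hh.smul_left,
    hh.smul_left, huv, hvu, mul_zero, mul_zero, add_zero, add_zero]
  abel

theorem tv_braid {K : Type*} [Field K] [Fintype K] (hK : Fintype.card K = 2 ^ 2) (n : ℕ)
    (A B : ↥(Cfsg.SU n K 2)) (u v : Fin n → K)
    (huu : Cfsg.hermForm n K 2 u u = 0) (hvv : Cfsg.hermForm n K 2 v v = 0)
    (hA : ∀ x, suAct A x = x + Cfsg.hermForm n K 2 x u • u)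
    (hB : ∀ x, suAct B x = x + Cfsg.hermForm n K 2 x v • v)
    (huv : Cfsg.hermForm n K 2 u v ≠ 0) : A * B * A = B * A * B := by
  have hh := hermForm_isHerm hK n
  have hA2 := tv_sq hK n A u huu hA
  have hB2 := tv_sq hK n B v hvv hB
  have hAinv : A⁻¹ = A := inv_eq_of_mul_eq_one_right hA2
  have hBinv : B⁻¹ = B := inv_eq_of_mul_eq_one_right hB2
  have h1 := tv_conj A B v hB
  have h2 := tv_conj B A u hA
  rw [hAinv] at h1
  rw [hBinv] at h2
  obtain ⟨c, hc⟩ : ∃ c : K, c = Cfsg.hermForm n K 2 u v := ⟨_, rfl⟩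
  have hc0 : c ≠ 0 := by
    rw [hc]
    exact huv
  have hc3 := f4_cube hK c hc0
  have hvu : Cfsg.hermForm n K 2 v u = c ^ 2 := by rw [hc, hh.conj u v]
  have hAv : suAct A v = c ^ 2 • (u + c • v) := by
    rw [hA, hvu, smul_add, smul_smul, ← pow_succ, hc3, one_smul, add_comm]
  have hBu : suAct B u = u + c • v := by rw [hB, hc]
  apply su_ext
  intro x
  rw [h1, h2, hAv, hBu, hh.smul_right, smul_smul]
  congr 2
  have h6 : (c ^ 2) ^ 2 * c ^ 2 = 1 := by
    have : (c ^ 2) ^ 2 * c ^ 2 = (c ^ 3) ^ 2 := by ring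
    rw [this, hc3, one_pow]
  rw [mul_right_comm, h6, one_mul]

theorem braid_cube {G : Type*} [Group G] (a b : G) (ha : a * a = 1) (hb : b * b = 1)
    (hbr : a * b * a = b * a * b) : (a * b) ^ 3 = 1 := by
  have h1 : (a * b) ^ 3 = (a * b * a) * (b * a * b) := by
    rw [pow_succ, pow_two]
    simp only [mul_assoc]
  rw [h1, ← hbr]
  have h2 : a * b * a * (a * b * a) = a * b * (a * a) * b * a := by simp only [mul_assoc]
  rw [h2, ha, mul_one, mul_assoc a b b, hb, mul_one, ha]

theorem comm_sq {G : Type*} [Group G] (a b : G) (ha : a * a = 1) (hb : b * b = 1)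
    (hc : a * b = b * a) : (a * b) ^ 2 = 1 := by
  have h1 : (a * b) ^ 2 = a * (b * a) * b := by
    rw [pow_two]
    simp only [mul_assoc]
  rw [h1, ← hc]
  have h2 : a * (a * b) * b = (a * a) * (b * b) := by simp only [mul_assoc]
  rw [h2, ha, hb, mul_one]

/-- The unitary transvections of `SU(n, 2)`, `n ≥ 4`, form a generating conjugacy class of
3-transpositions. -/
theorem su2_three_transp {K : Type} [Field K] [Fintype K] (hK4 : Fintype.card K = 4) (n : ℕ)
    (hn : 4 ≤ n) :
    Cfsg.IsThreeTranspositionClass {g : ↥(Cfsg.SU n K 2) |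
      (((g : Matrix.SpecialLinearGroup (Fin n) K) : Matrix (Fin n) (Fin n) K) - 1).rank = 1} := by
  classical
  have hK : Fintype.card K = 2 ^ 2 := by rw [hK4]; norm_num
  have hh := hermForm_isHerm hK n
  have h2 := f4_two hK
  refine ⟨⟨?_, ?_⟩, ?_, ?_⟩
  · intro d hd
    obtain ⟨u, hu0, huu, hdx⟩ := (su2_rank_one_iff hK n d).1 hd
    have h1 := tv_sq hK n d u huu hdx
    have hne : d ≠ 1 := by
      rintro rfl
      apply hu0
      apply hh.right_nondeg (by norm_num) u
      intro x
      have h3 := hdx x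
      rw [suAct_one] at h3
      have h4 : Cfsg.hermForm n K 2 x u • u = 0 := by
        have h5 : x + Cfsg.hermForm n K 2 x u • u = x + 0 := by rw [add_zero]; exact h3.symm
        exact add_left_cancel h5
      rcases smul_eq_zero.1 h4 with h | h
      · exact h
      · exact absurd h hu0
    haveI : Fact (Nat.Prime 2) := ⟨Nat.prime_two⟩
    exact orderOf_eq_prime (by rw [pow_two]; exact h1) hne
  · intro d hd e he
    obtain ⟨u, hu0, huu, hdx⟩ := (su2_rank_one_iff hK n d).1 hd
    obtain ⟨v, hv0, hvv, hex⟩ := (su2_rank_one_iff hK n e).1 he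
    have hd2 := tv_sq hK n d u huu hdx
    have he2 := tv_sq hK n e v hvv hex
    by_cases huv : Cfsg.hermForm n K 2 u v = 0
    · left
      exact comm_sq d e hd2 he2 (tv_comm hK n d e u v hdx hex huv)
    · right
      exact braid_cube d e hd2 he2 (tv_braid hK n d e u v huu hvv hdx hex huv)
  · obtain ⟨μ, hμ0, hμ⟩ := exists_norm_neg_one hK
    obtain ⟨i0, hi0⟩ : ∃ i : Fin n, (i : ℕ) = 0 := ⟨⟨0, by omega⟩, rfl⟩
    obtain ⟨i1, hi1⟩ : ∃ i : Fin n, (i : ℕ) = 1 := ⟨⟨1, by omega⟩, rfl⟩
    have h01 : i0 ≠ i1 := by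
      intro h
      rw [h] at hi0
      omega
    obtain ⟨u, hu⟩ : ∃ u : Fin n → K, u = Pi.single i0 1 + μ • Pi.single i1 1 := ⟨_, rfl⟩
    have hu0 : u ≠ 0 := by
      intro h
      have h1 := congrFun h i0
      rw [hu, Pi.add_apply, Pi.smul_apply, Pi.single_eq_same, Pi.single_eq_of_ne h01, smul_zero,
        add_zero, Pi.zero_apply] at h1
      exact one_ne_zero h1
    have huu : Cfsg.hermForm n K 2 u u = 0 := by
      rw [hu]
      exact herm_iso_std hK n _ _ h01 μ hμ
    obtain ⟨d, -, hdx⟩ := su_transv_exists hK n 1 (by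
      rw [one_pow]
      linear_combination h2) u huu
    have hdx' : ∀ x, suAct d x = x + Cfsg.hermForm n K 2 x u • u := by
      intro x
      rw [hdx, one_mul]
    have hd : (((d : Matrix.SpecialLinearGroup (Fin n) K) : Matrix (Fin n) (Fin n) K) - 1).rank
        = 1 := (su2_rank_one_iff hK n d).2 ⟨u, hu0, huu, hdx'⟩
    refine ⟨d, hd, ?_⟩
    ext e
    constructor
    · intro he
      show IsConj d e
      exact su_transvections_conj hK (by omega) d e ⟨hd, rank_one_det_one_sq _ hd d.1.2⟩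
        ⟨he, rank_one_det_one_sq _ he e.1.2⟩
    · intro he
      have he' : IsConj d e := he
      rw [isConj_iff] at he'
      obtain ⟨g, rfl⟩ := he'
      apply (su2_rank_one_iff hK n _).2
      exact ⟨suAct g u, suAct_ne_zero g u hu0, by rw [suAct_pres]; exact huu,
        tv_conj g d u hdx'⟩
  · rw [eq_top_iff, ← su_gen_transv hK n (by omega) (by omega), Subgroup.closure_le]
    rintro A ⟨v, c, hvv, hA⟩
    have hAx : ∀ y, suAct A y = y + (c * Cfsg.hermForm n K 2 y v) • v := by
      intro y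
      unfold suAct
      rw [hA, utransv_mulVec]
    by_cases hv : v = 0
    · have hA1 : A = 1 := su_ext _ _ (fun x => by
        rw [hAx, hv, smul_zero, add_zero, suAct_one])
      rw [hA1]
      exact Subgroup.one_mem _
    · by_cases hc : c = 0
      · have hA1 : A = 1 := su_ext _ _ (fun x => by
          rw [hAx, hc, zero_mul, zero_smul, add_zero, suAct_one])
        rw [hA1]
        exact Subgroup.one_mem _
      · have hskew := utransv_skew hK n A v c hvv hA hv
        have hc1 : c * (c - 1) = 0 := by linear_combination hskew - c * h2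
        have hc2 : c = 1 := by
          rcases mul_eq_zero.1 hc1 with h | h
          · exact absurd h hc
          · exact sub_eq_zero.1 h
        apply Subgroup.subset_closure
        apply (su2_rank_one_iff hK n _).2
        refine ⟨v, hv, hvv, fun x => ?_⟩
        rw [hAx, hc2, one_mul]

end Cfsg.Agent.Helper15
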