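import Mathlib
import Cfsg.Agent.Helper15.SUParab2

set_option autoImplicit false

namespace Cfsg.Agent.Helper15

open scoped MatrixGroups

/-- The order of the stabiliser in `SU_n(q)` of a totally isotropic subspace. -/
theorem card_su_stab_ti {K : Type*} [Field K] [Fintype K] {q : ℕ}
    (hK : Fintype.card K = q ^ 2) (n k : ℕ) (hn : 1 ≤ n) (hk : 2 * k ≤ n)
    (W : Submodule K (Fin n → K)) (hWk : Module.finrank K W = k)
    (hW : ∀ u ∈ W, ∀ v ∈ W, Cfsg.hermForm n K q u v = 0) :
    (q + 1) * Nat.card ↥((Cfsg.stabilizing (Cfsg.slToMat n K)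
        (W : Set (Fin n → K))).subgroupOf (Cfsg.SU n K q))
      = q ^ (k * (2 * n - 3 * k)) * (∏ i : Fin k, ((q ^ 2) ^ k - (q ^ 2) ^ (i : ℕ)))
        * (q ^ ((n - 2 * k) * ((n - 2 * k) - 1) / 2)
          * ∏ i ∈ Finset.range (n - 2 * k),
              (if Even i then q ^ (i + 1) + 1 else q ^ (i + 1) - 1)) := by
  classical
  have hq := two_le_of_card_sq hK
  rcases Nat.eq_zero_or_pos k with rfl | hkpos
  · have hWbot : W = ⊥ := Submodule.finrank_eq_zero.1 hWk
    have htop : (Cfsg.stabilizing (Cfsg.slToMat n K)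
        (W : Set (Fin n → K))).subgroupOf (Cfsg.SU n K q) = ⊤ := by
      rw [Subgroup.subgroupOf_eq_top]
      intro s hs v
      rw [hWbot]
      simp only [Submodule.bot_coe, Set.mem_singleton_iff]
      constructor
      · rintro rfl
        exact Matrix.mulVec_zero _
      · intro h0
        exact gl_mulVec_injective (Matrix.SpecialLinearGroup.toGL s)
          (h0.trans (Matrix.mulVec_zero _).symm)
    rw [htop, Subgroup.card_top, card_SU hK n hn]
    simp
  · obtain ⟨w, hwW, hw0⟩ : ∃ w ∈ W, w ≠ 0 := by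
      apply Submodule.exists_mem_ne_zero_of_ne_bot
      intro hbot
      rw [hbot, finrank_bot] at hWk
      omega
    have hww := hW w hwW w hwW
    obtain ⟨w', hw'w', hww'⟩ := herm_hyp_partner hK (hermForm_isHerm hK n) w hw0 hww
    have hcardG := card_gu_stab_ti hK n k hk W hWk hW
    obtain ⟨HG, hHG⟩ : ∃ HG : Subgroup ↥(Cfsg.GU n K q),
        HG = (Cfsg.stabilizing (Units.coeHom (Matrix (Fin n) (Fin n) K))
          (W : Set (Fin n → K))).subgroupOf (Cfsg.GU n K q) := ⟨_, rfl⟩
    rw [← hHG] at hcardG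
    have hmemHG : ∀ g : ↥(Cfsg.GU n K q), g ∈ HG ↔ ∀ v : Fin n → K,
        v ∈ (W : Set (Fin n → K))
          ↔ ((g : GL (Fin n) K) : Matrix (Fin n) (Fin n) K).mulVec v ∈ (W : Set (Fin n → K)) := by
      intro g
      rw [hHG, Subgroup.mem_subgroupOf]
      exact Iff.rfl
    obtain ⟨D, hD⟩ : ∃ D : ↥HG →* Kˣ, ∀ x : ↥HG,
        D x = Matrix.GeneralLinearGroup.det ((x : ↥(Cfsg.GU n K q)) : GL (Fin n) K) :=
      ⟨(Matrix.GeneralLinearGroup.det.comp (Cfsg.GU n K q).subtype).comp HG.subtype,
        fun x => rfl⟩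
    have hker : Nat.card ↥((Cfsg.stabilizing (Cfsg.slToMat n K)
        (W : Set (Fin n → K))).subgroupOf (Cfsg.SU n K q)) = Nat.card D.ker := by
      apply Nat.card_congr
      exact
        { toFun := fun s => ⟨⟨⟨Matrix.SpecialLinearGroup.toGL s.1.1,
              (mem_GU_iff n q _).2 ((mem_SU_iff n q s.1.1).1 s.1.2)⟩,
              (hmemHG _).2 (fun v => (Subgroup.mem_subgroupOf.1 s.2) v)⟩, by
            rw [MonoidHom.mem_ker, hD]
            exact Matrix.SpecialLinearGroup.coeToGL_det s.1.1⟩
          invFun := fun x => ⟨⟨⟨((x.1.1.1 : GL (Fin n) K) : Matrix (Fin n) (Fin n) K), by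
              have h := MonoidHom.mem_ker.1 x.2
              rw [hD] at h
              exact congrArg Units.val h⟩,
              (mem_SU_iff n q _).2 ((mem_GU_iff n q _).1 x.1.1.2)⟩,
              Subgroup.mem_subgroupOf.2 (fun v => (hmemHG x.1.1).1 x.1.2 v)⟩
          left_inv := fun s => rfl
          right_inv := fun x => Subtype.ext (Subtype.ext (Subtype.ext (Units.ext rfl))) }
    have hrange : Nat.card D.range = q + 1 := by
      have hmem : ∀ y : D.range, ((y : Kˣ) : K) ^ (q + 1) = 1 := by
        rintro ⟨y, ⟨g, hg⟩⟩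
        show (y : K) ^ (q + 1) = 1
        rw [← hg, hD]
        exact gu_det_pow hK n g.1.1 g.1.2
      have h1 : Nat.card D.range = Nat.card {x : K // x ^ (q + 1) = 1} := by
        apply Nat.card_congr
        refine Equiv.ofBijective (fun y => ⟨((y : Kˣ) : K), hmem y⟩) ⟨?_, ?_⟩
        · intro y y' hyy
          apply Subtype.ext
          apply Units.ext
          exact congrArg Subtype.val hyy
        · rintro ⟨x, hx⟩
          have hx0 : x ≠ 0 := by
            rintro rfl
            rw [zero_pow (by omega)] at hx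
            exact zero_ne_one hx
          obtain ⟨a, ha0, hax⟩ := norm_one_quot hK x hx
          obtain ⟨M, hM, hMdet, hMv⟩ := gu_hyp_rot hK n w w' hww hw'w' hww' a ha0
          have hMHG : (⟨M, hM⟩ : ↥(Cfsg.GU n K q)) ∈ HG := by
            rw [hmemHG]
            intro v
            apply stab_of_maps _ (gl_mulVec_injective M)
            intro v hv
            show (M : Matrix (Fin n) (Fin n) K).mulVec v ∈ W
            rw [hMv, hW v hv w hwW, mul_zero, zero_smul, add_zero]
            exact W.add_mem hv (W.smul_mem _ hwW)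
          refine ⟨⟨Units.mk0 x hx0, ⟨⟨⟨M, hM⟩, hMHG⟩, ?_⟩⟩, rfl⟩
          apply Units.ext
          rw [hD]
          exact hMdet.trans hax
      rw [h1, Nat.card_eq_fintype_card, Fintype.card_subtype]
      exact (norm_fiber_card hK).1 1 one_ne_zero (one_pow _)
    have hcard := Subgroup.card_mul_index D.ker
    rw [Subgroup.index_ker, hrange, ← hker] at hcard
    rw [mul_comm, hcard]
    exact hcardG

end Cfsg.Agent.Helper15
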