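import Mathlib
import Cfsg.Agent.Helper15.NormFiber

set_option autoImplicit false

namespace Cfsg.Agent.Helper15

/-- The trace-type maps `c ↦ c + ε c^q` are onto their natural targets. -/
theorem trace_eps {K : Type*} [Field K] [Fintype K] {q : ℕ} (hK : Fintype.card K = q ^ 2)
    (ε d : K) (hε : ε * ε = 1) (hd : ε * d ^ q = d) : ∃ c : K, c + ε * c ^ q = d := by
  obtain ⟨φ, hφ⟩ := exists_frob hK
  obtain ⟨θ, hθ⟩ : ∃ θ : K, θ + θ ^ q ≠ 0 := by
    by_cases h2 : (2 : K) = 0
    · obtain ⟨θ, hθ⟩ := exists_not_fixed hK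
      refine ⟨θ, fun h => hθ ?_⟩
      have h3 : θ ^ q = -θ := by linear_combination h
      rw [h3]
      linear_combination (-θ) * h2
    · refine ⟨1, ?_⟩
      rw [one_pow]
      intro h
      apply h2
      linear_combination h
  have hs : (θ + θ ^ q) ^ q = θ + θ ^ q := by
    rw [← hφ (θ + θ ^ q), map_add, hφ, hφ, pow_card_sq hK]
    ring
  have hdq : d ^ q = ε * d := by
    have : ε * (ε * d ^ q) = ε * d := by rw [hd]
    rw [← mul_assoc, hε, one_mul] at this
    exact this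
  refine ⟨d * θ / (θ + θ ^ q), ?_⟩
  rw [div_pow, mul_pow, hs, hdq]
  field_simp
  linear_combination (d * θ ^ q) * hε

theorem det_smul_add_nil {K : Type*} [Field K] {n : ℕ} (a : K) (N : Matrix (Fin n) (Fin n) K)
    (hN : IsNilpotent N) : (a • (1 : Matrix (Fin n) (Fin n) K) + N).det = a ^ n := by
  have h1 : (-N).charpoly = Polynomial.X ^ n := by
    have h2 := Matrix.isNilpotent_charpoly_sub_pow_of_isNilpotent hN.neg
    rw [Fintype.card_fin] at h2
    exact sub_eq_zero.1 h2.eq_zero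
  have h3 := Matrix.eval_charpoly (-N) a
  rw [h1, Polynomial.eval_pow, Polynomial.eval_X] at h3
  rw [h3]
  congr 1
  rw [sub_neg_eq_add, Matrix.scalar_apply, Matrix.smul_one_eq_diagonal]

theorem alg_nil_zero {K R : Type*} [Field K] [CommRing R] [Algebra K R] [Nontrivial R]
    (t : R) (ht : IsNilpotent t) (e : K) (w : R) (h : algebraMap K R e = t * w) : e = 0 := by
  by_contra he
  have h1 : IsUnit (algebraMap K R e) := (IsUnit.mk0 e he).map _
  rw [h] at h1
  exact h1.not_isNilpotent (mem_nilradical.1 (Ideal.mul_mem_right _ _ (mem_nilradical.2 ht)))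

/-- Norm surjectivity on the unipotent part of a truncated polynomial algebra with a
semilinear involution. -/
theorem norm_unip_surj {K R : Type*} [Field K] [CommRing R] [Algebra K R] [Nontrivial R]
    (q : ℕ) (t : R) (n : ℕ) (htn : t ^ n = 0)
    (hloc : ∀ r : R, ∃ (c : K) (r' : R), r = algebraMap K R c + t * r')
    (σ : R →+* R) (hσσ : ∀ r, σ (σ r) = r) (hσt : σ t = -t)
    (hσc : ∀ c : K, σ (algebraMap K R c) = algebraMap K R (c ^ q))
    (htr : ∀ (ε d : K), ε * ε = 1 → ε * d ^ q = d → ∃ c : K, c + ε * c ^ q = d) :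
    ∀ (k j : ℕ), 1 ≤ j → n ≤ j + k → ∀ a : R, σ a = a → (∃ r, a = 1 + t ^ j * r) →
      ∃ z : R, (∃ r', z = 1 + t ^ j * r') ∧ z * σ z = a := by
  have htnil : IsNilpotent t := ⟨n, htn⟩
  intro k
  induction k with
  | zero =>
    intro j hj hnj a ha ⟨r, hr⟩
    have h0 : t ^ j = 0 := by
      obtain ⟨d, rfl⟩ := Nat.exists_eq_add_of_le (show n ≤ j by omega)
      rw [pow_add, htn, zero_mul]
    refine ⟨1, ⟨0, by rw [mul_zero, add_zero]⟩, ?_⟩
    rw [map_one, mul_one, hr, h0, zero_mul, add_zero]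
  | succ k ih =>
    intro j hj hnj a ha ⟨r, hr⟩
    by_cases h0 : t ^ j = 0
    · refine ⟨1, ⟨0, by rw [mul_zero, add_zero]⟩, ?_⟩
      rw [map_one, mul_one, hr, h0, zero_mul, add_zero]
    obtain ⟨j', rfl⟩ : ∃ j', j = j' + 1 := ⟨j - 1, by omega⟩
    obtain ⟨d, r₁, hr₁⟩ := hloc r
    obtain ⟨E, hEdef⟩ : ∃ E : K, E = (-1) ^ (j' + 1) := ⟨_, rfl⟩
    have hEE : E * E = 1 := by
      rw [hEdef, ← mul_pow, neg_one_mul, neg_neg, one_pow]
    have hEt : (-t) ^ (j' + 1) = algebraMap K R E * t ^ (j' + 1) := by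
      rw [hEdef, map_pow, map_neg, map_one, neg_pow]
    have hσa : 1 + algebraMap K R E * t ^ (j' + 1) * (algebraMap K R (d ^ q) + (-t) * σ r₁)
        = 1 + t ^ (j' + 1) * (algebraMap K R d + t * r₁) := by
      have h1 := ha
      rw [hr, hr₁, map_add, map_one, map_mul, map_pow, hσt, map_add, map_mul, hσt, hσc, hEt] at h1
      exact h1
    have key : t ^ (j' + 1) * (algebraMap K R (E * d ^ q - d)
        - t * (r₁ + algebraMap K R E * σ r₁)) = 0 := by
      rw [map_sub, map_mul]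
      linear_combination hσa
    have he : E * d ^ q - d = 0 := by
      by_contra he
      have h1 : IsUnit (algebraMap K R (E * d ^ q - d)) := (IsUnit.mk0 _ he).map _
      have h3 : IsNilpotent (-(t * (r₁ + algebraMap K R E * σ r₁))) :=
        (mem_nilradical.1 (Ideal.mul_mem_right _ _ (mem_nilradical.2 htnil))).neg
      have h4 := IsNilpotent.isUnit_add_left_of_commute h3 h1 (Commute.all _ _)
      rw [← sub_eq_add_neg] at h4
      exact h0 (h4.mul_left_eq_zero.1 key)
    obtain ⟨c, hc⟩ := htr E d hEE (sub_eq_zero.1 he)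
    obtain ⟨z₁, hz₁def⟩ : ∃ z₁ : R, z₁ = 1 + algebraMap K R c * t ^ (j' + 1) := ⟨_, rfl⟩
    have hσz₁ : σ z₁ = 1 + algebraMap K R (E * c ^ q) * t ^ (j' + 1) := by
      rw [hz₁def, map_add, map_one, map_mul, map_pow, hσt, hσc, hEt, map_mul]
      ring
    have hz₁u : IsUnit z₁ := by
      rw [hz₁def]
      apply IsNilpotent.isUnit_one_add
      exact mem_nilradical.1 (Ideal.mul_mem_left _ _
        (mem_nilradical.2 (htnil.pow_succ j')))
    obtain ⟨y, hy⟩ := hz₁u.exists_right_inv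
    have hσy : σ z₁ * σ y = 1 := by rw [← map_mul, hy, map_one]
    have hnorm : z₁ * σ z₁ = 1 + algebraMap K R d * t ^ (j' + 1)
        + algebraMap K R (E * c ^ (q + 1)) * (t ^ (j' + 2) * t ^ j') := by
      rw [hσz₁, hz₁def, ← hc, map_add, map_mul, map_mul, map_pow, map_pow]
      ring
    have ha₂σ : σ (a * (y * σ y)) = a * (y * σ y) := by
      rw [map_mul, map_mul, hσσ, ha]
      ring
    have ha₂ : a * (y * σ y) = 1 + t ^ (j' + 1 + 1)
        * ((r₁ - algebraMap K R (E * c ^ (q + 1)) * t ^ j') * (y * σ y)) := by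
      have h5 : a = z₁ * σ z₁ + t ^ (j' + 1 + 1)
          * (r₁ - algebraMap K R (E * c ^ (q + 1)) * t ^ j') := by
        rw [hnorm, hr, hr₁]
        ring
      have h6 : z₁ * σ z₁ * (y * σ y) = 1 := by
        linear_combination (σ z₁ * σ y) * hy + hσy
      calc a * (y * σ y) = z₁ * σ z₁ * (y * σ y) + t ^ (j' + 1 + 1)
            * ((r₁ - algebraMap K R (E * c ^ (q + 1)) * t ^ j') * (y * σ y)) := by
            conv_lhs => rw [h5]
            ring
        _ = _ := by rw [h6]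
    obtain ⟨z₂, ⟨r₂, hr₂⟩, hz₂⟩ := ih (j' + 1 + 1) (by omega) (by omega) _ ha₂σ ⟨_, ha₂⟩
    refine ⟨z₁ * z₂, ⟨algebraMap K R c + t * r₂ + algebraMap K R c * t ^ (j' + 1 + 1) * r₂, ?_⟩, ?_⟩
    · rw [hz₁def, hr₂]
      ring
    · rw [map_mul]
      have h7 : z₁ * z₂ * (σ z₁ * σ z₂) = (z₁ * σ z₁) * (z₂ * σ z₂) := by ring
      rw [h7, hz₂]
      linear_combination (a * σ z₁ * σ y) * hy + a * hσy

end Cfsg.Agent.Helper15
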