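import Mathlib
import Cfsg.Agent.Helper15.SURegA
import Cfsg.Agent.Helper15.SUCard

set_option autoImplicit false

namespace Cfsg.Agent.Helper15

open Matrix
open scoped IsMulCommutative

section

variable {K : Type*} [Field K] {n : ℕ}

/-- The semilinear adjoint: transpose with a ring map applied to the entries. -/
def sdg (φ : K →+* K) (g : Matrix (Fin n) (Fin n) K) : Matrix (Fin n) (Fin n) K :=
  (φ.mapMatrix g)ᵀ

theorem sdg_apply (φ : K →+* K) (g : Matrix (Fin n) (Fin n) K) (i j : Fin n) :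
    sdg φ g i j = φ (g j i) := rfl

theorem sdg_add (φ : K →+* K) (g h : Matrix (Fin n) (Fin n) K) :
    sdg φ (g + h) = sdg φ g + sdg φ h := by
  unfold sdg
  rw [map_add, Matrix.transpose_add]

theorem sdg_neg (φ : K →+* K) (g : Matrix (Fin n) (Fin n) K) : sdg φ (-g) = -sdg φ g := by
  unfold sdg
  rw [map_neg, Matrix.transpose_neg]

theorem sdg_sub (φ : K →+* K) (g h : Matrix (Fin n) (Fin n) K) :
    sdg φ (g - h) = sdg φ g - sdg φ h := by
  unfold sdg
  rw [map_sub, Matrix.transpose_sub]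

theorem sdg_zero (φ : K →+* K) : sdg φ (0 : Matrix (Fin n) (Fin n) K) = 0 := by
  unfold sdg
  rw [map_zero, Matrix.transpose_zero]

theorem sdg_one (φ : K →+* K) : sdg φ (1 : Matrix (Fin n) (Fin n) K) = 1 := by
  unfold sdg
  rw [map_one, Matrix.transpose_one]

theorem sdg_mul (φ : K →+* K) (g h : Matrix (Fin n) (Fin n) K) :
    sdg φ (g * h) = sdg φ h * sdg φ g := by
  unfold sdg
  rw [map_mul, Matrix.transpose_mul]

theorem sdg_smul (φ : K →+* K) (c : K) (g : Matrix (Fin n) (Fin n) K) :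
    sdg φ (c • g) = φ c • sdg φ g := by
  ext i j
  rw [sdg_apply, Matrix.smul_apply, Matrix.smul_apply, sdg_apply, smul_eq_mul, smul_eq_mul,
    map_mul]

theorem sdg_sdg (φ : K →+* K) (hφφ : ∀ x, φ (φ x) = x) (g : Matrix (Fin n) (Fin n) K) :
    sdg φ (sdg φ g) = g := by
  ext i j
  rw [sdg_apply, sdg_apply, hφφ]

theorem sdg_pow (φ : K →+* K) (g : Matrix (Fin n) (Fin n) K) (k : ℕ) :
    sdg φ (g ^ k) = sdg φ g ^ k := by
  induction k with
  | zero => rw [pow_zero, pow_zero, sdg_one]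
  | succ k ih => rw [pow_succ, sdg_mul, ih, pow_succ']

theorem herm_sdg (φ : K →+* K) (q : ℕ) (hφ : ∀ x, φ x = x ^ q) (hφφ : ∀ x, φ (φ x) = x)
    (g : Matrix (Fin n) (Fin n) K) (u v : Fin n → K) :
    Cfsg.hermForm n K q (g *ᵥ u) v = Cfsg.hermForm n K q u (sdg φ g *ᵥ v) := by
  unfold Cfsg.hermForm
  simp only [Matrix.mulVec, dotProduct, ← hφ, map_sum, map_mul, sdg_apply, hφφ, Finset.sum_mul,
    Finset.mul_sum]
  rw [Finset.sum_comm]
  refine Finset.sum_congr rfl fun i _ => Finset.sum_congr rfl fun j _ => ?_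
  ring

theorem herm_pres_iff (φ : K →+* K) (q : ℕ) (hq : 1 ≤ q) (hφ : ∀ x, φ x = x ^ q)
    (hφφ : ∀ x, φ (φ x) = x) (g : Matrix (Fin n) (Fin n) K) :
    (∀ u v, Cfsg.hermForm n K q (g *ᵥ u) (g *ᵥ v) = Cfsg.hermForm n K q u v)
      ↔ sdg φ g * g = 1 := by
  classical
  constructor
  · intro hg
    have h1 : gᵀ * φ.mapMatrix g = 1 := by
      ext i j
      have h := hg (Pi.single i 1) (Pi.single j 1)
      rw [hermForm_single hq, Matrix.mulVec_single_one, Matrix.mulVec_single_one] at h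
      rw [Matrix.mul_apply, Matrix.one_apply, ← h]
      unfold Cfsg.hermForm
      apply Finset.sum_congr rfl
      intro k _
      rw [Matrix.transpose_apply, RingHom.mapMatrix_apply, Matrix.map_apply, hφ]
      rfl
    have h3 := congrArg Matrix.transpose h1
    rw [Matrix.transpose_mul, Matrix.transpose_transpose, Matrix.transpose_one] at h3
    exact h3
  · intro hg u v
    rw [herm_sdg φ q hφ hφφ, Matrix.mulVec_mulVec, hg, Matrix.one_mulVec]

/-- The algebra generated by a single square matrix. -/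
abbrev AdjK (T : Matrix (Fin n) (Fin n) K) : Subalgebra K (Matrix (Fin n) (Fin n) K) :=
  Algebra.adjoin K {T}

/-- The generator as an element of the generated algebra. -/
def adjGen (T : Matrix (Fin n) (Fin n) K) : AdjK T :=
  ⟨T, Algebra.subset_adjoin (Set.mem_singleton T)⟩

theorem adjK_loc (T : Matrix (Fin n) (Fin n) K) :
    ∀ r : AdjK T, ∃ (c : K) (r' : AdjK T), r = algebraMap K (AdjK T) c + adjGen T * r' := by
  rintro ⟨x, hx⟩
  induction hx using Algebra.adjoin_induction with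
  | mem x hx =>
    rw [Set.mem_singleton_iff] at hx
    refine ⟨0, 1, ?_⟩
    rw [map_zero, zero_add, mul_one]
    exact Subtype.ext hx
  | algebraMap r =>
    refine ⟨r, 0, ?_⟩
    rw [mul_zero, add_zero]
    rfl
  | add x y hx hy ihx ihy =>
    obtain ⟨c, r', hc⟩ := ihx
    obtain ⟨d, s', hd⟩ := ihy
    refine ⟨c + d, r' + s', ?_⟩
    have h2 : (⟨x + y, add_mem hx hy⟩ : AdjK T) = ⟨x, hx⟩ + ⟨y, hy⟩ := rfl
    rw [h2, hc, hd, map_add]
    ring
  | mul x y hx hy ihx ihy =>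
    obtain ⟨c, r', hc⟩ := ihx
    obtain ⟨d, s', hd⟩ := ihy
    refine ⟨c * d, algebraMap K (AdjK T) c * s' + algebraMap K (AdjK T) d * r'
      + adjGen T * r' * s', ?_⟩
    have h2 : (⟨x * y, mul_mem hx hy⟩ : AdjK T) = ⟨x, hx⟩ * ⟨y, hy⟩ := rfl
    rw [h2, hc, hd, map_mul]
    ring

theorem sdg_mem_adjK (φ : K →+* K) (T : Matrix (Fin n) (Fin n) K) (hT : sdg φ T = -T) :
    ∀ x ∈ AdjK T, sdg φ x ∈ AdjK T := by
  intro x hx
  induction hx using Algebra.adjoin_induction with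
  | mem x hx =>
    rw [Set.mem_singleton_iff] at hx
    rw [hx, hT]
    exact neg_mem (Algebra.subset_adjoin (Set.mem_singleton T))
  | algebraMap r =>
    rw [Algebra.algebraMap_eq_smul_one, sdg_smul, sdg_one, ← Algebra.algebraMap_eq_smul_one]
    exact Subalgebra.algebraMap_mem _ _
  | add x y hx hy ihx ihy =>
    rw [sdg_add]
    exact add_mem ihx ihy
  | mul x y hx hy ihx ihy =>
    rw [sdg_mul]
    exact mul_mem ihy ihx

/-- The adjoint as a ring map of the generated algebra. -/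
noncomputable def sdgRing (φ : K →+* K) (T : Matrix (Fin n) (Fin n) K) (hT : sdg φ T = -T) :
    AdjK T →+* AdjK T where
  toFun r := ⟨sdg φ r.1, sdg_mem_adjK φ T hT r.1 r.2⟩
  map_one' := Subtype.ext (sdg_one φ)
  map_mul' a b := Subtype.ext (by
    show sdg φ (a.1 * b.1) = sdg φ a.1 * sdg φ b.1
    rw [sdg_mul]
    exact congrArg Subtype.val (mul_comm (⟨sdg φ b.1, sdg_mem_adjK φ T hT b.1 b.2⟩ : AdjK T)
      ⟨sdg φ a.1, sdg_mem_adjK φ T hT a.1 a.2⟩))
  map_zero' := Subtype.ext (sdg_zero φ)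
  map_add' a b := Subtype.ext (sdg_add φ _ _)

theorem sdgRing_coe (φ : K →+* K) (T : Matrix (Fin n) (Fin n) K) (hT : sdg φ T = -T)
    (r : AdjK T) : ((sdgRing φ T hT r : AdjK T) : Matrix (Fin n) (Fin n) K) = sdg φ r.1 := rfl

theorem sdgRing_gen (φ : K →+* K) (T : Matrix (Fin n) (Fin n) K) (hT : sdg φ T = -T) :
    sdgRing φ T hT (adjGen T) = -adjGen T := Subtype.ext hT

theorem sdgRing_alg (φ : K →+* K) (T : Matrix (Fin n) (Fin n) K) (hT : sdg φ T = -T) (c : K) :
    sdgRing φ T hT (algebraMap K (AdjK T) c) = algebraMap K (AdjK T) (φ c) := by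
  apply Subtype.ext
  show sdg φ (algebraMap K (Matrix (Fin n) (Fin n) K) c)
    = algebraMap K (Matrix (Fin n) (Fin n) K) (φ c)
  rw [Algebra.algebraMap_eq_smul_one, sdg_smul, sdg_one, ← Algebra.algebraMap_eq_smul_one]

theorem sdgRing_invol (φ : K →+* K) (hφφ : ∀ x, φ (φ x) = x) (T : Matrix (Fin n) (Fin n) K)
    (hT : sdg φ T = -T) (r : AdjK T) : sdgRing φ T hT (sdgRing φ T hT r) = r :=
  Subtype.ext (sdg_sdg φ hφφ r.1)

end

end Cfsg.Agent.Helper15
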