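import Mathlib
import Cfsg.Agent.Helper15.SURegB
import Cfsg.Agent.Helper15.HermFrames
import Cfsg.Agent.Helper15.SUCenter
import Cfsg.Agent.Helper15.RegUnipClass

set_option autoImplicit false

namespace Cfsg.Agent.Helper15

open Matrix

section

variable {K : Type*} [Field K]

theorem shift_mulVec_zero (n' : ℕ) (u : Fin (n' + 1) → K) :
    (shiftMat (n' + 1) K *ᵥ u) 0 = 0 := by
  rw [Matrix.mulVec, dotProduct]
  refine Finset.sum_eq_zero fun j _ => ?_
  rw [shiftMat_apply, if_neg (by simp), zero_mul]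

theorem shift_mulVec_succ (n' : ℕ) (u : Fin (n' + 1) → K) (i : Fin n') :
    (shiftMat (n' + 1) K *ᵥ u) i.succ = u i.castSucc := by
  rw [Matrix.mulVec, dotProduct, Finset.sum_eq_single i.castSucc]
  · rw [shiftMat_apply, if_pos (by simp), one_mul]
  · intro b _ hb
    rw [shiftMat_apply, if_neg (fun h' => hb (Fin.ext (by simpa using h'))), zero_mul]
  · intro h
    exact absurd (Finset.mem_univ _) h

theorem hermForm_single_left (n q : ℕ) (i : Fin n) (w : Fin n → K) :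
    Cfsg.hermForm n K q (Pi.single i 1) w = (w i) ^ q := by
  classical
  unfold Cfsg.hermForm
  rw [Finset.sum_eq_single i]
  · rw [Pi.single_eq_same, one_mul]
  · intro k _ hki
    rw [Pi.single_eq_of_ne hki, zero_mul]
  · intro hi
    exact absurd (Finset.mem_univ i) hi

theorem hermForm_single_right (n q : ℕ) (hq : 1 ≤ q) (j : Fin n) (w : Fin n → K) :
    Cfsg.hermForm n K q w (Pi.single j 1) = w j := by
  classical
  unfold Cfsg.hermForm
  rw [Finset.sum_eq_single j]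
  · rw [Pi.single_eq_same, one_pow, mul_one]
  · intro k _ hkj
    rw [Pi.single_eq_of_ne hkj, zero_pow (by omega), mul_zero]
  · intro hj
    exact absurd (Finset.mem_univ j) hj

/-- The antidiagonal hermitian form for which the shift is skew. -/
def antiForm (n' q : ℕ) (ε : K) (u v : Fin (n' + 1) → K) : K :=
  ∑ i : Fin (n' + 1), ((-1) ^ (i : ℕ) * ε) * u i * (v (Fin.rev i)) ^ q

theorem antiForm_isHerm [Fintype K] {q : ℕ} (hK : Fintype.card K = q ^ 2) (n' : ℕ) (ε : K)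
    (hε0 : ε ≠ 0) (hε : ε ^ q = (-1) ^ n' * ε) : IsHerm q (antiForm (K := K) n' q ε) := by
  classical
  obtain ⟨φ, hφ⟩ := exists_frob hK
  have hq := two_le_of_card_sq hK
  refine ⟨?_, ?_, ?_, ?_⟩
  · intro u u' v
    unfold antiForm
    rw [← Finset.sum_add_distrib]
    refine Finset.sum_congr rfl fun i _ => ?_
    rw [Pi.add_apply]
    ring
  · intro c u v
    unfold antiForm
    rw [Finset.mul_sum]
    refine Finset.sum_congr rfl fun i _ => ?_
    rw [Pi.smul_apply, smul_eq_mul]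
    ring
  · intro u v
    unfold antiForm
    rw [← hφ, map_sum, ← Equiv.sum_comp Fin.revPerm]
    refine Finset.sum_congr rfl fun i _ => ?_
    rw [Fin.revPerm_apply, Fin.rev_rev, map_mul, map_mul, map_mul, map_pow, map_neg, map_one, hφ,
      hφ, hφ, pow_card_sq hK, hε, Fin.val_rev]
    have h1 : (-1 : K) ^ n' = (-1) ^ (n' + 1 - ((i : ℕ) + 1)) * (-1) ^ (i : ℕ) := by
      rw [← pow_add]
      congr 1
      have := i.2
      omega
    have h3 : (-1 : K) ^ (i : ℕ) * (-1) ^ (i : ℕ) = 1 := by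
      rw [← mul_pow, neg_one_mul, neg_neg, one_pow]
    rw [h1]
    linear_combination (-((-1 : K) ^ (n' + 1 - ((i : ℕ) + 1)) * ε * v (Fin.rev i) * u i ^ q)) * h3
  · intro u hu
    funext i
    have h1 := hu (Pi.single (Fin.rev i) 1)
    unfold antiForm at h1
    rw [Finset.sum_eq_single i] at h1
    · rw [Pi.single_eq_same, one_pow, mul_one] at h1
      have hb : (-1 : K) ^ (i : ℕ) * ε ≠ 0 :=
        mul_ne_zero (pow_ne_zero _ (neg_ne_zero.2 one_ne_zero)) hε0
      exact (mul_eq_zero.1 h1).resolve_left hb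
    · intro b _ hb
      rw [Pi.single_eq_of_ne (fun h' => hb (Fin.rev_injective h')), zero_pow (by omega), mul_zero]
    · intro h
      exact absurd (Finset.mem_univ _) h

theorem antiForm_skew [Fintype K] {q : ℕ} (hK : Fintype.card K = q ^ 2) (n' : ℕ) (ε : K)
    (u v : Fin (n' + 1) → K) :
    antiForm n' q ε (shiftMat (n' + 1) K *ᵥ u) v
      + antiForm n' q ε u (shiftMat (n' + 1) K *ᵥ v) = 0 := by
  have hq := two_le_of_card_sq hK
  unfold antiForm
  have e1 : (∑ i : Fin (n' + 1), ((-1) ^ (i : ℕ) * ε) * (shiftMat (n' + 1) K *ᵥ u) i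
        * (v (Fin.rev i)) ^ q)
      = ∑ i : Fin n', ((-1) ^ ((i : ℕ) + 1) * ε) * u i.castSucc
        * (v (Fin.rev i).castSucc) ^ q := by
    rw [Fin.sum_univ_succ, shift_mulVec_zero, mul_zero, zero_mul, zero_add]
    refine Finset.sum_congr rfl fun i _ => ?_
    rw [shift_mulVec_succ, Fin.rev_succ, Fin.val_succ]
  have e2 : (∑ i : Fin (n' + 1), ((-1) ^ (i : ℕ) * ε) * u i
        * ((shiftMat (n' + 1) K *ᵥ v) (Fin.rev i)) ^ q)
      = ∑ i : Fin n', ((-1) ^ (i : ℕ) * ε) * u i.castSucc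
        * (v (Fin.rev i).castSucc) ^ q := by
    rw [Fin.sum_univ_castSucc, Fin.rev_last, shift_mulVec_zero, zero_pow (by omega), mul_zero,
      add_zero]
    refine Finset.sum_congr rfl fun i _ => ?_
    rw [Fin.rev_castSucc, shift_mulVec_succ, Fin.val_castSucc]
  rw [e1, e2, ← Finset.sum_add_distrib]
  refine Finset.sum_eq_zero fun i _ => ?_
  rw [pow_succ]
  ring

end

/-- A regular nilpotent matrix that is skew for the standard hermitian form. -/
theorem exists_skew_regnil {K : Type*} [Field K] [Fintype K] {q : ℕ}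
    (hK : Fintype.card K = q ^ 2) (φ : K →+* K) (hφ : ∀ x, φ x = x ^ q) (n : ℕ) (hn : 1 ≤ n) :
    ∃ T : Matrix (Fin n) (Fin n) K, sdg φ T = -T ∧ T ^ n = 0 ∧ T.rank = n - 1 := by
  classical
  obtain ⟨n', rfl⟩ : ∃ n', n = n' + 1 := ⟨n - 1, by omega⟩
  have hq := two_le_of_card_sq hK
  obtain ⟨ε, hε0, hε⟩ : ∃ ε : K, ε ≠ 0 ∧ ε ^ q = (-1) ^ n' * ε := by
    rcases Nat.even_or_odd n' with he | ho
    · exact ⟨1, one_ne_zero, by rw [one_pow, he.neg_one_pow, mul_one]⟩
    · obtain ⟨a, ha0, ha⟩ := exists_skew hK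
      exact ⟨a, ha0, by rw [ho.neg_one_pow, ha]; ring⟩
  have hh := antiForm_isHerm hK n' ε hε0 hε
  have hfin : Module.finrank K (Fin (n' + 1) → K) = n' + 1 := Module.finrank_fin_fun K
  obtain ⟨e⟩ := herm_exists_frame hK (n' + 1) (antiForm n' q ε) hh hfin
  obtain ⟨ρ, -, hρ⟩ := herm_frame_equiv hK hh hfin e
  obtain ⟨P, hPdef⟩ : ∃ P : Matrix (Fin (n' + 1)) (Fin (n' + 1)) K,
      P = LinearMap.toMatrix' (ρ : (Fin (n' + 1) → K) →ₗ[K] (Fin (n' + 1) → K)) := ⟨_, rfl⟩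
  obtain ⟨P', hP'def⟩ : ∃ P' : Matrix (Fin (n' + 1)) (Fin (n' + 1)) K,
      P' = LinearMap.toMatrix' (ρ.symm : (Fin (n' + 1) → K) →ₗ[K] (Fin (n' + 1) → K)) := ⟨_, rfl⟩
  have hPP' : P * P' = 1 := by
    rw [hPdef, hP'def, ← LinearMap.toMatrix'_comp]
    have : (ρ : (Fin (n' + 1) → K) →ₗ[K] (Fin (n' + 1) → K))
        ∘ₗ (ρ.symm : (Fin (n' + 1) → K) →ₗ[K] (Fin (n' + 1) → K)) = LinearMap.id :=
      LinearMap.ext fun x => by simp
    rw [this, LinearMap.toMatrix'_id]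
  have hP'P : P' * P = 1 := mul_eq_one_comm.1 hPP'
  have hPv : ∀ v, P *ᵥ v = ρ v := fun v => by
    rw [hPdef]
    exact LinearMap.toMatrix'_mulVec _ v
  obtain ⟨T, hTdef⟩ : ∃ T : Matrix (Fin (n' + 1)) (Fin (n' + 1)) K,
      T = P' * shiftMat (n' + 1) K * P := ⟨_, rfl⟩
  have hρT : ∀ c, ρ (T *ᵥ c) = shiftMat (n' + 1) K *ᵥ ρ c := by
    intro c
    rw [← hPv, ← hPv, hTdef, Matrix.mulVec_mulVec, ← Matrix.mul_assoc, ← Matrix.mul_assoc, hPP',
      Matrix.one_mul, Matrix.mulVec_mulVec]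
  have hskew : ∀ c d, Cfsg.hermForm (n' + 1) K q (T *ᵥ c) d
      + Cfsg.hermForm (n' + 1) K q c (T *ᵥ d) = 0 := by
    intro c d
    rw [← hρ, ← hρ, hρT, hρT]
    exact antiForm_skew hK n' ε _ _
  refine ⟨T, ?_, ?_, ?_⟩
  · ext i j
    have h1 := hskew (Pi.single j 1) (Pi.single i 1)
    rw [hermForm_single_right _ _ (by omega), hermForm_single_left, Matrix.mulVec_single_one,
      Matrix.mulVec_single_one, Matrix.col_apply, Matrix.col_apply, ← hφ] at h1
    rw [sdg_apply, Matrix.neg_apply]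
    linear_combination h1
  · let w : (Matrix (Fin (n' + 1)) (Fin (n' + 1)) K)ˣ := ⟨P', P, hP'P, hPP'⟩
    have h3 : (P' * shiftMat (n' + 1) K * P) ^ (n' + 1)
        = P' * shiftMat (n' + 1) K ^ (n' + 1) * P := Units.conj_pow w _ _
    rw [hTdef, h3, shiftMat_pow_self, mul_zero, zero_mul]
  · have hu : IsUnit P.det := (Matrix.isUnit_iff_isUnit_det _).1 ⟨⟨P, P', hPP', hP'P⟩, rfl⟩
    have hu' : IsUnit P'.det := (Matrix.isUnit_iff_isUnit_det _).1 ⟨⟨P', P, hP'P, hPP'⟩, rfl⟩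
    rw [hTdef, Matrix.rank_mul_eq_left_of_isUnit_det _ _ hu,
      Matrix.rank_mul_eq_right_of_isUnit_det _ _ hu', shiftMat_rank _ _ (by omega)]

end Cfsg.Agent.Helper15
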