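import Mathlib
import Cfsg.Agent.Helper15.SURegC
import Cfsg.Agent.Helper15.SpRegClass3

set_option autoImplicit false

namespace Cfsg.Agent.Helper15

open Matrix

section

variable {K : Type*} [Field K] {n : ℕ}

theorem det_sdg (φ : K →+* K) (g : Matrix (Fin n) (Fin n) K) : (sdg φ g).det = φ g.det := by
  unfold sdg
  rw [Matrix.det_transpose, RingHom.map_det]

/-- Diagonal matrix with one prescribed entry. -/
def Dm (i₀ : Fin n) (d : K) : Matrix (Fin n) (Fin n) K :=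
  Matrix.diagonal (fun i => if i = i₀ then d else 1)

theorem Dm_mul (i₀ : Fin n) (d d' : K) : Dm i₀ d * Dm i₀ d' = Dm i₀ (d * d') := by
  unfold Dm
  rw [Matrix.diagonal_mul_diagonal]
  congr 1
  funext i
  by_cases h : i = i₀
  · rw [if_pos h, if_pos h, if_pos h]
  · rw [if_neg h, if_neg h, if_neg h, one_mul]

theorem Dm_one (i₀ : Fin n) : Dm i₀ (1 : K) = 1 := by
  unfold Dm
  rw [← Matrix.diagonal_one]
  congr 1
  funext i
  by_cases h : i = i₀
  · rw [if_pos h]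
  · rw [if_neg h]

theorem Dm_det (i₀ : Fin n) (d : K) : (Dm i₀ d).det = d := by
  unfold Dm
  rw [Matrix.det_diagonal, Finset.prod_ite_eq' Finset.univ i₀ (fun _ => d), if_pos (Finset.mem_univ _)]

theorem sdg_diagonal (φ : K →+* K) (v : Fin n → K) :
    sdg φ (Matrix.diagonal v) = Matrix.diagonal (fun i => φ (v i)) := by
  ext i j
  rw [sdg_apply, Matrix.diagonal_apply, Matrix.diagonal_apply]
  by_cases h : i = j
  · rw [if_pos h, if_pos h.symm, h]
  · rw [if_neg h, if_neg (fun h' => h h'.symm), map_zero]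

theorem Dm_unitary (φ : K →+* K) (q : ℕ) (hφ : ∀ x, φ x = x ^ q) (i₀ : Fin n) (d : K)
    (hd : d ^ (q + 1) = 1) : sdg φ (Dm i₀ d) * Dm i₀ d = 1 := by
  unfold Dm
  rw [sdg_diagonal, Matrix.diagonal_mul_diagonal, ← Matrix.diagonal_one]
  congr 1
  funext i
  by_cases h : i = i₀
  · rw [if_pos h, hφ, ← pow_succ, hd]
  · rw [if_neg h, map_one, one_mul]

theorem smul_unitary (φ : K →+* K) (q : ℕ) (hφ : ∀ x, φ x = x ^ q) (c : K)
    (hc : c ^ (q + 1) = 1) :
    sdg φ (c • (1 : Matrix (Fin n) (Fin n) K)) * (c • (1 : Matrix (Fin n) (Fin n) K)) = 1 := by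
  rw [sdg_smul, sdg_one, smul_mul_smul_comm, mul_one, hφ, ← pow_succ, hc, one_smul]

/-- Conjugacy in the special unitary group in matrix terms. -/
theorem su_isConj_iff (φ : K →+* K) (q : ℕ) (hq : 1 ≤ q) (hφ : ∀ x, φ x = x ^ q)
    (hφφ : ∀ x, φ (φ x) = x) (s s' : ↥(Cfsg.SU n K q)) :
    IsConj s s' ↔ ∃ C : Matrix (Fin n) (Fin n) K, C.det = 1 ∧ sdg φ C * C = 1 ∧
      C * ((s : Matrix.SpecialLinearGroup (Fin n) K) : Matrix (Fin n) (Fin n) K)
        = ((s' : Matrix.SpecialLinearGroup (Fin n) K) : Matrix (Fin n) (Fin n) K) * C := by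
  rw [isConj_iff]
  constructor
  · rintro ⟨c, hc⟩
    refine ⟨((c : Matrix.SpecialLinearGroup (Fin n) K) : Matrix (Fin n) (Fin n) K), c.1.2,
      (herm_pres_iff φ q hq hφ hφφ _).1 ((mem_SU_iff n q c.1).1 c.2), ?_⟩
    have h1 : c * s = s' * c := mul_inv_eq_iff_eq_mul.1 hc
    exact congrArg (fun x : ↥(Cfsg.SU n K q) =>
      ((x : Matrix.SpecialLinearGroup (Fin n) K) : Matrix (Fin n) (Fin n) K)) h1
  · rintro ⟨C, hdet, hC, hCs⟩
    refine ⟨⟨⟨C, hdet⟩, (mem_SU_iff n q _).2 ((herm_pres_iff φ q hq hφ hφφ C).2 hC)⟩, ?_⟩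
    rw [mul_inv_eq_iff_eq_mul]
    apply Subtype.ext
    apply Subtype.ext
    exact hCs

end

end Cfsg.Agent.Helper15
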