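import Mathlib
import Cfsg.Agent.Helper15.SURegD

set_option autoImplicit false

namespace Cfsg.Agent.Helper15

open Matrix
open scoped IsMulCommutative

section

variable {K : Type*} [Field K] {n : ℕ}

theorem adjGen_pow_zero (T : Matrix (Fin n) (Fin n) K) (hTn : T ^ n = 0) :
    adjGen T ^ n = 0 := by
  apply Subtype.ext
  rw [SubmonoidClass.coe_pow]
  exact hTn

theorem adjK_nontrivial [Nonempty (Fin n)] (T : Matrix (Fin n) (Fin n) K) :
    Nontrivial (AdjK T) :=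
  ⟨⟨0, 1, fun h => zero_ne_one (congrArg Subtype.val h)⟩⟩

theorem adjK_normSurj [Fintype K] {q : ℕ} (hK : Fintype.card K = q ^ 2) (φ : K →+* K)
    (hφ : ∀ x, φ x = x ^ q) (hφφ : ∀ x, φ (φ x) = x) [Nonempty (Fin n)]
    (T : Matrix (Fin n) (Fin n) K) (hT : sdg φ T = -T) (hTn : T ^ n = 0) :
    ∀ (j : ℕ), 1 ≤ j → ∀ a : AdjK T, sdgRing φ T hT a = a →
      (∃ r, a = 1 + adjGen T ^ j * r) →
      ∃ z : AdjK T, (∃ r', z = 1 + adjGen T ^ j * r') ∧ z * sdgRing φ T hT z = a := by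
  haveI := adjK_nontrivial T
  intro j hj
  exact norm_unip_surj q (adjGen T) n (adjGen_pow_zero T hTn) (adjK_loc T) (sdgRing φ T hT)
    (sdgRing_invol φ hφφ T hT) (sdgRing_gen φ T hT) (fun c => by rw [sdgRing_alg, hφ])
    (fun ε d => trace_eps hK ε d) n j hj (by omega)

/-- A unitary element of the generated algebra congruent to one, with unit linear part. -/
theorem su_unip_exists [Fintype K] {q : ℕ} (hK : Fintype.card K = q ^ 2) (φ : K →+* K)
    (hφ : ∀ x, φ x = x ^ q) (hφφ : ∀ x, φ (φ x) = x) [Nonempty (Fin n)]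
    (T : Matrix (Fin n) (Fin n) K) (hT : sdg φ T = -T) (hTn : T ^ n = 0) :
    ∃ u w w' : AdjK T, sdgRing φ T hT u * u = 1 ∧ w * w' = 1 ∧ u - 1 = adjGen T * w := by
  haveI := adjK_nontrivial T
  have hS := adjK_normSurj hK φ hφ hφφ T hT hTn 2 (by omega)
  obtain ⟨t, htdef⟩ : ∃ t : AdjK T, t = adjGen T := ⟨_, rfl⟩
  obtain ⟨σ, hσdef⟩ : ∃ σ : AdjK T →+* AdjK T, σ = sdgRing φ T hT := ⟨_, rfl⟩
  have hσσ : ∀ r, σ (σ r) = r := by rw [hσdef]; exact sdgRing_invol φ hφφ T hT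
  have hσt : σ t = -t := by rw [hσdef, htdef]; exact sdgRing_gen φ T hT
  have htnil : IsNilpotent t := ⟨n, by rw [htdef]; exact adjGen_pow_zero T hTn⟩
  rw [← hσdef, ← htdef] at hS
  have hν : σ ((1 + t) * σ (1 + t)) = (1 + t) * σ (1 + t) := by
    rw [map_mul, hσσ, mul_comm]
  obtain ⟨z₂, ⟨r₂, hr₂⟩, hz₂⟩ := hS _ hν ⟨-1, by rw [map_add, map_one, hσt]; ring⟩
  have hz₂u : IsUnit z₂ := by
    rw [hr₂]
    exact IsNilpotent.isUnit_one_add (mem_nilradical.1 (Ideal.mul_mem_right _ _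
      (mem_nilradical.2 (htnil.pow_succ 1))))
  obtain ⟨y, hy⟩ := hz₂u.exists_right_inv
  have hvu : IsUnit (1 + -(t * r₂)) := IsNilpotent.isUnit_one_add
    (mem_nilradical.1 (Ideal.mul_mem_right _ _ (mem_nilradical.2 htnil))).neg
  obtain ⟨v', hv'⟩ := hvu.exists_right_inv
  have hσy : σ z₂ * σ y = 1 := by rw [← map_mul, hy, map_one]
  have hy' : (1 + t ^ 2 * r₂) * y = 1 := by rw [← hr₂]; exact hy
  refine ⟨(1 + t) * y, (1 + -(t * r₂)) * y, z₂ * v', ?_, ?_, ?_⟩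
  · rw [← hσdef, map_mul]
    linear_combination (-(σ y * y)) * hz₂ + (σ z₂ * σ y) * hy + hσy
  · linear_combination ((1 + -(t * r₂)) * v') * hy + hv'
  · rw [← htdef]
    linear_combination hy'

/-- Fixed units are norms. -/
theorem su_norm_solve [Fintype K] {q : ℕ} (hK : Fintype.card K = q ^ 2) (φ : K →+* K)
    (hφ : ∀ x, φ x = x ^ q) (hφφ : ∀ x, φ (φ x) = x) [Nonempty (Fin n)]
    (T : Matrix (Fin n) (Fin n) K) (hT : sdg φ T = -T) (hTn : T ^ n = 0)
    (a : AdjK T) (hau : IsUnit a) (haσ : sdgRing φ T hT a = a) :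
    ∃ z y : AdjK T, z * y = 1 ∧ sdgRing φ T hT z * z = a := by
  haveI := adjK_nontrivial T
  have hS := adjK_normSurj hK φ hφ hφφ T hT hTn 1 le_rfl
  obtain ⟨c₀, r, hr⟩ := adjK_loc T a
  obtain ⟨t, htdef⟩ : ∃ t : AdjK T, t = adjGen T := ⟨_, rfl⟩
  obtain ⟨σ, hσdef⟩ : ∃ σ : AdjK T →+* AdjK T, σ = sdgRing φ T hT := ⟨_, rfl⟩
  have hσσ : ∀ r, σ (σ r) = r := by rw [hσdef]; exact sdgRing_invol φ hφφ T hT
  have hσt : σ t = -t := by rw [hσdef, htdef]; exact sdgRing_gen φ T hT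
  have hσc : ∀ c : K, σ (algebraMap K (AdjK T) c) = algebraMap K (AdjK T) (c ^ q) := by
    intro c
    rw [hσdef, sdgRing_alg, hφ]
  have htnil : IsNilpotent t := ⟨n, by rw [htdef]; exact adjGen_pow_zero T hTn⟩
  rw [← hσdef, ← htdef] at hS
  rw [← hσdef] at haσ
  rw [← htdef] at hr
  have hc₀ : c₀ ≠ 0 := by
    rintro rfl
    rw [map_zero, zero_add] at hr
    rw [hr] at hau
    exact hau.not_isNilpotent
      (mem_nilradical.1 (Ideal.mul_mem_right _ _ (mem_nilradical.2 htnil)))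
  have hc₀q : c₀ ^ q = c₀ := by
    have h1 := haσ
    rw [hr, map_add, map_mul, hσt, hσc] at h1
    have h2 : algebraMap K (AdjK T) (c₀ ^ q - c₀) = t * (r + σ r) := by
      rw [map_sub]
      linear_combination h1
    exact sub_eq_zero.1 (alg_nil_zero t htnil _ _ h2)
  obtain ⟨x, hx0, hx⟩ := norm_exists hK c₀ hc₀ hc₀q
  have hinvq : (c₀⁻¹) ^ q = c₀⁻¹ := by rw [inv_pow, hc₀q]
  have ha' : σ (algebraMap K (AdjK T) c₀⁻¹ * a) = algebraMap K (AdjK T) c₀⁻¹ * a := by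
    rw [map_mul, hσc, hinvq, haσ]
  have ha'' : algebraMap K (AdjK T) c₀⁻¹ * a
      = 1 + t ^ 1 * (algebraMap K (AdjK T) c₀⁻¹ * r) := by
    have h3 : algebraMap K (AdjK T) c₀⁻¹ * algebraMap K (AdjK T) c₀ = 1 := by
      rw [← map_mul, inv_mul_cancel₀ hc₀, map_one]
    rw [hr, pow_one]
    linear_combination h3
  obtain ⟨z, ⟨r', hr'⟩, hz⟩ := hS _ ha' ⟨_, ha''⟩
  have hzu : IsUnit z := by
    rw [hr', pow_one]
    exact IsNilpotent.isUnit_one_add
      (mem_nilradical.1 (Ideal.mul_mem_right _ _ (mem_nilradical.2 htnil)))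
  obtain ⟨y, hy⟩ := hzu.exists_right_inv
  refine ⟨algebraMap K (AdjK T) x * z, algebraMap K (AdjK T) x⁻¹ * y, ?_, ?_⟩
  · have h4 : algebraMap K (AdjK T) x * algebraMap K (AdjK T) x⁻¹ = 1 := by
      rw [← map_mul, mul_inv_cancel₀ hx0, map_one]
    linear_combination (z * y) * h4 + hy
  · rw [← hσdef, map_mul, hσc]
    have h5 : algebraMap K (AdjK T) (x ^ q) * algebraMap K (AdjK T) x
        = algebraMap K (AdjK T) c₀ := by
      rw [← map_mul, ← pow_succ, hx]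
    have h6 : algebraMap K (AdjK T) c₀ * (algebraMap K (AdjK T) c₀⁻¹ * a) = a := by
      rw [← mul_assoc, ← map_mul, mul_inv_cancel₀ hc₀, map_one, one_mul]
    linear_combination (z * σ z) * h5 + algebraMap K (AdjK T) c₀ * hz + h6

/-- Unitary elements of the generated algebra have determinant an `n`-th power of a norm-one
scalar. -/
theorem su_cent_det {q : ℕ} (φ : K →+* K) (hφ : ∀ x, φ x = x ^ q) [Nonempty (Fin n)]
    (T : Matrix (Fin n) (Fin n) K) (hT : sdg φ T = -T) (hTn : T ^ n = 0)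
    (k : AdjK T) (hk : sdgRing φ T hT k * k = 1) :
    ∃ a : K, a ^ (q + 1) = 1 ∧ k.1.det = a ^ n := by
  haveI := adjK_nontrivial T
  obtain ⟨a, r, hr0⟩ := adjK_loc T k
  have hr := hr0
  obtain ⟨t, htdef⟩ : ∃ t : AdjK T, t = adjGen T := ⟨_, rfl⟩
  obtain ⟨σ, hσdef⟩ : ∃ σ : AdjK T →+* AdjK T, σ = sdgRing φ T hT := ⟨_, rfl⟩
  have hσt : σ t = -t := by rw [hσdef, htdef]; exact sdgRing_gen φ T hT
  have hσc : ∀ c : K, σ (algebraMap K (AdjK T) c) = algebraMap K (AdjK T) (c ^ q) := by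
    intro c
    rw [hσdef, sdgRing_alg, hφ]
  have htnil : IsNilpotent t := ⟨n, by rw [htdef]; exact adjGen_pow_zero T hTn⟩
  rw [← htdef] at hr
  refine ⟨a, ?_, ?_⟩
  · have h1 := hk
    rw [← hσdef, hr, map_add, map_mul, hσt, hσc] at h1
    have h2 : algebraMap K (AdjK T) (a ^ (q + 1) - 1)
        = t * (σ r * (algebraMap K (AdjK T) a + t * r) - algebraMap K (AdjK T) (a ^ q) * r) := by
      rw [map_sub, map_one, pow_succ, map_mul]
      linear_combination h1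
    exact sub_eq_zero.1 (alg_nil_zero t htnil _ _ h2)
  · have h3 : k.1 = algebraMap K (Matrix (Fin n) (Fin n) K) a + T * r.1 :=
      congrArg Subtype.val hr0
    have hcomm : Commute T r.1 := congrArg Subtype.val (mul_comm (adjGen T) r)
    rw [h3, Algebra.algebraMap_eq_smul_one]
    exact det_smul_add_nil a (T * r.1) ⟨n, by rw [hcomm.mul_pow, hTn, zero_mul]⟩

end

end Cfsg.Agent.Helper15
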