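import Mathlib
import Cfsg.Agent.Helper15.SURegE

set_option autoImplicit false

namespace Cfsg.Agent.Helper15

open Matrix
open scoped IsMulCommutative

set_option maxHeartbeats 1600000 in
theorem su_regunip_class_count {K : Type*} [Field K] [Fintype K] {q n : ℕ}
    (hK : Fintype.card K = q ^ 2) (hn : 2 ≤ n) :
    Nat.card {C : ConjClasses ↥(Cfsg.SU n K q) // ∃ u : ↥(Cfsg.SU n K q), ConjClasses.mk u = C ∧
      (((u : GL (Fin n) K) : Matrix (Fin n) (Fin n) K) - 1) ^ n = 0 ∧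
      (((u : GL (Fin n) K) : Matrix (Fin n) (Fin n) K) - 1).rank = n - 1} = Nat.gcd n (q + 1) := by
  classical
  have hne : Nonempty (Fin n) := ⟨⟨0, by omega⟩⟩
  obtain ⟨φ, hφ⟩ := exists_frob hK
  have hφφ : ∀ x, φ (φ x) = x := fun x => by rw [hφ, hφ, pow_card_sq hK]
  have hq : 2 ≤ q := two_le_of_card_sq hK
  obtain ⟨T, hT, hTn, hTrank⟩ := exists_skew_regnil hK φ hφ n (by omega)
  obtain ⟨u₀, w, w', hu₀, hww', hu₀sub⟩ := su_unip_exists hK φ hφ hφφ T hT hTn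
  obtain ⟨U₀, hU₀def⟩ : ∃ U₀ : Matrix (Fin n) (Fin n) K, U₀ = u₀.1 := ⟨_, rfl⟩
  have hU₀mem : U₀ ∈ AdjK T := by rw [hU₀def]; exact u₀.2
  have hU₀ : sdg φ U₀ * U₀ = 1 := by rw [hU₀def]; exact congrArg Subtype.val hu₀
  have hU₀' : U₀ * sdg φ U₀ = 1 := mul_eq_one_comm.1 hU₀
  have hU₀sub : U₀ - 1 = T * w.1 := by rw [hU₀def]; exact congrArg Subtype.val hu₀sub
  have hWW' : w.1 * w'.1 = 1 := congrArg Subtype.val hww'
  have hTW : Commute T w.1 := congrArg Subtype.val (mul_comm (adjGen T) w)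
  have hnil₀ : (U₀ - 1) ^ n = 0 := by rw [hU₀sub, hTW.mul_pow, hTn, zero_mul]
  have hreg₀ : (U₀ - 1).rank = n - 1 := by
    have hu : IsUnit w.1.det :=
      (Matrix.isUnit_iff_isUnit_det _).1 ⟨⟨w.1, w'.1, hWW', mul_eq_one_comm.1 hWW'⟩, rfl⟩
    rw [hU₀sub, Matrix.rank_mul_eq_left_of_isUnit_det _ _ hu, hTrank]
  have hdet₀ : U₀.det = 1 := by
    have h1 : U₀ = (1 : K) • (1 : Matrix (Fin n) (Fin n) K) + (U₀ - 1) := by
      rw [one_smul]; abel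
    rw [h1, det_smul_add_nil 1 _ ⟨n, hnil₀⟩, one_pow]
  obtain ⟨-, hspan⟩ := cyc_mat n (by omega) (Fintype.card_fin n) (U₀ - 1) hnil₀ hreg₀
  have hZmem : ∀ x : Matrix (Fin n) (Fin n) K, x * U₀ = U₀ * x → x ∈ AdjK T := by
    intro x hx
    have h5 : x * (U₀ - 1) = (U₀ - 1) * x := by rw [mul_sub, sub_mul, hx, mul_one, one_mul]
    obtain ⟨a, ha⟩ := hspan _ h5
    rw [ha]
    exact sum_mem fun i _ => Subalgebra.smul_mem _ (pow_mem (sub_mem hU₀mem (one_mem _)) _) _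
  have hZcomm : ∀ x ∈ AdjK T, x * U₀ = U₀ * x := fun x hx => by
    rw [hU₀def]
    exact congrArg Subtype.val (mul_comm (⟨x, hx⟩ : AdjK T) u₀)
  -- conjugating a unitary regular unipotent to the base point by a unitary matrix
  have key : ∀ U : Matrix (Fin n) (Fin n) K, sdg φ U * U = 1 → (U - 1) ^ n = 0 →
      (U - 1).rank = n - 1 →
      ∃ P : Matrix (Fin n) (Fin n) K, sdg φ P * P = 1 ∧ P * U₀ = U * P := by
    intro U hU hnil hreg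
    have hU' : U * sdg φ U = 1 := mul_eq_one_comm.1 hU
    obtain ⟨h, h', hhh', hh'h, hh⟩ := regnil_conj n (by omega) (Fintype.card_fin n) (U₀ - 1)
      (U - 1) hnil₀ hreg₀ hnil hreg
    have hhU : h * U₀ = U * h := by
      rw [mul_sub, sub_mul, mul_one, one_mul] at hh
      exact sub_left_injective hh
    have e2 : sdg φ U₀ * sdg φ h = sdg φ h * sdg φ U := by rw [← sdg_mul, ← sdg_mul, hhU]
    have e3 : sdg φ U * h = h * sdg φ U₀ := by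
      calc sdg φ U * h = sdg φ U * h * (U₀ * sdg φ U₀) := by rw [hU₀', mul_one]
        _ = sdg φ U * (h * U₀) * sdg φ U₀ := by simp only [mul_assoc]
        _ = sdg φ U * (U * h) * sdg φ U₀ := by rw [hhU]
        _ = h * sdg φ U₀ := by rw [← mul_assoc, hU, one_mul]
    obtain ⟨a, hadef⟩ : ∃ a : Matrix (Fin n) (Fin n) K, a = sdg φ h * h := ⟨_, rfl⟩
    obtain ⟨b, hbdef⟩ : ∃ b : Matrix (Fin n) (Fin n) K, b = h' * sdg φ h' := ⟨_, rfl⟩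
    have ea1 : a * sdg φ U₀ = sdg φ U₀ * a := by
      rw [hadef, mul_assoc, ← e3, ← mul_assoc, ← e2, mul_assoc]
    have ea : a * U₀ = U₀ * a := by
      calc a * U₀ = U₀ * (sdg φ U₀ * a) * U₀ := by rw [← mul_assoc, hU₀', one_mul]
        _ = U₀ * (a * sdg φ U₀) * U₀ := by rw [ea1]
        _ = U₀ * a := by
            simp only [mul_assoc]
            rw [hU₀, mul_one]
    have hba : b * a = 1 := by
      rw [hadef, hbdef]
      have e4 : h' * sdg φ h' * (sdg φ h * h) = h' * (sdg φ h' * sdg φ h) * h := by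
        simp only [mul_assoc]
      rw [e4, ← sdg_mul, hhh', sdg_one, mul_one, hh'h]
    have hab : a * b = 1 := mul_eq_one_comm.1 hba
    have eb : b * U₀ = U₀ * b := by
      calc b * U₀ = b * U₀ * (a * b) := by rw [hab, mul_one]
        _ = b * (U₀ * a) * b := by simp only [mul_assoc]
        _ = b * (a * U₀) * b := by rw [ea]
        _ = (b * a) * U₀ * b := by simp only [mul_assoc]
        _ = U₀ * b := by rw [hba, one_mul]
    have haσ : sdgRing φ T hT ⟨a, hZmem a ea⟩ = ⟨a, hZmem a ea⟩ := by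
      apply Subtype.ext
      show sdg φ a = a
      rw [hadef, sdg_mul, sdg_sdg φ hφφ]
    have hau : IsUnit (⟨a, hZmem a ea⟩ : AdjK T) :=
      ⟨⟨⟨a, hZmem a ea⟩, ⟨b, hZmem b eb⟩, Subtype.ext hab, Subtype.ext hba⟩, rfl⟩
    obtain ⟨z, y, hzy, hz⟩ := su_norm_solve hK φ hφ hφφ T hT hTn _ hau haσ
    have hZY : z.1 * y.1 = 1 := congrArg Subtype.val hzy
    have hza : sdg φ z.1 * z.1 = a := congrArg Subtype.val hz
    refine ⟨h * y.1, ?_, ?_⟩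
    · rw [sdg_mul]
      have e6 : sdg φ y.1 * sdg φ h * (h * y.1) = sdg φ y.1 * (sdg φ h * h) * y.1 := by
        simp only [mul_assoc]
      rw [e6, ← hadef, ← hza]
      have e7 : sdg φ y.1 * (sdg φ z.1 * z.1) * y.1
          = (sdg φ y.1 * sdg φ z.1) * (z.1 * y.1) := by simp only [mul_assoc]
      rw [e7, ← sdg_mul, hZY, sdg_one, mul_one]
    · rw [mul_assoc, hZcomm y.1 y.2, ← mul_assoc, hhU, mul_assoc]
  -- unitary centralizer determinants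
  have hcent : ∀ k : Matrix (Fin n) (Fin n) K, sdg φ k * k = 1 → k * U₀ = U₀ * k →
      ∃ a : K, a ^ (q + 1) = 1 ∧ k.det = a ^ n := by
    intro k hk hkU
    exact su_cent_det φ hφ T hT hTn ⟨k, hZmem k hkU⟩ (Subtype.ext hk)
  -- representatives
  have hDinv : ∀ d : K, d ^ (q + 1) = 1 → d ≠ 0 ∧ d⁻¹ ^ (q + 1) = 1 := by
    intro d hd
    refine ⟨?_, by rw [inv_pow, hd, inv_one]⟩
    rintro rfl
    rw [zero_pow (by omega)] at hd
    exact zero_ne_one hd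
  obtain ⟨i₀⟩ := hne
  obtain ⟨V, hVdef⟩ : ∃ V : K → Matrix (Fin n) (Fin n) K,
      V = fun d => Dm i₀ d * U₀ * Dm i₀ d⁻¹ := ⟨_, rfl⟩
  have hDD : ∀ d : K, d ≠ 0 → Dm i₀ d * Dm i₀ d⁻¹ = 1 ∧ Dm i₀ d⁻¹ * Dm i₀ d = 1 := by
    intro d hd
    constructor
    · rw [Dm_mul, mul_inv_cancel₀ hd, Dm_one]
    · rw [Dm_mul, inv_mul_cancel₀ hd, Dm_one]
  have hV : ∀ d : K, d ^ (q + 1) = 1 → sdg φ (V d) * V d = 1 ∧ (V d).det = 1 ∧
      (V d - 1) ^ n = 0 ∧ (V d - 1).rank = n - 1 := by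
    intro d hd
    obtain ⟨hd0, hdi⟩ := hDinv d hd
    obtain ⟨h1, h2⟩ := hDD d hd0
    have hVd : V d = Dm i₀ d * U₀ * Dm i₀ d⁻¹ := by rw [hVdef]
    have hsub : V d - 1 = Dm i₀ d * (U₀ - 1) * Dm i₀ d⁻¹ := by
      rw [hVd, mul_sub, sub_mul, mul_one, h1]
    refine ⟨?_, ?_, ?_, ?_⟩
    · rw [hVd, sdg_mul, sdg_mul]
      have e1 : sdg φ (Dm i₀ d⁻¹) * (sdg φ U₀ * sdg φ (Dm i₀ d)) * (Dm i₀ d * U₀ * Dm i₀ d⁻¹)
          = sdg φ (Dm i₀ d⁻¹) * (sdg φ U₀ * ((sdg φ (Dm i₀ d) * Dm i₀ d) * U₀))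
            * Dm i₀ d⁻¹ := by
        simp only [mul_assoc]
      rw [e1, Dm_unitary φ q hφ i₀ d hd, one_mul, hU₀, mul_one, Dm_unitary φ q hφ i₀ d⁻¹ hdi]
    · rw [hVd, Matrix.det_mul, Matrix.det_mul, Dm_det, Dm_det, hdet₀, mul_one,
        mul_inv_cancel₀ hd0]
    · rw [hsub]
      let wk : (Matrix (Fin n) (Fin n) K)ˣ := ⟨Dm i₀ d, Dm i₀ d⁻¹, h1, h2⟩
      have h3 : (Dm i₀ d * (U₀ - 1) * Dm i₀ d⁻¹) ^ n
          = Dm i₀ d * (U₀ - 1) ^ n * Dm i₀ d⁻¹ := Units.conj_pow wk (U₀ - 1) n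
      rw [h3, hnil₀, mul_zero, zero_mul]
    · rw [hsub]
      have hu : IsUnit (Dm i₀ d).det := by rw [Dm_det]; exact IsUnit.mk0 d hd0
      have hu' : IsUnit (Dm i₀ d⁻¹).det := by
        rw [Dm_det]; exact IsUnit.mk0 _ (inv_ne_zero hd0)
      rw [Matrix.rank_mul_eq_left_of_isUnit_det _ _ hu',
        Matrix.rank_mul_eq_right_of_isUnit_det _ _ hu, hreg₀]
  obtain ⟨μ, hμdef⟩ : ∃ μ : Subgroup Kˣ, μ = (powMonoidHom (q + 1) : Kˣ →* Kˣ).ker := ⟨_, rfl⟩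
  have hμ : ∀ d : Kˣ, d ∈ μ ↔ (d : K) ^ (q + 1) = 1 := by
    intro d
    rw [hμdef, MonoidHom.mem_ker, powMonoidHom_apply, Units.ext_iff, Units.val_pow_eq_pow_val,
      Units.val_one]
  obtain ⟨Vsu, hVsu⟩ : ∃ Vsu : ↥μ → ↥(Cfsg.SU n K q), ∀ d : ↥μ,
      (((Vsu d : ↥(Cfsg.SU n K q)) : Matrix.SpecialLinearGroup (Fin n) K) :
        Matrix (Fin n) (Fin n) K) = V ((d : Kˣ) : K) :=
    ⟨fun d => ⟨⟨V ((d : Kˣ) : K), (hV _ ((hμ d.1).1 d.2)).2.1⟩,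
      (mem_SU_iff n q _).2 ((herm_pres_iff φ q (by omega) hφ hφφ _).2
        (hV _ ((hμ d.1).1 d.2)).1)⟩, fun d => rfl⟩
  have hVR : ∀ d : ↥μ,
      ((((Vsu d : ↥(Cfsg.SU n K q)) : Matrix.SpecialLinearGroup (Fin n) K) :
        Matrix (Fin n) (Fin n) K) - 1) ^ n = 0 ∧
      ((((Vsu d : ↥(Cfsg.SU n K q)) : Matrix.SpecialLinearGroup (Fin n) K) :
        Matrix (Fin n) (Fin n) K) - 1).rank = n - 1 := by
    intro d
    rw [hVsu]
    exact (hV _ ((hμ d.1).1 d.2)).2.2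
  have hA' : ∀ u : ↥(Cfsg.SU n K q),
      (((u : Matrix.SpecialLinearGroup (Fin n) K) : Matrix (Fin n) (Fin n) K) - 1) ^ n = 0 →
      (((u : Matrix.SpecialLinearGroup (Fin n) K) : Matrix (Fin n) (Fin n) K) - 1).rank = n - 1 →
      ∃ d : ↥μ, IsConj (Vsu d) u := by
    intro u hnil hreg
    have huu : sdg φ ((u : Matrix.SpecialLinearGroup (Fin n) K) : Matrix (Fin n) (Fin n) K)
        * ((u : Matrix.SpecialLinearGroup (Fin n) K) : Matrix (Fin n) (Fin n) K) = 1 :=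
      (herm_pres_iff φ q (by omega) hφ hφφ _).1 ((mem_SU_iff n q u.1).1 u.2)
    obtain ⟨P, hP, hPU⟩ := key _ huu hnil hreg
    have hδ : P.det ^ (q + 1) = 1 := by
      have h1 := congrArg Matrix.det hP
      rw [Matrix.det_mul, det_sdg, hφ, Matrix.det_one, ← pow_succ] at h1
      exact h1
    obtain ⟨hδ0, hδi⟩ := hDinv _ hδ
    refine ⟨⟨Units.mk0 P.det hδ0, (hμ _).2 hδ⟩,
      (su_isConj_iff φ q (by omega) hφ hφφ _ _).2 ⟨P * Dm i₀ P.det⁻¹, ?_, ?_, ?_⟩⟩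
    · rw [Matrix.det_mul, Dm_det, mul_inv_cancel₀ hδ0]
    · rw [sdg_mul]
      have e1 : sdg φ (Dm i₀ P.det⁻¹) * sdg φ P * (P * Dm i₀ P.det⁻¹)
          = sdg φ (Dm i₀ P.det⁻¹) * (sdg φ P * P) * Dm i₀ P.det⁻¹ := by
        simp only [mul_assoc]
      rw [e1, hP, mul_one, Dm_unitary φ q hφ i₀ _ hδi]
    · rw [hVsu, hVdef]
      show P * Dm i₀ P.det⁻¹ * (Dm i₀ P.det * U₀ * Dm i₀ P.det⁻¹) = _
      have e2 : P * Dm i₀ P.det⁻¹ * (Dm i₀ P.det * U₀ * Dm i₀ P.det⁻¹)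
          = P * ((Dm i₀ P.det⁻¹ * Dm i₀ P.det) * U₀) * Dm i₀ P.det⁻¹ := by
        simp only [mul_assoc]
      rw [e2, (hDD _ hδ0).2, one_mul, hPU, mul_assoc]
  have hB' : ∀ d d' : ↥μ, IsConj (Vsu d) (Vsu d')
      ↔ d⁻¹ * d' ∈ (powMonoidHom n : ↥μ →* ↥μ).range := by
    intro d d'
    obtain ⟨δ, hδdef⟩ : ∃ δ : K, δ = ((d : Kˣ) : K) := ⟨_, rfl⟩
    obtain ⟨δ', hδ'def⟩ : ∃ δ' : K, δ' = ((d' : Kˣ) : K) := ⟨_, rfl⟩
    have hd : δ ^ (q + 1) = 1 := by rw [hδdef]; exact (hμ d.1).1 d.2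
    have hd' : δ' ^ (q + 1) = 1 := by rw [hδ'def]; exact (hμ d'.1).1 d'.2
    obtain ⟨hd0, hdi⟩ := hDinv _ hd
    obtain ⟨hd'0, hd'i⟩ := hDinv _ hd'
    have hVδ : V δ = Dm i₀ δ * U₀ * Dm i₀ δ⁻¹ := by rw [hVdef]
    have hVδ' : V δ' = Dm i₀ δ' * U₀ * Dm i₀ δ'⁻¹ := by rw [hVdef]
    rw [su_isConj_iff φ q (by omega) hφ hφφ, hVsu, hVsu, ← hδdef, ← hδ'def, hVδ, hVδ']
    constructor
    · rintro ⟨C, hCdet, hC, hCV⟩
      obtain ⟨k, hkdef⟩ : ∃ k : Matrix (Fin n) (Fin n) K, k = Dm i₀ δ'⁻¹ * C * Dm i₀ δ :=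
        ⟨_, rfl⟩
      have hkU : k * U₀ = U₀ * k := by
        calc k * U₀ = Dm i₀ δ'⁻¹ * (C * (Dm i₀ δ * U₀ * Dm i₀ δ⁻¹)) * Dm i₀ δ := by
              rw [hkdef]
              have e1 : Dm i₀ δ'⁻¹ * (C * (Dm i₀ δ * U₀ * Dm i₀ δ⁻¹)) * Dm i₀ δ
                  = Dm i₀ δ'⁻¹ * C * Dm i₀ δ * (U₀ * (Dm i₀ δ⁻¹ * Dm i₀ δ)) := by
                simp only [mul_assoc]
              rw [e1, (hDD δ hd0).2, mul_one]
          _ = Dm i₀ δ'⁻¹ * (Dm i₀ δ' * U₀ * Dm i₀ δ'⁻¹ * C) * Dm i₀ δ := by rw [hCV]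
          _ = U₀ * k := by
              rw [hkdef]
              have e2 : Dm i₀ δ'⁻¹ * (Dm i₀ δ' * U₀ * Dm i₀ δ'⁻¹ * C) * Dm i₀ δ
                  = (Dm i₀ δ'⁻¹ * Dm i₀ δ') * U₀ * (Dm i₀ δ'⁻¹ * C * Dm i₀ δ) := by
                simp only [mul_assoc]
              rw [e2, (hDD δ' hd'0).2, one_mul]
      have hkk : sdg φ k * k = 1 := by
        rw [hkdef, sdg_mul, sdg_mul]
        have e3 : sdg φ (Dm i₀ δ) * (sdg φ C * sdg φ (Dm i₀ δ'⁻¹)) * (Dm i₀ δ'⁻¹ * C * Dm i₀ δ)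
            = sdg φ (Dm i₀ δ) * (sdg φ C * ((sdg φ (Dm i₀ δ'⁻¹) * Dm i₀ δ'⁻¹) * C))
              * Dm i₀ δ := by
          simp only [mul_assoc]
        rw [e3, Dm_unitary φ q hφ i₀ _ hd'i, one_mul, hC, mul_one, Dm_unitary φ q hφ i₀ _ hd]
      obtain ⟨a, ha, hdet⟩ := hcent k hkk hkU
      have hdetk : k.det = δ'⁻¹ * δ := by
        rw [hkdef, Matrix.det_mul, Matrix.det_mul, Dm_det, Dm_det, hCdet, mul_one]
      obtain ⟨ha0, hai⟩ := hDinv a ha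
      refine ⟨⟨Units.mk0 a⁻¹ (inv_ne_zero ha0), (hμ _).2 hai⟩, ?_⟩
      apply Subtype.ext
      apply Units.ext
      rw [powMonoidHom_apply]
      simp only [Subgroup.coe_pow, Subgroup.coe_mul, Subgroup.coe_inv, Units.val_pow_eq_pow_val,
        Units.val_mul, Units.val_inv_eq_inv_val, Units.val_mk0]
      rw [← hδdef, ← hδ'def, inv_pow, ← hdet, hdetk, _root_.mul_inv_rev, inv_inv]
    · rintro ⟨e, he⟩
      rw [powMonoidHom_apply] at he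
      obtain ⟨ε, hεdef⟩ : ∃ ε : K, ε = ((e : Kˣ) : K) := ⟨_, rfl⟩
      have hε : ε ^ (q + 1) = 1 := by rw [hεdef]; exact (hμ e.1).1 e.2
      obtain ⟨hε0, hεi⟩ := hDinv ε hε
      have heK : ε ^ n = δ⁻¹ * δ' := by
        have h1 := congrArg (fun x : ↥μ => ((x : Kˣ) : K)) he
        simp only [Subgroup.coe_pow, Subgroup.coe_mul, Subgroup.coe_inv,
          Units.val_pow_eq_pow_val, Units.val_mul, Units.val_inv_eq_inv_val] at h1
        rw [hεdef, hδdef, hδ'def]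
        exact h1
      refine ⟨Dm i₀ δ' * (ε⁻¹ • (1 : Matrix (Fin n) (Fin n) K)) * Dm i₀ δ⁻¹, ?_, ?_, ?_⟩
      · have h1 : (ε⁻¹ • (1 : Matrix (Fin n) (Fin n) K)).det = δ'⁻¹ * δ := by
          rw [Matrix.det_smul, Matrix.det_one, Fintype.card_fin, mul_one, inv_pow, heK,
            _root_.mul_inv_rev, inv_inv]
        rw [Matrix.det_mul, Matrix.det_mul, Dm_det, Dm_det, h1]
        field_simp
      · rw [sdg_mul, sdg_mul]
        have e3 : sdg φ (Dm i₀ δ⁻¹)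
              * (sdg φ (ε⁻¹ • (1 : Matrix (Fin n) (Fin n) K)) * sdg φ (Dm i₀ δ'))
              * (Dm i₀ δ' * (ε⁻¹ • (1 : Matrix (Fin n) (Fin n) K)) * Dm i₀ δ⁻¹)
            = sdg φ (Dm i₀ δ⁻¹) * (sdg φ (ε⁻¹ • (1 : Matrix (Fin n) (Fin n) K))
              * ((sdg φ (Dm i₀ δ') * Dm i₀ δ') * (ε⁻¹ • (1 : Matrix (Fin n) (Fin n) K))))
              * Dm i₀ δ⁻¹ := by
          simp only [mul_assoc]
        rw [e3, Dm_unitary φ q hφ i₀ _ hd', one_mul, smul_unitary φ q hφ _ hεi, mul_one,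
          Dm_unitary φ q hφ i₀ _ hdi]
      · have e4 : Dm i₀ δ' * (ε⁻¹ • (1 : Matrix (Fin n) (Fin n) K)) * Dm i₀ δ⁻¹
              * (Dm i₀ δ * U₀ * Dm i₀ δ⁻¹)
            = Dm i₀ δ' * (ε⁻¹ • (1 : Matrix (Fin n) (Fin n) K))
              * ((Dm i₀ δ⁻¹ * Dm i₀ δ) * U₀) * Dm i₀ δ⁻¹ := by
          simp only [mul_assoc]
        have e5 : Dm i₀ δ' * U₀ * Dm i₀ δ'⁻¹
              * (Dm i₀ δ' * (ε⁻¹ • (1 : Matrix (Fin n) (Fin n) K)) * Dm i₀ δ⁻¹)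
            = Dm i₀ δ' * U₀ * ((Dm i₀ δ'⁻¹ * Dm i₀ δ')
              * (ε⁻¹ • (1 : Matrix (Fin n) (Fin n) K))) * Dm i₀ δ⁻¹ := by
          simp only [mul_assoc]
        rw [e4, e5, (hDD δ hd0).2, (hDD δ' hd'0).2, one_mul, one_mul]
        simp only [mul_assoc, Matrix.mul_smul, Matrix.smul_mul, Matrix.mul_one]
  let Φ : ↥μ → {C : ConjClasses ↥(Cfsg.SU n K q) //
      ∃ u : ↥(Cfsg.SU n K q), ConjClasses.mk u = C ∧
        (((u : GL (Fin n) K) : Matrix (Fin n) (Fin n) K) - 1) ^ n = 0 ∧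
        (((u : GL (Fin n) K) : Matrix (Fin n) (Fin n) K) - 1).rank = n - 1} :=
    fun d => ⟨ConjClasses.mk (Vsu d), Vsu d, rfl, (hVR d).1, (hVR d).2⟩
  have hΦ : ∀ d d', Φ d = Φ d' ↔ d⁻¹ * d' ∈ (powMonoidHom n : ↥μ →* ↥μ).range := by
    intro d d'
    rw [Subtype.ext_iff]
    show ConjClasses.mk (Vsu d) = ConjClasses.mk (Vsu d') ↔ _
    rw [ConjClasses.mk_eq_mk_iff_isConj, hB']
  let Ψ : ↥μ ⧸ (powMonoidHom n : ↥μ →* ↥μ).range →
      {C : ConjClasses ↥(Cfsg.SU n K q) //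
        ∃ u : ↥(Cfsg.SU n K q), ConjClasses.mk u = C ∧
          (((u : GL (Fin n) K) : Matrix (Fin n) (Fin n) K) - 1) ^ n = 0 ∧
          (((u : GL (Fin n) K) : Matrix (Fin n) (Fin n) K) - 1).rank = n - 1} :=
    Quotient.lift Φ (fun d d' hdd => (hΦ d d').2 (QuotientGroup.leftRel_apply.1 hdd))
  have hΨ : Function.Bijective Ψ := by
    constructor
    · intro x y
      refine Quotient.inductionOn₂ x y ?_
      intro d d' h
      exact Quotient.sound (QuotientGroup.leftRel_apply.2 ((hΦ d d').1 h))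
    · rintro ⟨C, u, rfl, hnil, hreg⟩
      obtain ⟨d, hd⟩ := hA' u hnil hreg
      exact ⟨Quotient.mk _ d, Subtype.ext (ConjClasses.mk_eq_mk_iff_isConj.2 hd)⟩
  have hcardμ : Nat.card ↥μ = q + 1 := by
    rw [hμdef, IsCyclic.card_powMonoidHom_ker, Nat.card_units, Nat.card_eq_fintype_card, hK]
    apply Nat.gcd_eq_right
    rw [← nat_sq_sub_one q (by omega)]
    exact Dvd.intro_left _ rfl
  rw [← Nat.card_congr (Equiv.ofBijective Ψ hΨ), ← Subgroup.index_eq_card,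
    IsCyclic.index_powMonoidHom_range, hcardμ, Nat.gcd_comm]

end Cfsg.Agent.Helper15
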