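import Mathlib
import Cfsg.Prelude.Def_RootSubgroups
import Cfsg.Agent.Helper15.SURoot1
import Cfsg.Agent.Helper15.SUAct
import Cfsg.Agent.Helper15.SUGen2
import Cfsg.Agent.Helper15.HermPerp
import Cfsg.Agent.Helper15.GUCard
import Cfsg.Agent.Helper15.SUCenter

set_option autoImplicit false

namespace Cfsg.Agent.Helper15

open scoped MatrixGroups

variable {K : Type*} [Field K] [Fintype K] {q n : ℕ}

/-- The set of unitary transvections with centre `p`. -/
def suSet (p : Fin n → K) : Set ↥(Cfsg.SU n K q) :=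
  {g | (∀ v : Fin n → K, ∃ c : K,
      ((g : Matrix.SpecialLinearGroup (Fin n) K) : Matrix (Fin n) (Fin n) K).mulVec v = v + c • p) ∧
    ∀ v : Fin n → K, Cfsg.hermForm n K q v p = 0 →
      ((g : Matrix.SpecialLinearGroup (Fin n) K) : Matrix (Fin n) (Fin n) K).mulVec v = v}

/-- The transvection group `T(p)`. -/
def suGrp (p : Fin n → K) : Subgroup ↥(Cfsg.SU n K q) :=
  Subgroup.closure (suSet p)

open Classical in
/-- The transvection `x ↦ x + a h(x, p) p` (the identity when it does not exist). -/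
noncomputable def suTv (p : Fin n → K) (a : K) : ↥(Cfsg.SU n K q) :=
  if h : ∃ T : ↥(Cfsg.SU n K q), ∀ x, suAct T x = x + (a * Cfsg.hermForm n K q x p) • p
  then Classical.choose h else 1

theorem suTv_act (hK : Fintype.card K = q ^ 2) (p : Fin n → K)
    (hp : Cfsg.hermForm n K q p p = 0) (a : K) (ha : a ^ q = -a) (x : Fin n → K) :
    suAct (suTv (q := q) p a) x = x + (a * Cfsg.hermForm n K q x p) • p := by
  have hex : ∃ T : ↥(Cfsg.SU n K q), ∀ x, suAct T x = x + (a * Cfsg.hermForm n K q x p) • p := by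
    obtain ⟨T, -, hT⟩ := su_transv_exists hK n a ha p hp
    exact ⟨T, hT⟩
  unfold suTv
  rw [dif_pos hex]
  exact Classical.choose_spec hex x

theorem skew_add (hK : Fintype.card K = q ^ 2) {a b : K} (ha : a ^ q = -a) (hb : b ^ q = -b) :
    (a + b) ^ q = -(a + b) := by
  obtain ⟨φ, hφ⟩ := exists_frob hK
  rw [← hφ, map_add, hφ, hφ, ha, hb]
  ring

theorem skew_neg (hK : Fintype.card K = q ^ 2) {a : K} (ha : a ^ q = -a) :
    (-a) ^ q = -(-a) := by
  obtain ⟨φ, hφ⟩ := exists_frob hK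
  rw [← hφ, map_neg, hφ, ha]

theorem skew_zero (hK : Fintype.card K = q ^ 2) : (0 : K) ^ q = -0 := by
  have hq := two_le_of_card_sq hK
  rw [zero_pow (by omega), neg_zero]

theorem suTv_mul (hK : Fintype.card K = q ^ 2) (p : Fin n → K)
    (hp : Cfsg.hermForm n K q p p = 0) (a b : K) (ha : a ^ q = -a) (hb : b ^ q = -b) :
    suTv (q := q) p a * suTv p b = suTv p (a + b) := by
  have hh := hermForm_isHerm hK n
  apply su_ext
  intro x
  rw [suAct_mul, suTv_act hK p hp b hb, suTv_act hK p hp a ha,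
    suTv_act hK p hp (a + b) (skew_add hK ha hb), hh.add_left, hh.smul_left, hp]
  module

theorem suTv_zero (hK : Fintype.card K = q ^ 2) (p : Fin n → K)
    (hp : Cfsg.hermForm n K q p p = 0) : suTv (q := q) p 0 = 1 := by
  apply su_ext
  intro x
  rw [suTv_act hK p hp 0 (skew_zero hK), zero_mul, zero_smul, add_zero, suAct_one]

theorem suTv_inv (hK : Fintype.card K = q ^ 2) (p : Fin n → K)
    (hp : Cfsg.hermForm n K q p p = 0) (a : K) (ha : a ^ q = -a) :
    (suTv (q := q) p a)⁻¹ = suTv p (-a) :=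
  inv_eq_of_mul_eq_one_right (by
    rw [suTv_mul hK p hp a (-a) ha (skew_neg hK ha), add_neg_cancel, suTv_zero hK p hp])

theorem suTv_mem_set (hK : Fintype.card K = q ^ 2) (p : Fin n → K)
    (hp : Cfsg.hermForm n K q p p = 0) (a : K) (ha : a ^ q = -a) :
    suTv (q := q) p a ∈ suSet p := by
  constructor
  · intro v
    exact ⟨a * Cfsg.hermForm n K q v p, suTv_act hK p hp a ha v⟩
  · intro v hv
    have h1 := suTv_act hK p hp a ha v
    rw [hv, mul_zero, zero_smul, add_zero] at h1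
    exact h1

theorem herm_exists_one (hK : Fintype.card K = q ^ 2) (p : Fin n → K) (hp0 : p ≠ 0) :
    ∃ v₀, Cfsg.hermForm n K q v₀ p = 1 := by
  have hh := hermForm_isHerm hK n
  obtain ⟨v, hv⟩ : ∃ v, Cfsg.hermForm n K q p v ≠ 0 := by
    by_contra hcon
    push Not at hcon
    exact hp0 (hh.nondeg p hcon)
  have hv' : Cfsg.hermForm n K q v p ≠ 0 := by
    rw [hh.conj p v]
    exact pow_ne_zero _ hv
  exact ⟨(Cfsg.hermForm n K q v p)⁻¹ • v, by rw [hh.smul_left, inv_mul_cancel₀ hv']⟩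

theorem mem_suSet_iff (hK : Fintype.card K = q ^ 2) (p : Fin n → K) (hp0 : p ≠ 0)
    (hp : Cfsg.hermForm n K q p p = 0) (g : ↥(Cfsg.SU n K q)) :
    g ∈ suSet p ↔ ∃ a, a ^ q = -a ∧ g = suTv p a := by
  have hh := hermForm_isHerm hK n
  constructor
  · rintro ⟨h1, h2⟩
    obtain ⟨v₀, hv₀⟩ := herm_exists_one hK p hp0
    obtain ⟨c, hc⟩ := h1 v₀
    have hc' : suAct g v₀ = v₀ + c • p := hc
    have hact : ∀ x, suAct g x = x + (c * Cfsg.hermForm n K q x p) • p := by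
      intro x
      have h3 : Cfsg.hermForm n K q (x + (-(Cfsg.hermForm n K q x p)) • v₀) p = 0 := by
        rw [hh.add_left, hh.smul_left, hv₀]
        ring
      have h4 : suAct g (x + (-(Cfsg.hermForm n K q x p)) • v₀)
          = x + (-(Cfsg.hermForm n K q x p)) • v₀ := h2 _ h3
      rw [suAct_add, suAct_smul, hc'] at h4
      have h5 : suAct g x = x + (-(Cfsg.hermForm n K q x p)) • v₀
          - (-(Cfsg.hermForm n K q x p)) • (v₀ + c • p) := eq_sub_of_add_eq h4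
      rw [h5]
      module
    have hskew : c ^ q = -c := by
      have h5 := suAct_pres g v₀ v₀
      have h6 : Cfsg.hermForm n K q p v₀ = 1 := by
        rw [hh.conj v₀ p, hv₀, one_pow]
      rw [hact v₀, hv₀, mul_one, herm_expand hK hh, hp, mul_zero, add_zero, hv₀, h6] at h5
      linear_combination h5
    exact ⟨c, hskew, su_ext _ _ (fun x => by rw [hact, suTv_act hK p hp c hskew])⟩
  · rintro ⟨a, ha, rfl⟩
    exact suTv_mem_set hK p hp a ha

theorem mem_suGrp_iff (hK : Fintype.card K = q ^ 2) (p : Fin n → K) (hp0 : p ≠ 0)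
    (hp : Cfsg.hermForm n K q p p = 0) (g : ↥(Cfsg.SU n K q)) :
    g ∈ suGrp p ↔ ∃ a, a ^ q = -a ∧ g = suTv p a := by
  constructor
  · intro ht
    refine Subgroup.closure_induction (p := fun x _ => ∃ a, a ^ q = -a ∧ x = suTv p a)
      ?_ ?_ ?_ ?_ ht
    · intro x hx
      exact (mem_suSet_iff hK p hp0 hp x).1 hx
    · exact ⟨0, skew_zero hK, (suTv_zero hK p hp).symm⟩
    · rintro x y _ _ ⟨a, ha, rfl⟩ ⟨b, hb, rfl⟩
      exact ⟨a + b, skew_add hK ha hb, suTv_mul hK p hp a b ha hb⟩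
    · rintro x _ ⟨a, ha, rfl⟩
      exact ⟨-a, skew_neg hK ha, suTv_inv hK p hp a ha⟩
  · rintro ⟨a, ha, rfl⟩
    exact Subgroup.subset_closure (suTv_mem_set hK p hp a ha)

theorem suTv_mem (hK : Fintype.card K = q ^ 2) (p : Fin n → K)
    (hp : Cfsg.hermForm n K q p p = 0) (a : K) (ha : a ^ q = -a) :
    suTv (q := q) p a ∈ suGrp p :=
  Subgroup.subset_closure (suTv_mem_set hK p hp a ha)

theorem suSet_smul (hK : Fintype.card K = q ^ 2) (c : K) (hc : c ≠ 0) (p : Fin n → K) :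
    suSet (q := q) (c • p) = suSet p := by
  have hh := hermForm_isHerm hK n
  ext g
  constructor
  · rintro ⟨h1, h2⟩
    refine ⟨fun v => ?_, fun v hv => h2 v ?_⟩
    · obtain ⟨d, hd⟩ := h1 v
      exact ⟨d * c, by rw [hd, smul_smul]⟩
    · rw [hh.smul_right, hv, mul_zero]
  · rintro ⟨h1, h2⟩
    refine ⟨fun v => ?_, fun v hv => h2 v ?_⟩
    · obtain ⟨d, hd⟩ := h1 v
      exact ⟨d * c⁻¹, by rw [hd, smul_smul, mul_assoc, inv_mul_cancel₀ hc, mul_one]⟩
    · rw [hh.smul_right] at hv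
      exact (mul_eq_zero.1 hv).resolve_left (pow_ne_zero _ hc)

theorem suGrp_smul (hK : Fintype.card K = q ^ 2) (c : K) (hc : c ≠ 0) (p : Fin n → K) :
    suGrp (q := q) (c • p) = suGrp p := by
  unfold suGrp
  rw [suSet_smul hK c hc p]

theorem suSet_conj_sub (g : ↥(Cfsg.SU n K q)) (p : Fin n → K) (t : ↥(Cfsg.SU n K q))
    (ht : t ∈ suSet p) : g * t * g⁻¹ ∈ suSet (suAct g p) := by
  obtain ⟨h1, h2⟩ := ht
  constructor
  · intro v
    obtain ⟨c, hc⟩ := h1 (suAct g⁻¹ v)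
    refine ⟨c, ?_⟩
    have hc' : suAct t (suAct g⁻¹ v) = suAct g⁻¹ v + c • p := hc
    show suAct (g * t * g⁻¹) v = _
    rw [suAct_mul, suAct_mul, hc', suAct_add, suAct_smul, suAct_inv_right]
  · intro v hv
    have h3 : Cfsg.hermForm n K q (suAct g⁻¹ v) p = 0 := by
      rw [← suAct_pres g, suAct_inv_right]
      exact hv
    have h4 : suAct t (suAct g⁻¹ v) = suAct g⁻¹ v := h2 _ h3
    show suAct (g * t * g⁻¹) v = v
    rw [suAct_mul, suAct_mul, h4, suAct_inv_right]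

theorem suSet_conj (g : ↥(Cfsg.SU n K q)) (p : Fin n → K) :
    (fun t => g * t * g⁻¹) '' suSet p = suSet (suAct g p) := by
  ext x
  constructor
  · rintro ⟨t, ht, rfl⟩
    exact suSet_conj_sub g p t ht
  · intro hx
    refine ⟨g⁻¹ * x * g, ?_, ?_⟩
    · have h1 := suSet_conj_sub g⁻¹ (suAct g p) x hx
      rw [suAct_inv_left, inv_inv] at h1
      exact h1
    · show g * (g⁻¹ * x * g) * g⁻¹ = x
      group

theorem suGrp_conj (g : ↥(Cfsg.SU n K q)) (p : Fin n → K) :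
    Cfsg.conjBy (suGrp p) g = suGrp (suAct g p) := by
  unfold suGrp
  show (Subgroup.closure (suSet p)).map (MulAut.conj g).toMonoidHom = _
  rw [MonoidHom.map_closure]
  congr 1
  exact suSet_conj g p

theorem suTv_conj (hK : Fintype.card K = q ^ 2) (g : ↥(Cfsg.SU n K q)) (p : Fin n → K)
    (hp : Cfsg.hermForm n K q p p = 0) (a : K) (ha : a ^ q = -a) :
    g * suTv p a * g⁻¹ = suTv (suAct g p) a := by
  have hp' : Cfsg.hermForm n K q (suAct g p) (suAct g p) = 0 := by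
    rw [suAct_pres]
    exact hp
  apply su_ext
  intro x
  rw [suAct_mul, suAct_mul, suTv_act hK p hp a ha, suTv_act hK _ hp' a ha, suAct_add, suAct_smul,
    suAct_inv_right, ← suAct_pres g (suAct g⁻¹ x) p, suAct_inv_right]

theorem suTv_comm_of (hK : Fintype.card K = q ^ 2) (p p' : Fin n → K)
    (hp : Cfsg.hermForm n K q p p = 0) (hp' : Cfsg.hermForm n K q p' p' = 0)
    (h0 : Cfsg.hermForm n K q p p' = 0) (a b : K) (ha : a ^ q = -a) (hb : b ^ q = -b) :
    suTv (q := q) p a * suTv p' b = suTv p' b * suTv p a := by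
  have hh := hermForm_isHerm hK n
  have hq := two_le_of_card_sq hK
  have h0' : Cfsg.hermForm n K q p' p = 0 := hh.swap_zero (by omega) p p' h0
  apply su_ext
  intro x
  rw [suAct_mul, suAct_mul, suTv_act hK p' hp' b hb, suTv_act hK p hp a ha,
    suTv_act hK p hp a ha, suTv_act hK p' hp' b hb, hh.add_left, hh.add_left, hh.smul_left,
    hh.smul_left, h0, h0']
  module

theorem suGrp_commute (hK : Fintype.card K = q ^ 2) (p p' : Fin n → K) (hp0 : p ≠ 0)
    (hp0' : p' ≠ 0)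
    (hp : Cfsg.hermForm n K q p p = 0) (hp' : Cfsg.hermForm n K q p' p' = 0)
    (h0 : Cfsg.hermForm n K q p p' = 0) :
    ∀ a ∈ suGrp (q := q) p, ∀ b ∈ suGrp (q := q) p', a * b = b * a := by
  intro a ha b hb
  obtain ⟨s, hs, rfl⟩ := (mem_suGrp_iff hK p hp0 hp a).1 ha
  obtain ⟨r, hr, rfl⟩ := (mem_suGrp_iff hK p' hp0' hp' b).1 hb
  exact suTv_comm_of hK p p' hp hp' h0 s r hs hr

theorem suTv_ne_one (hK : Fintype.card K = q ^ 2) (p : Fin n → K) (hp0 : p ≠ 0)
    (hp : Cfsg.hermForm n K q p p = 0) (a : K) (ha0 : a ≠ 0) (ha : a ^ q = -a) :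
    suTv (q := q) p a ≠ 1 := by
  intro h
  obtain ⟨v₀, hv₀⟩ := herm_exists_one hK p hp0
  have h1 := suTv_act hK p hp a ha v₀
  rw [h, suAct_one, hv₀, mul_one] at h1
  have h2 : a • p = 0 := by
    have h3 : v₀ + 0 = v₀ + a • p := by
      rw [add_zero]
      exact h1
    exact (add_left_cancel h3).symm
  rcases smul_eq_zero.1 h2 with h4 | h4
  · exact ha0 h4
  · exact hp0 h4

theorem suGrp_ne_bot (hK : Fintype.card K = q ^ 2) (p : Fin n → K) (hp0 : p ≠ 0)
    (hp : Cfsg.hermForm n K q p p = 0) : suGrp (q := q) p ≠ ⊥ := by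
  intro hb
  obtain ⟨κ, hκ0, hκ⟩ := exists_skew hK
  have h1 := suTv_mem hK p hp κ hκ
  rw [hb, Subgroup.mem_bot] at h1
  exact suTv_ne_one hK p hp0 hp κ hκ0 hκ h1

theorem suGrp_eq_prop (hK : Fintype.card K = q ^ 2) (p p' : Fin n → K) (hp0 : p ≠ 0)
    (hp0' : p' ≠ 0)
    (hp : Cfsg.hermForm n K q p p = 0) (hp' : Cfsg.hermForm n K q p' p' = 0)
    (heq : suGrp (q := q) p = suGrp p') : ∃ l : K, p' = l • p := by
  obtain ⟨κ, hκ0, hκ⟩ := exists_skew hK
  have hm : suTv (q := q) p' κ ∈ suGrp (q := q) p := by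
    rw [heq]
    exact suTv_mem hK p' hp' κ hκ
  obtain ⟨c, hc, hceq⟩ := (mem_suGrp_iff hK p hp0 hp _).1 hm
  obtain ⟨v₀, hv₀⟩ := herm_exists_one hK p' hp0'
  have h1 := suTv_act hK p' hp' κ hκ v₀
  rw [hceq, suTv_act hK p hp c hc, hv₀, mul_one] at h1
  have h2 : (c * Cfsg.hermForm n K q v₀ p) • p = κ • p' := add_left_cancel h1
  refine ⟨κ⁻¹ * (c * Cfsg.hermForm n K q v₀ p), ?_⟩
  rw [← smul_smul, h2, smul_smul, inv_mul_cancel₀ hκ0, one_smul]

theorem su_rank_one_cond (hK : Fintype.card K = q ^ 2) (p p' : Fin n → K) (hp0 : p ≠ 0)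
    (hp0' : p' ≠ 0)
    (hp : Cfsg.hermForm n K q p p = 0) (hp' : Cfsg.hermForm n K q p' p' = 0)
    (hτ : Cfsg.hermForm n K q p p' ≠ 0) :
    Cfsg.RankOneCondition (suGrp (q := q) p) (suGrp p') := by
  have hh := hermForm_isHerm hK n
  intro a ha ha1
  obtain ⟨s, hs, rfl⟩ := (mem_suGrp_iff hK p hp0 hp a).1 ha
  have hs0 : s ≠ 0 := by
    rintro rfl
    exact ha1 (suTv_zero hK p hp)
  obtain ⟨τ, hτdef⟩ : ∃ τ : K, τ = Cfsg.hermForm n K q p p' := ⟨_, rfl⟩
  have hτ' : Cfsg.hermForm n K q p' p = τ ^ q := by rw [hτdef, ← hh.conj p p']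
  rw [← hτdef] at hτ
  have hne : s * τ ^ q * τ ≠ 0 := mul_ne_zero (mul_ne_zero hs0 (pow_ne_zero _ hτ)) hτ
  obtain ⟨r, hr⟩ : ∃ r : K, r = (s * τ ^ q * τ)⁻¹ := ⟨_, rfl⟩
  have hr0 : r ≠ 0 := by
    rw [hr]
    exact inv_ne_zero hne
  have hr1 : s * τ ^ q * τ * r = 1 := by
    rw [hr]
    exact mul_inv_cancel₀ hne
  have hrs : r ^ q = -r := by
    rw [hr, inv_pow, mul_pow, mul_pow, hs, pow_card_sq hK,
      show -s * τ * τ ^ q = -(s * τ ^ q * τ) by ring, inv_neg]
  refine ⟨suTv p' r, suTv_mem hK p' hp' r hrs, suTv_ne_one hK p' hp0' hp' r hr0 hrs, ?_⟩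
  rw [suGrp_conj, suGrp_conj, suTv_inv hK p' hp' r hrs, suTv_inv hK p hp s hs,
    suTv_act hK p' hp' (-r) (skew_neg hK hrs), suTv_act hK p hp (-s) (skew_neg hK hs),
    ← hτdef, hτ']
  have e : p' + (-s * τ ^ q) • p = (-(s * τ ^ q)) • (p + (-r * τ) • p') := by
    rw [smul_add, smul_smul]
    have h1 : -(s * τ ^ q) * (-r * τ) = 1 := by linear_combination hr1
    rw [h1, one_smul, add_comm]
    congr 2
    ring
  rw [e, suGrp_smul hK _ (neg_ne_zero.2 (mul_ne_zero hs0 (pow_ne_zero _ hτ)))]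

theorem su_rank_one_pair (hK : Fintype.card K = q ^ 2) (p p' : Fin n → K) (hp0 : p ≠ 0)
    (hp0' : p' ≠ 0)
    (hp : Cfsg.hermForm n K q p p = 0) (hp' : Cfsg.hermForm n K q p' p' = 0)
    (hτ : Cfsg.hermForm n K q p p' ≠ 0) :
    Cfsg.IsRankOnePair (suGrp (q := q) p) (suGrp p') := by
  have hh := hermForm_isHerm hK n
  have hτ' : Cfsg.hermForm n K q p' p ≠ 0 := by
    rw [hh.conj p p']
    exact pow_ne_zero _ hτ
  have hc1 : IsMulCommutative (suGrp (q := q) p) := by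
    refine ⟨⟨?_⟩⟩
    rintro ⟨a, ha⟩ ⟨b, hb⟩
    apply Subtype.ext
    exact suGrp_commute hK p p hp0 hp0 hp hp hp a ha b hb
  have hc2 : IsMulCommutative (suGrp (q := q) p') := by
    refine ⟨⟨?_⟩⟩
    rintro ⟨a, ha⟩ ⟨b, hb⟩
    apply Subtype.ext
    exact suGrp_commute hK p' p' hp0' hp0' hp' hp' hp' a ha b hb
  refine ⟨?_, nilpotent_of_comm _ hc1, nilpotent_of_comm _ hc2,
    su_rank_one_cond hK p p' hp0 hp0' hp hp' hτ, su_rank_one_cond hK p' p hp0' hp0 hp' hp hτ'⟩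
  intro heq
  obtain ⟨l, hl⟩ := suGrp_eq_prop hK p p' hp0 hp0' hp hp' heq
  apply hτ
  rw [hl, hh.smul_right, hp, mul_zero]

theorem suTv_comm_imp (hK : Fintype.card K = q ^ 2) (p p' : Fin n → K) (hp0 : p ≠ 0)
    (hp : Cfsg.hermForm n K q p p = 0) (hp' : Cfsg.hermForm n K q p' p' = 0)
    (s r : K) (hs : s ^ q = -s) (hr : r ^ q = -r) (hs0 : s ≠ 0) (hr0 : r ≠ 0)
    (hcomm : suTv (q := q) p s * suTv p' r = suTv p' r * suTv p s) :
    Cfsg.hermForm n K q p p' = 0 := by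
  have hh := hermForm_isHerm hK n
  have h1 := congrArg (fun g => suAct g p) hcomm
  simp only [suAct_mul, suTv_act hK p hp s hs, suTv_act hK p' hp' r hr, hp, mul_zero, zero_smul,
    add_zero, hh.add_left, hh.smul_left, zero_add] at h1
  have h2 : (s * (r * Cfsg.hermForm n K q p p' * Cfsg.hermForm n K q p' p)) • p = 0 := by
    have h3 : p + (r * Cfsg.hermForm n K q p p') • p'
        + (s * (r * Cfsg.hermForm n K q p p' * Cfsg.hermForm n K q p' p)) • p
        = p + (r * Cfsg.hermForm n K q p p') • p' + 0 := by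
      rw [add_zero]
      exact h1
    exact add_left_cancel h3
  rcases smul_eq_zero.1 h2 with h4 | h4
  · rcases mul_eq_zero.1 h4 with h5 | h5
    · exact absurd h5 hs0
    · rcases mul_eq_zero.1 h5 with h6 | h6
      · rcases mul_eq_zero.1 h6 with h7 | h7
        · exact absurd h7 hr0
        · exact h7
      · rw [hh.conj p p'] at h6
        exact pow_eq_zero_iff (by
          have := two_le_of_card_sq hK
          omega) |>.1 h6
  · exact absurd h4 hp0

theorem su_noncentral (hK : Fintype.card K = q ^ 2) (p p' : Fin n → K) (hp0 : p ≠ 0)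
    (hp : Cfsg.hermForm n K q p p = 0) (hp' : Cfsg.hermForm n K q p' p' = 0)
    (hτ : Cfsg.hermForm n K q p p' ≠ 0) :
    ∃ a ∈ suGrp (q := q) p, ∃ b ∈ suGrp (q := q) p',
      (a * b * a⁻¹ * b⁻¹) * a ≠ a * (a * b * a⁻¹ * b⁻¹) := by
  have hh := hermForm_isHerm hK n
  obtain ⟨κ, hκ0, hκ⟩ := exists_skew hK
  refine ⟨suTv p κ, suTv_mem hK p hp κ hκ, suTv p' κ, suTv_mem hK p' hp' κ hκ, ?_⟩
  intro hc
  have h1 : suTv (q := q) p κ * (suTv p' κ * (suTv p κ)⁻¹ * (suTv p' κ)⁻¹)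
      = (suTv p' κ * (suTv p κ)⁻¹ * (suTv p' κ)⁻¹) * suTv p κ := by
    have h3 := congrArg (fun x => (suTv (q := q) p κ)⁻¹ * x) hc
    simp only [mul_assoc, inv_mul_cancel_left] at h3
    simp only [mul_assoc]
    exact h3.symm
  rw [suTv_inv hK p hp κ hκ, suTv_conj hK _ p hp (-κ) (skew_neg hK hκ)] at h1
  have hp'' : Cfsg.hermForm n K q (suAct (suTv (q := q) p' κ) p) (suAct (suTv (q := q) p' κ) p)
      = 0 := by
    rw [suAct_pres]
    exact hp
  have h2 := suTv_comm_imp hK p _ hp0 hp hp'' κ (-κ) hκ (skew_neg hK hκ) hκ0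
    (neg_ne_zero.2 hκ0) h1
  rw [suTv_act hK p' hp' κ hκ, hh.add_right hK, hp, zero_add, hh.smul_right] at h2
  rcases mul_eq_zero.1 h2 with h3 | h3
  · exact mul_ne_zero hκ0 hτ (pow_eq_zero_iff (by
      have := two_le_of_card_sq hK
      omega) |>.1 h3)
  · exact hτ h3

end Cfsg.Agent.Helper15
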