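import Mathlib
import Cfsg.Prelude.Def_RootSubgroups
import Cfsg.Agent.Helper15.SURoot2
import Cfsg.Agent.Helper15.SpRoot2

set_option autoImplicit false

namespace Cfsg.Agent.Helper15

open scoped MatrixGroups

variable {K : Type*} [Field K] [Fintype K] {q n : ℕ}

theorem fixed_card (hK : Fintype.card K = q ^ 2) [DecidableEq K] :
    (Finset.univ.filter (fun x : K => x ^ q = x)).card = q := by
  have hq := two_le_of_card_sq hK
  have hdvd : q - 1 ∣ Fintype.card K - 1 := by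
    rw [hK, ← nat_sq_sub_one q (by omega)]
    exact Dvd.intro _ rfl
  have h1 := card_roots_of_unity_of_dvd (K := K) (q - 1) (by omega) hdvd
  rw [Nat.card_eq_fintype_card, Fintype.card_subtype] at h1
  have h2 : Finset.univ.filter (fun x : K => x ^ q = x)
      = insert 0 (Finset.univ.filter (fun x : K => x ^ (q - 1) = 1)) := by
    ext x
    rw [Finset.mem_filter, Finset.mem_insert, Finset.mem_filter, fixed_iff (by omega) x]
    simp
  have h3 : (0 : K) ∉ Finset.univ.filter (fun x : K => x ^ (q - 1) = 1) := by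
    rw [Finset.mem_filter]
    rintro ⟨-, h⟩
    rw [zero_pow (by omega)] at h
    exact zero_ne_one h
  rw [h2, Finset.card_insert_of_notMem h3, h1]
  omega

theorem exists_small_field (hK : Fintype.card K = q ^ 2) :
    ∃ (L : Type) (_ : Field L) (_ : Fintype L) (σ : L →+* K), Fintype.card L = q ∧
      ∀ x : K, x ^ q = x → ∃ c : L, σ c = x := by
  classical
  obtain ⟨φ, hφ⟩ := exists_frob hK
  have hq := two_le_of_card_sq hK
  obtain ⟨F₀, hF₀⟩ : ∃ F₀ : Subfield K, ∀ x, x ∈ F₀ ↔ x ^ q = x :=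
    ⟨φ.eqLocusField (RingHom.id K), fun x => by
      show φ x = RingHom.id K x ↔ _
      rw [hφ]
      rfl⟩
  have hcard : Nat.card ↥F₀ = q := by
    rw [Nat.card_eq_fintype_card, Fintype.card_subtype]
    have h1 : (Finset.univ.filter (fun x : K => x ∈ F₀))
        = Finset.univ.filter (fun x : K => x ^ q = x) := Finset.filter_congr (fun x _ => hF₀ x)
    rw [h1]
    exact fixed_card hK
  obtain ⟨e⟩ : Nonempty (Fin q ≃ ↥F₀) := ⟨(Finite.equivFinOfCardEq hcard).symm⟩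
  letI : Field (Fin q) := e.field
  obtain ⟨σ, hσdef⟩ : ∃ σ : Fin q →+* K, ∀ c, σ c = ((e c : ↥F₀) : K) :=
    ⟨{ toFun := fun c => ((e c : ↥F₀) : K)
       map_one' := by
         show ((e (e.symm 1) : ↥F₀) : K) = 1
         rw [Equiv.apply_symm_apply]
         rfl
       map_mul' := by
         intro a b
         show ((e (e.symm (e a * e b)) : ↥F₀) : K) = ((e a : ↥F₀) : K) * ((e b : ↥F₀) : K)
         rw [Equiv.apply_symm_apply]
         rfl
       map_zero' := by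
         show ((e (e.symm 0) : ↥F₀) : K) = 0
         rw [Equiv.apply_symm_apply]
         rfl
       map_add' := by
         intro a b
         show ((e (e.symm (e a + e b)) : ↥F₀) : K) = ((e a : ↥F₀) : K) + ((e b : ↥F₀) : K)
         rw [Equiv.apply_symm_apply]
         rfl }, fun c => rfl⟩
  refine ⟨Fin q, e.field, inferInstance, σ, Fintype.card_fin q, ?_⟩
  intro x hx
  refine ⟨e.symm ⟨x, (hF₀ x).2 hx⟩, ?_⟩
  rw [hσdef, Equiv.apply_symm_apply]

theorem sl_map_transvection {L : Type*} [Field L] (σ : L →+* K) {i j : Fin 2} (hij : i ≠ j)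
    (c : L) :
    Matrix.SpecialLinearGroup.map σ (Matrix.SpecialLinearGroup.transvection hij c)
      = Matrix.SpecialLinearGroup.transvection hij (σ c) := by
  apply Subtype.ext
  rw [Matrix.SpecialLinearGroup.map_apply_coe, Matrix.SpecialLinearGroup.transvection_coe,
    Matrix.SpecialLinearGroup.transvection_coe]
  ext a b
  simp only [RingHom.mapMatrix_apply, Matrix.map_apply, Matrix.add_apply, Matrix.one_apply,
    Matrix.single_apply]
  split_ifs <;> simp

theorem sl_map_eq_one {L : Type*} [Field L] (σ : L →+* K)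
    (M : Matrix.SpecialLinearGroup (Fin 2) L) (h : Matrix.SpecialLinearGroup.map σ M = 1) :
    M = 1 := by
  apply Subtype.ext
  have h1 := congrArg Subtype.val h
  rw [Matrix.SpecialLinearGroup.map_apply_coe] at h1
  ext a b
  have h2 := congrFun (congrFun h1 a) b
  rw [RingHom.mapMatrix_apply, Matrix.map_apply] at h2
  apply σ.injective
  rw [h2]
  show (1 : Matrix (Fin 2) (Fin 2) K) a b = σ ((1 : Matrix (Fin 2) (Fin 2) L) a b)
  rw [Matrix.one_apply, Matrix.one_apply]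
  split_ifs <;> simp

/-- The row vector of the functional `h(·, p)`. -/
def hermRow (q : ℕ) (p : Fin n → K) : Fin n → K := fun j => (p j) ^ q

theorem hermRow_dot (p w : Fin n → K) : hermRow q p ⬝ᵥ w = Cfsg.hermForm n K q w p := by
  unfold Cfsg.hermForm hermRow
  exact Finset.sum_congr rfl (fun k _ => mul_comm _ _)

theorem su_psl2 (hK : Fintype.card K = q ^ 2) (L : Type*) [Field L] (σ : L →+* K)
    (hσ : ∀ x : K, x ^ q = x → ∃ c : L, σ c = x) (hσ' : ∀ c : L, (σ c) ^ q = σ c)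
    (p p' : Fin n → K) (hp0 : p ≠ 0) (hp0' : p' ≠ 0)
    (hp : Cfsg.hermForm n K q p p = 0) (hp' : Cfsg.hermForm n K q p' p' = 0)
    (hτ : Cfsg.hermForm n K q p p' ≠ 0) :
    ∃ φ : Matrix.SpecialLinearGroup (Fin 2) L →* ↥(Cfsg.SU n K q),
      φ.ker ≤ Subgroup.center (Matrix.SpecialLinearGroup (Fin 2) L) ∧
      (Cfsg.upperUnipotentSL2 L).map φ = suGrp p ∧ (Cfsg.lowerUnipotentSL2 L).map φ = suGrp p' := by
  classical
  have hh := hermForm_isHerm hK n
  obtain ⟨θ, hθ0, hθ⟩ := exists_skew hK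
  obtain ⟨τ, hτdef⟩ : ∃ τ : K, τ = Cfsg.hermForm n K q p p' := ⟨_, rfl⟩
  have hτ' : Cfsg.hermForm n K q p' p = τ ^ q := by rw [hτdef, ← hh.conj p p']
  rw [← hτdef] at hτ
  have hτq : τ ^ q ≠ 0 := pow_ne_zero _ hτ
  have hne : θ * τ ^ q * τ ≠ 0 := mul_ne_zero (mul_ne_zero hθ0 hτq) hτ
  have hfix : (θ * τ ^ q * τ) ^ q = -(θ * τ ^ q * τ) := by
    rw [mul_pow, mul_pow, hθ, pow_card_sq hK]
    ring
  obtain ⟨x, hx⟩ : ∃ x : Fin n → K, x = τ⁻¹ • hermRow q p' := ⟨_, rfl⟩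
  obtain ⟨y, hy⟩ : ∃ y : Fin n → K, y = (θ * τ ^ q * τ)⁻¹ • hermRow q p := ⟨_, rfl⟩
  have hxw : ∀ w, x ⬝ᵥ w = τ⁻¹ * Cfsg.hermForm n K q w p' := by
    intro w
    rw [hx, smul_dotProduct, hermRow_dot, smul_eq_mul]
  have hyw : ∀ w, y ⬝ᵥ w = (θ * τ ^ q * τ)⁻¹ * Cfsg.hermForm n K q w p := by
    intro w
    rw [hy, smul_dotProduct, hermRow_dot, smul_eq_mul]
  have hxu : x ⬝ᵥ p = 1 := by
    rw [hxw, ← hτdef, inv_mul_cancel₀ hτ]
  have hxv : x ⬝ᵥ ((θ * τ) • p') = 0 := by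
    rw [hxw, hh.smul_left, hp', mul_zero, mul_zero]
  have hyu : y ⬝ᵥ p = 0 := by
    rw [hyw, hp, mul_zero]
  have hyv : y ⬝ᵥ ((θ * τ) • p') = 1 := by
    rw [hyw, hh.smul_left, hτ', show θ * τ * τ ^ q = θ * τ ^ q * τ by ring, inv_mul_cancel₀ hne]
  have hQP := matPQ_one p ((θ * τ) • p') x y hxu hxv hyu hyv
  obtain ⟨Φ₀, hΦ₀⟩ : ∃ Φ₀ : Matrix.SpecialLinearGroup (Fin 2) L →*
      Matrix.SpecialLinearGroup (Fin n) K, ∀ M,
        ((Φ₀ M : Matrix.SpecialLinearGroup (Fin n) K) : Matrix (Fin n) (Fin n) K)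
          = matPhi _ _ hQP (Matrix.SpecialLinearGroup.map σ M) :=
    ⟨(tvPhi _ _ hQP).comp (Matrix.SpecialLinearGroup.map σ), fun M => rfl⟩
  have hskU : ∀ c : L, (σ c * (θ * τ ^ q * τ)⁻¹) ^ q = -(σ c * (θ * τ ^ q * τ)⁻¹) := by
    intro c
    rw [mul_pow, hσ', inv_pow, hfix, inv_neg, mul_neg]
  have hskL : ∀ c : L, (σ c * θ) ^ q = -(σ c * θ) := by
    intro c
    rw [mul_pow, hσ', hθ, mul_neg]
  have hU : ∀ c : L, Φ₀ (Matrix.SpecialLinearGroup.transvection fin2_zero_ne_one c)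
      = ((suTv (q := q) p (σ c * (θ * τ ^ q * τ)⁻¹) : ↥(Cfsg.SU n K q))
        : Matrix.SpecialLinearGroup (Fin n) K) := by
    intro c
    apply Subtype.ext
    rw [hΦ₀, sl_map_transvection, matPhi_upper]
    apply mat_ext_mulVec
    intro w
    have h1 := suTv_act hK p hp _ (hskU c) w
    unfold suAct at h1
    rw [h1, Matrix.add_mulVec, Matrix.one_mulVec, Matrix.smul_mulVec, Matrix.vecMulVec_mulVec,
      op_smul_eq_smul, smul_smul, hyw]
    congr 2
    ring
  have hLw : ∀ c : L, Φ₀ (Matrix.SpecialLinearGroup.transvection fin2_one_ne_zero c)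
      = ((suTv (q := q) p' (σ c * θ) : ↥(Cfsg.SU n K q))
        : Matrix.SpecialLinearGroup (Fin n) K) := by
    intro c
    apply Subtype.ext
    rw [hΦ₀, sl_map_transvection, matPhi_lower]
    apply mat_ext_mulVec
    intro w
    have h1 := suTv_act hK p' hp' _ (hskL c) w
    unfold suAct at h1
    rw [h1, Matrix.add_mulVec, Matrix.one_mulVec, Matrix.smul_mulVec, Matrix.vecMulVec_mulVec,
      op_smul_eq_smul, smul_smul, smul_smul, hxw]
    congr 2
    field_simp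
  have hmem : ∀ M : Matrix.SpecialLinearGroup (Fin 2) L, Φ₀ M ∈ Cfsg.SU n K q := by
    intro M
    refine Cfsg.Agent.Helper2.transvection_induction
      (fun M => Φ₀ M ∈ Cfsg.SU n K q) ?_ ?_ M
    · intro i j hij c
      fin_cases i <;> fin_cases j
      · exact absurd rfl hij
      · show Φ₀ (Matrix.SpecialLinearGroup.transvection fin2_zero_ne_one c) ∈ _
        rw [hU]
        exact (suTv p _).2
      · show Φ₀ (Matrix.SpecialLinearGroup.transvection fin2_one_ne_zero c) ∈ _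
        rw [hLw]
        exact (suTv p' _).2
      · exact absurd rfl hij
    · intro A B hA hB
      show Φ₀ (A * B) ∈ _
      rw [map_mul]
      exact Subgroup.mul_mem _ hA hB
  obtain ⟨Φ, hΦ⟩ : ∃ Φ : Matrix.SpecialLinearGroup (Fin 2) L →* ↥(Cfsg.SU n K q),
      ∀ M, ((Φ M : ↥(Cfsg.SU n K q)) : Matrix.SpecialLinearGroup (Fin n) K) = Φ₀ M :=
    ⟨Φ₀.codRestrict (Cfsg.SU n K q) hmem, fun M => rfl⟩
  have hΦU : ∀ c : L, Φ (Matrix.SpecialLinearGroup.transvection fin2_zero_ne_one c)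
      = suTv p (σ c * (θ * τ ^ q * τ)⁻¹) := by
    intro c
    apply Subtype.ext
    rw [hΦ, hU]
  have hΦL : ∀ c : L, Φ (Matrix.SpecialLinearGroup.transvection fin2_one_ne_zero c)
      = suTv p' (σ c * θ) := by
    intro c
    apply Subtype.ext
    rw [hΦ, hLw]
  have hupper : (Cfsg.upperUnipotentSL2 L).map Φ = suGrp p := by
    unfold Cfsg.upperUnipotentSL2 suGrp
    rw [MonoidHom.map_closure, upper_set_eq]
    congr 1
    ext t
    constructor
    · rintro ⟨g, ⟨c, rfl⟩, rfl⟩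
      rw [hΦU]
      exact suTv_mem_set hK p hp _ (hskU c)
    · intro ht
      obtain ⟨a, ha, rfl⟩ := (mem_suSet_iff hK p hp0 hp t).1 ht
      have hfx : (a * (θ * τ ^ q * τ)) ^ q = a * (θ * τ ^ q * τ) := by
        rw [mul_pow, ha, hfix]
        ring
      obtain ⟨c, hc⟩ := hσ _ hfx
      refine ⟨_, ⟨c, rfl⟩, ?_⟩
      rw [hΦU, hc, mul_assoc, mul_inv_cancel₀ hne, mul_one]
  have hlower : (Cfsg.lowerUnipotentSL2 L).map Φ = suGrp p' := by
    unfold Cfsg.lowerUnipotentSL2 suGrp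
    rw [MonoidHom.map_closure, lower_set_eq]
    congr 1
    ext t
    constructor
    · rintro ⟨g, ⟨c, rfl⟩, rfl⟩
      rw [hΦL]
      exact suTv_mem_set hK p' hp' _ (hskL c)
    · intro ht
      obtain ⟨a, ha, rfl⟩ := (mem_suSet_iff hK p' hp0' hp' t).1 ht
      have hfx : (a * θ⁻¹) ^ q = a * θ⁻¹ := by
        rw [mul_pow, ha, inv_pow, hθ, inv_neg]
        ring
      obtain ⟨c, hc⟩ := hσ _ hfx
      refine ⟨_, ⟨c, rfl⟩, ?_⟩
      rw [hΦL, hc, mul_assoc, inv_mul_cancel₀ hθ0, mul_one]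
  refine ⟨Φ, ?_, hupper, hlower⟩
  intro M hM
  rw [MonoidHom.mem_ker] at hM
  have h0 := congrArg (fun g : ↥(Cfsg.SU n K q) =>
    ((g : Matrix.SpecialLinearGroup (Fin n) K) : Matrix (Fin n) (Fin n) K)) hM
  simp only [hΦ, hΦ₀] at h0
  have h3 : Matrix.SpecialLinearGroup.map σ M = 1 := matPhi_eq_one _ _ hQP _ h0
  rw [sl_map_eq_one σ M h3]
  exact Subgroup.one_mem _

end Cfsg.Agent.Helper15
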