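import Mathlib
import Cfsg.Prelude.Def_RootSubgroups
import Cfsg.Agent.Helper15.SURoot3

set_option autoImplicit false

namespace Cfsg.Agent.Helper15

open scoped MatrixGroups

variable {K : Type*} [Field K] [Fintype K] {q n : ℕ}

/-- The family of unitary transvection groups. -/
def suFam (K : Type*) [Field K] (q n : ℕ) : Set (Subgroup ↥(Cfsg.SU n K q)) :=
  {A | ∃ p : Fin n → K, p ≠ 0 ∧ Cfsg.hermForm n K q p p = 0 ∧
    A = Subgroup.closure {g : ↥(Cfsg.SU n K q) | (∀ v : Fin n → K, ∃ c : K,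
      ((g : Matrix.SpecialLinearGroup (Fin n) K) : Matrix (Fin n) (Fin n) K).mulVec v = v + c • p) ∧
    ∀ v : Fin n → K, Cfsg.hermForm n K q v p = 0 →
      ((g : Matrix.SpecialLinearGroup (Fin n) K) : Matrix (Fin n) (Fin n) K).mulVec v = v}}

theorem mem_suFam (p : Fin n → K) (hp0 : p ≠ 0) (hp : Cfsg.hermForm n K q p p = 0) :
    suGrp (q := q) p ∈ suFam K q n := ⟨p, hp0, hp, rfl⟩

theorem su_exists_common (hK : Fintype.card K = q ^ 2) (p p' : Fin n → K) (hp0 : p ≠ 0)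
    (hp0' : p' ≠ 0)
    (hp : Cfsg.hermForm n K q p p = 0)
    (h0 : Cfsg.hermForm n K q p p' = 0) :
    ∃ w : Fin n → K, w ≠ 0 ∧ Cfsg.hermForm n K q w w = 0 ∧ Cfsg.hermForm n K q p w ≠ 0 ∧
      Cfsg.hermForm n K q w p' ≠ 0 := by
  have hh := hermForm_isHerm hK n
  have hq := two_le_of_card_sq hK
  obtain ⟨φ, hφ⟩ := exists_frob hK
  obtain ⟨v₁, hv₁⟩ := herm_exists_one hK p hp0
  obtain ⟨v₂, hv₂⟩ := herm_exists_one hK p' hp0'
  obtain ⟨x, -, hx1, hx2⟩ := avoid_two (fun x => Cfsg.hermForm n K q x p)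
    (fun x => Cfsg.hermForm n K q x p') (fun a b => hh.add_left a b p)
    (fun a b => hh.add_left a b p') v₁ v₂ (by rw [hv₁]; exact one_ne_zero)
    (by rw [hv₂]; exact one_ne_zero)
  obtain ⟨θ₁, hθ₁⟩ := exists_trace_one hK
  obtain ⟨β, hβ⟩ : ∃ β : K, β = Cfsg.hermForm n K q p x := ⟨_, rfl⟩
  obtain ⟨γ, hγ⟩ : ∃ γ : K, γ = Cfsg.hermForm n K q x x := ⟨_, rfl⟩
  have hxp : Cfsg.hermForm n K q x p = β ^ q := by rw [hβ, ← hh.conj p x]
  have hβ0 : β ≠ 0 := by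
    intro h
    rw [hxp, h, zero_pow (by omega)] at hx1
    exact hx1 rfl
  have hγq : γ ^ q = γ := by rw [hγ, ← hh.conj x x]
  obtain ⟨c, hc⟩ : ∃ c : K, c * β = -γ * θ₁ := ⟨-γ * θ₁ / β, by field_simp⟩
  have hwp : Cfsg.hermForm n K q (x + c • p) p = β ^ q := by
    rw [hh.add_left, hh.smul_left, hp, mul_zero, add_zero, hxp]
  have hwp' : Cfsg.hermForm n K q (x + c • p) p' ≠ 0 := by
    rw [hh.add_left, hh.smul_left, h0, mul_zero, add_zero]
    exact hx2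
  refine ⟨x + c • p, ?_, ?_, ?_, hwp'⟩
  · intro h
    rw [h, hh.zero_left] at hwp'
    exact hwp' rfl
  · rw [herm_expand hK hh, hp, mul_zero, add_zero, ← hγ, hxp, ← hβ, ← mul_pow, hc, ← hφ, map_mul,
      map_neg, hφ, hφ, hγq]
    linear_combination (-γ) * hθ₁
  · rw [hh.conj (x + c • p) p, hwp, pow_card_sq hK]
    exact hβ0

theorem suFam_connected (hK : Fintype.card K = q ^ 2) :
    Cfsg.IsConnectedFamily (Cfsg.FAdj (suFam K q n)) (suFam K q n) := by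
  have hh := hermForm_isHerm hK n
  rintro A ⟨p, hp0, hp, rfl⟩ B ⟨p', hp0', hp', rfl⟩
  by_cases h0 : Cfsg.hermForm n K q p p' = 0
  · obtain ⟨w, hw0, hw, hpw, hwp'⟩ := su_exists_common hK p p' hp0 hp0' hp h0
    exact Relation.ReflTransGen.head
      ⟨mem_suFam p hp0 hp, mem_suFam w hw0 hw, su_rank_one_pair hK p w hp0 hw0 hp hw hpw⟩
      (Relation.ReflTransGen.single
        ⟨mem_suFam w hw0 hw, mem_suFam p' hp0' hp', su_rank_one_pair hK w p' hw0 hp0' hw hp' hwp'⟩)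
  · exact Relation.ReflTransGen.single
      ⟨mem_suFam p hp0 hp, mem_suFam p' hp0' hp', su_rank_one_pair hK p p' hp0 hp0' hp hp' h0⟩

theorem su_exists_isotropic (hK : Fintype.card K = q ^ 2) :
    ∃ p : Fin (n + 2) → K, p ≠ 0 ∧ Cfsg.hermForm (n + 2) K q p p = 0 := by
  classical
  have hh := hermForm_isHerm hK (n + 2)
  have hq := two_le_of_card_sq hK
  obtain ⟨m, hm0, hm⟩ := exists_norm_neg_one hK
  have h01 : (0 : Fin (n + 2)) ≠ 1 := by
    intro h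
    have h1 := congrArg Fin.val h
    simp at h1
  refine ⟨Pi.single 0 1 + m • Pi.single 1 1, ?_, ?_⟩
  · intro h
    have h1 := congrFun h 0
    rw [Pi.add_apply, Pi.smul_apply, Pi.single_eq_same, Pi.single_eq_of_ne h01, smul_zero,
      add_zero, Pi.zero_apply] at h1
    exact one_ne_zero h1
  · rw [herm_expand hK hh, hermForm_single (by omega), hermForm_single (by omega),
      hermForm_single (by omega), hermForm_single (by omega), if_pos rfl, if_neg h01,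
      if_neg h01.symm, if_pos rfl, mul_zero, mul_zero, mul_one, add_zero, add_zero, ← pow_succ',
      hm, add_neg_cancel]

theorem su_root_subgroup_class (K : Type*) [Field K] [Fintype K] (q n : ℕ)
    (hK : Fintype.card K = q ^ 2) :
    Cfsg.IsRootSubgroupClass ((fun A : Subgroup ↥(Cfsg.SU (n + 2) K q) =>
      A.subgroupOf (⨆ B ∈ suFam K q (n + 2), B)) '' suFam K q (n + 2)) ∧
    Cfsg.IsDegenerateRootSet ((fun A : Subgroup ↥(Cfsg.SU (n + 2) K q) =>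
      A.subgroupOf (⨆ B ∈ suFam K q (n + 2), B)) '' suFam K q (n + 2)) ∧
    (∃ (L : Type) (_ : Field L) (_ : Fintype L), Fintype.card L = q ∧
      Cfsg.IsKRootSubgroupSet L ((fun A : Subgroup ↥(Cfsg.SU (n + 2) K q) =>
        A.subgroupOf (⨆ B ∈ suFam K q (n + 2), B)) '' suFam K q (n + 2))) ∧
    Cfsg.IsConnectedFamily (Cfsg.FAdj ((fun A : Subgroup ↥(Cfsg.SU (n + 2) K q) =>
        A.subgroupOf (⨆ B ∈ suFam K q (n + 2), B)) '' suFam K q (n + 2)))
      ((fun A : Subgroup ↥(Cfsg.SU (n + 2) K q) =>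
        A.subgroupOf (⨆ B ∈ suFam K q (n + 2), B)) '' suFam K q (n + 2)) := by
  have hh := hermForm_isHerm hK (n + 2)
  have hcomm : ∀ A ∈ suFam K q (n + 2), ∀ a ∈ A, ∀ b ∈ A, a * b = b * a := by
    rintro A ⟨p, hp0, hp, rfl⟩
    exact suGrp_commute hK p p hp0 hp0 hp hp hp
  have hne : ∀ A ∈ suFam K q (n + 2), A ≠ ⊥ := by
    rintro A ⟨p, hp0, hp, rfl⟩
    exact suGrp_ne_bot hK p hp0 hp
  have hconj : ∀ A ∈ suFam K q (n + 2), ∀ g : ↥(Cfsg.SU (n + 2) K q),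
      Cfsg.conjBy A g ∈ suFam K q (n + 2) := by
    rintro A ⟨p, hp0, hp, rfl⟩ g
    refine ⟨suAct g p, ?_, ?_, suGrp_conj g p⟩
    · intro h
      apply hp0
      have h1 := suAct_inv_left g p
      rw [h, suAct_zero] at h1
      exact h1.symm
    · rw [suAct_pres]
      exact hp
  have hpair1 : ∀ A ∈ suFam K q (n + 2), ∀ B ∈ suFam K q (n + 2),
      (∀ a ∈ A, ∀ b ∈ B, a * b = b * a) ∨ Cfsg.IsRankOnePair A B := by
    rintro A ⟨p, hp0, hp, rfl⟩ B ⟨p', hp0', hp', rfl⟩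
    by_cases h0 : Cfsg.hermForm (n + 2) K q p p' = 0
    · exact Or.inl (suGrp_commute hK p p' hp0 hp0' hp hp' h0)
    · exact Or.inr (su_rank_one_pair hK p p' hp0 hp0' hp hp' h0)
  have hpair2 : ∀ A ∈ suFam K q (n + 2), ∀ B ∈ suFam K q (n + 2),
      (∀ a ∈ A, ∀ b ∈ B, a * b = b * a) ∨
      (∃ a ∈ A, ∃ b ∈ B, (a * b * a⁻¹ * b⁻¹) * a ≠ a * (a * b * a⁻¹ * b⁻¹)) := by
    rintro A ⟨p, hp0, hp, rfl⟩ B ⟨p', hp0', hp', rfl⟩
    by_cases h0 : Cfsg.hermForm (n + 2) K q p p' = 0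
    · exact Or.inl (suGrp_commute hK p p' hp0 hp0' hp hp' h0)
    · exact Or.inr (su_noncentral hK p p' hp0 hp hp' h0)
  have hconnG := suFam_connected (n := n + 2) hK
  have hroot := rootSet_subgroupOf (suFam K q (n + 2)) _ rfl hcomm hne hconj hpair1
  have hconn := connected_subgroupOf (suFam K q (n + 2)) _ rfl hcomm hconnG
  have hnonempty : ((fun A : Subgroup ↥(Cfsg.SU (n + 2) K q) =>
      A.subgroupOf (⨆ B ∈ suFam K q (n + 2), B)) '' suFam K q (n + 2)).Nonempty := by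
    obtain ⟨p, hp0, hp⟩ := su_exists_isotropic (n := n) hK
    exact ⟨_, Set.mem_image_of_mem _ (mem_suFam p hp0 hp)⟩
  refine ⟨⟨hroot, conjClass_of_connected _ hnonempty hroot.ne_bot hconn⟩,
    degenerate_subgroupOf (suFam K q (n + 2)) _ rfl hne hpair2, ?_, hconn⟩
  obtain ⟨L, iL, iFL, σ, hcard, hσ⟩ := exists_small_field hK
  have hσ' : ∀ c : L, (σ c) ^ q = σ c := by
    intro c
    rw [← map_pow, ← hcard, FiniteField.pow_card]
  refine ⟨L, iL, iFL, hcard, kroot_subgroupOf L (suFam K q (n + 2)) _ rfl hroot hne ?_⟩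
  rintro A ⟨p, hp0, hp, rfl⟩ B ⟨p', hp0', hp', rfl⟩
  by_cases h0 : Cfsg.hermForm (n + 2) K q p p' = 0
  · exact Or.inl (suGrp_commute hK p p' hp0 hp0' hp hp' h0)
  · exact Or.inr (su_psl2 hK L σ hσ hσ' p p' hp0 hp0' hp hp' h0)

end Cfsg.Agent.Helper15
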