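import Mathlib
import Cfsg.Agent.Helper15.GUPrime1

set_option autoImplicit false

namespace Cfsg.Agent.Helper15
open Polynomial Matrix

universe u

theorem card_fix_semilinear {K : Type u} [Field K] [Fintype K] {q : ℕ}
    (hK : Fintype.card K = q ^ 2) (σ : K →+* K) (hσq : ∀ x, σ x = x ^ q) (m : ℕ) (ε : K)
    (hε : σ ε = ε) (hε2 : ε * ε = 1) :
    Nat.card {c : Fin m → K // ∀ j, c j = ε * σ (c (Fin.rev j))} = q ^ m := by
  classical
  obtain ⟨hq1, ω, hω⟩ := hs_exists_pow_ne hK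
  have hσ : ∀ a, σ (σ a) = a := by
    intro a
    rw [hσq, hσq, ← pow_mul, ← pow_two, ← hK, FiniteField.pow_card]
  have hωne : ω - σ ω ≠ 0 := by
    rw [hσq]
    exact sub_ne_zero.2 (Ne.symm hω)
  have hωne' : σ ω - ω ≠ 0 := by
    intro h
    apply hωne
    linear_combination -h
  have e : ({c : Fin m → K // ∀ j, c j = ε * σ (c (Fin.rev j))} ×
      {c : Fin m → K // ∀ j, c j = ε * σ (c (Fin.rev j))}) ≃ (Fin m → K) := by
    refine Equiv.ofBijective (fun xy => fun j => xy.1.1 j + ω * xy.2.1 j) ⟨?_, ?_⟩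
    · rintro ⟨⟨x, hx⟩, ⟨y, hy⟩⟩ ⟨⟨x', hx'⟩, ⟨y', hy'⟩⟩ h
      have h1 : ∀ j, x j + ω * y j = x' j + ω * y' j := fun j => congrFun h j
      have h2 : ∀ j, x j + σ ω * y j = x' j + σ ω * y' j := by
        intro j
        have h3 := congrArg (fun z => ε * σ z) (h1 (Fin.rev j))
        simp only [map_add, map_mul, mul_add] at h3
        have e1 : ∀ b : K, ε * (σ ω * b) = σ ω * (ε * b) := fun b => by ring
        rw [e1, e1, ← hx j, ← hy j, ← hx' j, ← hy' j] at h3
        exact h3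
      have hyy : y = y' := by
        funext j
        have h3 : (ω - σ ω) * (y j - y' j) = 0 := by linear_combination h1 j - h2 j
        rcases mul_eq_zero.1 h3 with h4 | h4
        · exact absurd h4 hωne
        · exact sub_eq_zero.1 h4
      have hxx : x = x' := by
        funext j
        have h5 := h1 j
        rw [hyy] at h5
        exact add_right_cancel h5
      subst hyy
      subst hxx
      rfl
    · intro v
      have hy : ∀ j, (v j - ε * σ (v (Fin.rev j))) / (ω - σ ω)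
          = ε * σ ((v (Fin.rev j) - ε * σ (v (Fin.rev (Fin.rev j)))) / (ω - σ ω)) := by
        intro j
        rw [Fin.rev_rev, map_div₀, map_sub, map_sub, map_mul, hσ, hσ, hε, ← mul_div_assoc,
          mul_sub, ← mul_assoc, hε2, one_mul, div_eq_div_iff hωne hωne']
        ring
      have hyj : ∀ j, (ω - σ ω) * ((v j - ε * σ (v (Fin.rev j))) / (ω - σ ω))
          = v j - ε * σ (v (Fin.rev j)) := by
        intro j
        rw [mul_comm]
        exact div_mul_cancel₀ _ hωne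
      refine ⟨(⟨fun j => v j - ω * ((v j - ε * σ (v (Fin.rev j))) / (ω - σ ω)), ?_⟩,
        ⟨fun j => (v j - ε * σ (v (Fin.rev j))) / (ω - σ ω), hy⟩), ?_⟩
      · intro j
        show v j - ω * ((v j - ε * σ (v (Fin.rev j))) / (ω - σ ω))
          = ε * σ (v (Fin.rev j)
            - ω * ((v (Fin.rev j) - ε * σ (v (Fin.rev (Fin.rev j)))) / (ω - σ ω)))
        rw [map_sub, map_mul, mul_sub]
        linear_combination (-1 : K) * hyj j - σ ω * hy j
      · funext j
        show v j - ω * ((v j - ε * σ (v (Fin.rev j))) / (ω - σ ω))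
          + ω * ((v j - ε * σ (v (Fin.rev j))) / (ω - σ ω)) = v j
        rw [sub_add_cancel]
  have h1 := Nat.card_congr e
  rw [Nat.card_prod, Nat.card_eq_fintype_card (α := Fin m → K), Fintype.card_fun,
    Fintype.card_fin, hK] at h1
  have h2 : (Nat.card {c : Fin m → K // ∀ j, c j = ε * σ (c (Fin.rev j))}) ^ 2
      = (q ^ m) ^ 2 := by
    rw [pow_two, h1]
    ring
  exact Nat.pow_left_injective two_ne_zero h2

theorem unitary_charpoly_symm {K : Type u} [Field K] {n : ℕ} (σ : K →+* K)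
    (A : Matrix (Fin n) (Fin n) K) (hA : hadj σ A * A = 1) (hdet : A.det = 1) :
    A.charpoly.map σ = C ((-1) ^ n) * A.charpoly.reverse := by
  have hinv : A⁻¹ = hadj σ A := Matrix.inv_eq_left_inv hA
  have hunit : IsUnit A := (Matrix.isUnit_iff_isUnit_det A).2 (by rw [hdet]; exact isUnit_one)
  have h1 := Matrix.charpoly_inv A hunit
  rw [hinv, hdet, Ring.inverse_one, C_1, mul_one, Fintype.card_fin,
    ← Matrix.reverse_charpoly] at h1
  have h2 : (hadj σ A).charpoly = A.charpoly.map σ := by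
    unfold hadj
    rw [Matrix.charpoly_transpose, Matrix.charpoly_map]
  rw [← h2, h1, C_pow, C_neg, C_1]

theorem symm_coeff {K : Type u} [Field K] (σ : K →+* K) (hσ : ∀ a, σ (σ a) = a) (N : ℕ) (ε : K)
    (hε : σ ε = ε) (f : K[X]) (hdeg : f.natDegree = N) (h : f.map σ = C ε * f.reverse)
    (k : ℕ) (hk : k ≤ N) : f.coeff k = ε * σ (f.coeff (N - k)) := by
  have h1 : σ ((f.map σ).coeff k) = σ ((C ε * f.reverse).coeff k) :=
    congrArg (fun g => σ (g.coeff k)) h
  rw [coeff_map, hσ, coeff_C_mul, map_mul, hε, coeff_reverse, hdeg, revAt_le hk] at h1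
  exact h1

theorem symm_of_coeff {K : Type u} [Field K] (σ : K →+* K) (hσ : ∀ a, σ (σ a) = a) (N : ℕ)
    (ε : K) (hε : σ ε = ε) (f : K[X]) (hdeg : f.natDegree = N)
    (h : ∀ k ≤ N, f.coeff k = ε * σ (f.coeff (N - k))) : f.map σ = C ε * f.reverse := by
  ext k
  rw [coeff_map, coeff_C_mul]
  rcases Nat.lt_or_ge N k with hk | hk
  · rw [coeff_eq_zero_of_natDegree_lt (by rw [hdeg]; exact hk),
      coeff_eq_zero_of_natDegree_lt (lt_of_le_of_lt (reverse_natDegree_le f)
        (by rw [hdeg]; exact hk)), map_zero, mul_zero]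
  · rw [coeff_reverse, hdeg, revAt_le hk, h k hk, map_mul, hε, hσ]

theorem polyOf_cons_coeff_zero {K : Type u} [Field K] {m : ℕ} (ε : K) (c : Fin m → K) :
    (polyOf (Fin.cons ε c : Fin (m + 1) → K)).coeff 0 = ε := by
  have h := polyOf_coeff (Fin.cons ε c : Fin (m + 1) → K) 0
  simpa using h

theorem polyOf_cons_coeff_succ {K : Type u} [Field K] {m : ℕ} (ε : K) (c : Fin m → K)
    (j : Fin m) : (polyOf (Fin.cons ε c : Fin (m + 1) → K)).coeff (j.val + 1) = c j := by
  have h := polyOf_coeff (Fin.cons ε c : Fin (m + 1) → K) (Fin.succ j)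
  simpa using h

theorem polyOf_symm {K : Type u} [Field K] (σ : K →+* K) (hσ : ∀ a, σ (σ a) = a) {m : ℕ}
    (ε : K) (hε : σ ε = ε) (hε2 : ε * ε = 1) (c : Fin m → K)
    (hc : ∀ j, c j = ε * σ (c (Fin.rev j))) :
    (polyOf (Fin.cons ε c : Fin (m + 1) → K)).map σ
      = C ε * (polyOf (Fin.cons ε c : Fin (m + 1) → K)).reverse := by
  apply symm_of_coeff σ hσ (m + 1) ε hε _ (polyOf_natDegree _)
  intro k hk
  have htop : (polyOf (Fin.cons ε c : Fin (m + 1) → K)).coeff (m + 1) = 1 := by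
    have h := (polyOf_monic (Fin.cons ε c : Fin (m + 1) → K)).coeff_natDegree
    rwa [polyOf_natDegree] at h
  rcases Nat.eq_zero_or_pos k with rfl | hk0
  · rw [Nat.sub_zero, htop, polyOf_cons_coeff_zero, map_one, mul_one]
  · rcases Nat.lt_or_ge k (m + 1) with hk1 | hk1
    · obtain ⟨j, rfl⟩ : ∃ j : Fin m, k = j.val + 1 :=
        ⟨⟨k - 1, by omega⟩, by show k = k - 1 + 1; omega⟩
      have h1 : m + 1 - (j.val + 1) = (Fin.rev j).val + 1 := by
        rw [Fin.val_rev]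
        omega
      rw [h1, polyOf_cons_coeff_succ, polyOf_cons_coeff_succ]
      exact hc j
    · have hkm : k = m + 1 := by omega
      subst hkm
      rw [Nat.sub_self, htop, polyOf_cons_coeff_zero, hε, hε2]

theorem su_charpoly_of_isConj {F : Type u} [Field F] {n q : ℕ} (a b : ↥(Cfsg.SU n F q))
    (h : IsConj a b) :
    ((a : Matrix.SpecialLinearGroup (Fin n) F) : Matrix (Fin n) (Fin n) F).charpoly
      = ((b : Matrix.SpecialLinearGroup (Fin n) F) : Matrix (Fin n) (Fin n) F).charpoly := by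
  obtain ⟨c, hc⟩ := isConj_iff.1 h
  have hb : ((b : Matrix.SpecialLinearGroup (Fin n) F) : Matrix (Fin n) (Fin n) F)
      = ((c : Matrix.SpecialLinearGroup (Fin n) F) : Matrix (Fin n) (Fin n) F)
        * ((a : Matrix.SpecialLinearGroup (Fin n) F) : Matrix (Fin n) (Fin n) F)
        * (((c⁻¹ : ↥(Cfsg.SU n F q)) : Matrix.SpecialLinearGroup (Fin n) F) :
          Matrix (Fin n) (Fin n) F) := by
    rw [← hc, Subgroup.coe_mul, Subgroup.coe_mul, Matrix.SpecialLinearGroup.coe_mul,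
      Matrix.SpecialLinearGroup.coe_mul]
  have hci1 : (((c⁻¹ : ↥(Cfsg.SU n F q)) : Matrix.SpecialLinearGroup (Fin n) F) :
        Matrix (Fin n) (Fin n) F)
      * ((c : Matrix.SpecialLinearGroup (Fin n) F) : Matrix (Fin n) (Fin n) F) = 1 := by
    rw [← Matrix.SpecialLinearGroup.coe_mul, ← Subgroup.coe_mul, inv_mul_cancel,
      Subgroup.coe_one, Matrix.SpecialLinearGroup.coe_one]
  rw [hb, Matrix.charpoly_mul_comm, ← Matrix.mul_assoc, hci1, Matrix.one_mul]

theorem su_semisimple_class_count {F : Type u} [Field F] [Fintype F] {q : ℕ}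
    (hF : Fintype.card F = q ^ 2) (p : ℕ) [Fact p.Prime] [CharP F p] (n : ℕ) (hn : 1 ≤ n) :
    Nat.card {c : ConjClasses ↥(Cfsg.SU n F q) //
      ∃ g : ↥(Cfsg.SU n F q), ConjClasses.mk g = c ∧ (orderOf g).Coprime p} = q ^ (n - 1) := by
  classical
  obtain ⟨m, rfl⟩ : ∃ m, n = m + 1 := ⟨n - 1, by omega⟩
  obtain ⟨σ, hσq⟩ := exists_frob_hs hF p
  have hσ : ∀ a, σ (σ a) = a := by
    intro a
    rw [hσq, hσq, ← pow_mul, ← pow_two, ← hF, FiniteField.pow_card]
  have hε : σ ((-1 : F) ^ (m + 1)) = (-1) ^ (m + 1) := by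
    rw [map_pow, map_neg, map_one]
  have hε2 : ((-1 : F) ^ (m + 1)) * ((-1) ^ (m + 1)) = 1 := by
    rw [← mul_pow, neg_one_mul, neg_neg, one_pow]
  rw [Nat.add_sub_cancel, ← card_fix_semilinear hF σ hσq m ((-1) ^ (m + 1)) hε hε2]
  have hsymm : ∀ g : ↥(Cfsg.SU (m + 1) F q),
      ((g : Matrix.SpecialLinearGroup (Fin (m + 1)) F) :
        Matrix (Fin (m + 1)) (Fin (m + 1)) F).charpoly.map σ
        = C ((-1) ^ (m + 1)) * ((g : Matrix.SpecialLinearGroup (Fin (m + 1)) F) :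
          Matrix (Fin (m + 1)) (Fin (m + 1)) F).charpoly.reverse := by
    intro g
    have hG : Matrix.SpecialLinearGroup.toGL (g : Matrix.SpecialLinearGroup (Fin (m + 1)) F)
        ∈ Cfsg.GU (m + 1) F q := g.2
    have hu := (mem_GU_iff_hadj hF σ hσq (m + 1) _).1 hG
    exact unitary_charpoly_symm σ _ hu (g : Matrix.SpecialLinearGroup (Fin (m + 1)) F).2
  have hex : ∀ C : {c : ConjClasses ↥(Cfsg.SU (m + 1) F q) //
        ∃ g : ↥(Cfsg.SU (m + 1) F q), ConjClasses.mk g = c ∧ (orderOf g).Coprime p},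
      ∃ c : {c : Fin m → F // ∀ j, c j = (-1) ^ (m + 1) * σ (c (Fin.rev j))},
        ∀ g : ↥(Cfsg.SU (m + 1) F q), ConjClasses.mk g = C.1 →
          ∀ j : Fin m, ((g : Matrix.SpecialLinearGroup (Fin (m + 1)) F) :
            Matrix (Fin (m + 1)) (Fin (m + 1)) F).charpoly.coeff (j.val + 1) = c.1 j := by
    rintro ⟨C, g, hg, hord⟩
    refine ⟨⟨fun j => ((g : Matrix.SpecialLinearGroup (Fin (m + 1)) F) :
      Matrix (Fin (m + 1)) (Fin (m + 1)) F).charpoly.coeff (j.val + 1), ?_⟩, ?_⟩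
    · intro j
      have h1 := symm_coeff σ hσ (m + 1) _ hε _
        (by rw [Matrix.charpoly_natDegree_eq_dim, Fintype.card_fin]) (hsymm g) (j.val + 1)
        (by omega)
      have h2 : m + 1 - (j.val + 1) = (Fin.rev j).val + 1 := by
        rw [Fin.val_rev]
        omega
      rw [h2] at h1
      exact h1
    · intro g' hg' j
      have hconj : IsConj g' g := ConjClasses.mk_eq_mk_iff_isConj.1 (hg'.trans hg.symm)
      have hχ := su_charpoly_of_isConj g' g hconj
      show _ = ((g : Matrix.SpecialLinearGroup (Fin (m + 1)) F) :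
        Matrix (Fin (m + 1)) (Fin (m + 1)) F).charpoly.coeff (j.val + 1)
      rw [hχ]
  choose Ξ hΞ using hex
  apply Nat.card_congr
  refine Equiv.ofBijective Ξ ⟨?_, ?_⟩
  · intro C₁ C₂ h
    obtain ⟨g₁, hg₁, ho₁⟩ := C₁.2
    obtain ⟨g₂, hg₂, ho₂⟩ := C₂.2
    have hχ : ((g₁ : Matrix.SpecialLinearGroup (Fin (m + 1)) F) :
          Matrix (Fin (m + 1)) (Fin (m + 1)) F).charpoly
        = ((g₂ : Matrix.SpecialLinearGroup (Fin (m + 1)) F) :
          Matrix (Fin (m + 1)) (Fin (m + 1)) F).charpoly := by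
      apply monic_ext_low _ _ (Matrix.charpoly_monic _) (Matrix.charpoly_monic _)
        (by rw [Matrix.charpoly_natDegree_eq_dim, Fintype.card_fin])
        (by rw [Matrix.charpoly_natDegree_eq_dim, Fintype.card_fin])
      intro i
      refine Fin.cases ?_ (fun j => ?_) i
      · rw [Fin.val_zero, sl_charpoly_coeff_zero, sl_charpoly_coeff_zero]
      · rw [Fin.val_succ, hΞ C₁ g₁ hg₁ j, hΞ C₂ g₂ hg₂ j, h]
    apply Subtype.ext
    rw [← hg₁, ← hg₂]
    exact ConjClasses.mk_eq_mk_iff_isConj.2 (su_conj_of_charpoly hF p (m + 1) g₁ g₂ ho₁ ho₂ hχ)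
  · rintro ⟨c, hc⟩
    have hf0 : (polyOf (Fin.cons ((-1 : F) ^ (m + 1)) c : Fin (m + 1) → F)).coeff 0
        = (-1) ^ (m + 1) := polyOf_cons_coeff_zero _ c
    have hne : ((-1 : F) ^ (m + 1)) ≠ 0 := pow_ne_zero _ (neg_ne_zero.2 one_ne_zero)
    have hPs := polyOf_symm σ hσ _ hε hε2 c hc
    obtain ⟨A, k, hk, hA, hχ⟩ := exists_semi_matrix (m + 1)
      (polyOf (Fin.cons ((-1 : F) ^ (m + 1)) c : Fin (m + 1) → F)) (polyOf_monic _)
      (polyOf_natDegree _) (by rw [hf0]; exact hne)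
    have hdet : A.det = 1 := by
      rw [Matrix.det_eq_sign_charpoly_coeff, hχ, hf0, Fintype.card_fin, ← mul_pow, neg_one_mul,
        neg_neg, one_pow]
    obtain ⟨g, hgA, hgo⟩ := gl_of_pow_one p A k hk hA
    have hdual : (((hadjU σ g)⁻¹ : GL (Fin (m + 1)) F) :
          Matrix (Fin (m + 1)) (Fin (m + 1)) F).charpoly
        = (g : Matrix (Fin (m + 1)) (Fin (m + 1)) F).charpoly := by
      have h2 : (((hadjU σ g)⁻¹ : GL (Fin (m + 1)) F) : Matrix (Fin (m + 1)) (Fin (m + 1)) F)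
          = (((g⁻¹ : GL (Fin (m + 1)) F) : Matrix (Fin (m + 1)) (Fin (m + 1)) F).map σ)ᵀ := rfl
      have hunit : IsUnit A :=
        (Matrix.isUnit_iff_isUnit_det A).2 (by rw [hdet]; exact isUnit_one)
      have h1 := Matrix.charpoly_inv A hunit
      rw [hdet, Ring.inverse_one, C_1, mul_one, Fintype.card_fin, ← Matrix.reverse_charpoly,
        hχ] at h1
      have h3 : (-1 : F[X]) ^ (m + 1)
          * (polyOf (Fin.cons ((-1 : F) ^ (m + 1)) c : Fin (m + 1) → F)).reverse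
          = (polyOf (Fin.cons ((-1 : F) ^ (m + 1)) c : Fin (m + 1) → F)).map σ := by
        rw [hPs, C_pow, C_neg, C_1]
      rw [h2, Matrix.charpoly_transpose, Matrix.charpoly_map, Matrix.coe_units_inv, hgA, h1, h3,
        map_map_invol σ hσ, hχ]
    have hgk : g ^ k = 1 := by
      apply Units.ext
      rw [Units.val_pow_eq_pow_val, hgA, hA, Units.val_one]
    have hdr : ((hadjU σ g)⁻¹) ^ k = 1 := by
      rw [inv_pow, inv_eq_one]
      apply Units.ext
      rw [Units.val_pow_eq_pow_val, Units.val_one]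
      show (hadj σ (g : Matrix (Fin (m + 1)) (Fin (m + 1)) F)) ^ k = 1
      rw [← hadj_pow, ← Units.val_pow_eq_pow_val, hgk, Units.val_one, hadj_one]
    have hcop' : (orderOf ((hadjU σ g)⁻¹)).Coprime p :=
      coprime_of_dvd_cast_ne_zero (F := F) p _ k hk (orderOf_dvd_of_pow_eq_one hdr)
    have hconj := gl_isConj_of_charpoly p g ((hadjU σ g)⁻¹) hgo hcop' hdual.symm
    obtain ⟨c₀, hc₀⟩ := isConj_iff.1 hconj
    have hc' : c₀ * g = (hadjU σ g)⁻¹ * c₀ := mul_inv_eq_iff_eq_mul.1 hc₀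
    obtain ⟨B, hB⟩ := similar_unitary_of_conj hF g σ hσq c₀ hc'
    have hχB : ((B : GL (Fin (m + 1)) F) : Matrix (Fin (m + 1)) (Fin (m + 1)) F).charpoly
        = polyOf (Fin.cons ((-1 : F) ^ (m + 1)) c : Fin (m + 1) → F) := by
      rw [← gl_charpoly_of_isConj hB, hgA, hχ]
    have hdetB : ((B : GL (Fin (m + 1)) F) : Matrix (Fin (m + 1)) (Fin (m + 1)) F).det = 1 := by
      rw [Matrix.det_eq_sign_charpoly_coeff, hχB, hf0, Fintype.card_fin, ← mul_pow, neg_one_mul,
        neg_neg, one_pow]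
    have hs : (⟨((B : GL (Fin (m + 1)) F) : Matrix (Fin (m + 1)) (Fin (m + 1)) F), hdetB⟩ :
        Matrix.SpecialLinearGroup (Fin (m + 1)) F) ∈ Cfsg.SU (m + 1) F q := fun u v => B.2 u v
    obtain ⟨e, he⟩ := isConj_iff.1 hB
    have hBk : (B : GL (Fin (m + 1)) F) ^ k = 1 := by
      rw [← he, conj_pow, hgk, mul_one, mul_inv_cancel]
    have hso : (orderOf (⟨_, hs⟩ : ↥(Cfsg.SU (m + 1) F q))).Coprime p := by
      apply coprime_of_dvd_cast_ne_zero (F := F) p _ k hk
      apply orderOf_dvd_of_pow_eq_one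
      apply Subtype.ext
      apply Subtype.ext
      rw [Subgroup.coe_pow, Matrix.SpecialLinearGroup.coe_pow]
      show ((B : GL (Fin (m + 1)) F) : Matrix (Fin (m + 1)) (Fin (m + 1)) F) ^ k = 1
      rw [← Units.val_pow_eq_pow_val, hBk, Units.val_one]
    refine ⟨⟨ConjClasses.mk ⟨_, hs⟩, ⟨_, hs⟩, rfl, hso⟩, ?_⟩
    apply Subtype.ext
    funext j
    have h5 := hΞ ⟨ConjClasses.mk ⟨_, hs⟩, ⟨_, hs⟩, rfl, hso⟩ ⟨_, hs⟩ rfl j
    rw [← h5]
    show ((B : GL (Fin (m + 1)) F) : Matrix (Fin (m + 1)) (Fin (m + 1)) F).charpoly.coeff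
      (j.val + 1) = c j
    rw [hχB, polyOf_cons_coeff_succ]

end Cfsg.Agent.Helper15
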