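import Mathlib

set_option autoImplicit false

namespace Cfsg.Agent.Helper15

theorem mem_eqLocus_id {X : Type*} [Group X] (τ : MulAut X) (x : X) :
    x ∈ (MulEquiv.toMonoidHom τ).eqLocus (MonoidHom.id X) ↔ τ x = x := Iff.rfl

theorem shin_prod_range {X : Type*} [Group X] (σ : MulAut X) (a : X) (d : ℕ) :
    ((List.range d).map (fun i => (σ ^ i) (a * (σ a)⁻¹))).prod = a * ((σ ^ d) a)⁻¹ := by
  induction d with
  | zero => simp
  | succ d ih =>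
    rw [List.range_succ, List.map_append, List.prod_append, ih]
    simp [pow_succ, mul_assoc]

theorem shin_comm {X : Type*} [Group X] (σ : MulAut X) (e : ℕ) (a : X) :
    (σ ^ e) (σ a) = σ ((σ ^ e) a) := by
  rw [← MulAut.mul_apply, ← MulAut.mul_apply, ← pow_succ, ← pow_succ']

theorem shin_x_fixed {X : Type*} [Group X] (σ : MulAut X) (e : ℕ) (a : X)
    (hg : (σ ^ e) (a * (σ a)⁻¹) = a * (σ a)⁻¹) :
    σ (((σ ^ e) a)⁻¹ * a) = ((σ ^ e) a)⁻¹ * a := by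
  rw [map_mul, map_inv, shin_comm] at hg
  rw [map_mul, map_inv]
  have : ((σ ^ e) a)⁻¹ * ((σ ^ e) a * (σ ((σ ^ e) a))⁻¹) * σ a = ((σ ^ e) a)⁻¹ * (a * (σ a)⁻¹) * σ a := by
    rw [hg]
  simpa [mul_assoc] using this

theorem shin_x_fixed_iff {X : Type*} [Group X] (σ : MulAut X) (e : ℕ) (a : X) :
    (σ ^ e) (a * (σ a)⁻¹) = a * (σ a)⁻¹ ↔ σ (((σ ^ e) a)⁻¹ * a) = ((σ ^ e) a)⁻¹ * a := by
  refine ⟨shin_x_fixed σ e a, fun h => ?_⟩
  rw [map_mul, map_inv] at h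
  rw [map_mul, map_inv, shin_comm]
  have : (σ ^ e) a * ((σ ((σ ^ e) a))⁻¹ * σ a) * (σ a)⁻¹ = (σ ^ e) a * (((σ ^ e) a)⁻¹ * a) * (σ a)⁻¹ := by
    rw [h]
  simpa [mul_assoc] using this

theorem shin_fixed_pow {X : Type*} [Group X] (σ : MulAut X) (x : X) (hx : σ x = x) (n : ℕ) :
    (σ ^ n) x = x := by
  induction n with
  | zero => simp
  | succ n ih => rw [pow_succ, MulAut.mul_apply, hx, ih]

end Cfsg.Agent.Helper15
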