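import Mathlib
import Cfsg.Agent.Helper15.IsoFrames
import Cfsg.Agent.Helper15.SpCard
import Cfsg.Agent.Helper15.SpBorel
import Cfsg.Agent.S0749

set_option autoImplicit false

namespace Cfsg.Agent.Helper15

/-- `Sp_{2m}` is transitive on totally isotropic linearly independent tuples (Witt). -/
theorem sp_frame_transitive {F : Type*} [Field F] (m k : ℕ)
    (b b' : Fin k → (Fin m ⊕ Fin m → F))
    (hb : LinearIndependent F b) (hb' : LinearIndependent F b')
    (hiso : ∀ i j, spForm m F (b i) (b j) = 0) (hiso' : ∀ i j, spForm m F (b' i) (b' j) = 0) :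
    ∃ g : Matrix.symplecticGroup (Fin m) F,
      ∀ i, (g : Matrix (Fin m ⊕ Fin m) (Fin m ⊕ Fin m) F).mulVec (b i) = b' i := by
  classical
  let φ : Submodule.span F (Set.range b) ≃ₗ[F] Submodule.span F (Set.range b') :=
    (Module.Basis.span hb).equiv (Module.Basis.span hb') (Equiv.refl _)
  have hφ : ∀ x x' : Submodule.span F (Set.range b),
      spForm m F (φ x : Fin m ⊕ Fin m → F) (φ x' : Fin m ⊕ Fin m → F)
        = spForm m F (x : Fin m ⊕ Fin m → F) (x' : Fin m ⊕ Fin m → F) := by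
    intro x x'
    rw [bilin_span_isotropic (spForm m F) b' hiso' _ (φ x).2 _ (φ x').2,
      bilin_span_isotropic (spForm m F) b hiso _ x.2 _ x'.2]
  obtain ⟨g, hg1, hg2⟩ := Cfsg.Agent.S0749.result (spForm m F) (spForm_nondeg m)
    (fun x => spForm_alt m x) _ _ φ hφ
  have hMv : ∀ v, (LinearMap.toMatrix' (g : (Fin m ⊕ Fin m → F) →ₗ[F] (Fin m ⊕ Fin m → F))).mulVec v
      = g v := fun v => LinearMap.toMatrix'_mulVec _ v
  have hmem : LinearMap.toMatrix' (g : (Fin m ⊕ Fin m → F) →ₗ[F] (Fin m ⊕ Fin m → F))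
      ∈ Matrix.symplecticGroup (Fin m) F := by
    rw [mem_sp_iff_cols]
    intro k l
    have h1 : ∀ j, (fun i => LinearMap.toMatrix'
        (g : (Fin m ⊕ Fin m → F) →ₗ[F] (Fin m ⊕ Fin m → F)) i j) = g (Pi.single j 1) := by
      intro j
      rw [← hMv, Matrix.mulVec_single_one]
      rfl
    rw [h1, h1, hg1, spForm_apply, Matrix.mulVec_single_one, single_dotProduct, one_mul]
    rfl
  refine ⟨⟨_, hmem⟩, ?_⟩
  intro i
  show (LinearMap.toMatrix' (g : (Fin m ⊕ Fin m → F) →ₗ[F] (Fin m ⊕ Fin m → F))).mulVec (b i)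
    = b' i
  rw [hMv]
  have h3 : φ (Module.Basis.span hb i) = Module.Basis.span hb' i := by
    show (Module.Basis.span hb).equiv (Module.Basis.span hb') (Equiv.refl _)
      (Module.Basis.span hb i) = _
    rw [Module.Basis.equiv_apply, Equiv.refl_apply]
  have h2 := hg2 (Module.Basis.span hb i)
  rw [h3] at h2
  have e1 : ((Module.Basis.span hb i : Submodule.span F (Set.range b)) : Fin m ⊕ Fin m → F)
      = b i := congrArg Subtype.val (Module.Basis.span_apply hb i)
  have e2 : ((Module.Basis.span hb' i : Submodule.span F (Set.range b')) : Fin m ⊕ Fin m → F)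
      = b' i := congrArg Subtype.val (Module.Basis.span_apply hb' i)
  rw [e1, e2] at h2
  exact h2

theorem sp_parab_arith (q m : ℕ) : ∀ k, k ≤ m →
    (∏ i : Fin k, (q ^ (2 * m - (i : ℕ)) - q ^ (i : ℕ)))
      * (q ^ (k * (k + 1) / 2 + 2 * k * (m - k)) * (q ^ ((m - k) ^ 2)
        * ∏ i ∈ Finset.range (m - k), (q ^ (2 * (i + 1)) - 1)))
    = q ^ (m ^ 2) * ∏ i ∈ Finset.range m, (q ^ (2 * (i + 1)) - 1) := by
  intro k
  induction k with
  | zero =>
    intro _
    simp
  | succ k ih =>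
    intro hk
    have ih' := ih (by omega)
    obtain ⟨d, hd⟩ : ∃ d, m = k + 1 + d := ⟨m - (k + 1), by omega⟩
    subst hd
    have h1 : k + 1 + d - (k + 1) = d := by omega
    have h2 : k + 1 + d - k = d + 1 := by omega
    rw [h1]
    rw [h2, Finset.prod_range_succ] at ih'
    rw [Fin.prod_univ_castSucc]
    simp only [Fin.val_castSucc, Fin.val_last]
    rw [← ih']
    have h3 : q ^ (2 * (k + 1 + d) - k) - q ^ k = q ^ k * (q ^ (2 * (d + 1)) - 1) := by
      rw [Nat.mul_sub, mul_one, ← pow_add]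
      congr 2
      omega
    have h4 : (k + 1) * (k + 1 + 1) / 2 = k * (k + 1) / 2 + (k + 1) := by
      have h : (k + 1) * (k + 1 + 1) = k * (k + 1) + 2 * (k + 1) := by ring
      rw [h, Nat.add_mul_div_left _ _ (by norm_num : 0 < 2)]
    rw [h3, h4]
    have h5 : q ^ (k * (k + 1) / 2 + 2 * k * (d + 1)) * q ^ ((d + 1) ^ 2)
        = q ^ k * (q ^ (k * (k + 1) / 2 + (k + 1) + 2 * (k + 1) * d) * q ^ (d ^ 2)) := by
      rw [← pow_add, ← pow_add, ← pow_add]
      congr 1
      ring
    have key : ∀ A X1 P a b c dd e2 : ℕ, a * b = c * (dd * e2) →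
        A * (c * X1) * (dd * (e2 * P)) = A * (a * (b * (P * X1))) := by
      intro A X1 P a b c dd e2 h
      have e1 : A * (c * X1) * (dd * (e2 * P)) = A * X1 * P * (c * (dd * e2)) := by ring
      have e2' : A * (a * (b * (P * X1))) = A * X1 * P * (a * b) := by ring
      rw [e1, e2', h]
    exact key _ _ _ _ _ _ _ _ h5

/-- The order of the stabiliser in `Sp_{2m}(q)` of a totally isotropic subspace. -/
theorem card_sp_stab_ti {F : Type*} [Field F] [Fintype F] {q : ℕ} (hF : Fintype.card F = q)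
    (m k : ℕ) (hk : k ≤ m) (W : Submodule F (Fin m ⊕ Fin m → F))
    (hWk : Module.finrank F W = k)
    (hW : ∀ u ∈ W, ∀ v ∈ W, Cfsg.sympForm m F u v = 0) :
    Nat.card ↥(Cfsg.stabilizing (Cfsg.spToMat m F) (W : Set (Fin m ⊕ Fin m → F)))
      = q ^ (k * (k + 1) / 2 + 2 * k * (m - k))
        * (q ^ ((m - k) ^ 2) * ∏ i ∈ Finset.range (m - k), (q ^ (2 * (i + 1)) - 1))
        * ∏ i : Fin k, (q ^ k - q ^ (i : ℕ)) := by
  classical
  have hq : 1 < q := by
    rw [← hF]
    exact Fintype.one_lt_card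
  have hW' : ∀ u ∈ W, ∀ v ∈ W, spForm m F u v = 0 := by
    intro u hu v hv
    rw [spForm_apply]
    exact hW u hu v hv
  -- a basis of `W`
  obtain ⟨bW⟩ : Nonempty (Module.Basis (Fin k) F W) := ⟨Module.finBasisOfFinrankEq F W hWk⟩
  obtain ⟨b0, hb0⟩ : ∃ b0 : Fin k → (Fin m ⊕ Fin m → F), ∀ i, b0 i = (bW i : Fin m ⊕ Fin m → F) :=
    ⟨fun i => (bW i : Fin m ⊕ Fin m → F), fun i => rfl⟩
  have hb0W : ∀ i, b0 i ∈ W := by
    intro i
    rw [hb0]
    exact (bW i).2
  have hb0li : LinearIndependent F b0 := by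
    have h1 := bW.linearIndependent.map' W.subtype (Submodule.ker_subtype W)
    have h2 : b0 = W.subtype ∘ bW := funext hb0
    rw [h2]
    exact h1
  have hb0iso : ∀ i j, spForm m F (b0 i) (b0 j) = 0 := fun i j =>
    hW' _ (hb0W i) _ (hb0W j)
  have hspan : Submodule.span F (Set.range b0) = W := by
    apply Submodule.eq_of_le_of_finrank_eq
    · rw [Submodule.span_le]
      rintro _ ⟨i, rfl⟩
      exact hb0W i
    · rw [finrank_span_eq_card hb0li, Fintype.card_fin, hWk]
  -- elements of `Sp` mapping the basis into `W` stabilise `W`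
  have hstab : ∀ g : Matrix.symplecticGroup (Fin m) F,
      (∀ i, (g : Matrix (Fin m ⊕ Fin m) (Fin m ⊕ Fin m) F).mulVec (b0 i) ∈ W) →
      g ∈ Cfsg.stabilizing (Cfsg.spToMat m F) (W : Set (Fin m ⊕ Fin m → F)) := by
    intro g hg v
    apply stab_of_maps _ (sp_mulVec_injective m g)
    intro v hv
    have h1 : Submodule.span F (Set.range b0)
        ≤ W.comap (Matrix.mulVecLin (g : Matrix (Fin m ⊕ Fin m) (Fin m ⊕ Fin m) F)) := by
      rw [Submodule.span_le]
      rintro _ ⟨i, rfl⟩
      exact hg i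
    rw [hspan] at h1
    exact h1 hv
  have hliG : ∀ g : Matrix.symplecticGroup (Fin m) F, LinearIndependent F (g • b0) := by
    intro g
    have h1 := hb0li.map' (Matrix.mulVecLin (g : Matrix (Fin m ⊕ Fin m) (Fin m ⊕ Fin m) F))
      (LinearMap.ker_eq_bot.2 (sp_mulVec_injective m g))
    exact h1
  -- the orbit of the basis under `Sp`
  have horbG : MulAction.orbit (Matrix.symplecticGroup (Fin m) F) b0
      = {b : Fin k → (Fin m ⊕ Fin m → F) | LinearIndependent F b
        ∧ ∀ i j, spForm m F (b i) (b j) = 0} := by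
    ext b
    rw [MulAction.mem_orbit_iff]
    constructor
    · rintro ⟨g, rfl⟩
      refine ⟨hliG g, ?_⟩
      intro i j
      show spForm m F ((g : Matrix (Fin m ⊕ Fin m) (Fin m ⊕ Fin m) F).mulVec (b0 i))
        ((g : Matrix (Fin m ⊕ Fin m) (Fin m ⊕ Fin m) F).mulVec (b0 j)) = 0
      rw [sp_form_inv]
      exact hb0iso i j
    · rintro ⟨hli, hiso⟩
      obtain ⟨g, hg⟩ := sp_frame_transitive m k b0 b hb0li hli hb0iso hiso
      exact ⟨g, funext hg⟩
  have hG := Subgroup.card_mul_index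
    (MulAction.stabilizer (Matrix.symplecticGroup (Fin m) F) b0)
  rw [MulAction.index_stabilizer, horbG, ← Nat.card_coe_set_eq, card_symplecticGroup hF] at hG
  have hfr : Nat.card ↥{b : Fin k → (Fin m ⊕ Fin m → F) | LinearIndependent F b
        ∧ ∀ i j, spForm m F (b i) (b j) = 0}
      = ∏ i : Fin k, (q ^ (2 * m - (i : ℕ)) - q ^ (i : ℕ)) := by
    have h1 := card_iso_frames hF (spForm m F) (spForm_alt m) (spForm_nondeg m) k
    rw [spForm_finrank] at h1
    exact h1
  rw [hfr] at hG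
  -- the orbit of the basis under the stabiliser of `W`
  have horbH : MulAction.orbit
      ↥(Cfsg.stabilizing (Cfsg.spToMat m F) (W : Set (Fin m ⊕ Fin m → F))) b0
      = {b : Fin k → (Fin m ⊕ Fin m → F) | LinearIndependent F b ∧ ∀ i, b i ∈ W} := by
    ext b
    rw [MulAction.mem_orbit_iff]
    constructor
    · rintro ⟨h, rfl⟩
      refine ⟨hliG h.1, ?_⟩
      intro i
      exact (h.2 (b0 i)).1 (hb0W i)
    · rintro ⟨hli, hbW⟩
      obtain ⟨g, hg⟩ := sp_frame_transitive m k b0 b hb0li hli hb0iso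
        (fun i j => hW' _ (hbW i) _ (hbW j))
      refine ⟨⟨g, hstab g (fun i => by rw [hg i]; exact hbW i)⟩, funext hg⟩
  have hH := Subgroup.card_mul_index (MulAction.stabilizer
    ↥(Cfsg.stabilizing (Cfsg.spToMat m F) (W : Set (Fin m ⊕ Fin m → F))) b0)
  rw [MulAction.index_stabilizer, horbH, ← Nat.card_coe_set_eq] at hH
  have hbases : Nat.card ↥{b : Fin k → (Fin m ⊕ Fin m → F) | LinearIndependent F b
      ∧ ∀ i, b i ∈ W} = ∏ i : Fin k, (q ^ k - q ^ (i : ℕ)) := by
    haveI : Finite W := Module.finite_of_finite F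
    have h1 : Nat.card ↥{b : Fin k → (Fin m ⊕ Fin m → F) | LinearIndependent F b
        ∧ ∀ i, b i ∈ W} = Nat.card {s : Fin k → W // LinearIndependent F s} :=
      Nat.card_congr
        { toFun := fun b => ⟨fun i => ⟨b.1 i, b.2.2 i⟩,
            LinearIndependent.of_comp W.subtype (by
              have h2 : (W.subtype ∘ fun i => (⟨b.1 i, b.2.2 i⟩ : W)) = b.1 := rfl
              rw [h2]
              exact b.2.1)⟩
          invFun := fun s => ⟨fun i => (s.1 i : Fin m ⊕ Fin m → F),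
            s.2.map' W.subtype (Submodule.ker_subtype W), fun i => (s.1 i).2⟩
          left_inv := fun b => rfl
          right_inv := fun s => rfl }
    rw [h1, card_linearIndependent (by rw [hWk]), hWk, hF]
  rw [hbases] at hH
  -- the two stabilisers of the basis coincide
  have hstabs : Nat.card (MulAction.stabilizer
      ↥(Cfsg.stabilizing (Cfsg.spToMat m F) (W : Set (Fin m ⊕ Fin m → F))) b0)
      = Nat.card (MulAction.stabilizer (Matrix.symplecticGroup (Fin m) F) b0) :=
    Nat.card_congr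
      { toFun := fun x => ⟨x.1.1, x.2⟩
        invFun := fun y => ⟨⟨y.1, hstab y.1 (fun i => by
          have h1 : y.1 • b0 = b0 := y.2
          have h2 : (y.1 : Matrix (Fin m ⊕ Fin m) (Fin m ⊕ Fin m) F).mulVec (b0 i) = b0 i :=
            congrFun h1 i
          rw [h2]
          exact hb0W i)⟩, y.2⟩
        left_inv := fun x => rfl
        right_inv := fun y => rfl }
  rw [hstabs] at hH
  -- arithmetic
  have harith := sp_parab_arith q m k hk
  rw [← Fin.prod_univ_eq_prod_range (fun i => q ^ (2 * (i + 1)) - 1) m] at harith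
  have hFrpos : 0 < ∏ i : Fin k, (q ^ (2 * m - (i : ℕ)) - q ^ (i : ℕ)) := by
    apply Finset.prod_pos
    intro i _
    have h1 : q ^ (i : ℕ) < q ^ (2 * m - (i : ℕ)) :=
      Nat.pow_lt_pow_right hq (by have := i.2; omega)
    omega
  have hc : Nat.card (MulAction.stabilizer (Matrix.symplecticGroup (Fin m) F) b0)
      = q ^ (k * (k + 1) / 2 + 2 * k * (m - k)) * (q ^ ((m - k) ^ 2)
        * ∏ i ∈ Finset.range (m - k), (q ^ (2 * (i + 1)) - 1)) := by
    apply Nat.eq_of_mul_eq_mul_left hFrpos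
    rw [harith, ← hG, mul_comm]
  rw [← hH, hc]

end Cfsg.Agent.Helper15
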