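import Mathlib
import Cfsg.Agent.Helper15.SpRegClass3

set_option autoImplicit false

namespace Cfsg.Agent.Helper15

open Matrix
open scoped IsMulCommutative

theorem sp_regunip_two_classes {F : Type*} [Field F] [Fintype F] {q : ℕ}
    (hF : Fintype.card F = q) (hq : Odd q) {m : ℕ} (hm : 1 ≤ m) :
    Nat.card {C : ConjClasses ↥(Matrix.symplecticGroup (Fin m) F) //
      ∃ u : Matrix.symplecticGroup (Fin m) F, ConjClasses.mk u = C ∧
        ((u : Matrix (Fin m ⊕ Fin m) (Fin m ⊕ Fin m) F) - 1) ^ (2 * m) = 0 ∧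
        ((u : Matrix (Fin m ⊕ Fin m) (Fin m ⊕ Fin m) F) - 1).rank = 2 * m - 1} = 2 := by
  classical
  have h2 : (2 : F) ≠ 0 := two_ne_zero_of_card_odd hF hq
  obtain ⟨U₀, hU₀, hnil₀, hreg₀⟩ := exists_sp_regunip (F := F) h2 hm
  have hU₀' : dg U₀ * U₀ = 1 := mul_eq_one_comm.1 hU₀
  obtain ⟨hdgT', hTnil', hTrank'⟩ := sp_regunip_T h2 U₀ hU₀ hnil₀ hreg₀
  obtain ⟨T, hTdef⟩ : ∃ T : Matrix (Fin m ⊕ Fin m) (Fin m ⊕ Fin m) F, T = U₀ - dg U₀ := ⟨_, rfl⟩
  rw [← hTdef] at hdgT' hTnil' hTrank'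
  have hdgT : dg T = -T := hdgT'
  have hTnil : T ^ (2 * m) = 0 := hTnil'
  have hTrank : T.rank = 2 * m - 1 := hTrank'
  have hcard : Fintype.card (Fin m ⊕ Fin m) = 2 * m := by
    rw [Fintype.card_sum, Fintype.card_fin, two_mul]
  obtain ⟨hindep, hspan⟩ := cyc_mat (2 * m) (by omega) hcard T hTnil hTrank
  have hcU : Commute U₀ (dg U₀) := hU₀.trans hU₀'.symm
  have hUT : Commute U₀ T := by
    rw [hTdef]
    exact (Commute.refl U₀).sub_right hcU
  have : Nonempty (Fin m ⊕ Fin m) := ⟨Sum.inl ⟨0, hm⟩⟩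
  have : Nontrivial (AdjT T) := ⟨⟨0, 1, fun h => zero_ne_one (congrArg Subtype.val h)⟩⟩
  have hloc := adj_loc T (2 * m) hTnil
  have hZmem : ∀ x : Matrix (Fin m ⊕ Fin m) (Fin m ⊕ Fin m) F, x * U₀ = U₀ * x → x ∈ AdjT T := by
    intro x hx
    have h4 : x * dg U₀ = dg U₀ * x := by
      calc x * dg U₀ = dg U₀ * (U₀ * x) * dg U₀ := by
            rw [← mul_assoc, hU₀', one_mul]
        _ = dg U₀ * (x * U₀) * dg U₀ := by rw [hx]
        _ = dg U₀ * x := by rw [mul_assoc, mul_assoc, hU₀, mul_one]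
    have h5 : x * T = T * x := by
      rw [hTdef, mul_sub, sub_mul, hx, h4]
    obtain ⟨a, ha⟩ := hspan _ h5
    rw [ha]
    exact sum_mem fun i _ => Subalgebra.smul_mem _
      (pow_mem (Algebra.subset_adjoin (Set.mem_singleton T)) _) _
  have hZcomm : ∀ x ∈ AdjT T, U₀ * x = x * U₀ := fun x hx =>
    (Algebra.commute_of_mem_adjoin_of_forall_mem_commute hx (fun b hb => by
      rw [Set.mem_singleton_iff] at hb
      rw [hb]
      exact hUT)).eq
  obtain ⟨c, hc0, hcns, hdich⟩ := nonsquare_dichotomy h2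
  obtain ⟨k, hkdef⟩ : ∃ k : Matrix (Fin m ⊕ Fin m) (Fin m ⊕ Fin m) F, k = simil m c := ⟨_, rfl⟩
  obtain ⟨k', hk'def⟩ : ∃ k' : Matrix (Fin m ⊕ Fin m) (Fin m ⊕ Fin m) F, k' = simil m c⁻¹ :=
    ⟨_, rfl⟩
  have hkk' : k * k' = 1 := by
    rw [hkdef, hk'def, simil_mul, mul_inv_cancel₀ hc0, simil_one]
  have hk'k : k' * k = 1 := mul_eq_one_comm.1 hkk'
  have hkd : k * dg k = c • (1 : Matrix (Fin m ⊕ Fin m) (Fin m ⊕ Fin m) F) := by
    rw [hkdef]; exact simil_mul_dg c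
  have hdk' : dg k' * k' = c⁻¹ • (1 : Matrix (Fin m ⊕ Fin m) (Fin m ⊕ Fin m) F) := by
    rw [hk'def]; exact simil_dg_mul c⁻¹
  have hk'd : k' * dg k' = c⁻¹ • (1 : Matrix (Fin m ⊕ Fin m) (Fin m ⊕ Fin m) F) := by
    rw [hk'def]; exact simil_mul_dg c⁻¹
  obtain ⟨U₁, hU₁def⟩ : ∃ U₁ : Matrix (Fin m ⊕ Fin m) (Fin m ⊕ Fin m) F, U₁ = k * U₀ * k' :=
    ⟨_, rfl⟩
  have hU₁ : U₁ * dg U₁ = 1 := by
    rw [hU₁def, dg_mul, dg_mul]
    have e1 : k * U₀ * k' * (dg k' * (dg U₀ * dg k))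
        = k * (U₀ * ((k' * dg k') * dg U₀)) * dg k := by simp only [mul_assoc]
    rw [e1, hk'd, smul_mul_assoc, one_mul, mul_smul_comm, hU₀, mul_smul_comm, mul_one,
      smul_mul_assoc, hkd, smul_smul, inv_mul_cancel₀ hc0, one_smul]
  have hU₁sub : U₁ - 1 = k * (U₀ - 1) * k' := by
    rw [hU₁def, mul_sub, sub_mul, mul_one, hkk']
  let wk : (Matrix (Fin m ⊕ Fin m) (Fin m ⊕ Fin m) F)ˣ := ⟨k, k', hkk', hk'k⟩
  have hnil₁ : (U₁ - 1) ^ (2 * m) = 0 := by
    rw [hU₁sub]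
    have := Units.conj_pow wk (U₀ - 1) (2 * m)
    have h3 : (k * (U₀ - 1) * k') ^ (2 * m) = k * (U₀ - 1) ^ (2 * m) * k' := this
    rw [h3, hnil₀, mul_zero, zero_mul]
  have hreg₁ : (U₁ - 1).rank = 2 * m - 1 := by
    rw [hU₁sub]
    have hu : IsUnit k.det := (Matrix.isUnit_iff_isUnit_det _).1 wk.isUnit
    have hu' : IsUnit k'.det := (Matrix.isUnit_iff_isUnit_det _).1 (wk⁻¹).isUnit
    rw [Matrix.rank_mul_eq_left_of_isUnit_det _ _ hu', Matrix.rank_mul_eq_right_of_isUnit_det _ _ hu,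
      hreg₀]
  -- every regular unipotent is conjugate to one of the two
  have key : ∀ U : Matrix (Fin m ⊕ Fin m) (Fin m ⊕ Fin m) F, U * dg U = 1 →
      (U - 1) ^ (2 * m) = 0 → (U - 1).rank = 2 * m - 1 →
      ∃ g : Matrix (Fin m ⊕ Fin m) (Fin m ⊕ Fin m) F, g * dg g = 1 ∧
        (g * U₀ = U * g ∨ g * U₁ = U * g) := by
    intro U hU hnil hreg
    have hU' : dg U * U = 1 := mul_eq_one_comm.1 hU
    obtain ⟨h, h', hhh', hh'h, hh⟩ := regnil_conj (2 * m) (by omega) hcard (U₀ - 1) (U - 1)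
      hnil₀ hreg₀ hnil hreg
    have hhU : h * U₀ = U * h := by
      rw [mul_sub, sub_mul, mul_one, one_mul] at hh
      exact sub_left_injective hh
    have e2 : dg U₀ * dg h = dg h * dg U := by rw [← dg_mul, ← dg_mul, hhU]
    have e3 : dg U * h = h * dg U₀ := by
      calc dg U * h = dg U * h * (U₀ * dg U₀) := by rw [hU₀, mul_one]
        _ = dg U * (h * U₀) * dg U₀ := by simp only [mul_assoc]
        _ = dg U * (U * h) * dg U₀ := by rw [hhU]
        _ = h * dg U₀ := by rw [← mul_assoc, hU', one_mul]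
    obtain ⟨a, hadef⟩ : ∃ a : Matrix (Fin m ⊕ Fin m) (Fin m ⊕ Fin m) F, a = dg h * h := ⟨_, rfl⟩
    obtain ⟨b, hbdef⟩ : ∃ b : Matrix (Fin m ⊕ Fin m) (Fin m ⊕ Fin m) F, b = h' * dg h' := ⟨_, rfl⟩
    have ea1 : a * dg U₀ = dg U₀ * a := by
      rw [hadef, mul_assoc, ← e3, ← mul_assoc, ← e2, mul_assoc]
    have ea : a * U₀ = U₀ * a := by
      calc a * U₀ = U₀ * (dg U₀ * a) * U₀ := by rw [← mul_assoc, hU₀, one_mul]
        _ = U₀ * (a * dg U₀) * U₀ := by rw [ea1]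
        _ = U₀ * a := by
            simp only [mul_assoc]
            rw [hU₀', mul_one]
    have hba : b * a = 1 := by
      rw [hadef, hbdef]
      have e4 : h' * dg h' * (dg h * h) = h' * (dg h' * dg h) * h := by simp only [mul_assoc]
      rw [e4, ← dg_mul, hhh', dg_one, mul_one, hh'h]
    have hab : a * b = 1 := mul_eq_one_comm.1 hba
    have eb : b * U₀ = U₀ * b := by
      calc b * U₀ = b * U₀ * (a * b) := by rw [hab, mul_one]
        _ = b * (U₀ * a) * b := by simp only [mul_assoc]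
        _ = b * (a * U₀) * b := by rw [ea]
        _ = (b * a) * U₀ * b := by simp only [mul_assoc]
        _ = U₀ * b := by rw [hba, one_mul]
    have haσ : dgAlg T hdgT ⟨a, hZmem a ea⟩ = ⟨a, hZmem a ea⟩ := by
      apply Subtype.ext
      show dg a = a
      rw [hadef, dg_mul, dg_dg]
    have hau : IsUnit (⟨a, hZmem a ea⟩ : AdjT T) :=
      ⟨⟨⟨a, hZmem a ea⟩, ⟨b, hZmem b eb⟩, Subtype.ext hab, Subtype.ext hba⟩, rfl⟩
    obtain ⟨c₀, z, hc₀, hz, haz⟩ := cayley_norm_decomp h2 (dgAlg T hdgT) hloc _ haσ hau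
    obtain ⟨w, hzw⟩ := hz.exists_right_inv
    have hZW : z.1 * w.1 = 1 := congrArg Subtype.val hzw
    have hmat : a = c₀ • (z.1 * dg z.1) := by
      have h3 : a = algebraMap F (Matrix (Fin m ⊕ Fin m) (Fin m ⊕ Fin m) F) c₀
          * (z.1 * dg z.1) := congrArg Subtype.val haz
      rw [h3, Algebra.algebraMap_eq_smul_one, smul_mul_assoc, one_mul]
    have hZdg : z.1 * dg z.1 = dg z.1 * z.1 :=
      congrArg Subtype.val (mul_comm z (dgAlg T hdgT z))
    have hI : dg w.1 * (z.1 * dg z.1) * w.1 = 1 := by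
      rw [hZdg]
      have e5 : dg w.1 * (dg z.1 * z.1) * w.1 = (dg w.1 * dg z.1) * (z.1 * w.1) := by
        simp only [mul_assoc]
      rw [e5, ← dg_mul, hZW, dg_one, mul_one]
    have hWaW : dg w.1 * a * w.1 = c₀ • (1 : Matrix (Fin m ⊕ Fin m) (Fin m ⊕ Fin m) F) := by
      rw [hmat, mul_smul_comm, smul_mul_assoc, hI]
    have hWU : w.1 * U₀ = U₀ * w.1 := (hZcomm w.1 w.2).symm
    rcases hdich c₀ hc₀ with ⟨d, hd0, hd⟩ | ⟨d, hd0, hd⟩
    · refine ⟨d⁻¹ • (h * w.1), ?_, Or.inl ?_⟩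
      · apply mul_eq_one_comm.1
        rw [dg_smul, smul_mul_smul_comm, dg_mul]
        have e6 : dg w.1 * dg h * (h * w.1) = dg w.1 * (dg h * h) * w.1 := by
          simp only [mul_assoc]
        rw [e6, ← hadef, hWaW, smul_smul, hd]
        have e7 : d⁻¹ * d⁻¹ * (d * d) = 1 := by
          field_simp
        rw [e7, one_smul]
      · rw [smul_mul_assoc, mul_assoc, hWU, ← mul_assoc, hhU, mul_assoc, mul_smul_comm]
    · refine ⟨d⁻¹ • (h * w.1 * k'), ?_, Or.inr ?_⟩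
      · apply mul_eq_one_comm.1
        rw [dg_smul, smul_mul_smul_comm, dg_mul, dg_mul]
        have e6 : dg k' * (dg w.1 * dg h) * (h * w.1 * k')
            = dg k' * (dg w.1 * (dg h * h) * w.1) * k' := by
          simp only [mul_assoc]
        rw [e6, ← hadef, hWaW, mul_smul_comm, mul_one, smul_mul_assoc, hdk', smul_smul, smul_smul,
          hd]
        have e7 : d⁻¹ * d⁻¹ * (c * (d * d)) * c⁻¹ = 1 := by
          field_simp
        rw [e7, one_smul]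
      · rw [hU₁def, smul_mul_assoc]
        have e8 : h * w.1 * k' * (k * U₀ * k') = h * (w.1 * ((k' * k) * U₀)) * k' := by
          simp only [mul_assoc]
        rw [e8, hk'k, one_mul, hWU, ← mul_assoc, hhU, mul_smul_comm]
        simp only [mul_assoc]
  -- the two are not conjugate
  have hnc : ∀ g : Matrix (Fin m ⊕ Fin m) (Fin m ⊕ Fin m) F, g * dg g = 1 →
      g * U₀ = U₁ * g → False := by
    intro g hg hgU
    have hg' : dg g * g = 1 := mul_eq_one_comm.1 hg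
    have ez : (k' * g) * U₀ = U₀ * (k' * g) := by
      rw [mul_assoc, hgU, hU₁def]
      have e9 : k' * (k * U₀ * k' * g) = (k' * k) * U₀ * (k' * g) := by simp only [mul_assoc]
      rw [e9, hk'k, one_mul]
    have hzz : dgAlg T hdgT ⟨k' * g, hZmem _ ez⟩ * (⟨k' * g, hZmem _ ez⟩ : AdjT T)
        = algebraMap F (AdjT T) c⁻¹ := by
      apply Subtype.ext
      show dg (k' * g) * (k' * g)
        = algebraMap F (Matrix (Fin m ⊕ Fin m) (Fin m ⊕ Fin m) F) c⁻¹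
      rw [dg_mul, Algebra.algebraMap_eq_smul_one]
      have e10 : dg g * dg k' * (k' * g) = dg g * (dg k' * k') * g := by simp only [mul_assoc]
      rw [e10, hdk', mul_smul_comm, mul_one, smul_mul_assoc, hg']
    obtain ⟨e, he⟩ := hloc ⟨k' * g, hZmem _ ez⟩
    have he' : IsNilpotent (dgAlg T hdgT ⟨k' * g, hZmem _ ez⟩ - algebraMap F (AdjT T) e) := by
      have := he.map (dgAlg T hdgT)
      rwa [map_sub, AlgHom.commutes] at this
    have h5 : IsNilpotent (algebraMap F (AdjT T) (c⁻¹ - e * e)) := by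
      have h6 : algebraMap F (AdjT T) (c⁻¹ - e * e)
          = (dgAlg T hdgT ⟨k' * g, hZmem _ ez⟩ - algebraMap F (AdjT T) e)
              * (⟨k' * g, hZmem _ ez⟩ : AdjT T)
            + algebraMap F (AdjT T) e
              * ((⟨k' * g, hZmem _ ez⟩ : AdjT T) - algebraMap F (AdjT T) e) := by
        rw [map_sub, map_mul, ← hzz]
        ring
      rw [h6]
      exact Commute.isNilpotent_add (Commute.all _ _)
        (mem_nilradical.1 (Ideal.mul_mem_right _ _ (mem_nilradical.2 he')))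
        (mem_nilradical.1 (Ideal.mul_mem_left _ _ (mem_nilradical.2 he)))
    have h7 := nil_field_zero _ h5
    have h8 : c⁻¹ = e * e := sub_eq_zero.1 h7
    apply hcns
    refine ⟨e⁻¹, ?_⟩
    have h9 : c = (e * e)⁻¹ := by rw [← h8, inv_inv]
    rw [h9, mul_inv]
  -- count
  rw [Nat.card_eq_two_iff]
  refine ⟨⟨ConjClasses.mk ⟨U₀, (mem_symp_iff_dg U₀).2 hU₀⟩,
      ⟨U₀, (mem_symp_iff_dg U₀).2 hU₀⟩, rfl, hnil₀, hreg₀⟩,
    ⟨ConjClasses.mk ⟨U₁, (mem_symp_iff_dg U₁).2 hU₁⟩,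
      ⟨U₁, (mem_symp_iff_dg U₁).2 hU₁⟩, rfl, hnil₁, hreg₁⟩, ?_, ?_⟩
  · intro heq
    have h1 : ConjClasses.mk (⟨U₀, (mem_symp_iff_dg U₀).2 hU₀⟩ : Matrix.symplecticGroup (Fin m) F)
        = ConjClasses.mk ⟨U₁, (mem_symp_iff_dg U₁).2 hU₁⟩ := congrArg Subtype.val heq
    rw [ConjClasses.mk_eq_mk_iff_isConj, isConj_iff] at h1
    obtain ⟨g, hg⟩ := h1
    have h3 : g * (⟨U₀, (mem_symp_iff_dg U₀).2 hU₀⟩ : Matrix.symplecticGroup (Fin m) F)
        = ⟨U₁, (mem_symp_iff_dg U₁).2 hU₁⟩ * g := by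
      rw [← hg]
      group
    exact hnc g.1 ((mem_symp_iff_dg g.1).1 g.2) (congrArg Subtype.val h3)
  · rw [Set.eq_univ_iff_forall]
    rintro ⟨C, u, rfl, hn, hr⟩
    obtain ⟨g, hg, hgU⟩ := key u.1 ((mem_symp_iff_dg u.1).1 u.2) hn hr
    rcases hgU with h | h
    · refine Or.inl (Subtype.ext ?_)
      show ConjClasses.mk u = ConjClasses.mk ⟨U₀, (mem_symp_iff_dg U₀).2 hU₀⟩
      rw [ConjClasses.mk_eq_mk_iff_isConj, isConj_comm, isConj_iff]
      refine ⟨⟨g, (mem_symp_iff_dg g).2 hg⟩, ?_⟩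
      rw [mul_inv_eq_iff_eq_mul]
      exact Subtype.ext h
    · refine Or.inr (Subtype.ext ?_)
      show ConjClasses.mk u = ConjClasses.mk ⟨U₁, (mem_symp_iff_dg U₁).2 hU₁⟩
      rw [ConjClasses.mk_eq_mk_iff_isConj, isConj_comm, isConj_iff]
      refine ⟨⟨g, (mem_symp_iff_dg g).2 hg⟩, ?_⟩
      rw [mul_inv_eq_iff_eq_mul]
      exact Subtype.ext h

end Cfsg.Agent.Helper15
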