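import Mathlib
import Cfsg.Agent.Helper15.F2Count
import Cfsg.Agent.Helper15.Realize
import Cfsg.Agent.Helper15.QuadStd
import Cfsg.Agent.Helper15.HypPair

set_option autoImplicit false

namespace Cfsg.Agent.Helper15

/-- Weight of a binary vector. -/
def f2wt {α : Type*} [Fintype α] (w : α → ZMod 2) : ℕ := ∑ x, (w x).val

/-- Half of the weight, modulo two. -/
def f2half {α : Type*} [Fintype α] (w : α → ZMod 2) : ZMod 2 := ((f2wt w / 2 : ℕ) : ZMod 2)

theorem f2wt_cast {α : Type*} [Fintype α] (w : α → ZMod 2) :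
    ((f2wt w : ℕ) : ZMod 2) = ∑ x, w x := by
  unfold f2wt
  rw [Nat.cast_sum]
  exact Finset.sum_congr rfl (fun x _ => ZMod.natCast_zmod_val (w x))

theorem f2wt_even {α : Type*} [Fintype α] (w : α → ZMod 2) (h : ∑ x, w x = 0) :
    2 ∣ f2wt w := by
  rw [← f2wt_cast] at h
  exact (ZMod.natCast_eq_zero_iff _ _).1 h

theorem f2half_add {α : Type*} [Fintype α] (w w' : α → ZMod 2) (h : ∑ x, w x = 0)
    (h' : ∑ x, w' x = 0) :
    f2half (w + w') = f2half w + f2half w' + ∑ x, w x * w' x := by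
  obtain ⟨a, ha⟩ := f2wt_even w h
  obtain ⟨b, hb⟩ := f2wt_even w' h'
  have h1 : ∀ x y : ZMod 2, (x + y).val + 2 * (x * y).val = x.val + y.val := by decide
  have h2 : f2wt (w + w') + 2 * (∑ x, (w x * w' x).val) = f2wt w + f2wt w' := by
    unfold f2wt
    rw [Finset.mul_sum, ← Finset.sum_add_distrib, ← Finset.sum_add_distrib]
    exact Finset.sum_congr rfl (fun x _ => h1 (w x) (w' x))
  have h3 : ((∑ x, (w x * w' x).val : ℕ) : ZMod 2) = ∑ x, w x * w' x := by
    rw [Nat.cast_sum]
    exact Finset.sum_congr rfl (fun x _ => ZMod.natCast_zmod_val _)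
  rw [← h3]
  unfold f2half
  generalize (∑ x, (w x * w' x).val) = c at h2
  have h4 : f2wt (w + w') / 2 + c = a + b := by omega
  have h5 : f2wt w / 2 = a := by omega
  have h6 : f2wt w' / 2 = b := by omega
  rw [h5, h6]
  have h7 : ((f2wt (w + w') / 2 : ℕ) : ZMod 2) + (c : ZMod 2) = (a : ZMod 2) + (b : ZMod 2) := by
    exact_mod_cast congrArg (Nat.cast : ℕ → ZMod 2) h4
  have h8 : (c : ZMod 2) + (c : ZMod 2) = 0 := CharTwo.add_self_eq_zero _
  calc ((f2wt (w + w') / 2 : ℕ) : ZMod 2)
      = ((f2wt (w + w') / 2 : ℕ) : ZMod 2) + ((c : ZMod 2) + (c : ZMod 2)) := by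
        rw [h8, add_zero]
    _ = (a : ZMod 2) + (b : ZMod 2) + (c : ZMod 2) := by rw [← add_assoc, h7]

theorem f2wt_perm {α : Type*} [Fintype α] (π : Equiv.Perm α) (w : α → ZMod 2) :
    f2wt (fun x => w (π x)) = f2wt w := by
  unfold f2wt
  exact Equiv.sum_comp π (fun x => (w x).val)

theorem f2half_add_const {α : Type*} [Fintype α] (hα : 4 ∣ Fintype.card α) (w : α → ZMod 2)
    (hw : ∑ x, w x = 0) (c : ZMod 2) :
    f2half (w + fun _ => c) = f2half w := by
  obtain ⟨r, hr⟩ := hα
  rcases zmod2_cases c with h | h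
  · subst h
    congr 1
    funext x
    simp
  · subst h
    have h1 : ∑ _x : α, (1 : ZMod 2) = 0 := by
      rw [Finset.sum_const, Finset.card_univ, hr, nsmul_eq_mul, mul_one]
      have h2 : ((4 * r : ℕ) : ZMod 2) = ((2 : ℕ) : ZMod 2) * ((2 * r : ℕ) : ZMod 2) := by
        rw [← Nat.cast_mul]
        congr 1
        ring
      rw [h2]
      have h3 : ((2 : ℕ) : ZMod 2) = 0 := by decide
      rw [h3, zero_mul]
    rw [f2half_add w _ hw h1]
    have h2 : f2half (fun _ : α => (1 : ZMod 2)) = 0 := by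
      unfold f2half f2wt
      have h3 : (1 : ZMod 2).val = 1 := by decide
      show (((∑ _x : α, (1 : ZMod 2).val) / 2 : ℕ) : ZMod 2) = 0
      rw [h3, Finset.sum_const, Finset.card_univ, hr, smul_eq_mul, mul_one]
      have h4 : 4 * r / 2 = 2 * r := by omega
      rw [h4, Nat.cast_mul]
      have h5 : ((2 : ℕ) : ZMod 2) = 0 := by decide
      rw [h5, zero_mul]
    rw [h2, add_zero]
    simp only [mul_one]
    rw [hw, add_zero]

/-! ### The model -/

/-- Extension of a vector on `ι` to an even vector on `ι` plus two points, avoiding the last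
point. -/
def symLfun {ι : Type*} [Fintype ι] (u : ι → ZMod 2) : Option (Option ι) → ZMod 2
  | none => 0
  | some none => ∑ a, u a
  | some (some a) => u a

/-- `symLfun` as a linear map. -/
def symL (ι : Type*) [Fintype ι] : (ι → ZMod 2) →ₗ[ZMod 2] (Option (Option ι) → ZMod 2) where
  toFun u := symLfun u
  map_add' u v := by
    funext x
    rcases x with _ | _ | a
    · show (0 : ZMod 2) = 0 + 0
      rw [add_zero]
    · show ∑ a, (u a + v a) = ∑ a, u a + ∑ a, v a
      rw [Finset.sum_add_distrib]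
    · rfl
  map_smul' c u := by
    funext x
    rcases x with _ | _ | a
    · show (0 : ZMod 2) = c * 0
      rw [mul_zero]
    · show ∑ a, c * u a = c * ∑ a, u a
      rw [Finset.mul_sum]
    · rfl

/-- Restriction after normalising at the last point. -/
def symR (ι : Type*) : (Option (Option ι) → ZMod 2) →ₗ[ZMod 2] (ι → ZMod 2) where
  toFun w := fun a => w (some (some a)) + w none
  map_add' u v := by
    funext a
    show u (some (some a)) + v (some (some a)) + (u none + v none)
      = u (some (some a)) + u none + (v (some (some a)) + v none)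
    ring
  map_smul' c u := by
    funext a
    show c * u (some (some a)) + c * u none = c * (u (some (some a)) + u none)
    ring

theorem symL_sum {ι : Type*} [Fintype ι] (u : ι → ZMod 2) : ∑ x, symL ι u x = 0 := by
  rw [Fintype.sum_option, Fintype.sum_option]
  show (0 : ZMod 2) + (∑ a, u a + ∑ a, u a) = 0
  rw [CharTwo.add_self_eq_zero, add_zero]

theorem symL_perm_sum {ι : Type*} [Fintype ι] (π : Equiv.Perm (Option (Option ι)))
    (u : ι → ZMod 2) : ∑ x, symL ι u (π x) = 0 := by
  rw [Equiv.sum_comp π (symL ι u)]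
  exact symL_sum u

theorem symR_symL {ι : Type*} [Fintype ι] (u : ι → ZMod 2) : symR ι (symL ι u) = u := by
  funext a
  show u a + 0 = u a
  rw [add_zero]

theorem symL_symR {ι : Type*} [Fintype ι] (hι : Even (Fintype.card ι))
    (w : Option (Option ι) → ZMod 2) (hw : ∑ x, w x = 0) :
    symL ι (symR ι w) = w + (fun _ => w none) := by
  funext x
  rcases x with _ | _ | a
  · show (0 : ZMod 2) = w none + w none
    rw [CharTwo.add_self_eq_zero]
  · show ∑ a, (w (some (some a)) + w none) = w (some none) + w none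
    rw [Fintype.sum_option, Fintype.sum_option] at hw
    rw [Finset.sum_add_distrib, Finset.sum_const, Finset.card_univ]
    obtain ⟨r, hr⟩ := hι
    rw [hr, add_nsmul, CharTwo.add_self_eq_zero, add_zero]
    have h1 : w none = w (some none) + ∑ a, w (some (some a)) := CharTwo.add_eq_zero.1 hw
    rw [h1, ← add_assoc, CharTwo.add_self_eq_zero, zero_add]
  · rfl

theorem symq_add {ι : Type*} [Fintype ι] (u v : ι → ZMod 2) :
    f2half (symL ι (u + v)) = f2half (symL ι u) + f2half (symL ι v)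
      + (∑ a, u a * v a + (∑ a, u a) * (∑ a, v a)) := by
  rw [map_add, f2half_add _ _ (symL_sum u) (symL_sum v), Fintype.sum_option, Fintype.sum_option]
  show f2half (symL ι u) + f2half (symL ι v)
    + ((0 : ZMod 2) * 0 + ((∑ a, u a) * (∑ a, v a) + ∑ a, u a * v a)) = _
  ring

/-- The action of a permutation of the extended index set. -/
def symAct (ι : Type*) [Fintype ι] (π : Equiv.Perm (Option (Option ι))) :
    (ι → ZMod 2) →ₗ[ZMod 2] (ι → ZMod 2) :=
  symR ι ∘ₗ LinearMap.funLeft (ZMod 2) (ZMod 2) ⇑π.symm ∘ₗ symL ι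

theorem symAct_apply {ι : Type*} [Fintype ι] (π : Equiv.Perm (Option (Option ι)))
    (u : ι → ZMod 2) : symAct ι π u = symR ι (fun x => symL ι u (π.symm x)) := rfl

theorem symAct_one {ι : Type*} [Fintype ι] : symAct ι 1 = LinearMap.id := by
  apply LinearMap.ext
  intro u
  rw [symAct_apply]
  exact symR_symL u

theorem symAct_mul {ι : Type*} [Fintype ι] (hι : Even (Fintype.card ι))
    (π σ : Equiv.Perm (Option (Option ι))) :
    symAct ι (π * σ) = symAct ι π ∘ₗ symAct ι σ := by
  apply LinearMap.ext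
  intro u
  show symR ι (fun x => symL ι u ((π * σ).symm x))
    = symR ι (fun x => symL ι (symR ι (fun y => symL ι u (σ.symm y))) (π.symm x))
  rw [symL_symR hι _ (symL_perm_sum σ.symm u)]
  have h1 : (fun x => (((fun y => symL ι u (σ.symm y)) + fun _ => symL ι u (σ.symm none) :
      Option (Option ι) → ZMod 2)) (π.symm x)) = (fun x => symL ι u ((π * σ).symm x))
        + fun _ => symL ι u (σ.symm none) := by
    funext x
    rfl
  rw [h1, map_add]
  have h0 : symR ι (fun _ => symL ι u (σ.symm none)) = 0 := by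
    funext a
    show symL ι u (σ.symm none) + symL ι u (σ.symm none) = 0
    exact CharTwo.add_self_eq_zero _
  rw [h0, add_zero]

theorem symAct_q {ι : Type*} [Fintype ι] (hι : Even (Fintype.card ι))
    (h4 : 4 ∣ Fintype.card (Option (Option ι)))
    (π : Equiv.Perm (Option (Option ι))) (u : ι → ZMod 2) :
    f2half (symL ι (symAct ι π u)) = f2half (symL ι u) := by
  rw [symAct_apply, symL_symR hι _ (symL_perm_sum π.symm u),
    f2half_add_const h4 _ (symL_perm_sum π.symm u)]
  unfold f2half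
  rw [f2wt_perm π.symm (symL ι u)]

theorem symAct_inj {ι : Type*} [Fintype ι] [DecidableEq ι] (hι : Even (Fintype.card ι))
    (h5 : 5 ≤ Fintype.card (Option (Option ι))) (π : Equiv.Perm (Option (Option ι)))
    (hπ : ∀ u, symAct ι π u = u) : π = 1 := by
  classical
  by_contra hne
  obtain ⟨a, ha⟩ : ∃ a, π a ≠ a := by
    by_contra h
    push Not at h
    exact hne (Equiv.ext h)
  obtain ⟨b, -, hb⟩ := Finset.exists_mem_notMem_of_card_lt_card
    (s := ({a, π a} : Finset (Option (Option ι)))) (t := Finset.univ)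
    (lt_of_le_of_lt Finset.card_le_two (by rw [Finset.card_univ]; omega))
  obtain ⟨c, -, hc⟩ := Finset.exists_mem_notMem_of_card_lt_card
    (s := ({a, b, π a, π b} : Finset (Option (Option ι)))) (t := Finset.univ)
    (lt_of_le_of_lt Finset.card_le_four (by rw [Finset.card_univ]; omega))
  simp only [Finset.mem_insert, Finset.mem_singleton, not_or] at hb hc
  obtain ⟨w, hwdef⟩ : ∃ w : Option (Option ι) → ZMod 2,
      w = fun x => (if x = a then 1 else 0) + (if x = b then 1 else 0) := ⟨_, rfl⟩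
  have hw : ∑ x, w x = 0 := by
    rw [hwdef]
    show ∑ x, ((if x = a then (1 : ZMod 2) else 0) + (if x = b then 1 else 0)) = 0
    rw [Finset.sum_add_distrib, Finset.sum_ite_eq' Finset.univ a, Finset.sum_ite_eq' Finset.univ b,
      if_pos (Finset.mem_univ _), if_pos (Finset.mem_univ _)]
    exact CharTwo.add_self_eq_zero 1
  have h1 := hπ (symR ι w)
  rw [symAct_apply] at h1
  have h2 : symL ι (symR ι w) = w + fun _ => w none := symL_symR hι w hw
  have h4 := congrArg (symL ι) h1
  rw [symL_symR hι _ (symL_perm_sum π.symm (symR ι w)), h2] at h4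
  have h6 : ∀ x, w (π.symm x) + w none + (w (π.symm none) + w none) = w x + w none := by
    intro x
    exact congrFun h4 x
  have h8 := h6 (π a)
  have h9 := h6 c
  rw [Equiv.symm_apply_apply] at h8
  have e1 : w a = 1 := by
    rw [hwdef]
    show (if a = a then (1 : ZMod 2) else 0) + (if a = b then 1 else 0) = 1
    rw [if_pos rfl, if_neg (Ne.symm hb.1), add_zero]
  have e2 : w (π a) = 0 := by
    rw [hwdef]
    show (if π a = a then (1 : ZMod 2) else 0) + (if π a = b then 1 else 0) = 0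
    rw [if_neg ha, if_neg (Ne.symm hb.2), add_zero]
  have e3 : w (π.symm c) = 0 := by
    rw [hwdef]
    show (if π.symm c = a then (1 : ZMod 2) else 0) + (if π.symm c = b then 1 else 0) = 0
    rw [if_neg (fun h => hc.2.2.1 ((Equiv.symm_apply_eq π).1 h)),
      if_neg (fun h => hc.2.2.2 ((Equiv.symm_apply_eq π).1 h)), add_zero]
  have e4 : w c = 0 := by
    rw [hwdef]
    show (if c = a then (1 : ZMod 2) else 0) + (if c = b then 1 else 0) = 0
    rw [if_neg hc.1, if_neg hc.2.1, add_zero]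
  rw [e1, e2] at h8
  rw [e3, e4] at h9
  generalize w none = p at h8 h9
  generalize w (π.symm none) = r at h8 h9
  revert p r
  decide

theorem exists_symRho (ι : Type*) [Fintype ι] [DecidableEq ι] (hι : Even (Fintype.card ι))
    (h4 : 4 ∣ Fintype.card (Option (Option ι))) (h5 : 5 ≤ Fintype.card (Option (Option ι))) :
    ∃ ρ : Equiv.Perm (Option (Option ι)) →* Matrix ι ι (ZMod 2), Function.Injective ρ ∧
      ∀ π u, f2half (symL ι ((ρ π).mulVec u)) = f2half (symL ι u) := by
  classical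
  let ρ : Equiv.Perm (Option (Option ι)) →* Matrix ι ι (ZMod 2) :=
    { toFun := fun π => LinearMap.toMatrix' (symAct ι π)
      map_one' := by rw [symAct_one, LinearMap.toMatrix'_id]
      map_mul' := fun π σ => by rw [symAct_mul hι, LinearMap.toMatrix'_comp] }
  refine ⟨ρ, ?_, ?_⟩
  · rw [injective_iff_map_eq_one]
    intro π hπ
    apply symAct_inj hι h5
    intro u
    have h1 : LinearMap.toMatrix' (symAct ι π) = 1 := hπ
    rw [← LinearMap.toMatrix'_id] at h1
    rw [LinearMap.toMatrix'.injective h1]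
    rfl
  · intro π u
    have h1 : (ρ π).mulVec u = symAct ι π u := LinearMap.toMatrix'_mulVec _ _
    rw [h1]
    exact symAct_q hι h4 π u

theorem exists_symQuad (ι : Type*) [Fintype ι] [DecidableEq ι] (hι : Even (Fintype.card ι)) :
    ∃ Q : QuadraticForm (ZMod 2) (ι → ZMod 2), (∀ u, Q u = f2half (symL ι u)) ∧
      (QuadraticMap.polarBilin Q).Nondegenerate := by
  classical
  obtain ⟨q, hqdef⟩ : ∃ q : (ι → ZMod 2) → ZMod 2, q = fun u => f2half (symL ι u) := ⟨_, rfl⟩
  have hq : ∀ u v, q (u + v) = q u + q v + (∑ a, u a * v a + (∑ a, u a) * (∑ a, v a)) := by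
    intro u v
    rw [hqdef]
    exact symq_add u v
  have hpol : ∀ x y, QuadraticMap.polar q x y
      = ∑ a, x a * y a + (∑ a, x a) * (∑ a, y a) := by
    intro x y
    show q (x + y) - q x - q y = _
    rw [hq x y]
    ring
  have hq0 : q 0 = 0 := by
    have h := hq 0 0
    simp only [Pi.zero_apply, mul_zero, Finset.sum_const_zero, add_zero] at h
    have h2 : q 0 + q 0 = q 0 + 0 := by rw [add_zero]; exact h.symm
    exact add_left_cancel h2
  obtain ⟨Q, hQ⟩ : ∃ Q : QuadraticForm (ZMod 2) (ι → ZMod 2), ∀ v, Q v = q v :=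
    ⟨QuadraticMap.ofPolar q (by
      intro a x
      rcases zmod2_cases a with h | h
      · rw [h, zero_smul, hq0]
        simp
      · rw [h, one_smul]
        simp) (by
      intro x x' y
      rw [hpol, hpol, hpol]
      simp only [Pi.add_apply, add_mul, Finset.sum_add_distrib]
      ring) (by
      intro a x y
      rw [hpol, hpol]
      simp only [Pi.smul_apply, smul_eq_mul, mul_assoc, ← Finset.mul_sum]
      ring), fun v => rfl⟩
  refine ⟨Q, fun u => by rw [hQ, hqdef], ?_⟩
  have h5 : (⇑Q : (ι → ZMod 2) → ZMod 2) = q := funext hQ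
  have hsep : ∀ x : ι → ZMod 2, (∀ y, QuadraticMap.polar ⇑Q x y = 0) → x = 0 := by
    intro x hx
    rw [h5] at hx
    have h6 : ∀ a, x a = ∑ b, x b := by
      intro a
      have h7 := hx (Pi.single a 1)
      rw [hpol] at h7
      simp only [Pi.single_apply, mul_ite, mul_one, mul_zero, Finset.sum_ite_eq',
        Finset.mem_univ, if_true] at h7
      exact CharTwo.add_eq_zero.1 h7
    have h7 : ∑ b, x b = 0 := by
      have h8 : ∑ b, x b = ∑ _b : ι, ∑ c, x c := Finset.sum_congr rfl (fun b _ => h6 b)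
      rw [Finset.sum_const, Finset.card_univ] at h8
      obtain ⟨r, hr⟩ := hι
      rw [hr, add_nsmul, CharTwo.add_self_eq_zero] at h8
      exact h8
    funext a
    rw [h6 a, h7]
    rfl
  constructor
  · intro x hx
    exact hsep x hx
  · intro y hy
    exact hsep y (fun x => by rw [QuadraticMap.polar_comm]; exact hy x)

/-! ### Character sums -/

/-- The Gaussian integer `i`. -/
def gI : GaussianInt := ⟨0, 1⟩

/-- The additive character-like map `x ↦ i ^ x`. -/
def gpsi (x : ZMod 2) : GaussianInt := if x = 0 then 1 else gI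

/-- `a + b i ↦ a - b`. -/
def gtau : GaussianInt →+ ℤ :=
  AddMonoidHom.mk' (fun z => z.re - z.im) (by
    intro a b
    rw [Zsqrtd.re_add, Zsqrtd.im_add]
    ring)

theorem gtau_apply (z : GaussianInt) : gtau z = z.re - z.im := rfl

theorem gpsi_eq (x : ZMod 2) : gpsi x = gI ^ x.val := by
  revert x
  decide

theorem gI_sq : gI ^ 2 = -1 := by decide

theorem gtau_pow (n : ℕ) :
    gtau (gI ^ n) = chi2 (((n / 2 : ℕ) : ZMod 2) + ((n : ℕ) : ZMod 2)) := by
  induction n using Nat.twoStepInduction with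
  | zero => decide
  | one => decide
  | more n ih _ =>
    rw [pow_add, gI_sq, mul_neg, mul_one, map_neg, ih]
    have h1 : (n + 2) / 2 = n / 2 + 1 := by omega
    rw [h1, ← chi2_add_one]
    congr 1
    push_cast
    have h2 : (2 : ZMod 2) = 0 := by decide
    rw [h2]
    ring

theorem gtau_prod {α : Type*} [Fintype α] (w : α → ZMod 2) :
    gtau (∏ x, gpsi (w x)) = chi2 (f2half w + ∑ x, w x) := by
  have h1 : ∏ x, gpsi (w x) = gI ^ f2wt w := by
    unfold f2wt
    rw [← Finset.prod_pow_eq_pow_sum]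
    exact Finset.prod_congr rfl (fun x _ => gpsi_eq (w x))
  rw [h1, gtau_pow, f2wt_cast]
  rfl

theorem gpsi_sum {α : Type*} [Fintype α] [DecidableEq α] :
    ∑ w : α → ZMod 2, ∏ x, gpsi (w x) = (1 + gI) ^ Fintype.card α := by
  have h2 := Finset.prod_univ_sum
    (fun _ : α => (Finset.univ : Finset (ZMod 2))) (fun _ c => gpsi c)
  rw [Fintype.piFinset_univ] at h2
  rw [← h2]
  have h3 : ∑ c : ZMod 2, gpsi c = 1 + gI := by decide
  simp [h3]

theorem gtau_pow_four (k : ℕ) : gtau ((1 + gI) ^ (4 * k + 2)) = -2 * (-4) ^ k := by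
  have h1 : (1 + gI) ^ 4 = ((-4 : ℤ) : GaussianInt) := by decide
  have h2 : (1 + gI) ^ 2 = (⟨0, 2⟩ : GaussianInt) := by decide
  rw [pow_add, pow_mul, h1, h2, ← Int.cast_pow, gtau_apply, Zsqrtd.re_mul, Zsqrtd.im_mul,
    Zsqrtd.re_intCast, Zsqrtd.im_intCast]
  ring

theorem symq_eq {ι : Type*} [Fintype ι] (u : ι → ZMod 2) :
    f2half (symL ι u) = f2half u + ∑ a, u a := by
  have h1 : f2wt (symL ι u) = (0 : ZMod 2).val + ((∑ a, u a).val + f2wt u) := by
    unfold f2wt
    rw [Fintype.sum_option, Fintype.sum_option]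
    rfl
  have h2 : (0 : ZMod 2).val = 0 := by decide
  rw [h2, zero_add] at h1
  unfold f2half
  rw [h1]
  have h3 := f2wt_cast u
  rcases zmod2_cases (∑ a, u a) with h | h
  · rw [h]
    rw [h2, zero_add, add_zero]
  · rw [h] at h3 ⊢
    have h4 : Odd (f2wt u) := ZMod.natCast_eq_one_iff_odd.1 h3
    obtain ⟨r, hr⟩ := h4
    have h5 : (1 : ZMod 2).val = 1 := by decide
    rw [h5]
    have h6 : (1 + f2wt u) / 2 = f2wt u / 2 + 1 := by omega
    rw [h6]
    push_cast
    rfl

theorem symq_char_sum (k : ℕ) (ι : Type*) [Fintype ι] [DecidableEq ι]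
    (hι : Fintype.card ι = 4 * k + 2) :
    ∑ u : ι → ZMod 2, chi2 (f2half (symL ι u)) = -2 * (-4) ^ k := by
  have h1 : ∀ u : ι → ZMod 2, chi2 (f2half (symL ι u)) = gtau (∏ x, gpsi (u x)) := by
    intro u
    rw [gtau_prod, symq_eq]
  simp only [h1]
  rw [← map_sum, gpsi_sum, hι, gtau_pow_four]

theorem f2_minus_char_sum (m : ℕ) :
    ∑ w : (Fin m ⊕ Fin m) ⊕ Fin 2 → ZMod 2, chi2 (Cfsg.quadFormMinus m (ZMod 2) 1 1 w)
      = -2 ^ (m + 1) := by
  classical
  rw [← Equiv.sum_comp (Equiv.sumArrowEquivProdArrow (Fin m ⊕ Fin m) (Fin 2) (ZMod 2)).symm]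
  rw [Fintype.sum_prod_type]
  have h1 : ∀ (x : Fin m ⊕ Fin m → ZMod 2) (z : Fin 2 → ZMod 2),
      chi2 (Cfsg.quadFormMinus m (ZMod 2) 1 1
        ((Equiv.sumArrowEquivProdArrow (Fin m ⊕ Fin m) (Fin 2) (ZMod 2)).symm (x, z)))
        = chi2 (Cfsg.quadFormPlus m (ZMod 2) x)
          * chi2 (z 0 ^ 2 + 1 * z 0 * z 1 + 1 * z 1 ^ 2) := by
    intro x z
    rw [← chi2_add]
    rfl
  simp only [h1]
  rw [← Finset.sum_mul_sum, f2_plus_char_sum]
  have h2 : ∑ z : Fin 2 → ZMod 2, chi2 (z 0 ^ 2 + 1 * z 0 * z 1 + 1 * z 1 ^ 2) = -2 := by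
    rw [← Equiv.sum_comp (finTwoArrowEquiv (ZMod 2)).symm]
    decide
  rw [h2]
  ring

/-- `Sym(4k+4)` embeds in `O^±_{4k+2}(2)`, the sign being `+` exactly when `k` is odd. -/
theorem sym_orth_embed (k : ℕ) (hk : 1 ≤ k) :
    (Odd k → ∃ φ : Equiv.Perm (Fin (4 * k + 4)) →*
        ↥(Cfsg.isometryGroup (ZMod 2) (Cfsg.quadFormPlus (2 * k + 1) (ZMod 2))),
        Function.Injective φ) ∧
    (Even k → ∃ φ : Equiv.Perm (Fin (4 * k + 4)) →*
        ↥(Cfsg.isometryGroup (ZMod 2) (Cfsg.quadFormMinus (2 * k) (ZMod 2) 1 1)),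
        Function.Injective φ) := by
  classical
  have hcard : Fintype.card (Fin (4 * k + 2)) = 4 * k + 2 := Fintype.card_fin _
  have hcard2 : Fintype.card (Option (Option (Fin (4 * k + 2)))) = 4 * k + 4 := by
    rw [Fintype.card_option, Fintype.card_option, hcard]
  have hev : Even (Fintype.card (Fin (4 * k + 2))) := by
    rw [hcard]
    exact ⟨2 * k + 1, by ring⟩
  obtain ⟨ρ, hρi, hρq⟩ := exists_symRho (Fin (4 * k + 2)) hev
    (by rw [hcard2]; exact ⟨k + 1, by ring⟩) (by rw [hcard2]; omega)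
  obtain ⟨Q, hQ, hnd⟩ := exists_symQuad (Fin (4 * k + 2)) hev
  have hfin : Module.finrank (ZMod 2) (Fin (4 * k + 2) → ZMod 2) = 2 * (2 * k) + 2 := by
    rw [Module.finrank_fin_fun]
    ring
  have hsum : ∑ u : Fin (4 * k + 2) → ZMod 2, chi2 (Q u) = -2 * (-4) ^ k := by
    rw [← symq_char_sum k (Fin (4 * k + 2)) hcard]
    exact Finset.sum_congr rfl (fun u _ => by rw [hQ])
  have e0 : Fin (4 * k + 4) ≃ Option (Option (Fin (4 * k + 2))) :=
    Fintype.equivOfCardEq (by rw [hcard2, Fintype.card_fin])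
  have key : ∀ {κ : Type} [Fintype κ] [DecidableEq κ] (Q' : (κ → ZMod 2) → ZMod 2)
      (g : (Fin (4 * k + 2) → ZMod 2) ≃ₗ[ZMod 2] (κ → ZMod 2)) (_ : ∀ v, Q' (g v) = Q v),
      ∃ φ : Equiv.Perm (Fin (4 * k + 4)) →* ↥(Cfsg.isometryGroup (ZMod 2) Q'),
        Function.Injective φ := by
    intro κ _ _ Q' g hg
    obtain ⟨φ, hφ⟩ := embed_isometry ρ hρi g Q' (fun h v => by rw [hg, hg, hQ, hQ, hρq])
    exact ⟨φ.comp (Equiv.permCongrHom e0).toMonoidHom,
      hφ.comp (Equiv.permCongrHom e0).injective⟩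
  have hpos4 : (0 : ℤ) < 4 ^ k := by positivity
  have hpos2 : (0 : ℤ) < 2 ^ (2 * k + 1) := by positivity
  rcases exists_hyp_family (2 * k) Q hnd hfin with
    ⟨e, f, h1, h2, h3⟩ | ⟨e, f, x, y, ζ, hζ, h1, h2, h3, h4, hx, hxy, hy⟩
  · obtain ⟨g, hg⟩ := plus_of_family Q (by rw [hfin]; ring) e f h1 h2 h3
    have hs : ∑ u : Fin (4 * k + 2) → ZMod 2, chi2 (Q u) = 2 ^ (2 * k + 1) := by
      rw [← f2_plus_char_sum (2 * k + 1), ← Equiv.sum_comp g.toEquiv]
      exact Finset.sum_congr rfl (fun u _ => by rw [← hg]; rfl)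
    constructor
    · intro _
      exact key _ g hg
    · intro hk2
      exfalso
      rw [hsum, Even.neg_pow hk2] at hs
      linarith
  · have hζ1 : ζ = 1 := by
      rcases zmod2_cases ζ with h | h
      · exfalso
        apply hζ 0
        rw [h]
        ring
      · exact h
    subst hζ1
    obtain ⟨g, hg⟩ := minus_of_family Q hfin e f x y 1 1
      (aniso_disc 1 1 (aniso_of_irred 1 hζ)) h1 h2 h3 h4 hx hxy hy
    have hs : ∑ u : Fin (4 * k + 2) → ZMod 2, chi2 (Q u) = -2 ^ (2 * k + 1) := by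
      rw [← f2_minus_char_sum (2 * k), ← Equiv.sum_comp g.toEquiv]
      exact Finset.sum_congr rfl (fun u _ => by rw [← hg]; rfl)
    constructor
    · intro hk2
      exfalso
      rw [hsum, Odd.neg_pow hk2] at hs
      have h5 : (2 : ℤ) ^ (2 * k + 1) = 2 * 4 ^ k := by
        rw [pow_succ, pow_mul]
        norm_num
        ring
      linarith
    · intro _
      exact key _ g hg

end Cfsg.Agent.Helper15
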