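import Mathlib
import Cfsg.Agent.Helper15.TILinesSp

set_option autoImplicit false

namespace Cfsg.Agent.Helper15

theorem sp4_quadrangle {F : Type*} [Field F] [Fintype F] {q : ℕ} (hF : Fintype.card F = q) :
    Nat.card {W : Submodule F (Fin 2 ⊕ Fin 2 → F) // Module.finrank F W = 2 ∧
        ∀ u ∈ W, ∀ v ∈ W, Cfsg.sympForm 2 F u v = 0} = (q + 1) * (q ^ 2 + 1) ∧
    ∀ v : Fin 2 ⊕ Fin 2 → F, v ≠ 0 →
      Nat.card {W : Submodule F (Fin 2 ⊕ Fin 2 → F) // Module.finrank F W = 2 ∧ v ∈ W ∧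
        ∀ u ∈ W, ∀ w ∈ W, Cfsg.sympForm 2 F u w = 0} = q + 1 := by
  classical
  have hq : 2 ≤ q := by
    rw [← hF]
    exact Fintype.one_lt_card
  have hsym : ∀ u v : Fin 2 ⊕ Fin 2 → F, Cfsg.sympForm 2 F u v = spForm 2 F u v :=
    fun u v => (spForm_apply 2 u v).symm
  have hPpair : ∀ u v : Fin 2 ⊕ Fin 2 → F, spForm 2 F u v = 0 →
      ∀ x ∈ Submodule.span F (Set.range ![v, u]), ∀ y ∈ Submodule.span F (Set.range ![v, u]),
        Cfsg.sympForm 2 F x y = 0 := by
    intro u v huv x hx y hy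
    rw [hsym]
    apply bilin_span_isotropic (spForm 2 F) ![v, u] _ x hx y hy
    intro i j
    fin_cases i <;> fin_cases j
    · exact spForm_alt 2 v
    · show spForm 2 F v u = 0
      rw [spForm_skew 2 u v, huv, neg_zero]
    · exact huv
    · exact spForm_alt 2 u
  have hperp : ∀ u : Fin 2 ⊕ Fin 2 → F, u ≠ 0 →
      Nat.card {v : Fin 2 ⊕ Fin 2 → F // v ∉ Submodule.span F {u} ∧ spForm 2 F u v = 0} + q
        = q ^ 3 := by
    intro u hu
    exact sp_perp_card hF 2 u hu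
  obtain ⟨r, rfl⟩ : ∃ r, q = r + 2 := ⟨q - 2, by omega⟩
  have e1 : (r + 2) ^ 2 - (r + 2) = (r + 2) * (r + 1) := by
    have : (r + 2) ^ 2 = (r + 2) * (r + 1) + (r + 2) := by ring
    omega
  have e2 : ∀ X : ℕ, X + (r + 2) = (r + 2) ^ 3 → X = (r + 2) * (r + 1) * (r + 3) := by
    intro X hX
    have : (r + 2) ^ 3 = (r + 2) * (r + 1) * (r + 3) + (r + 2) := by ring
    omega
  have e3 : (r + 2) ^ 2 - 1 = (r + 1) * (r + 3) := by
    have : (r + 2) ^ 2 = (r + 1) * (r + 3) + 1 := by ring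
    omega
  constructor
  · have hA := card_indep_pairs (F := F) (V := Fin 2 ⊕ Fin 2 → F)
      (fun W => ∀ u ∈ W, ∀ v ∈ W, Cfsg.sympForm 2 F u v = 0)
    haveI : Fintype {u : Fin 2 ⊕ Fin 2 → F // u ≠ 0} := Fintype.ofFinite _
    have e : {s : Fin 2 → (Fin 2 ⊕ Fin 2 → F) // LinearIndependent F s ∧
          ∀ u ∈ Submodule.span F (Set.range s), ∀ v ∈ Submodule.span F (Set.range s),
            Cfsg.sympForm 2 F u v = 0}
        ≃ Σ u : {u : Fin 2 ⊕ Fin 2 → F // u ≠ 0},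
          {v : Fin 2 ⊕ Fin 2 → F // v ∉ Submodule.span F {u.1} ∧ spForm 2 F u.1 v = 0} :=
      { toFun := fun s => ⟨⟨s.1 1, (linearIndependent_fin2.1 s.2.1).1⟩, ⟨s.1 0, fun hmem => by
            obtain ⟨a, ha⟩ := Submodule.mem_span_singleton.1 hmem
            exact (linearIndependent_fin2.1 s.2.1).2 a ha, by
            rw [← hsym]
            exact s.2.2 _ (Submodule.subset_span ⟨1, rfl⟩) _ (Submodule.subset_span ⟨0, rfl⟩)⟩⟩
        invFun := fun p => ⟨![p.2.1, p.1.1], linearIndependent_fin2.2 ⟨p.1.2, fun a ha =>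
            p.2.2.1 (Submodule.mem_span_singleton.2 ⟨a, ha⟩)⟩, hPpair p.1.1 p.2.1 p.2.2.2⟩
        left_inv := by
          intro s
          apply Subtype.ext
          funext i
          fin_cases i <;> rfl
        right_inv := by
          rintro ⟨⟨u, hu⟩, ⟨v, hv⟩⟩
          rfl }
    rw [Nat.card_congr e, Nat.card_sigma] at hA
    have hB : ∀ u : {u : Fin 2 ⊕ Fin 2 → F // u ≠ 0},
        Nat.card {v : Fin 2 ⊕ Fin 2 → F // v ∉ Submodule.span F {u.1} ∧ spForm 2 F u.1 v = 0}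
          = (r + 2) * (r + 1) * (r + 3) := fun u => e2 _ (hperp u.1 u.2)
    simp_rw [hB] at hA
    rw [Finset.sum_const, Finset.card_univ, smul_eq_mul, ← Nat.card_eq_fintype_card, hF, e1, e3]
      at hA
    have hU : Nat.card {u : Fin 2 ⊕ Fin 2 → F // u ≠ 0} + 1 = (r + 2) ^ 4 := by
      rw [← Finite.card_option, Nat.card_congr (Equiv.optionSubtypeNe (0 : Fin 2 ⊕ Fin 2 → F)),
        Nat.card_eq_fintype_card, Fintype.card_fun, hF]
      simp
    have hU' : Nat.card {u : Fin 2 ⊕ Fin 2 → F // u ≠ 0}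
        = (r + 1) * (r + 3) * ((r + 2) ^ 2 + 1) := by
      have : (r + 2) ^ 4 = (r + 1) * (r + 3) * ((r + 2) ^ 2 + 1) + 1 := by ring
      omega
    rw [hU'] at hA
    have hpos : 0 < (r + 1) * (r + 3) * ((r + 2) * (r + 1)) := by positivity
    apply Nat.eq_of_mul_eq_mul_right hpos
    rw [← hA]
    ring
  · intro v hv
    have hB := card_lines_through (F := F) v hv
      (fun W => ∀ u ∈ W, ∀ w ∈ W, Cfsg.sympForm 2 F u w = 0)
    have h1 : Nat.card {w : Fin 2 ⊕ Fin 2 → F // w ∉ Submodule.span F {v} ∧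
          ∀ u ∈ Submodule.span F {v, w}, ∀ w' ∈ Submodule.span F {v, w},
            Cfsg.sympForm 2 F u w' = 0}
        = Nat.card {w : Fin 2 ⊕ Fin 2 → F // w ∉ Submodule.span F {v} ∧ spForm 2 F v w = 0} := by
      apply Nat.card_congr
      apply Equiv.subtypeEquivRight
      intro w
      constructor
      · rintro ⟨h1, h2⟩
        refine ⟨h1, ?_⟩
        rw [← hsym]
        exact h2 _ (Submodule.subset_span (Set.mem_insert _ _)) _
          (Submodule.subset_span (Set.mem_insert_of_mem _ rfl))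
      · rintro ⟨h1, h2⟩
        refine ⟨h1, ?_⟩
        have h3 := hPpair v w h2
        rw [Matrix.range_cons_cons_empty, Set.pair_comm] at h3
        exact h3
    rw [h1, e2 _ (hperp v hv), hF, e1] at hB
    have hpos : 0 < (r + 2) * (r + 1) := by positivity
    apply Nat.eq_of_mul_eq_mul_right hpos
    rw [← hB]
    ring

end Cfsg.Agent.Helper15
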