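import Mathlib
import Cfsg.Agent.Helper15.TILinesU

set_option autoImplicit false

namespace Cfsg.Agent.Helper15

theorem herm_ti_lines_four {F : Type*} [Field F] [Fintype F] {q : ℕ}
    (hF : Fintype.card F = q ^ 2) :
    Nat.card {W : Submodule F (Fin 4 → F) // Module.finrank F W = 2 ∧
        ∀ u ∈ W, ∀ v ∈ W, Cfsg.hermForm 4 F q u v = 0} = (q + 1) * (q ^ 3 + 1) := by
  have hq := two_le_of_card_sq hF
  have h : Nat.card {W : Submodule F (Fin 4 → F) // Module.finrank F W = 2 ∧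
        ∀ u ∈ W, ∀ v ∈ W, Cfsg.hermForm 4 F q u v = 0}
        * (((q ^ 2) ^ 2 - 1) * ((q ^ 2) ^ 2 - q ^ 2))
      = (Nat.card {v : Fin 4 → F // Cfsg.hermForm 4 F q v v = 0} - 1)
        * (q ^ 2 * Nat.card {x : Fin 2 → F // Cfsg.hermForm 2 F q x x = 0} - q ^ 2) :=
    herm_ti_lines_card hF 1
  have c4 : Nat.card {v : Fin 4 → F // Cfsg.hermForm 4 F q v v = 0}
      = (q ^ 4 - 1) * (q ^ 3 + 1) + 1 := by
    rw [herm_isotropic_card hF 4, if_pos (by decide)]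
  have c2 : Nat.card {v : Fin 2 → F // Cfsg.hermForm 2 F q v v = 0}
      = (q ^ 2 - 1) * (q + 1) + 1 := by
    rw [herm_isotropic_card hF 2, if_pos (by decide)]
    norm_num
  rw [c4, c2] at h
  have h4 : 4 ≤ q ^ 2 := by nlinarith
  obtain ⟨a, ha⟩ : ∃ a, q ^ 2 = a + 1 := ⟨q ^ 2 - 1, by omega⟩
  have ha3 : 3 ≤ a := by omega
  have hq4 : q ^ 4 = (a + 1) ^ 2 := by
    rw [← ha]
    ring
  rw [hq4, ha] at h
  have e1 : (a + 1) ^ 2 - 1 = a * (a + 2) := by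
    have : (a + 1) ^ 2 = a * (a + 2) + 1 := by ring
    omega
  have e2 : (a + 1) ^ 2 - (a + 1) = (a + 1) * a := by
    have : (a + 1) ^ 2 = (a + 1) * a + (a + 1) := by ring
    omega
  have e3 : (a + 1) * ((a + 1 - 1) * (q + 1) + 1) - (a + 1) = (a + 1) * a * (q + 1) := by
    have : (a + 1) * ((a + 1 - 1) * (q + 1) + 1) = (a + 1) * a * (q + 1) + (a + 1) := by
      rw [Nat.add_sub_cancel]
      ring
    omega
  rw [e1, e2, e3, Nat.add_sub_cancel] at h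
  have hpos : 0 < a * (a + 2) * ((a + 1) * a) := by positivity
  apply Nat.eq_of_mul_eq_mul_right hpos
  rw [h]
  ring

theorem herm_ti_lines_five {F : Type*} [Field F] [Fintype F] {q : ℕ}
    (hF : Fintype.card F = q ^ 2) :
    Nat.card {W : Submodule F (Fin 5 → F) // Module.finrank F W = 2 ∧
        ∀ u ∈ W, ∀ v ∈ W, Cfsg.hermForm 5 F q u v = 0} = (q ^ 3 + 1) * (q ^ 5 + 1) := by
  have hq := two_le_of_card_sq hF
  have h : Nat.card {W : Submodule F (Fin 5 → F) // Module.finrank F W = 2 ∧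
        ∀ u ∈ W, ∀ v ∈ W, Cfsg.hermForm 5 F q u v = 0}
        * (((q ^ 2) ^ 2 - 1) * ((q ^ 2) ^ 2 - q ^ 2))
      = (Nat.card {v : Fin 5 → F // Cfsg.hermForm 5 F q v v = 0} - 1)
        * (q ^ 2 * Nat.card {x : Fin 3 → F // Cfsg.hermForm 3 F q x x = 0} - q ^ 2) :=
    herm_ti_lines_card hF 2
  have c5 : Nat.card {v : Fin 5 → F // Cfsg.hermForm 5 F q v v = 0}
      = (q ^ 5 + 1) * (q ^ 4 - 1) + 1 := by
    rw [herm_isotropic_card hF 5, if_neg (by decide)]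
  have c3 : Nat.card {v : Fin 3 → F // Cfsg.hermForm 3 F q v v = 0}
      = (q ^ 3 + 1) * (q ^ 2 - 1) + 1 := by
    rw [herm_isotropic_card hF 3, if_neg (by decide)]
  rw [c5, c3] at h
  have h4 : 4 ≤ q ^ 2 := by nlinarith
  obtain ⟨a, ha⟩ : ∃ a, q ^ 2 = a + 1 := ⟨q ^ 2 - 1, by omega⟩
  have ha3 : 3 ≤ a := by omega
  have hq4 : q ^ 4 = (a + 1) ^ 2 := by
    rw [← ha]
    ring
  rw [hq4, ha] at h
  have e1 : (a + 1) ^ 2 - 1 = a * (a + 2) := by
    have : (a + 1) ^ 2 = a * (a + 2) + 1 := by ring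
    omega
  have e2 : (a + 1) ^ 2 - (a + 1) = (a + 1) * a := by
    have : (a + 1) ^ 2 = (a + 1) * a + (a + 1) := by ring
    omega
  have e3 : (a + 1) * ((q ^ 3 + 1) * (a + 1 - 1) + 1) - (a + 1) = (a + 1) * a * (q ^ 3 + 1) := by
    have : (a + 1) * ((q ^ 3 + 1) * (a + 1 - 1) + 1) = (a + 1) * a * (q ^ 3 + 1) + (a + 1) := by
      rw [Nat.add_sub_cancel]
      ring
    omega
  rw [e1, e2, e3, Nat.add_sub_cancel] at h
  have hpos : 0 < a * (a + 2) * ((a + 1) * a) := by positivity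
  apply Nat.eq_of_mul_eq_mul_right hpos
  rw [h]
  ring

end Cfsg.Agent.Helper15
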