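import Mathlib
import Cfsg.Prelude.Def_ClassicalGeometry
import Cfsg.Agent.Helper15.TransvCent
import Cfsg.Agent.Helper15.SpCard

set_option autoImplicit false

namespace Cfsg.Agent.Helper15

/-- Every transvection of `SL_(n+2)(F)` is `SL`-conjugate to `1 + v e₀ᵀ` with `v 0 = 0`. -/
theorem transvection_conj_root {F : Type*} [Field F] (n : ℕ)
    (t : Matrix.SpecialLinearGroup (Fin (n + 2)) F)
    (ht : Cfsg.IsTransvection (t : Matrix (Fin (n + 2)) (Fin (n + 2)) F)) :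
    ∃ (g : Matrix.SpecialLinearGroup (Fin (n + 2)) F) (v : Fin (n + 2) → F), v 0 = 0 ∧
      ((g⁻¹ * t * g : Matrix.SpecialLinearGroup (Fin (n + 2)) F) :
        Matrix (Fin (n + 2)) (Fin (n + 2)) F) = 1 + Matrix.vecMulVec v (Pi.single 0 1) := by
  classical
  obtain ⟨hr, hsq⟩ := ht
  obtain ⟨u, φ, hu, hφ, hN⟩ := rank_one_decomp_gen _ hr
  have hT : (t : Matrix (Fin (n + 2)) (Fin (n + 2)) F) = 1 + Matrix.vecMulVec u φ := by
    rw [← hN]
    abel
  have hφu : φ ⬝ᵥ u = 0 := by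
    rw [hN, Matrix.vecMulVec_mul_vecMulVec, Matrix.vecMulVec_eq_zero] at hsq
    rcases hsq with h | h
    · exact absurd h hu
    · rcases smul_eq_zero.1 h with h' | h'
      · exact h'
      · exact absurd h' hφ
  have h01 : (1 : Fin (n + 2)) ≠ 0 := by
    intro h
    have := congrArg Fin.val h
    simp at this
  have he1 : (Pi.single 1 1 : Fin (n + 2) → F) ≠ 0 := by
    intro h
    have := congrFun h 1
    simp at this
  have he0 : (Pi.single 0 1 : Fin (n + 2) → F) ≠ 0 := by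
    intro h
    have := congrFun h 0
    simp at this
  have he01 : (Pi.single 0 1 : Fin (n + 2) → F) ⬝ᵥ (Pi.single 1 1) = 0 := by
    rw [single_one_dotProduct]
    exact Pi.single_eq_of_ne h01.symm 1
  obtain ⟨g₀, hg1, hg2⟩ := exists_gl_pair u φ (Pi.single 1 1) (Pi.single 0 1) hu hφ hφu he1 he0
    he01
  obtain ⟨δ, hδ⟩ : ∃ δ : F, δ = (g₀ : Matrix (Fin (n + 2)) (Fin (n + 2)) F).det := ⟨_, rfl⟩
  have hδ0 : δ ≠ 0 := by
    rw [hδ]
    exact (Matrix.GeneralLinearGroup.det g₀).ne_zero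
  obtain ⟨D, hD⟩ : ∃ D : Matrix (Fin (n + 2)) (Fin (n + 2)) F,
      D = Matrix.diagonal (fun i => if i = 0 then δ⁻¹ else 1) := ⟨_, rfl⟩
  have hdetD : D.det = δ⁻¹ := by
    rw [hD, Matrix.det_diagonal, Finset.prod_ite_eq' Finset.univ (0 : Fin (n + 2)) (fun _ => δ⁻¹)]
    simp
  have hdetH : (D * (g₀ : Matrix (Fin (n + 2)) (Fin (n + 2)) F)).det = 1 := by
    rw [Matrix.det_mul, hdetD, ← hδ, inv_mul_cancel₀ hδ0]
  obtain ⟨h, hh⟩ : ∃ h : Matrix.SpecialLinearGroup (Fin (n + 2)) F,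
      (h : Matrix (Fin (n + 2)) (Fin (n + 2)) F)
        = D * (g₀ : Matrix (Fin (n + 2)) (Fin (n + 2)) F) := ⟨⟨_, hdetH⟩, rfl⟩
  refine ⟨h⁻¹, δ • Pi.single 1 1, ?_, ?_⟩
  · simp [h01.symm]
  · rw [inv_inv]
    have h1 : ((h * t * h⁻¹ : Matrix.SpecialLinearGroup (Fin (n + 2)) F) :
        Matrix (Fin (n + 2)) (Fin (n + 2)) F) * (h : Matrix (Fin (n + 2)) (Fin (n + 2)) F)
          = (h : Matrix (Fin (n + 2)) (Fin (n + 2)) F)
            * (t : Matrix (Fin (n + 2)) (Fin (n + 2)) F) := by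
      rw [← Matrix.SpecialLinearGroup.coe_mul, ← Matrix.SpecialLinearGroup.coe_mul,
        inv_mul_cancel_right]
    have h2 : (1 + Matrix.vecMulVec (δ • (Pi.single 1 1 : Fin (n + 2) → F)) (Pi.single 0 1))
        * (h : Matrix (Fin (n + 2)) (Fin (n + 2)) F)
          = (h : Matrix (Fin (n + 2)) (Fin (n + 2)) F)
            * (t : Matrix (Fin (n + 2)) (Fin (n + 2)) F) := by
      rw [hT, hh, Matrix.add_mul, Matrix.one_mul, Matrix.mul_add, Matrix.mul_one,
        Matrix.vecMulVec_mul, Matrix.mul_vecMulVec]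
      congr 1
      have h3 : (D * (g₀ : Matrix (Fin (n + 2)) (Fin (n + 2)) F)).mulVec u = Pi.single 1 1 := by
        rw [← Matrix.mulVec_mulVec, hg1, hD, Matrix.diagonal_mulVec_single]
        simp [h01]
      have h4a : Matrix.vecMul (Pi.single 0 1 : Fin (n + 2) → F) D = δ⁻¹ • Pi.single 0 1 := by
        rw [hD]
        funext x
        rw [Matrix.vecMul_diagonal, Pi.smul_apply, smul_eq_mul]
        by_cases hx : x = 0
        · simp [hx]
        · simp [hx]
      have h4 : Matrix.vecMul (Pi.single 0 1 : Fin (n + 2) → F)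
          (D * (g₀ : Matrix (Fin (n + 2)) (Fin (n + 2)) F)) = δ⁻¹ • φ := by
        rw [← Matrix.vecMul_vecMul, h4a, Matrix.smul_vecMul, hg2]
      rw [h3, h4]
      ext i j
      rw [Matrix.vecMulVec_apply, Matrix.vecMulVec_apply, Pi.smul_apply, Pi.smul_apply,
        smul_eq_mul, smul_eq_mul]
      field_simp
    have h5 : (h : Matrix (Fin (n + 2)) (Fin (n + 2)) F)
        * ((h⁻¹ : Matrix.SpecialLinearGroup (Fin (n + 2)) F) :
          Matrix (Fin (n + 2)) (Fin (n + 2)) F) = 1 := by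
      rw [← Matrix.SpecialLinearGroup.coe_mul, mul_inv_cancel, Matrix.SpecialLinearGroup.coe_one]
    calc ((h * t * h⁻¹ : Matrix.SpecialLinearGroup (Fin (n + 2)) F) :
        Matrix (Fin (n + 2)) (Fin (n + 2)) F)
        = ((h * t * h⁻¹ : Matrix.SpecialLinearGroup (Fin (n + 2)) F) :
          Matrix (Fin (n + 2)) (Fin (n + 2)) F) * ((h : Matrix (Fin (n + 2)) (Fin (n + 2)) F)
            * ((h⁻¹ : Matrix.SpecialLinearGroup (Fin (n + 2)) F) :
              Matrix (Fin (n + 2)) (Fin (n + 2)) F)) := by rw [h5, Matrix.mul_one]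
      _ = (1 + Matrix.vecMulVec (δ • (Pi.single 1 1 : Fin (n + 2) → F)) (Pi.single 0 1))
          * ((h : Matrix (Fin (n + 2)) (Fin (n + 2)) F)
            * ((h⁻¹ : Matrix.SpecialLinearGroup (Fin (n + 2)) F) :
              Matrix (Fin (n + 2)) (Fin (n + 2)) F)) := by
        rw [← Matrix.mul_assoc, h1, ← h2, Matrix.mul_assoc]
      _ = _ := by rw [h5, Matrix.mul_one]

end Cfsg.Agent.Helper15
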