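import Mathlib
import Cfsg.Agent.Helper15.Jord3
import Cfsg.Agent.Helper15.HermWall4

set_option autoImplicit false

namespace Cfsg.Agent.Helper15
open Polynomial Matrix

universe u

theorem ker_map_le {F : Type u} [Field F] {n : ℕ} (σ : F →+* F) (hσ : ∀ a, σ (σ a) = a)
    (M : Matrix (Fin n) (Fin n) F) :
    Module.finrank F (LinearMap.ker (Matrix.toLin' M))
      ≤ Module.finrank F (LinearMap.ker (Matrix.toLin' (M.map σ))) := by
  classical
  obtain ⟨b⟩ : Nonempty (Module.Basis (Fin (Module.finrank F (LinearMap.ker (Matrix.toLin' M)))) F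
      (LinearMap.ker (Matrix.toLin' M))) := ⟨Module.finBasis F _⟩
  have hli : LinearIndependent F
      (fun i => ((b i : LinearMap.ker (Matrix.toLin' M)) : Fin n → F)) :=
    b.linearIndependent.map' (Submodule.subtype _) (Submodule.ker_subtype _)
  let j : (Fin n → F) →+ (Fin n → F) :=
    { toFun := fun v => fun i => σ (v i)
      map_zero' := by
        funext i
        exact map_zero σ
      map_add' := by
        intro v w
        funext i
        exact map_add σ _ _ }
  have hli2 : LinearIndependent F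
      (j ∘ (fun i => ((b i : LinearMap.ker (Matrix.toLin' M)) : Fin n → F))) := by
    apply hli.map_of_injective_injective (fun r : F => σ r) j
    · intro r hr
      exact (map_eq_zero σ).1 hr
    · intro v hv
      funext i
      exact (map_eq_zero σ).1 (congrFun hv i)
    · intro r m
      funext i
      show σ (σ r * m i) = r * σ (m i)
      rw [map_mul, hσ]
  have hcard := finrank_span_eq_card hli2
  rw [Fintype.card_fin] at hcard
  rw [← hcard]
  apply Submodule.finrank_mono
  rw [Submodule.span_le]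
  rintro _ ⟨i, rfl⟩
  rw [SetLike.mem_coe, LinearMap.mem_ker, Matrix.toLin'_apply]
  funext l
  have h0 : M *ᵥ ((b i : LinearMap.ker (Matrix.toLin' M)) : Fin n → F) = 0 := by
    have := (b i).2
    rwa [LinearMap.mem_ker, Matrix.toLin'_apply] at this
  have h1 := RingHom.map_mulVec σ M ((b i : LinearMap.ker (Matrix.toLin' M)) : Fin n → F) l
  rw [h0, Pi.zero_apply, map_zero] at h1
  exact h1.symm

theorem ker_map_eq {F : Type u} [Field F] {n : ℕ} (σ : F →+* F) (hσ : ∀ a, σ (σ a) = a)
    (M : Matrix (Fin n) (Fin n) F) :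
    Module.finrank F (LinearMap.ker (Matrix.toLin' (M.map σ)))
      = Module.finrank F (LinearMap.ker (Matrix.toLin' M)) := by
  apply le_antisymm
  · have h := ker_map_le σ hσ (M.map σ)
    have h2 : (M.map σ).map σ = M := by
      ext i j
      rw [Matrix.map_apply, Matrix.map_apply, hσ]
    rwa [h2] at h
  · exact ker_map_le σ hσ M

theorem ker_transpose_eq {F : Type u} [Field F] {n : ℕ} (M : Matrix (Fin n) (Fin n) F) :
    Module.finrank F (LinearMap.ker (Matrix.toLin' Mᵀ))
      = Module.finrank F (LinearMap.ker (Matrix.toLin' M)) := by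
  have h1 := LinearMap.finrank_range_add_finrank_ker (Matrix.toLin' M)
  have h2 := LinearMap.finrank_range_add_finrank_ker (Matrix.toLin' Mᵀ)
  have h3 : Module.finrank F (LinearMap.range (Matrix.toLin' Mᵀ))
      = Module.finrank F (LinearMap.range (Matrix.toLin' M)) := Matrix.rank_transpose M
  omega

theorem ker_unit_mul {F : Type u} [Field F] {n : ℕ} (U M V : Matrix (Fin n) (Fin n) F)
    (hU : V * U = 1) :
    LinearMap.ker (Matrix.toLin' (U * M)) = LinearMap.ker (Matrix.toLin' M) := by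
  ext v
  rw [LinearMap.mem_ker, LinearMap.mem_ker, Matrix.toLin'_apply, Matrix.toLin'_apply]
  constructor
  · intro h
    have h2 : V *ᵥ ((U * M) *ᵥ v) = V *ᵥ 0 := congrArg (fun w => V *ᵥ w) h
    rwa [Matrix.mulVec_mulVec, ← Matrix.mul_assoc, hU, Matrix.one_mul, Matrix.mulVec_zero] at h2
  · intro h
    rw [← Matrix.mulVec_mulVec, h, Matrix.mulVec_zero]

theorem unip_conj_hadj_inv {F : Type u} [Field F] {n : ℕ} (σ : F →+* F)
    (hσ : ∀ a, σ (σ a) = a) (g : GL (Fin n) F) (hg : ∃ r, nilOf g ^ r = 0) :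
    IsConj g (hadjU σ g)⁻¹ := by
  have hval : ((hadjU σ g)⁻¹ : GL (Fin n) F).val = hadj σ (g⁻¹ : GL (Fin n) F).val := rfl
  have hsub : ∀ X : Matrix (Fin n) (Fin n) F, hadj σ X - 1 = hadj σ (X - 1) := by
    intro X
    have h := hadj_add σ (X - 1) 1
    rw [sub_add_cancel, hadj_one] at h
    rw [h, add_sub_cancel_right]
  have hkey : ∀ k : ℕ, (((hadjU σ g)⁻¹ : GL (Fin n) F).val - 1) ^ k
      = hadj σ ((-(g⁻¹ : GL (Fin n) F).val) ^ k * (g.val - 1) ^ k) := by
    intro k
    have h1 : (g⁻¹ : GL (Fin n) F).val - 1 = (-(g⁻¹ : GL (Fin n) F).val) * (g.val - 1) := by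
      rw [neg_mul, mul_sub, mul_one, ← Units.val_mul, inv_mul_cancel, Units.val_one, neg_sub]
    have hc : Commute (-(g⁻¹ : GL (Fin n) F).val) (g.val - 1) := by
      apply Commute.neg_left
      apply Commute.sub_right
      · show (g⁻¹ : GL (Fin n) F).val * g.val = g.val * (g⁻¹ : GL (Fin n) F).val
        rw [← Units.val_mul, ← Units.val_mul, inv_mul_cancel, mul_inv_cancel]
      · exact Commute.one_right _
    rw [hval, ← hc.mul_pow, ← h1, hadj_pow, hsub]
  apply (gl_conj_iff_nil g _).2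
  apply nil_conj_aux n (Fin n → F) (Fin n → F) (nilOf g) (nilOf (hadjU σ g)⁻¹)
    (Module.finrank_fin_fun F) hg
  · obtain ⟨r, hr⟩ := hg
    refine ⟨r, ?_⟩
    rw [nilOf_pow, hkey r]
    rw [nilOf_pow] at hr
    have h0 : (g.val - 1) ^ r = 0 := by
      have := congrArg LinearMap.toMatrix' hr
      rwa [LinearMap.toMatrix'_toLin', map_zero] at this
    rw [h0, mul_zero]
    have hz : hadj σ (0 : Matrix (Fin n) (Fin n) F) = 0 := by
      ext i j
      rw [hadj_apply, Matrix.zero_apply, Matrix.zero_apply, map_zero]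
    rw [hz, map_zero]
  · intro k
    rw [nilOf_pow, nilOf_pow, hkey k]
    unfold hadj
    rw [ker_transpose_eq, ker_map_eq σ hσ, ker_unit_mul _ _ ((-g.val) ^ k)]
    have hc : Commute (-g.val) (-(g⁻¹ : GL (Fin n) F).val) := by
      show -g.val * -(g⁻¹ : GL (Fin n) F).val = -(g⁻¹ : GL (Fin n) F).val * -g.val
      rw [neg_mul_neg, neg_mul_neg, ← Units.val_mul, ← Units.val_mul, inv_mul_cancel,
        mul_inv_cancel]
    rw [← hc.mul_pow, neg_mul_neg, ← Units.val_mul, mul_inv_cancel, Units.val_one, one_pow]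

theorem gu_order_p_class_count {K : Type u} [Field K] [Fintype K] {p q n : ℕ} [Fact p.Prime]
    [CharP K p] (hK : Fintype.card K = q ^ 2)
    (inst : DecidablePred (fun μ : Nat.Partition n => ∀ a ∈ μ.parts, a ≤ p)) :
    Nat.card {C : ConjClasses ↥(Cfsg.GU n K q) //
        ∃ g : ↥(Cfsg.GU n K q), ConjClasses.mk g = C ∧ orderOf g = p}
      = (@Finset.filter _ (fun μ : Nat.Partition n => ∀ a ∈ μ.parts, a ≤ p) inst
          Finset.univ).card - 1 := by
  classical
  rw [← gl_order_p_class_count (F := K) p n inst]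
  obtain ⟨σ, hσq⟩ := exists_frob_hs hK p
  have hσ : ∀ a, σ (σ a) = a := by
    intro a
    rw [hσq, hσq, ← pow_mul, ← pow_two, ← hK, FiniteField.pow_card]
  have hmap : ∀ C : {C : ConjClasses ↥(Cfsg.GU n K q) //
        ∃ g : ↥(Cfsg.GU n K q), ConjClasses.mk g = C ∧ orderOf g = p},
      ∃ g : GL (Fin n) K,
        ConjClasses.mk g = ConjClasses.map (Cfsg.GU n K q).subtype C.1 ∧ orderOf g = p := by
    rintro ⟨C, g, hC, hord⟩
    refine ⟨(g : GL (Fin n) K), ?_, ?_⟩
    · subst hC
      rfl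
    · rw [Subgroup.orderOf_coe]
      exact hord
  apply Nat.card_congr
  apply Equiv.ofBijective (fun C => (⟨ConjClasses.map (Cfsg.GU n K q).subtype C.1, hmap C⟩ :
    {C : ConjClasses (GL (Fin n) K) // ∃ g : GL (Fin n) K, ConjClasses.mk g = C ∧ orderOf g = p}))
  constructor
  · rintro ⟨C, g, hC, hord⟩ ⟨C', g', hC', hord'⟩ h
    have h1 := congrArg Subtype.val h
    simp only at h1
    apply Subtype.ext
    show C = C'
    rw [← hC, ← hC'] at h1 ⊢
    have h2 : ConjClasses.mk (g : GL (Fin n) K) = ConjClasses.mk (g' : GL (Fin n) K) := h1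
    exact ConjClasses.mk_eq_mk_iff_isConj.2
      (gu_conj_of_gl_conj hK g g' (ConjClasses.mk_eq_mk_iff_isConj.1 h2))
  · rintro ⟨C, g, hC, hord⟩
    have hnil : ∃ r, nilOf g ^ r = 0 := (unip_iff p g).1 ⟨1, by rw [pow_one]; exact hord⟩
    have hconj := unip_conj_hadj_inv σ hσ g hnil
    obtain ⟨c, hc⟩ := isConj_iff.1 hconj
    have hc' : c * g = (hadjU σ g)⁻¹ * c := mul_inv_eq_iff_eq_mul.1 hc
    obtain ⟨B, hB⟩ := similar_unitary_of_conj hK g σ hσq c hc'
    obtain ⟨d, hd⟩ := isConj_iff.1 hB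
    have hordB : orderOf B = p := by
      rw [← Subgroup.orderOf_coe, ← hd, ← hord]
      exact orderOf_injective (MulAut.conj d).toMonoidHom (MulAut.conj d).injective g
    refine ⟨⟨ConjClasses.mk B, B, rfl, hordB⟩, ?_⟩
    apply Subtype.ext
    show ConjClasses.mk (B : GL (Fin n) K) = C
    rw [← hC]
    exact (ConjClasses.mk_eq_mk_iff_isConj.2 hB).symm

end Cfsg.Agent.Helper15
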